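import Cfsg.Agent.H98.MaximalBase

set_option autoImplicit false

/-!
Components for a decomposition of `F^ι` into subspaces, and the criterion for leaving its stabiliser.
-/

namespace Cfsg.Agent.H98

open scoped Matrix

variable {ι : Type} [Fintype ι] [DecidableEq ι] {F : Type*} [Field F]

/-- The element of `GL` of a linear equivalence. -/
def glOfEquiv (e : (ι → F) ≃ₗ[F] (ι → F)) : GL ι F where
  val := LinearMap.toMatrix' (e : (ι → F) →ₗ[F] (ι → F))
  inv := LinearMap.toMatrix' (e.symm : (ι → F) →ₗ[F] (ι → F))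
  val_inv := by rw [← LinearMap.toMatrix'_comp, ← LinearMap.toMatrix'_id]; congr 1; ext; simp
  inv_val := by rw [← LinearMap.toMatrix'_comp, ← LinearMap.toMatrix'_id]; congr 1; ext; simp

@[simp] theorem glOfEquiv_mulVec (e : (ι → F) ≃ₗ[F] (ι → F)) (v : ι → F) :
    (glOfEquiv e : Matrix ι ι F) *ᵥ v = e v := by
  simp [glOfEquiv, LinearMap.toMatrix'_mulVec]

variable {t k : ℕ} {D : Fin t → Submodule F (ι → F)}

/-- The members of a decomposition have complements. -/
theorem mdec_isCompl (hD : Cfsg.Geo.IsMDecomposition k D) (i : Fin t) :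
    IsCompl (D i) (⨆ (j) (_ : j ≠ i), D j) := by
  refine ⟨hD.indep i, ?_⟩
  rw [codisjoint_iff, eq_top_iff, ← hD.iSup_eq_top]
  refine iSup_le fun j => ?_
  by_cases h : j = i
  · exact h ▸ le_sup_left
  · exact le_sup_of_le_right (le_iSup₂_of_le j h le_rfl)

/-- The `i`-th component of a vector. -/
noncomputable def comp (hD : Cfsg.Geo.IsMDecomposition k D) (i : Fin t) : (ι → F) →ₗ[F] (ι → F) :=
  (D i).subtype ∘ₗ Submodule.projectionOnto _ _ (mdec_isCompl hD i)

theorem comp_mem (hD : Cfsg.Geo.IsMDecomposition k D) (i : Fin t) (v : ι → F) : comp hD i v ∈ D i :=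
  SetLike.coe_mem _

theorem comp_same (hD : Cfsg.Geo.IsMDecomposition k D) {i : Fin t} {v : ι → F} (hv : v ∈ D i) :
    comp hD i v = v :=
  congrArg Subtype.val (Submodule.projectionOnto_apply_left (mdec_isCompl hD i) ⟨v, hv⟩)

theorem comp_other (hD : Cfsg.Geo.IsMDecomposition k D) {i j : Fin t} (hji : j ≠ i) {v : ι → F} (hv : v ∈ D j) :
    comp hD i v = 0 := by
  have hv' : v ∈ ⨆ (j) (_ : j ≠ i), D j := Submodule.mem_iSup_of_mem j (Submodule.mem_iSup_of_mem hji hv)
  simp only [comp, LinearMap.comp_apply, Submodule.subtype_apply, Submodule.coe_eq_zero]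
  exact (Submodule.projectionOnto_apply_eq_zero_iff (mdec_isCompl hD i)).mpr hv'

theorem sum_comp (hD : Cfsg.Geo.IsMDecomposition k D) (v : ι → F) : ∑ i, comp hD i v = v := by
  have hv : v ∈ iSup D := hD.iSup_eq_top.symm ▸ Submodule.mem_top
  refine Submodule.iSup_induction D (motive := fun v => ∑ i, comp hD i v = v) hv ?_ ?_ ?_
  · intro i x hx
    rw [Finset.sum_eq_single i (fun j _ hj => comp_other hD (Ne.symm hj) hx) (by simp), comp_same hD hx]
  · simp
  · intro x y hx hy
    simp only [map_add, Finset.sum_add_distrib, hx, hy]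

theorem comp_comp (hD : Cfsg.Geo.IsMDecomposition k D) (i j : Fin t) (v : ι → F) :
    comp hD i (comp hD j v) = if j = i then comp hD i v else 0 := by
  split_ifs with h
  · subst h; exact comp_same hD (comp_mem hD j v)
  · exact comp_other hD h (comp_mem hD j v)

theorem comp_ext (hD : Cfsg.Geo.IsMDecomposition k D) {v w : ι → F} (h : ∀ i, comp hD i v = comp hD i w) :
    v = w := by
  rw [← sum_comp hD v, ← sum_comp hD w]; exact Finset.sum_congr rfl fun i _ => h i

/-- The indices of the non-zero components. -/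
noncomputable def supp (hD : Cfsg.Geo.IsMDecomposition k D) (v : ι → F) : Finset (Fin t) :=
  open Classical in Finset.univ.filter fun i => comp hD i v ≠ 0

theorem mem_supp (hD : Cfsg.Geo.IsMDecomposition k D) {v : ι → F} {i : Fin t} :
    i ∈ supp hD v ↔ comp hD i v ≠ 0 := by simp [supp]

theorem mem_of_supp_subset (hD : Cfsg.Geo.IsMDecomposition k D) {v : ι → F} {i : Fin t}
    (h : ∀ j, j ≠ i → comp hD j v = 0) : v ∈ D i := by
  rw [← sum_comp hD v, Finset.sum_eq_single i (fun j _ hj => h j hj) (by simp)]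
  exact comp_mem hD i v

/-- Outside the stabiliser some vector of a member is sent to a vector with two non-zero components. -/
theorem exists_spread (hD : Cfsg.Geo.IsMDecomposition k D) {g : GL ι F}
    (hg : g ∉ Cfsg.Geo.decompositionStabilizer D) :
    ∃ i, ∃ w ∈ D i, ∃ a b, a ≠ b ∧ comp hD a ((g : Matrix ι ι F) *ᵥ w) ≠ 0 ∧
      comp hD b ((g : Matrix ι ι F) *ᵥ w) ≠ 0 := by
  by_contra hc
  apply hg
  set L := Matrix.toLin' (g : Matrix ι ι F) with hL
  have hinj : Function.Injective L := fun a b hab => gl_mulVec_injective g (by simpa [hL] using hab)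
  have hone : ∀ i, ∀ w ∈ D i, ∀ a b, comp hD a (L w) ≠ 0 → comp hD b (L w) ≠ 0 → a = b := by
    intro i w hw a b ha hb
    by_contra hab
    exact hc ⟨i, w, hw, a, b, hab, by simpa [hL] using ha, by simpa [hL] using hb⟩
  have hdest : ∀ i, ∃ j, (D i).map L = D j := by
    intro i
    obtain ⟨w, hw, hw0⟩ := Submodule.exists_mem_ne_zero_of_ne_bot (p := D i) (by
      intro h; have := hD.finrank_eq i; rw [h, finrank_bot] at this; exact hD.pos.ne this)
    obtain ⟨a, ha⟩ : ∃ a, comp hD a (L w) ≠ 0 := by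
      by_contra h; push Not at h
      exact hw0 (hinj (by rw [comp_ext hD (v := L w) (w := 0) (by simpa using h), map_zero]))
    refine ⟨a, Submodule.eq_of_le_of_finrank_eq ?_ ?_⟩
    · rintro _ ⟨x, hx, rfl⟩
      refine mem_of_supp_subset hD fun j hj => ?_
      by_contra hxj
      by_cases hxa : comp hD a (L x) = 0
      · have h1 : comp hD a (L (w + x)) ≠ 0 := by simpa [hxa] using ha
        have h2 : comp hD j (L (w + x)) ≠ 0 := by
          have hwj : comp hD j (L w) = 0 := by
            by_contra h; exact hj (hone i w hw j a h ha)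
          simpa [hwj] using hxj
        exact hj (hone i _ (add_mem hw hx) j a h2 h1)
      · exact hj (hone i x hx j a hxj hxa)
    · rw [← (Submodule.equivMapOfInjective L hinj (D i)).finrank_eq, hD.finrank_eq, hD.finrank_eq]
  choose σ hσ using hdest
  have hσinj : Function.Injective σ := by
    intro a b hab
    have h := Submodule.map_injective_of_injective hinj ((hσ a).trans (hab ▸ (hσ b).symm))
    by_contra hne
    have hdis : Disjoint (D a) (D b) := (hD.indep.pairwiseDisjoint hne)
    rw [h, disjoint_self] at hdis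
    have := hD.finrank_eq b
    rw [hdis, finrank_bot] at this
    exact hD.pos.ne this
  exact ⟨Equiv.ofBijective σ (Finite.injective_iff_bijective.mp hσinj), hσ⟩

/-- Elements that act inside each member stabilise the decomposition. -/
theorem stab_of_members {g : GL ι F} (h : ∀ i, ∀ w ∈ D i, (g : Matrix ι ι F) *ᵥ w ∈ D i) :
    g ∈ Cfsg.Geo.decompositionStabilizer D := by
  refine ⟨1, fun i => ?_⟩
  have hm := stab_of_maps_into (h i)
  ext x
  constructor
  · rintro ⟨w, hw, rfl⟩; simpa using h i w hw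
  · intro hx
    exact ⟨_, ((mem_subspaceStabilizer.mp hm _).mpr (by rwa [gl_mulVec_inv]) :
      ((g⁻¹ : GL ι F) : Matrix ι ι F) *ᵥ x ∈ D i), by simp [gl_mulVec_inv]⟩

/-- A vector with two non-zero components lies in no member. -/
theorem not_stab_of_spread (hD : Cfsg.Geo.IsMDecomposition k D) {g : GL ι F} {i : Fin t} {w : ι → F}
    (hw : w ∈ D i) {a b : Fin t} (hab : a ≠ b) (ha : comp hD a ((g : Matrix ι ι F) *ᵥ w) ≠ 0)
    (hb : comp hD b ((g : Matrix ι ι F) *ᵥ w) ≠ 0) : g ∉ Cfsg.Geo.decompositionStabilizer D := by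
  rintro ⟨σ, hσ⟩
  have hmem : (g : Matrix ι ι F) *ᵥ w ∈ D (σ i) := by
    rw [← hσ i]; exact ⟨w, hw, by simp⟩
  by_cases h : σ i = a
  · exact hb (comp_other hD (h ▸ hab) hmem)
  · exact ha (comp_other hD h hmem)

end Cfsg.Agent.H98
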