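import Cfsg.Agent.H98.MaximalSp
import Cfsg.Agent.H98.Decomp
import Cfsg.Agent.H2.Basis

set_option autoImplicit false

/-!
Stabilisers of orthogonal decompositions into isometric non-degenerate subspaces are maximal in the symplectic
group, apart from members of dimension two over the field with two elements.
-/

namespace Cfsg.Agent.H98

open scoped Matrix

variable {m : ℕ} {F : Type*} [Field F]

local notation "V" => (Fin m ⊕ Fin m → F)
local notation "Mat" => Matrix (Fin m ⊕ Fin m) (Fin m ⊕ Fin m) F
local notation "β" => Cfsg.Agent.H2.sympBilin m F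

variable {t k : ℕ} {D : Fin t → Submodule F (Fin m ⊕ Fin m → F)}

theorem beta_comp (hD : Cfsg.Geo.IsMDecomposition k D)
    (horth : ∀ i j, i ≠ j → ∀ u ∈ D i, ∀ v ∈ D j, β u v = 0) (u v : V) :
    β u v = ∑ i, β (comp hD i u) (comp hD i v) := by
  conv_lhs => rw [← sum_comp hD u, ← sum_comp hD v]
  simp only [map_sum, LinearMap.sum_apply]
  refine Finset.sum_congr rfl fun i _ => Finset.sum_eq_single i (fun j _ hj => ?_) (by simp)
  exact horth _ _ hj _ (comp_mem hD j u) _ (comp_mem hD i v)

theorem beta_comp_left (hD : Cfsg.Geo.IsMDecomposition k D)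
    (horth : ∀ i j, i ≠ j → ∀ u ∈ D i, ∀ v ∈ D j, β u v = 0) {i : Fin t} {w : V} (hw : w ∈ D i) (v : V) :
    β w v = β w (comp hD i v) := by
  rw [beta_comp hD horth w v, Finset.sum_eq_single i (fun j _ hj => by
    rw [comp_other hD (Ne.symm hj) hw]; simp) (by simp), comp_same hD hw]

/-- An isometry exchanging two members. -/
theorem exists_swap (hD : Cfsg.Geo.IsMDecomposition k D)
    (hnd : ∀ i, ∀ u ∈ D i, (∀ v ∈ D i, β u v = 0) → u = 0)
    (horth : ∀ i j, i ≠ j → ∀ u ∈ D i, ∀ v ∈ D j, β u v = 0) {a b : Fin t} (hab : a ≠ b) :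
    ∃ s ∈ Cfsg.Geo.decompositionStabilizer D ⊓ Cfsg.spGL m F, ∀ v : V, ∀ j,
      comp hD j ((s : Mat) *ᵥ v) ≠ 0 ↔ comp hD (Equiv.swap a b j) v ≠ 0 := by
  have hB : ∀ i, ((β).restrict (D i)).Nondegenerate := fun i => by
    refine (LinearMap.IsRefl.nondegenerate_iff_separatingLeft (B := (β).restrict (D i))
      (fun x y h => (Cfsg.Agent.H2.sympBilin_isAlt m F).isRefl (x : V) (y : V) h)).mpr fun x hx =>
        Subtype.ext (hnd i (x : V) x.2 fun v hv => hx ⟨v, hv⟩)
  have hA : ∀ i, ((β).restrict (D i)).IsAlt := fun i x => beta_self (x : V)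
  obtain ⟨ma, ea, hda, hea⟩ := Cfsg.Agent.H2.exists_equiv_std _ (hB a) (hA a)
  obtain ⟨mb, eb, hdb, heb⟩ := Cfsg.Agent.H2.exists_equiv_std _ (hB b) (hA b)
  have hmab : ma = mb := by have := hD.finrank_eq a; have := hD.finrank_eq b; omega
  subst hmab
  let e : D a ≃ₗ[F] D b := ea.trans eb.symm
  have he : ∀ x y : D a, β (e x : V) (e y : V) = β (x : V) y := by
    intro x y
    calc β (e x : V) (e y : V) = Cfsg.sympForm ma F (eb (e x)) (eb (e y)) := (heb _ _).symm
      _ = _ := by simpa [e] using hea x y
  let pa : V →ₗ[F] D a := (comp hD a).codRestrict (D a) (comp_mem hD a)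
  let pb : V →ₗ[F] D b := (comp hD b).codRestrict (D b) (comp_mem hD b)
  let S : V →ₗ[F] V := LinearMap.id - comp hD a - comp hD b
    + (D b).subtype ∘ₗ e.toLinearMap ∘ₗ pa + (D a).subtype ∘ₗ e.symm.toLinearMap ∘ₗ pb
  have hca : ∀ v, comp hD a (S v) = (e.symm (pb v) : V) := by
    intro v
    simp only [S, LinearMap.add_apply, LinearMap.sub_apply, LinearMap.id_apply, LinearMap.comp_apply,
      Submodule.subtype_apply, map_add, map_sub, LinearEquiv.coe_coe, comp_comp, if_pos rfl, hab.symm, if_false,
      comp_same hD (e.symm (pb v)).2, comp_other hD hab.symm (e (pa v)).2]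
    simp
  have hcb : ∀ v, comp hD b (S v) = (e (pa v) : V) := by
    intro v
    simp only [S, LinearMap.add_apply, LinearMap.sub_apply, LinearMap.id_apply, LinearMap.comp_apply,
      Submodule.subtype_apply, map_add, map_sub, LinearEquiv.coe_coe, comp_comp, if_pos rfl, hab, if_false,
      comp_same hD (e (pa v)).2, comp_other hD hab (e.symm (pb v)).2]
    simp
  have hco : ∀ v j, j ≠ a → j ≠ b → comp hD j (S v) = comp hD j v := by
    intro v j hja hjb
    simp only [S, LinearMap.add_apply, LinearMap.sub_apply, LinearMap.id_apply, LinearMap.comp_apply,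
      Submodule.subtype_apply, map_add, map_sub, LinearEquiv.coe_coe, comp_comp, hja.symm, hjb.symm, if_false,
      comp_other hD hjb.symm (e (pa v)).2, comp_other hD hja.symm (e.symm (pb v)).2]
    abel
  have hSS : ∀ v, S (S v) = v := by
    intro v
    refine comp_ext hD fun j => ?_
    by_cases hja : j = a
    · subst hja
      rw [hca]
      have : pb (S v) = e (pa v) := Subtype.ext (hcb v)
      rw [this, e.symm_apply_apply]; rfl
    · by_cases hjb : j = b
      · subst hjb
        rw [hcb]
        have : pa (S v) = e.symm (pb v) := Subtype.ext (hca v)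
        rw [this, e.apply_symm_apply]; rfl
      · rw [hco _ _ hja hjb, hco _ _ hja hjb]
  let Se : V ≃ₗ[F] V := LinearEquiv.ofLinear S S (LinearMap.ext hSS) (LinearMap.ext hSS)
  have hsupp : ∀ v j, comp hD j (S v) ≠ 0 ↔ comp hD (Equiv.swap a b j) v ≠ 0 := by
    intro v j
    by_cases hja : j = a
    · subst hja
      rw [hca, Equiv.swap_apply_left, ne_eq, Submodule.coe_eq_zero, LinearEquiv.map_eq_zero_iff, ne_eq,
        ← Submodule.coe_eq_zero]; rfl
    · by_cases hjb : j = b
      · subst hjb
        rw [hcb, Equiv.swap_apply_right, ne_eq, Submodule.coe_eq_zero, LinearEquiv.map_eq_zero_iff, ne_eq,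
          ← Submodule.coe_eq_zero]; rfl
      · rw [hco _ _ hja hjb, Equiv.swap_apply_of_ne_of_ne hja hjb]
  have hmap : ∀ i, ∀ v ∈ D i, S v ∈ D (Equiv.swap a b i) := by
    intro i v hv
    refine mem_of_supp_subset hD fun j hj => ?_
    by_contra h
    refine (hsupp v j).mp h (comp_other hD (fun he' => hj ?_) hv)
    rw [he', Equiv.swap_apply_self]
  refine ⟨glOfEquiv Se, ⟨⟨Equiv.swap a b, fun i => ?_⟩, ?_⟩, fun v j => ?_⟩
  · ext x
    constructor
    · rintro ⟨v, hv, rfl⟩
      rw [Matrix.toLin'_apply, glOfEquiv_mulVec]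
      exact hmap i v hv
    · intro hx
      refine ⟨S x, ?_, ?_⟩
      · simpa using hmap _ x hx
      · rw [Matrix.toLin'_apply, glOfEquiv_mulVec]; exact hSS x
  · refine mem_spGL.mpr ?_
    intro u v
    rw [glOfEquiv_mulVec, glOfEquiv_mulVec, beta_comp hD horth (Se u), beta_comp hD horth u v]
    refine Fintype.sum_equiv (Equiv.swap a b) _ _ fun j => ?_
    change β (comp hD j (S u)) (comp hD j (S v)) = _
    by_cases hja : j = a
    · subst hja
      rw [hca, hca, Equiv.swap_apply_left]
      have := he (e.symm (pb u)) (e.symm (pb v))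
      rw [e.apply_symm_apply, e.apply_symm_apply] at this
      exact this.symm
    · by_cases hjb : j = b
      · subst hjb
        rw [hcb, hcb, Equiv.swap_apply_right]
        exact he _ _
      · rw [hco _ _ hja hjb, hco _ _ hja hjb, Equiv.swap_apply_of_ne_of_ne hja hjb]
  · rw [glOfEquiv_mulVec]
    exact hsupp v j

/-- Two values realised at a given non-zero vector of a member, away from that vector. -/
theorem exists_value (hD : Cfsg.Geo.IsMDecomposition k D)
    (hnd : ∀ i, ∀ u ∈ D i, (∀ v ∈ D i, β u v = 0) → u = 0) (i : Fin t) {a : V} (ha : a ∈ D i) (ha0 : a ≠ 0)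
    (c : F) (hc : 3 ≤ k ∨ c ≠ 0) : ∃ a' ∈ D i, a' ≠ 0 ∧ a' ≠ a ∧ β a' a = c := by
  obtain ⟨v, hv, hva⟩ : ∃ v ∈ D i, β v a ≠ 0 := by
    by_contra h; push Not at h
    exact ha0 (hnd i a ha fun v hv => by rw [beta_swap v a, h v hv, neg_zero])
  by_cases hc0 : c = 0
  · -- needs a third dimension
    obtain ⟨w, hw, hwn⟩ : ∃ w ∈ D i, w ∉ Submodule.span F {a, v} := by
      by_contra h; push Not at h
      have h2 := Submodule.finrank_mono (show D i ≤ Submodule.span F {a, v} from h)
      rw [hD.finrank_eq] at h2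
      have h3 : Module.finrank F (Submodule.span F {a, v}) ≤ 2 := by
        classical
        calc Module.finrank F (Submodule.span F {a, v})
            = Module.finrank F (Submodule.span F (({a, v} : Finset V) : Set V)) := by rw [Finset.coe_pair]
          _ ≤ ({a, v} : Finset V).card := finrank_span_finset_le_card _
          _ ≤ 2 := Finset.card_le_two
      rcases hc with h | h
      · omega
      · exact h hc0
    refine ⟨w - (β w a / β v a) • v, sub_mem hw ((D i).smul_mem _ hv), ?_, ?_, ?_⟩
    · intro h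
      exact hwn (by rw [sub_eq_zero.mp h]; exact Submodule.smul_mem _ _ (Submodule.subset_span (by simp)))
    · intro h
      exact hwn (by
        rw [sub_eq_iff_eq_add.mp h]
        exact add_mem (Submodule.subset_span (by simp)) (Submodule.smul_mem _ _ (Submodule.subset_span (by simp))))
    · rw [map_sub, LinearMap.sub_apply, map_smul, LinearMap.smul_apply, smul_eq_mul, div_mul_cancel₀ _ hva, hc0,
        sub_self]
  · refine ⟨(c / β v a) • v, (D i).smul_mem _ hv, ?_, ?_, ?_⟩
    · intro h
      have := congrArg (fun x => β x a) h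
      simp only [map_smul, map_zero, LinearMap.smul_apply, LinearMap.zero_apply, smul_eq_mul,
        div_mul_cancel₀ _ hva] at this
      exact hc0 this
    · intro h
      have := congrArg (fun x => β x a) h
      simp only [map_smul, LinearMap.smul_apply, smul_eq_mul, div_mul_cancel₀ _ hva, beta_self] at this
      exact hc0 this
    · rw [map_smul, LinearMap.smul_apply, smul_eq_mul, div_mul_cancel₀ _ hva]

/-- Stabilisers of orthogonal decompositions are maximal in the symplectic group. -/
theorem sp_wreath_maximal [Fintype F] (hD : Cfsg.Geo.IsMDecomposition k D)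
    (hnd : ∀ i, ∀ u ∈ D i, (∀ v ∈ D i, β u v = 0) → u = 0)
    (horth : ∀ i j, i ≠ j → ∀ u ∈ D i, ∀ v ∈ D j, β u v = 0) (hex : ¬ (k = 2 ∧ Fintype.card F = 2)) :
    Cfsg.Geo.IsMaximalIn (Cfsg.spGL m F) (Cfsg.Geo.decompositionStabilizer D ⊓ Cfsg.spGL m F) := by
  classical
  have hne0 : ∀ i, ∃ w ∈ D i, w ≠ (0 : V) := fun i => Submodule.exists_mem_ne_zero_of_ne_bot (p := D i) (by
    intro h; have := hD.finrank_eq i; rw [h, finrank_bot] at this; exact hD.pos.ne this)
  have hk2 : 2 ≤ k := by
    by_contra h
    have hk : k = 1 := by have := hD.pos; omega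
    obtain ⟨w, hw, hw0⟩ := hne0 ⟨0, by have := hD.two_le; omega⟩
    refine hw0 (hnd _ w hw fun v hv => ?_)
    obtain ⟨c, hc⟩ := exists_smul_eq_of_finrank_eq_one (hk ▸ hD.finrank_eq _)
      (x := (⟨w, hw⟩ : D ⟨0, by have := hD.two_le; omega⟩)) (by simpa using hw0) ⟨v, hv⟩
    have : c • w = v := congrArg Subtype.val hc
    rw [← this, map_smul, beta_self, smul_zero]
  let i₀ : Fin t := ⟨0, by have := hD.two_le; omega⟩
  let i₁ : Fin t := ⟨1, by have := hD.two_le; omega⟩
  have h01 : i₀ ≠ i₁ := by simp [i₀, i₁]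
  refine isMaximalIn_of inf_le_right ?_ ?_
  · obtain ⟨v₀, hv₀, hv₀0⟩ := hne0 i₀
    obtain ⟨v₁, hv₁, hv₁0⟩ := hne0 i₁
    obtain ⟨w, hw, hw0, hwne, hwv⟩ := exists_value hD hnd i₀ hv₀ hv₀0 1 (Or.inr one_ne_zero)
    refine ⟨spTrans (v₀ + v₁) 1, spTrans_mem _ _, fun h => ?_⟩
    refine not_stab_of_spread hD hw h01 ?_ ?_ h.1 <;>
      rw [spTrans_mulVec, map_add (β w), horth i₀ i₁ h01 w hw v₁ hv₁, hwv, add_zero, one_mul, one_smul, map_add,
        map_add]
    · rw [comp_same hD hw, comp_same hD hv₀, comp_other hD h01.symm hv₁, add_zero]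
      intro h
      have h' := congrArg (fun x => β x v₀) h
      simp [hwv, beta_self] at h'
    · rw [comp_other hD h01 hw, comp_other hD h01 hv₀, comp_same hD hv₁, zero_add, zero_add]
      exact hv₁0
  intro M hHM hMK g hg hgH
  let C : Set V := {v | ∀ c, spTrans v c ∈ M}
  have hCD : ∀ i, ∀ v ∈ D i, v ∈ C := fun i v hv c => hHM ⟨stab_of_members fun j w hw => by
    rw [spTrans_mulVec]
    by_cases h : j = i
    · subst h; exact add_mem hw ((D j).smul_mem _ hv)
    · rw [horth j i h w hw v hv, mul_zero, zero_smul, add_zero]; exact hw, spTrans_mem v c⟩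
  have hCconj : ∀ h ∈ M, ∀ v ∈ C, (h : Mat) *ᵥ v ∈ C := by
    intro h hh v hv c
    rw [← conj_spTrans (hMK hh)]
    exact M.mul_mem (M.mul_mem hh (hv c)) (M.inv_mem hh)
  -- one component may be changed to any non-zero vector
  have hchange1 : ∀ (i : Fin t) (v : V), v ∈ C → ∀ a' ∈ D i, comp hD i v ≠ 0 → a' ≠ 0 →
      v + (a' - comp hD i v) ∈ C := by
    intro i
    have step : ∀ v : V, v ∈ C → ∀ a' ∈ D i, β (comp hD i v) a' ≠ 0 → v + (a' - comp hD i v) ∈ C := by
      intro v hv a' ha' hne
      have := hCconj _ (hCD i _ (sub_mem ha' (comp_mem hD i v)) (β (comp hD i v) a')⁻¹) _ hv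
      rwa [spTrans_mulVec, beta_swap (a' - comp hD i v) v, beta_comp_left hD horth (sub_mem ha' (comp_mem hD i v)),
        map_sub, LinearMap.sub_apply, beta_self, sub_zero, beta_swap (comp hD i v) a', neg_neg,
        inv_mul_cancel₀ hne, one_smul] at this
    intro v hv a' ha' hv0 ha0
    obtain ⟨c, hc, hc1, hc2⟩ := exists_pair_ne (U := D i) (u := comp hD i v) (v := a')
      (fun h => hv0 (hnd i _ (comp_mem hD i v) fun x hx => by rw [beta_swap x (comp hD i v), h x hx, neg_zero]))
      (fun h => ha0 (hnd i _ ha' fun x hx => by rw [beta_swap x a', h x hx, neg_zero]))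
    have h1 := step v hv c hc (by rw [beta_swap c (comp hD i v)]; exact neg_ne_zero.mpr hc1)
    have hcc : comp hD i (v + (c - comp hD i v)) = c := by
      rw [map_add, comp_same hD (sub_mem hc (comp_mem hD i v))]; abel
    have h2 := step _ h1 a' ha' (by rw [hcc]; exact hc2)
    rw [hcc] at h2
    convert h2 using 1
    abel
  -- vectors are classified by their supports
  have hclass : ∀ (J : Finset (Fin t)) (v v' : V), v ∈ C → supp hD v' = supp hD v →
      (∀ j ∉ J, comp hD j v' = comp hD j v) → v' ∈ C := by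
    intro J
    induction J using Finset.induction with
    | empty => intro v v' hv _ h; exact (comp_ext hD fun j => h j (by simp)) ▸ hv
    | @insert i J hi ih =>
      intro v v' hv hs h
      by_cases h0 : comp hD i v = 0
      · refine ih v v' hv hs fun j hj => ?_
        by_cases hji : j = i
        · subst hji
          rw [h0]
          by_contra hne
          exact ((mem_supp hD).mp (hs ▸ (mem_supp hD).mpr hne)) h0
        · exact h j (by simp [hji, hj])
      · have h0' : comp hD i v' ≠ 0 := (mem_supp hD).mp (hs.symm ▸ (mem_supp hD).mpr h0)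
        have hmid := hchange1 i v hv _ (comp_mem hD i v') h0 h0'
        have hcm : ∀ j, comp hD j (v + (comp hD i v' - comp hD i v)) =
            if i = j then comp hD j v' else comp hD j v := by
          intro j
          by_cases hji : i = j
          · subst hji
            rw [if_pos rfl, map_add, comp_same hD (sub_mem (comp_mem hD i v') (comp_mem hD i v))]; abel
          · rw [if_neg hji, map_add, comp_other hD hji (sub_mem (comp_mem hD i v') (comp_mem hD i v)), add_zero]
        refine ih _ v' hmid ?_ fun j hj => ?_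
        · rw [hs]
          ext j
          rw [mem_supp, mem_supp, hcm]
          split_ifs with hji
          · subst hji; simp [h0, h0']
          · rfl
        · rw [hcm]
          split_ifs with hji
          · rfl
          · exact h j (by simp [Ne.symm hji, hj])
  have hsame : ∀ v v' : V, v ∈ C → supp hD v' = supp hD v → v' ∈ C := fun v v' hv hs =>
    hclass Finset.univ v v' hv hs fun j hj => absurd (Finset.mem_univ j) hj
  -- a pair
  obtain ⟨i, w, hw, a, b, hab, ha, hb⟩ := exists_spread hD (fun h => hgH ⟨h, hMK hg⟩)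
  set u := (g : Mat) *ᵥ w
  have huC : u ∈ C := hCconj g hg w (hCD i w hw)
  have hsum : ∃ c₁ c₂ : F, (3 ≤ k ∨ c₁ ≠ 0) ∧ (3 ≤ k ∨ c₂ ≠ 0) ∧ c₁ + c₂ ≠ 0 := by
    by_cases hk : 3 ≤ k
    · exact ⟨1, 0, Or.inl hk, Or.inl hk, by simp⟩
    · have h3 : 2 < Fintype.card F := by
        have h := Fintype.one_lt_card (α := F)
        have : Fintype.card F ≠ 2 := fun h2 => hex ⟨by omega, h2⟩
        omega
      obtain ⟨x, hx0, hx1⟩ : ∃ x : F, x ≠ 0 ∧ x ≠ -1 := by
        by_contra hcon
        push Not at hcon
        have : (Finset.univ : Finset F) ⊆ {0, -1} := fun x _ => by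
          by_cases hx : x = 0
          · simp [hx]
          · simp [hcon x hx]
        have := Finset.card_le_card this
        rw [Finset.card_univ] at this
        have := this.trans Finset.card_le_two
        omega
      exact ⟨1, x, Or.inr one_ne_zero, Or.inr hx0, fun h => hx1 (by linear_combination h)⟩
  obtain ⟨c₁, c₂, hc₁, hc₂, hc₁₂⟩ := hsum
  obtain ⟨a', ha', ha'0, ha'ne, ha'v⟩ := exists_value hD hnd a (comp_mem hD a u) ha c₁ hc₁
  obtain ⟨b', hb', hb'0, hb'ne, hb'v⟩ := exists_value hD hnd b (comp_mem hD b u) hb c₂ hc₂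
  set u' := u + (a' - comp hD a u) + (b' - comp hD b u) with hu'
  have hu'C : u' ∈ C := by
    have h1 := hchange1 a u huC a' ha' ha ha'0
    have hb1 : comp hD b (u + (a' - comp hD a u)) = comp hD b u := by
      rw [map_add, comp_other hD hab (sub_mem ha' (comp_mem hD a u)), add_zero]
    have h2 := hchange1 b _ h1 b' hb' (by rwa [hb1]) hb'0
    rwa [hb1] at h2
  have hval : β u' u = c₁ + c₂ := by
    rw [hu', map_add, map_add, LinearMap.add_apply, LinearMap.add_apply, beta_self,
      beta_comp_left hD horth (sub_mem ha' (comp_mem hD a u)),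
      beta_comp_left hD horth (sub_mem hb' (comp_mem hD b u)), map_sub, map_sub, LinearMap.sub_apply,
      LinearMap.sub_apply, beta_self, beta_self, ha'v, hb'v]
    ring
  have hd := hCconj _ (huC (-(c₁ + c₂)⁻¹)) _ hu'C
  rw [spTrans_mulVec, hval, neg_mul, inv_mul_cancel₀ hc₁₂, neg_smul, one_smul] at hd
  set d := u' + -u with hdd
  have hsd : supp hD d = {a, b} := by
    have e : d = (a' - comp hD a u) + (b' - comp hD b u) := by rw [hdd, hu']; abel
    ext j
    rw [mem_supp, e, map_add, Finset.mem_insert, Finset.mem_singleton]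
    by_cases hja : j = a
    · subst hja
      rw [comp_same hD (sub_mem ha' (comp_mem hD j u)), comp_other hD hab.symm (sub_mem hb' (comp_mem hD b u)),
        add_zero]
      simp [sub_ne_zero.mpr ha'ne]
    · by_cases hjb : j = b
      · subst hjb
        rw [comp_other hD hab (sub_mem ha' (comp_mem hD a u)), comp_same hD (sub_mem hb' (comp_mem hD j u)),
          zero_add]
        simp [sub_ne_zero.mpr hb'ne]
      · rw [comp_other hD (Ne.symm hja) (sub_mem ha' (comp_mem hD a u)),
          comp_other hD (Ne.symm hjb) (sub_mem hb' (comp_mem hD b u))]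
        simp [hja, hjb]
  -- all pairs
  have hswap : ∀ v ∈ C, ∀ x y : Fin t, x ≠ y →
      ∃ v' ∈ C, supp hD v' = (supp hD v).image (Equiv.swap x y) := by
    intro v hv x y hxy
    obtain ⟨s, hs, hsupp⟩ := exists_swap hD hnd horth hxy
    refine ⟨_, hCconj s (hHM hs) v hv, ?_⟩
    ext j
    rw [mem_supp, hsupp, Finset.mem_image]
    constructor
    · intro h; exact ⟨_, (mem_supp hD).mpr h, Equiv.swap_apply_self _ _ _⟩
    · rintro ⟨j', hj', rfl⟩
      rw [Equiv.swap_apply_self]; exact (mem_supp hD).mp hj'
  have hmove : ∀ p q r : Fin t, p ≠ q → p ≠ r → (∃ v ∈ C, supp hD v = {p, q}) → ∃ v ∈ C, supp hD v = {p, r} := by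
    rintro p q r hpq hpr ⟨v, hv, hs⟩
    by_cases hqr : q = r
    · exact ⟨v, hv, hqr ▸ hs⟩
    obtain ⟨v', hv', hs'⟩ := hswap v hv q r hqr
    refine ⟨v', hv', ?_⟩
    rw [hs', hs, Finset.image_insert, Finset.image_singleton, Equiv.swap_apply_left,
      Equiv.swap_apply_of_ne_of_ne hpq hpr]
  have hpairs : ∀ p q : Fin t, p ≠ q → ∃ v ∈ C, supp hD v = {p, q} := by
    intro p q hpq
    have hflip : ∀ p q : Fin t, (∃ v ∈ C, supp hD v = {p, q}) → ∃ v ∈ C, supp hD v = {q, p} :=
      fun p q h => Finset.pair_comm p q ▸ h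
    have hbase : ∃ v ∈ C, supp hD v = {a, b} := ⟨d, hd, hsd⟩
    by_cases hpa : p = a
    · subst hpa; exact hmove _ b q hab hpq hbase
    · have h1 : ∃ v ∈ C, supp hD v = {a, p} := hmove a b p hab (Ne.symm hpa) hbase
      exact hmove p a q hpa hpq (hflip _ _ h1)
  -- every support
  have hall : ∀ S : Finset (Fin t), ∀ v : V, supp hD v = S → v ∈ C := by
    intro S
    induction S using Finset.induction with
    | empty =>
      intro v hs
      refine hCD i₀ v (mem_of_supp_subset hD fun j _ => ?_)
      by_contra h; have := (mem_supp hD).mpr h; simp [hs] at this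
    | @insert l S hl ih =>
      intro v hs
      rcases S.eq_empty_or_nonempty with rfl | ⟨p, hp⟩
      · refine hCD l v (mem_of_supp_subset hD fun j hj => ?_)
        by_contra h; have := (mem_supp hD).mpr h; simp [hs, hj] at this
      have hpl : p ≠ l := fun h => hl (h ▸ hp)
      have hs1 : supp hD (v - comp hD l v) = S := by
        ext j
        rw [mem_supp, map_sub, comp_comp]
        by_cases hjl : j = l
        · subst hjl; simp [hl]
        · rw [if_neg (Ne.symm hjl), sub_zero, ← mem_supp, hs, Finset.mem_insert]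
          simp [hjl]
      set r := v - comp hD l v
      have hrC : r ∈ C := ih r hs1
      have hrp : comp hD p r ≠ 0 := (mem_supp hD).mp (hs1 ▸ hp)
      have hvl : comp hD l v ≠ 0 := (mem_supp hD).mp (hs ▸ Finset.mem_insert_self l S)
      obtain ⟨x, hx, hx0, hxne, hxv⟩ := exists_value hD hnd p (comp_mem hD p r) hrp 1 (Or.inr one_ne_zero)
      set b' := x + comp hD l v with hb'
      have hb'C : b' ∈ C := by
        obtain ⟨v', hv', hs'⟩ := hpairs p l hpl
        refine hsame v' b' hv' ?_
        ext j
        rw [mem_supp, hs', hb', map_add, comp_comp, Finset.mem_insert, Finset.mem_singleton]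
        by_cases hjp : j = p
        · subst hjp; simp [comp_same hD hx, hx0, Ne.symm hpl]
        · by_cases hjl : j = l
          · subst hjl; simp [comp_other hD hpl hx, hvl]
          · simp [comp_other hD (Ne.symm hjp) hx, hjp, hjl, Ne.symm hjl]
      have hrb : β b' r = 1 := by
        rw [hb', map_add, LinearMap.add_apply, beta_comp_left hD horth hx, hxv,
          beta_comp_left hD horth (comp_mem hD l v)]
        have : comp hD l r = 0 := by
          by_contra h; exact hl (hs1 ▸ (mem_supp hD).mpr h)
        rw [this, map_zero, add_zero]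
      have hfin := hCconj _ (hrC 1) _ hb'C
      rw [spTrans_mulVec, hrb, one_mul, one_smul] at hfin
      refine hsame _ v hfin ?_
      rw [hs]
      ext j
      rw [mem_supp, hb', map_add, map_add, comp_comp, Finset.mem_insert]
      by_cases hjl : j = l
      · subst hjl
        have : comp hD j r = 0 := by
          by_contra h; exact hl (hs1 ▸ (mem_supp hD).mpr h)
        simp [comp_other hD hpl hx, this, hvl]
      · rw [if_neg (Ne.symm hjl), add_zero]
        by_cases hjp : j = p
        · subst hjp
          simp only [hp, or_true, true_iff, comp_same hD hx]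
          intro h
          have h' := congrArg (fun y => β y (comp hD j r)) h
          simp [hxv, beta_self] at h'
        · rw [comp_other hD (Ne.symm hjp) hx, zero_add, ← mem_supp, hs1]
          simp [hjl]
  exact spGL_le_of_spTrans M fun v c => (hall _ v rfl) c

end Cfsg.Agent.H98
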