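import Cfsg.Agent.H98.SpSubfieldBase
import Cfsg.Agent.H98.Decomp

set_option autoImplicit false

/-!
An element of a proper overgroup of the symplectic subfield subgroup fixing a rational line is rational, hence
so is every element carrying some rational vector to a vector orthogonal to some rational vector.
-/

namespace Cfsg.Agent.H98

open scoped Matrix

variable {m : ℕ} {F : Type*} [Field F]

local notation "V" => (Fin m ⊕ Fin m → F)
local notation "Mat" => Matrix (Fin m ⊕ Fin m) (Fin m ⊕ Fin m) F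
local notation "β" => Cfsg.Agent.H2.sympBilin m F

variable {F₀ : Subfield F}

/-- An element of the subfield subgroup fixing a rational vector is rational. -/
theorem rational_of_fix {ι : Type} [Fintype ι] [DecidableEq ι] [Nonempty ι] {g : GL ι F}
    (hg : g ∈ subGroupF ι F₀) {u : ι → F} (hu : ∀ x, u x ∈ F₀) (hu0 : u ≠ 0)
    (hfix : (g : Matrix ι ι F) *ᵥ u = u) (a b : ι) : (g : Matrix ι ι F) a b ∈ F₀ := by
  obtain ⟨c, hc, h⟩ := mem_subGroupF.mp hg
  obtain ⟨x, hx⟩ := Function.ne_iff.mp hu0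
  have h1 : c * u x = ∑ y, c * (g : Matrix ι ι F) x y * u y := by
    conv_lhs => rw [← hfix]
    simp only [Matrix.mulVec, dotProduct, Finset.mul_sum, mul_assoc]
  have h2 : c * u x ∈ F₀ := h1 ▸ sum_mem fun y _ => mul_mem (h x y) (hu y)
  have hcF : c ∈ F₀ := by
    have := mul_mem h2 (inv_mem (hu x))
    rwa [mul_assoc, mul_inv_cancel₀ hx, mul_one] at this
  have := mul_mem (inv_mem hcF) (h a b)
  rwa [← mul_assoc, inv_mul_cancel₀ hc, one_mul] at this

/-- Rational matrices move rational vectors to rational vectors. -/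
theorem mulVec_rat {ι : Type} [Fintype ι] {A : Matrix ι ι F} (hA : ∀ a b, A a b ∈ F₀) {u : ι → F}
    (hu : IsRatVec F₀ u) : IsRatVec F₀ (A *ᵥ u) := fun x => by
  simp only [Matrix.mulVec, dotProduct]
  exact sum_mem fun y _ => mul_mem (hA x y) (hu y)

/-- Removing the first hyperbolic pair. -/
def piW (i₀ : Fin m) : (Fin m ⊕ Fin m → F) →ₗ[F] (Fin m ⊕ Fin m → F) :=
  LinearMap.id - (LinearMap.proj (Sum.inl i₀)).smulRight (eV i₀) - (LinearMap.proj (Sum.inr i₀)).smulRight (fV i₀)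

theorem piW_apply (i₀ : Fin m) (v : V) :
    piW i₀ v = v - v (.inl i₀) • eV i₀ - v (.inr i₀) • fV i₀ := rfl

theorem piW_inl (i₀ : Fin m) (v : V) : piW i₀ v (.inl i₀) = 0 := by simp [piW_apply, eV, fV]

theorem piW_inr (i₀ : Fin m) (v : V) : piW i₀ v (.inr i₀) = 0 := by simp [piW_apply, eV, fV]

theorem piW_decomp (i₀ : Fin m) (v : V) : v = v (.inl i₀) • eV i₀ + v (.inr i₀) • fV i₀ + piW i₀ v := by
  rw [piW_apply]; module

section
variable [Fintype F] [NeZero m] {r : ℕ}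
variable (hm : 3 ≤ m) (hr : r.Prime) (hcard : Fintype.card F = Nat.card F₀ ^ r)
include hm hr hcard

/-- Unipotent elements of a proper overgroup attached to the first basis vector are rational. -/
theorem unip_rat {M : Subgroup (GL (Fin m ⊕ Fin m) F)} (hM : IsSpProperOver F₀ M) (i₀ : Fin m)
    {u : GL (Fin m ⊕ Fin m) F} (hu : u ∈ M) (he : (u : Mat) *ᵥ eV i₀ = eV i₀)
    (hp : ∀ w : V, w (.inr i₀) = 0 → ∃ b : F, (u : Mat) *ᵥ w = w + b • eV i₀) :
    u ∈ subGroupF (Fin m ⊕ Fin m) F₀ ⊓ Cfsg.spGL m F := by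
  classical
  have hiso := mem_spGL.mp (hM.le_sp hu)
  -- the coefficient at a rational vector off the pair
  have hb : ∀ (w Z : V) (k : Fin m), k ≠ i₀ → IsRatVec F₀ w → IsRatVec F₀ Z → w (.inr i₀) = 0 →
      Z (.inr i₀) = 0 → w (.inr k) = 0 → Z (.inr k) = 0 → β w Z ≠ 0 →
      ∀ b : F, (u : Mat) *ᵥ w = w + b • eV i₀ → b ∈ F₀ := by
    intro w Z k hk hw hZ hw0 hZ0 hwk hZk hne b hub
    have hek : β (eV i₀ : V) (eV k) = 0 := by rw [beta_eV]; simp [eV]
    have hwe : β w (eV i₀) = 0 := by rw [beta_eV_right, hw0]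
    have hwK : β w (eV k) = 0 := by rw [beta_eV_right, hwk]
    have hZK : β Z (eV k) = 0 := by rw [beta_eV_right, hZk]
    have hZe : β Z (eV i₀) = 0 := by rw [beta_eV_right, hZ0]
    set s := spX Z (eV k) (1 : F)
    have hs : s ∈ M := hM.le (spX_rat hZ (isRat_eV k) (one_mem _))
    have hsm := hM.le_sp hs
    set κ := β w Z
    have hsw : (s : Mat) *ᵥ w = w + κ • eV k := by
      rw [spX_mulVec hZK, hwK, zero_smul, zero_add, one_smul]
    have hse : (s : Mat) *ᵥ eV i₀ = eV i₀ := by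
      rw [spX_mulVec hZK, hek, beta_swap Z (eV i₀), hZe, neg_zero, zero_smul, zero_smul, add_zero, one_smul, add_zero]
    set Fw := u * spTrans w 1 * u⁻¹ * (spTrans w 1)⁻¹ with hFw
    have hFM : Fw ∈ M := by
      have hw1 := hM.le (spTrans_rat hw (one_mem F₀))
      exact M.mul_mem (M.mul_mem (M.mul_mem hu hw1) (M.inv_mem hu)) (M.inv_mem hw1)
    have hFw' : Fw = spTrans (w + b • eV i₀) 1 * (spTrans w 1)⁻¹ := by
      rw [hFw, conj_spTrans (hM.le_sp hu), hub]
    have hK := M.mul_mem (M.mul_mem (M.mul_mem hs hFM) (M.inv_mem hs)) (M.inv_mem hFM)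
    have e : s * Fw * s⁻¹ * Fw⁻¹ = spX (eV i₀) (eV k) (b * κ) := by
      have e1 : s * Fw * s⁻¹ = spTrans (w + κ • eV k + b • eV i₀) 1 * (spTrans (w + κ • eV k) 1)⁻¹ := by
        rw [hFw', ← hsw]
        have a1 : s * (spTrans (w + b • eV i₀) 1 * (spTrans w 1)⁻¹) * s⁻¹ =
            (s * spTrans (w + b • eV i₀) 1 * s⁻¹) * (s * spTrans w 1 * s⁻¹)⁻¹ := by group
        rw [a1, conj_spTrans hsm, conj_spTrans hsm, Matrix.mulVec_add, Matrix.mulVec_smul, hse]
      rw [e1, hFw', spTrans_inv, spTrans_inv, mul_inv_rev, spTrans_inv, spTrans_inv, neg_neg]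
      refine gl_ext fun y => ?_
      have a2 : β (eV i₀ : V) w = 0 := by rw [beta_swap w (eV i₀), hwe, neg_zero]
      have a3 : β (eV k : V) w = 0 := by rw [beta_swap w (eV k), hwK, neg_zero]
      have a4 : β (eV k : V) (eV i₀) = 0 := by rw [beta_swap (eV i₀) (eV k), hek, neg_zero]
      simp only [Units.val_mul, ← Matrix.mulVec_mulVec, spTrans_mulVec, spX_mulVec hek, map_add, map_smul,
        LinearMap.add_apply, LinearMap.smul_apply, smul_eq_mul, beta_self, hwe, hwK, hek, a2, a3, a4, mul_zero,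
        add_zero, smul_add]
      module
    rw [e] at hK
    have hbk : b * κ ∈ F₀ := by
      by_contra hcon
      exact hM.proper (spGL_le_of_new_scalar (by omega) hr hcard hM.le hM.le_sp hk.symm hcon hK)
    have := mul_mem hbk (inv_mem (beta_rat hw hZ))
    rwa [mul_assoc, mul_inv_cancel₀ hne, mul_one] at this
  have hthird : ∀ i : Fin m, ∃ k, k ≠ i₀ ∧ k ≠ i := fun i => by
    have : ((Finset.univ : Finset (Fin m)) \ {i₀, i}).Nonempty := by
      rw [← Finset.card_pos, Finset.card_sdiff_of_subset (Finset.subset_univ _), Finset.card_univ, Fintype.card_fin]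
      have : ({i₀, i} : Finset (Fin m)).card ≤ 2 := Finset.card_le_two
      omega
    obtain ⟨z, hz⟩ := this
    simp only [Finset.mem_sdiff, Finset.mem_univ, true_and, Finset.mem_insert, Finset.mem_singleton, not_or] at hz
    exact ⟨z, hz⟩
  set z := (u : Mat) *ᵥ fV i₀ - fV i₀ with hz
  have hzu : (u : Mat) *ᵥ fV i₀ = fV i₀ + z := by rw [hz, add_sub_cancel]
  have hze : β z (eV i₀) = 0 := by
    have := hiso (fV i₀) (eV i₀)
    rw [he, hzu, map_add, LinearMap.add_apply] at this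
    simpa using this
  have hzw : ∀ w : V, w (.inl i₀) = 0 → w (.inr i₀) = 0 → ∀ b : F,
      (u : Mat) *ᵥ w = w + b • eV i₀ → β z w = - b := by
    intro w hwl hwr b hub
    have := hiso (fV i₀) w
    rw [hzu, hub] at this
    simp only [map_add, map_smul, LinearMap.add_apply, smul_eq_mul, hze, beta_fV i₀ w, hwl,
      beta_fV i₀ (eV i₀)] at this
    simp only [eV, Pi.single_eq_same, mul_one, mul_zero, add_zero, zero_add] at this
    linear_combination this
  have hzrat : ∀ x, x ≠ Sum.inl i₀ → z x ∈ F₀ := by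
    intro x hx
    rcases x with i | i
    · have hi : i ≠ i₀ := fun h => hx (by rw [h])
      obtain ⟨k, hk, hki⟩ := hthird i
      obtain ⟨b, hub⟩ := hp (fV i) (by simp [fV, hi.symm])
      have hbF := hb (fV i) (eV i) k hk (isRat_fV i) (isRat_eV i) (by simp [fV, hi.symm]) (by simp [eV])
        (by simp [fV, hki]) (by simp [eV]) (by rw [beta_fV, eV]; simp) b hub
      have := hzw (fV i) (by simp [fV]) (by simp [fV, hi.symm]) b hub
      rw [beta_fV_right, neg_inj] at this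
      rw [this]; exact hbF
    · by_cases hi : i = i₀
      · subst hi
        rw [← beta_eV_right i z, hze]; exact zero_mem _
      obtain ⟨k, hk, hki⟩ := hthird i
      obtain ⟨b, hub⟩ := hp (eV i) (by simp [eV])
      have hbF := hb (eV i) (fV i) k hk (isRat_eV i) (isRat_fV i) (by simp [eV]) (by simp [fV, Ne.symm hi])
        (by simp [eV]) (by simp [fV, hki]) (by rw [beta_eV, fV]; simp) b hub
      have := hzw (eV i) (by simp [eV, Ne.symm hi]) (by simp [eV]) b hub
      rw [beta_eV_right] at this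
      rw [this]; exact neg_mem hbF
  set d := z (Sum.inl i₀)
  set wv := z - d • eV i₀ with hwv
  have hwrat : IsRatVec F₀ wv := fun x => by
    rw [hwv, Pi.sub_apply, Pi.smul_apply, smul_eq_mul]
    by_cases hx : x = Sum.inl i₀
    · subst hx; simp [eV, d]
    · simpa [eV, hx] using hzrat x hx
  have hew : β (eV i₀) wv = 0 := by
    rw [hwv, map_sub, map_smul, beta_self, smul_zero, sub_zero, beta_swap z (eV i₀), hze, neg_zero]
  have hfw : β (fV i₀) wv = 0 := by
    rw [beta_fV, hwv]; simp [eV, d]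
  have hfe : β (fV i₀ : V) (eV i₀) = 1 := by rw [beta_fV, eV]; simp
  have hX := spX_rat (F₀ := F₀) (isRat_eV i₀) hwrat (one_mem _)
  set X := spX (eV i₀) wv (1 : F)
  have hXe : (X : Mat) *ᵥ eV i₀ = eV i₀ := by
    rw [spX_mulVec hew, hew, beta_self, zero_smul, zero_smul, add_zero, smul_zero, add_zero]
  set u' := X⁻¹ * u with hu'
  have hu'M : u' ∈ M := M.mul_mem (M.inv_mem (hM.le hX)) hu
  have hiso' := mem_spGL.mp (hM.le_sp hu'M)
  have hu'e : (u' : Mat) *ᵥ eV i₀ = eV i₀ := by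
    rw [hu', Units.val_mul, ← Matrix.mulVec_mulVec, he]
    conv_lhs => rw [← hXe]
    rw [gl_inv_mulVec]
  have hu'f : (u' : Mat) *ᵥ fV i₀ = fV i₀ + d • eV i₀ := by
    rw [hu', Units.val_mul, ← Matrix.mulVec_mulVec, hzu]
    have e : fV i₀ + z = (X : Mat) *ᵥ (fV i₀ + d • eV i₀) := by
      rw [Matrix.mulVec_add, Matrix.mulVec_smul, hXe, spX_mulVec hew, hfw, hfe, zero_smul, zero_add, one_smul,
        one_smul, hwv]
      module
    rw [e, gl_inv_mulVec]
  have hu'W : ∀ v : V, (u' : Mat) *ᵥ piW i₀ v = piW i₀ v := by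
    intro v
    set w := piW i₀ v
    obtain ⟨b, hub⟩ := hp w (piW_inr i₀ v)
    obtain ⟨b', hb'⟩ : ∃ b' : F, (u' : Mat) *ᵥ w = w + b' • eV i₀ := by
      refine ⟨b - β w wv, ?_⟩
      rw [hu', Units.val_mul, ← Matrix.mulVec_mulVec, hub]
      have e : w + b • eV i₀ = (X : Mat) *ᵥ (w + (b - β w wv) • eV i₀) := by
        rw [Matrix.mulVec_add, Matrix.mulVec_smul, hXe, spX_mulVec hew, beta_eV_right i₀ w, show w (.inr i₀) = 0 from piW_inr i₀ v, zero_smul,
          add_zero, one_smul]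
        module
      rw [e, gl_inv_mulVec]
    have := hiso' (fV i₀) w
    rw [hu'f, hb'] at this
    have he0 : β (eV i₀) w = 0 := by rw [beta_eV, show w (.inr i₀) = 0 from piW_inr i₀ v, neg_zero]
    simp only [map_add, map_smul, LinearMap.add_apply, LinearMap.smul_apply, smul_eq_mul, hfe, he0, beta_self,
      mul_zero, mul_one, add_zero] at this
    rw [hb', show b' = 0 by linear_combination this, zero_smul, add_zero]
  have hu't : u' = spTrans (eV i₀) d := by
    refine gl_ext fun v => ?_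
    conv_lhs => rw [piW_decomp i₀ v]
    rw [Matrix.mulVec_add, Matrix.mulVec_add, Matrix.mulVec_smul, Matrix.mulVec_smul, hu'e, hu'f, hu'W,
      spTrans_mulVec, beta_eV_right]
    conv_rhs => rw [piW_decomp i₀ v]
    simp only [Pi.add_apply, Pi.smul_apply, piW_inr, eV, fV, Pi.single_eq_same, smul_eq_mul,
      Pi.single_eq_of_ne (show (Sum.inr i₀ : Fin m ⊕ Fin m) ≠ Sum.inl i₀ by simp), mul_zero, mul_one, zero_add, add_zero]
    module
  have hd : d ∈ F₀ := long_scalar (by omega) hr hcard hM (isRat_eV i₀) (eV_ne_zero i₀) (hu't ▸ hu'M)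
  have : u = X * spTrans (eV i₀) d := by rw [← hu't, hu', mul_inv_cancel_left]
  rw [this]
  exact Subgroup.mul_mem _ hX (spTrans_rat (isRat_eV i₀) hd)

/-- An element of a proper overgroup fixing the first coordinate line is in the subfield subgroup. -/
theorem line_stab_std {M : Subgroup (GL (Fin m ⊕ Fin m) F)} (hM : IsSpProperOver F₀ M) (i₀ : Fin m)
    {y : GL (Fin m ⊕ Fin m) F} (hy : y ∈ M) {lam : F} (he : (y : Mat) *ᵥ eV i₀ = lam • eV i₀) :
    y ∈ subGroupF (Fin m ⊕ Fin m) F₀ := by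
  classical
  have hiso := mem_spGL.mp (hM.le_sp hy)
  have hlam : lam ≠ 0 := fun h => by
    rw [h, zero_smul, ← Matrix.mulVec_zero (y : Mat)] at he
    exact eV_ne_zero i₀ (gl_mulVec_injective y he)
  have hlam2 : lam * lam ∈ F₀ := by
    have h1 := M.mul_mem (M.mul_mem hy (hM.le (spTrans_rat (isRat_eV i₀) (one_mem F₀)))) (M.inv_mem hy)
    rw [conj_spTrans (hM.le_sp hy), he, spTrans_smul, mul_one] at h1
    exact long_scalar (by omega) hr hcard hM (isRat_eV i₀) (eV_ne_zero i₀) h1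
  have hfe : β (fV i₀ : V) (eV i₀) = 1 := by rw [beta_fV, eV]; simp
  have hperp : ∀ w : V, w (.inr i₀) = 0 → β ((y : Mat) *ᵥ w) (eV i₀) = 0 := fun w hw => by
    have := hiso w (eV i₀)
    rw [he, map_smul, beta_eV_right i₀ w, hw, smul_eq_mul] at this
    exact (mul_eq_zero.mp this).resolve_left hlam
  have hrow : ∀ w : V, IsRatVec F₀ w → w (.inr i₀) = 0 → ∀ x, x ≠ Sum.inl i₀ →
      lam * ((y : Mat) *ᵥ w) x ∈ F₀ := by
    intro w hw hw0 x hx
    have hew : β (eV i₀) w = 0 := by rw [beta_eV, hw0, neg_zero]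
    set U := y * spX (eV i₀) w 1 * y⁻¹ with hUdef
    have hU : U ∈ M := M.mul_mem (M.mul_mem hy (hM.le (spX_rat (isRat_eV i₀) hw (one_mem _)))) (M.inv_mem hy)
    have hor : β (eV i₀) ((y : Mat) *ᵥ w) = 0 := by
      rw [beta_swap ((y : Mat) *ᵥ w) (eV i₀), hperp w hw0, neg_zero]
    have hUv : ∀ v, (U : Mat) *ᵥ v =
        v + lam • (β v ((y : Mat) *ᵥ w) • eV i₀ + β v (eV i₀) • ((y : Mat) *ᵥ w)) := fun v => by
      rw [hUdef, conj_spX (hM.le_sp hy), he, spX_smul_left hor, mul_one, spX_mulVec hor]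
    have hUe : (U : Mat) *ᵥ eV i₀ = eV i₀ := by
      rw [hUv, hor, beta_self, zero_smul, zero_smul, add_zero, smul_zero, add_zero]
    have hUS := unip_rat hm hr hcard hM i₀ hU hUe fun v hv => ⟨lam * β v ((y : Mat) *ᵥ w), by
      rw [hUv, beta_eV_right i₀ v, hv, zero_smul, add_zero, smul_smul]⟩
    have h1 := mulVec_rat (rational_of_fix hUS.1 (isRat_eV i₀) (eV_ne_zero i₀) hUe) (isRat_fV (F₀ := F₀) i₀) x
    rw [hUv, hfe, one_smul] at h1
    have h2 : (fV i₀ : V) x ∈ F₀ := isRat_fV i₀ x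
    have h3 := sub_mem h1 h2
    simpa [eV, hx] using h3
  -- the Levi part
  let hL : V →ₗ[F] V :=
    (LinearMap.proj (Sum.inl i₀)).smulRight (lam • eV i₀) + (LinearMap.proj (Sum.inr i₀)).smulRight (lam⁻¹ • fV i₀) +
      (piW i₀).comp ((Matrix.mulVecLin (y : Mat)).comp (piW i₀))
  have hLapp : ∀ v, hL v = v (.inl i₀) • (lam • eV i₀) + v (.inr i₀) • (lam⁻¹ • fV i₀) +
      piW i₀ ((y : Mat) *ᵥ piW i₀ v) := fun v => rfl
  have hyW : ∀ v, ((y : Mat) *ᵥ piW i₀ v) (.inr i₀) = 0 := fun v => by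
    rw [← beta_eV_right i₀ ((y : Mat) *ᵥ piW i₀ v)]; exact hperp _ (piW_inr i₀ v)
  have hef : ∀ v, β (eV i₀) (piW i₀ v) = 0 := fun v => by rw [beta_eV, piW_inr, neg_zero]
  have hff : ∀ v, β (fV i₀) (piW i₀ v) = 0 := fun v => by rw [beta_fV, piW_inl]
  have hef' : ∀ v, β (piW i₀ v) (eV i₀) = 0 := fun v => by rw [beta_eV_right, piW_inr]
  have hff' : ∀ v, β (piW i₀ v) (fV i₀) = 0 := fun v => by rw [beta_fV_right, piW_inl, neg_zero]
  have hpp : ∀ v v', β (piW i₀ ((y : Mat) *ᵥ piW i₀ v)) (piW i₀ ((y : Mat) *ᵥ piW i₀ v')) =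
      β (piW i₀ v) (piW i₀ v') := fun v v' => by
    rw [piW_apply i₀ ((y : Mat) *ᵥ piW i₀ v), piW_apply i₀ ((y : Mat) *ᵥ piW i₀ v'), hyW, hyW]
    simp only [zero_smul, sub_zero, map_sub, map_smul, LinearMap.sub_apply, LinearMap.smul_apply, beta_self,
      beta_eV_right, beta_eV, hyW, hiso, smul_zero, neg_zero, sub_zero]
  have hLiso : ∀ v v', β (hL v) (hL v') = β v v' := fun v v' => by
    conv_rhs => rw [piW_decomp i₀ v, piW_decomp i₀ v']
    have hef2 : β (eV i₀ : V) (fV i₀) = -1 := by rw [beta_swap (fV i₀) (eV i₀), hfe]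
    simp only [hLapp, map_add, map_smul, LinearMap.add_apply, LinearMap.smul_apply, smul_eq_mul, beta_self, hef,
      hff, hef', hff', hpp, hfe, hef2, mul_zero, add_zero, zero_add]
    field_simp
  have hLinj : Function.Injective hL := by
    rw [injective_iff_map_eq_zero]
    intro v hv
    exact (Cfsg.Agent.H2.sympBilin_nondegenerate m F).1 v fun v' => by rw [← hLiso, hv]; simp
  let hg := glOfEquiv (LinearEquiv.ofInjectiveEndo hL hLinj)
  have hgv : ∀ v, (hg : Mat) *ᵥ v = hL v := fun v => by simp [hg]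
  have hgsp : hg ∈ Cfsg.spGL m F := mem_spGL.mpr fun v v' => by rw [hgv, hgv, hLiso]
  have hgS : hg ∈ subGroupF (Fin m ⊕ Fin m) F₀ := mem_subGroupF.mpr ⟨lam, hlam, fun a b => by
    have h := congrFun (hgv (Pi.single b 1)) a
    rw [Matrix.mulVec_single_one, Matrix.col_apply] at h
    rw [h, hLapp]
    set v := (Pi.single b 1 : V)
    have hv : IsRatVec F₀ v := isRat_single b
    have hwr : IsRatVec F₀ (piW i₀ v) := by
      rw [piW_apply]
      exact isRat_sub (isRat_sub hv (isRat_smul (hv _) (isRat_eV i₀))) (isRat_smul (hv _) (isRat_fV i₀))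
    simp only [Pi.add_apply, Pi.smul_apply, smul_eq_mul, mul_add]
    refine add_mem (add_mem ?_ ?_) ?_
    · rw [show lam * (v (.inl i₀) * (lam * eV i₀ a)) = (lam * lam) * (v (.inl i₀) * eV i₀ a) by ring]
      exact mul_mem hlam2 (mul_mem (hv _) (isRat_eV i₀ a))
    · rw [show lam * (v (.inr i₀) * (lam⁻¹ * fV i₀ a)) = v (.inr i₀) * fV i₀ a by field_simp]
      exact mul_mem (hv _) (isRat_fV i₀ a)
    · by_cases ha : a = Sum.inl i₀
      · rw [ha, piW_inl, mul_zero]; exact zero_mem _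
      · rw [piW_apply i₀ ((y : Mat) *ᵥ piW i₀ v), hyW, zero_smul, sub_zero, Pi.sub_apply, Pi.smul_apply, eV,
          Pi.single_eq_of_ne ha, smul_zero, sub_zero]
        exact hrow _ hwr (piW_inr i₀ v) a ha⟩
  have hgM : hg ∈ M := hM.le ⟨hgS, hgsp⟩
  have hge : (hg : Mat) *ᵥ eV i₀ = lam • eV i₀ := by
    rw [hgv, hLapp, piW_apply i₀ (eV i₀ : V)]
    simp [eV, Matrix.mulVec_sub]
  have hmem := unip_rat hm hr hcard hM i₀ (M.mul_mem (M.inv_mem hgM) hy) ?_ fun w hw => ?_
  · have := Subgroup.mul_mem _ hgS hmem.1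
    rwa [mul_inv_cancel_left] at this
  · rw [Units.val_mul, ← Matrix.mulVec_mulVec, he, ← hge, gl_inv_mulVec]
  · refine ⟨lam⁻¹ * ((y : Mat) *ᵥ piW i₀ w) (.inl i₀), ?_⟩
    rw [Units.val_mul, ← Matrix.mulVec_mulVec]
    have e : (y : Mat) *ᵥ w = (hg : Mat) *ᵥ (w + (lam⁻¹ * ((y : Mat) *ᵥ piW i₀ w) (.inl i₀)) • eV i₀) := by
      rw [Matrix.mulVec_add, Matrix.mulVec_smul, hge, hgv, hLapp, piW_apply i₀ ((y : Mat) *ᵥ piW i₀ w), hyW, hw]
      conv_lhs => rw [piW_decomp i₀ w, hw]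
      rw [Matrix.mulVec_add, Matrix.mulVec_add, Matrix.mulVec_smul, Matrix.mulVec_smul, he, smul_smul (_ * _) lam,
        mul_comm _ lam, ← mul_assoc, mul_inv_cancel₀ hlam, one_mul]
      module
    rw [e, gl_inv_mulVec]

/-- An element fixing a rational line is in the subfield subgroup. -/
theorem sp_line_stab {M : Subgroup (GL (Fin m ⊕ Fin m) F)} (hM : IsSpProperOver F₀ M)
    {y : GL (Fin m ⊕ Fin m) F} (hy : y ∈ M) {u : V} (hu : IsRatVec F₀ u) (hu0 : u ≠ 0) {lam : F}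
    (he : (y : Mat) *ᵥ u = lam • u) : y ∈ subGroupF (Fin m ⊕ Fin m) F₀ := by
  set i₀ : Fin m := ⟨0, by omega⟩
  obtain ⟨g, hg, hgu⟩ := exists_rat_move (isRat_eV i₀) hu (eV_ne_zero i₀) hu0
  have hgM := hM.le hg
  have h1 := line_stab_std hm hr hcard hM i₀ (M.mul_mem (M.mul_mem (M.inv_mem hgM) hy) hgM) (lam := lam) (by
    rw [Units.val_mul, Units.val_mul, ← Matrix.mulVec_mulVec, ← Matrix.mulVec_mulVec, hgu, he, Matrix.mulVec_smul,
      ← hgu, gl_inv_mulVec])
  have := Subgroup.mul_mem _ (Subgroup.mul_mem _ hg.1 h1) (Subgroup.inv_mem _ hg.1)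
  have e : g * (g⁻¹ * y * g) * g⁻¹ = y := by group
  rwa [e] at this

/-- The main criterion: some rational vector sent orthogonal to some rational vector. -/
theorem sp_rat_orth_mem {M : Subgroup (GL (Fin m ⊕ Fin m) F)} (hM : IsSpProperOver F₀ M)
    {y : GL (Fin m ⊕ Fin m) F} (hy : y ∈ M) {u u' : V} (hu : IsRatVec F₀ u) (hu0 : u ≠ 0)
    (hu' : IsRatVec F₀ u') (hu'0 : u' ≠ 0) (horth : β u' ((y : Mat) *ᵥ u) = 0) :
    y ∈ subGroupF (Fin m ⊕ Fin m) F₀ := by
  set v := (y : Mat) *ᵥ u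
  have hTM : spTrans v 1 ∈ M := by
    rw [← conj_spTrans (hM.le_sp hy)]
    exact M.mul_mem (M.mul_mem hy (hM.le (spTrans_rat hu (one_mem _)))) (M.inv_mem hy)
  have hfix : (spTrans v 1 : Mat) *ᵥ u' = u' := by
    rw [spTrans_mulVec, horth, mul_zero, zero_smul, add_zero]
  have hTS := sp_line_stab hm hr hcard hM hTM hu' hu'0 (lam := 1) (by rw [one_smul]; exact hfix)
  have hTrat := rational_of_fix hTS hu' hu'0 hfix
  have hv0 : v ≠ 0 := fun h => by
    refine hu0 (gl_mulVec_injective y ?_)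
    change (y : Mat) *ᵥ u = (y : Mat) *ᵥ 0
    rw [Matrix.mulVec_zero]; exact h
  obtain ⟨z, hz, hzv, -⟩ := exists_rat_pair (F₀ := F₀) hv0 hv0
  set u₂ := β z v • v with hu₂
  have hu₂r : IsRatVec F₀ u₂ := by
    have h1 := isRat_sub (mulVec_rat hTrat hz) hz
    rwa [spTrans_mulVec, add_sub_cancel_left, one_mul] at h1
  have hu₂0 : u₂ ≠ 0 := smul_ne_zero hzv hv0
  obtain ⟨g, hg, hgu⟩ := exists_rat_move hu₂r hu hu₂0 hu0
  have h2 := sp_line_stab hm hr hcard hM (M.mul_mem (hM.le hg) hy) hu hu0 (lam := (β z v)⁻¹) (by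
    rw [Units.val_mul, ← Matrix.mulVec_mulVec]
    conv_rhs => rw [← hgu, hu₂, Matrix.mulVec_smul, smul_smul, inv_mul_cancel₀ hzv, one_smul])
  have := Subgroup.mul_mem _ (Subgroup.inv_mem _ hg.1) h2
  rwa [inv_mul_cancel_left] at this

end

end Cfsg.Agent.H98
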