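import Cfsg.Agent.H98.MaximalSp
import Cfsg.Agent.H98.Decomp

set_option autoImplicit false

/-!
For odd `q` the stabiliser of a pair of complementary Lagrangian subspaces is maximal in the symplectic group.
-/

namespace Cfsg.Agent.H98

open scoped Matrix

variable {m : ℕ} {F : Type*} [Field F]

local notation "V" => (Fin m ⊕ Fin m → F)
local notation "Mat" => Matrix (Fin m ⊕ Fin m) (Fin m ⊕ Fin m) F
local notation "β" => Cfsg.Agent.H2.sympBilin m F

/-- The symplectic element `y ↦ y + c (f(y,z) x + f(y,x) z)` for orthogonal `x`, `z`. -/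
def spX (x z : Fin m ⊕ Fin m → F) (c : F) : GL (Fin m ⊕ Fin m) F :=
  spTrans (x + z) c * spTrans x (-c) * spTrans z (-c)

theorem spX_mem (x z : V) (c : F) : spX x z c ∈ Cfsg.spGL m F :=
  mul_mem (mul_mem (spTrans_mem _ _) (spTrans_mem _ _)) (spTrans_mem _ _)

theorem spX_mulVec {x z : V} (h : β x z = 0) (c : F) (y : V) :
    (spX x z c : Mat) *ᵥ y = y + c • (β y z • x + β y x • z) := by
  simp only [spX, Units.val_mul, ← Matrix.mulVec_mulVec, spTrans_mulVec, map_add, map_smul, LinearMap.add_apply,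
    LinearMap.smul_apply, smul_eq_mul, beta_self, h, beta_swap x z, neg_zero, mul_zero, add_zero, smul_add]
  module

theorem conj_spX {g : GL (Fin m ⊕ Fin m) F} (hg : g ∈ Cfsg.spGL m F) (x z : V) (c : F) :
    g * spX x z c * g⁻¹ = spX ((g : Mat) *ᵥ x) ((g : Mat) *ᵥ z) c := by
  rw [spX, spX, ← Matrix.mulVec_add, ← conj_spTrans hg, ← conj_spTrans hg, ← conj_spTrans hg]
  group

theorem spX_inv {x z : V} (h : β x z = 0) (c : F) : (spX x z c)⁻¹ = spX x z (-c) := by
  refine inv_eq_of_mul_eq_one_right (gl_ext fun y => ?_)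
  have h' : β z x = 0 := by rw [beta_swap x z, h, neg_zero]
  simp only [Units.val_mul, ← Matrix.mulVec_mulVec, spX_mulVec h, map_add, map_smul, LinearMap.add_apply,
    LinearMap.smul_apply, smul_eq_mul, beta_self, h, h', mul_zero, add_zero, Units.val_one, Matrix.one_mulVec]
  module

theorem spX_comm_sym {x z : V} (h : β x z = 0) (c : F) : spX x z c = spX z x c :=
  gl_ext fun y => by
    rw [spX_mulVec h, spX_mulVec (by rw [beta_swap x z, h, neg_zero])]; module

/-- The commutator of two elements with a single non-orthogonal pair of parameters. -/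
theorem spX_commutator {x z p r : V} (hxz : β x z = 0) (hpr : β p r = 0) (hxp : β x p = 0) (hxr : β x r = 0)
    (hzr : β z r = 0) (c d : F) :
    spX x z c * spX p r d * (spX x z c)⁻¹ * (spX p r d)⁻¹ = spX x r (c * d * β p z) := by
  rw [spX_inv hxz, spX_inv hpr]
  refine gl_ext fun y => ?_
  have h1 : β z x = 0 := by rw [beta_swap x z, hxz, neg_zero]
  have h2 : β r p = 0 := by rw [beta_swap p r, hpr, neg_zero]
  have h3 : β p x = 0 := by rw [beta_swap x p, hxp, neg_zero]
  have h4 : β r x = 0 := by rw [beta_swap x r, hxr, neg_zero]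
  have h5 : β r z = 0 := by rw [beta_swap z r, hzr, neg_zero]
  simp only [Units.val_mul, ← Matrix.mulVec_mulVec, spX_mulVec hxz, spX_mulVec hpr, spX_mulVec hxr, map_add,
    map_smul, LinearMap.add_apply, LinearMap.smul_apply, smul_eq_mul, beta_self, hxz, hpr, hxp, hxr, hzr,
    h1, h2, h3, h4, h5, beta_swap p z, mul_zero, add_zero, zero_add]
  module

/-- Elements given by one vector in each member stabilise the pair. -/
theorem spX_stab {D : Fin 2 → Submodule F (Fin m ⊕ Fin m → F)} (hts : ∀ i, ∀ u ∈ D i, ∀ v ∈ D i, β u v = 0)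
    {i j : Fin 2} (hij : i ≠ j) {x z : V} (hx : x ∈ D i) (hz : z ∈ D j) (h : β x z = 0) (c : F) :
    spX x z c ∈ Cfsg.Geo.decompositionStabilizer D ⊓ Cfsg.spGL m F := by
  refine ⟨stab_of_members fun l w hw => ?_, spX_mem x z c⟩
  rw [spX_mulVec h]
  by_cases hl : l = i
  · subst hl
    rw [hts l w hw x hx, zero_smul, add_zero]
    exact add_mem hw ((D l).smul_mem _ ((D l).smul_mem _ hx))
  · have hlj : l = j := by omega
    subst hlj
    rw [hts l w hw z hz, zero_smul, zero_add]
    exact add_mem hw ((D l).smul_mem _ ((D l).smul_mem _ hz))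

/-- Functionals on one member come from the other. -/
theorem pair_surj {D : Fin 2 → Submodule F (Fin m ⊕ Fin m → F)} (hD : ∀ (i j : Fin 2), i ≠ j → IsCompl (D i) (D j))
    (hts : ∀ i, ∀ u ∈ D i, ∀ v ∈ D i, β u v = 0) (hdim : ∀ i, Module.finrank F (D i) = m) {i j : Fin 2}
    (hij : i ≠ j) (φ : D j →ₗ[F] F) : ∃ z ∈ D i, ∀ w : D j, β z (w : V) = φ w := by
  let L : D i →ₗ[F] (D j →ₗ[F] F) := (β).compl₁₂ (D i).subtype (D j).subtype
  have hinj : Function.Injective L := by
    rw [injective_iff_map_eq_zero]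
    intro z hz
    refine Subtype.ext ((Cfsg.Agent.H2.sympBilin_nondegenerate m F).1 (z : V) fun v => ?_)
    obtain ⟨a, ha, b, hb, rfl⟩ := Submodule.mem_sup.mp ((hD i j hij).sup_eq_top.ge (Submodule.mem_top (x := v)))
    rw [map_add, hts i _ z.2 a ha, zero_add]
    exact LinearMap.congr_fun hz ⟨b, hb⟩
  have hfr : Module.finrank F (D i) = Module.finrank F (D j →ₗ[F] F) := by
    rw [hdim i]; exact (Subspace.dual_finrank_eq.trans (hdim j)).symm
  obtain ⟨z, hz⟩ := (LinearMap.injective_iff_surjective_of_finrank_eq_finrank hfr).mp hinj φ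
  exact ⟨z, z.2, fun w => LinearMap.congr_fun hz w⟩

/-- An element exchanging the members of a pair of complementary Lagrangians. -/
theorem exists_pair_swap {D : Fin 2 → Submodule F (Fin m ⊕ Fin m → F)}
    (hD : Cfsg.Geo.IsMDecomposition m D) (hts : ∀ i, ∀ u ∈ D i, ∀ v ∈ D i, β u v = 0) :
    ∃ s ∈ Cfsg.Geo.decompositionStabilizer D ⊓ Cfsg.spGL m F, ∀ i, ∀ v ∈ D i, (s : Mat) *ᵥ v ∈ D (Equiv.swap 0 1 i) := by
  classical
  have hc : ∀ (i j : Fin 2), i ≠ j → IsCompl (D i) (D j) := fun i j hij => by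
    have h := mdec_isCompl hD i
    have : (⨆ (l) (_ : l ≠ i), D l) = D j := by
      refine le_antisymm (iSup₂_le fun l hl => ?_) (le_iSup₂_of_le j hij.symm le_rfl)
      rw [show l = j by omega]
    rwa [this] at h
  let e := Module.finBasisOfFinrankEq F (D 0) (hD.finrank_eq 0)
  choose f hf hef using fun i : Fin m => pair_surj hc hts hD.finrank_eq (i := 1) (j := 0) (by decide) (e.coord i)
  let x : Fin m ⊕ Fin m → V := Sum.elim (fun i => (e i : V)) f
  let y : Fin m ⊕ Fin m → V := Sum.elim f (fun i => -(e i : V))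
  have hef' : ∀ i j, β (f i) (e j : V) = if j = i then 1 else 0 := fun i j => by
    rw [hef i (e j), Module.Basis.coord_apply, Module.Basis.repr_self, Finsupp.single_apply]
  have hfe : ∀ i j, β (e j : V) (f i) = -(if j = i then 1 else 0) := fun i j => by rw [beta_swap (f i), hef']
  have hlin : LinearIndependent F x := by
    refine Fintype.linearIndependent_iff.mpr fun a ha => ?_
    rw [Fintype.sum_sum_type] at ha
    rintro (i | i)
    · have := congrArg (β (f i)) ha
      simp only [x, Sum.elim_inl, Sum.elim_inr, map_add, map_sum, map_smul, hef', hts 1 _ (hf i) _ (hf _),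
        smul_eq_mul, mul_ite, mul_one, mul_zero, Finset.sum_ite_eq', Finset.mem_univ, if_true,
        Finset.sum_const_zero, add_zero, map_zero] at this
      exact this
    · have := congrArg (β (e i : V)) ha
      simp only [x, Sum.elim_inl, Sum.elim_inr, map_add, map_sum, map_smul, hfe, hts 0 _ (e i).2 _ (e _).2,
        smul_eq_mul, mul_neg, mul_ite, mul_one, mul_zero, Finset.sum_neg_distrib, Finset.sum_ite_eq,
        Finset.mem_univ, if_true, Finset.sum_const_zero, zero_add, map_zero, neg_eq_zero] at this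
      exact this
  have hgram : ∀ a b, β (y a) (y b) = β (x a) (x b) := by
    rintro (a | a) (b | b) <;>
      simp only [x, y, Sum.elim_inl, Sum.elim_inr, map_neg, LinearMap.neg_apply, neg_neg, hef', hfe,
        hts 1 _ (hf a) _ (hf b), hts 0 _ (e a).2 _ (e b).2, neg_zero, eq_comm (a := a) (b := b)]
  have hlin' : LinearIndependent F y := by
    refine Fintype.linearIndependent_iff.mpr fun a ha => ?_
    rw [Fintype.sum_sum_type] at ha
    rintro (i | i)
    · have := congrArg (β (e i : V)) ha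
      simp only [y, Sum.elim_inl, Sum.elim_inr, map_add, map_sum, map_smul, map_neg, hfe,
        hts 0 _ (e i).2 _ (e _).2, smul_eq_mul, mul_neg, mul_ite, mul_one, mul_zero, neg_zero,
        Finset.sum_neg_distrib, Finset.sum_ite_eq, Finset.mem_univ, if_true, Finset.sum_const_zero, add_zero,
        map_zero, neg_eq_zero] at this
      exact this
    · have := congrArg (β (f i)) ha
      simp only [y, Sum.elim_inl, Sum.elim_inr, map_add, map_sum, map_smul, map_neg, hef',
        hts 1 _ (hf i) _ (hf _), smul_eq_mul, mul_neg, mul_ite, mul_one, mul_zero, Finset.sum_neg_distrib,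
        Finset.sum_ite_eq', Finset.mem_univ, if_true, Finset.sum_const_zero, zero_add, map_zero,
        neg_eq_zero] at this
      exact this
  let σ := (finSumFinEquiv (m := m) (n := m)).symm
  obtain ⟨g, hg⟩ := Cfsg.Agent.H2.exists_map_tuple (x ∘ σ) (y ∘ σ) (hlin.comp _ σ.injective)
    (hlin'.comp _ σ.injective) (fun a b => by
      rw [← Cfsg.Agent.H2.sympBilin_apply, ← Cfsg.Agent.H2.sympBilin_apply]; exact (hgram _ _).symm)
  have hg' : ∀ a, (g : Mat) *ᵥ x a = y a := fun a => by simpa using hg (σ.symm a)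
  let L := Matrix.mulVecLin (g : Mat)
  have hinj : Function.Injective L := by
    intro a b hab
    refine sub_eq_zero.mp ((Cfsg.Agent.H2.sympBilin_nondegenerate m F).1 _ fun v => ?_)
    have h0 : (g : Mat) *ᵥ (a - b) = 0 := by rw [Matrix.mulVec_sub]; exact sub_eq_zero.mpr hab
    rw [Cfsg.Agent.H2.sympBilin_apply, ← Cfsg.Agent.H2.sympForm_mulVec g, h0, ← Cfsg.Agent.H2.sympBilin_apply,
      map_zero, LinearMap.zero_apply]
  let G := glOfEquiv (LinearEquiv.ofInjectiveEndo L hinj)
  have hG : ∀ v, (G : Mat) *ᵥ v = (g : Mat) *ᵥ v := fun v => by simp [G, L]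
  have hGsp : G ∈ Cfsg.spGL m F := mem_spGL.mpr fun u v => by
    rw [hG, hG, Cfsg.Agent.H2.sympBilin_apply, Cfsg.Agent.H2.sympBilin_apply, Cfsg.Agent.H2.sympForm_mulVec g]
  have h0 : ∀ v ∈ D 0, (G : Mat) *ᵥ v ∈ D 1 := by
    intro v hv
    rw [← show ((⟨v, hv⟩ : D 0) : V) = v from rfl, ← e.sum_repr ⟨v, hv⟩, Submodule.coe_sum, Matrix.mulVec_sum]
    refine Submodule.sum_mem _ fun i _ => ?_
    rw [Submodule.coe_smul, Matrix.mulVec_smul, hG, show (g : Mat) *ᵥ (e i : V) = f i from hg' (Sum.inl i)]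
    exact (D 1).smul_mem _ (hf i)
  have h1 : ∀ v ∈ D 1, (G : Mat) *ᵥ v ∈ D 0 := by
    intro v hv
    have hv' : v = ∑ i, β v (e i : V) • f i := by
      refine sub_eq_zero.mp ((Cfsg.Agent.H2.sympBilin_nondegenerate m F).1 _ fun w => ?_)
      obtain ⟨a, ha, b, hb, rfl⟩ := Submodule.mem_sup.mp ((hc 0 1 (by decide)).sup_eq_top.ge (Submodule.mem_top (x := w)))
      rw [map_add, hts 1 _ (sub_mem hv (Submodule.sum_mem _ fun i _ => (D 1).smul_mem _ (hf i))) b hb, add_zero]
      rw [← show ((⟨a, ha⟩ : D 0) : V) = a from rfl, ← e.sum_repr ⟨a, ha⟩]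
      simp only [Submodule.coe_sum, Submodule.coe_smul, map_sum, map_smul, map_sub, LinearMap.sub_apply,
        LinearMap.sum_apply, LinearMap.smul_apply, hef', smul_eq_mul, mul_ite, mul_one, mul_zero,
        Finset.sum_ite_eq, Finset.mem_univ, if_true, sub_self, Finset.sum_const_zero]
    rw [hv', Matrix.mulVec_sum]
    refine Submodule.sum_mem _ fun i _ => ?_
    rw [Matrix.mulVec_smul, hG, show (g : Mat) *ᵥ f i = -(e i : V) from hg' (Sum.inr i)]
    exact (D 0).smul_mem _ (neg_mem (e i).2)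
  have hall : ∀ i, ∀ v ∈ D i, (G : Mat) *ᵥ v ∈ D (Equiv.swap 0 1 i) := fun i v hv => by
    fin_cases i <;> simp only [Fin.zero_eta, Fin.mk_one, Equiv.swap_apply_left, Equiv.swap_apply_right]
    · exact h0 v hv
    · exact h1 v hv
  refine ⟨G, ⟨⟨Equiv.swap 0 1, fun i => Submodule.eq_of_le_of_finrank_eq ?_ ?_⟩, hGsp⟩, hall⟩
  · rintro _ ⟨v, hv, rfl⟩
    rw [Matrix.toLin'_apply]; exact hall i v hv
  · rw [← (Submodule.equivMapOfInjective (Matrix.toLin' (G : Mat)) (fun a b hab => gl_mulVec_injective G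
      (by simpa using hab)) (D i)).finrank_eq, hD.finrank_eq, hD.finrank_eq]

/-- For odd `q` stabilisers of pairs of complementary Lagrangians are maximal. -/
theorem sp_pair_maximal {D : Fin 2 → Submodule F (Fin m ⊕ Fin m → F)} (hm : 3 ≤ m) (h2 : (2 : F) ≠ 0)
    (hD : Cfsg.Geo.IsMDecomposition m D) (hts : ∀ i, ∀ u ∈ D i, ∀ v ∈ D i, β u v = 0) :
    Cfsg.Geo.IsMaximalIn (Cfsg.spGL m F) (Cfsg.Geo.decompositionStabilizer D ⊓ Cfsg.spGL m F) := by
  classical
  have hc : ∀ (i j : Fin 2), i ≠ j → IsCompl (D i) (D j) := fun i j hij => by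
    have h := mdec_isCompl hD i
    have : (⨆ (l) (_ : l ≠ i), D l) = D j := by
      refine le_antisymm (iSup₂_le fun l hl => ?_) (le_iSup₂_of_le j hij.symm le_rfl)
      rw [show l = j by omega]
    rwa [this] at h
  have hsum : ∀ {i j : Fin 2}, i ≠ j → ∀ v, comp hD i v + comp hD j v = v := by
    intro i j hij v
    conv_rhs => rw [← sum_comp hD v, Fin.sum_univ_two]
    fin_cases i <;> fin_cases j <;> first | exact absurd rfl hij | exact add_comm _ _ | rfl
  have hbc : ∀ {i j : Fin 2}, i ≠ j → ∀ x ∈ D i, ∀ v, β x v = β x (comp hD j v) := by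
    intro i j hij x hx v
    conv_lhs => rw [← hsum hij v, map_add, hts i x hx _ (comp_mem hD i v), zero_add]
  have hne0 : ∀ i, ∃ w ∈ D i, w ≠ (0 : V) := fun i => Submodule.exists_mem_ne_zero_of_ne_bot (p := D i) (by
    intro h; have := hD.finrank_eq i; rw [h, finrank_bot] at this; exact hD.pos.ne this)
  have hnd : ∀ {i j : Fin 2}, i ≠ j → ∀ u ∈ D i, (∀ w ∈ D j, β u w = 0) → u = 0 := fun {i j} hij u hu h =>
    (Cfsg.Agent.H2.sympBilin_nondegenerate m F).1 u fun v => by rw [hbc hij u hu]; exact h _ (comp_mem hD j v)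
  -- subspaces avoided
  have hfind : ∀ {i j : Fin 2}, i ≠ j → ∀ (p : V) (S : Submodule F (D j)), (∀ hp : p ∈ D j, (⟨p, hp⟩ : D j) ∉ S) →
      p ∈ D j → ∃ z ∈ D i, β z p = 1 ∧ ∀ w : D j, w ∈ S → β z (w : V) = 0 := by
    intro i j hij p S hS hp
    obtain ⟨φ, h1, h2'⟩ := Submodule.exists_dual_map_eq_bot_of_notMem (hS hp) inferInstance
    obtain ⟨z, hz, hzw⟩ := pair_surj hc hts hD.finrank_eq hij ((φ ⟨p, hp⟩)⁻¹ • φ)
    refine ⟨z, hz, ?_, fun w hw => ?_⟩
    · rw [hzw ⟨p, hp⟩, LinearMap.smul_apply, smul_eq_mul, inv_mul_cancel₀ h1]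
    · rw [hzw w, LinearMap.smul_apply, show φ w = 0 by
        rw [← Submodule.mem_bot (R := F), ← h2']; exact Submodule.mem_map_of_mem hw, smul_zero]
  refine isMaximalIn_of inf_le_right ?_ ?_
  · obtain ⟨u, hu, hu0⟩ := hne0 0
    obtain ⟨w, hw, hwu⟩ : ∃ w ∈ D 1, β u w ≠ 0 := by
      by_contra h; push Not at h; exact hu0 (hnd (by decide) u hu h)
    refine ⟨spTrans u 1, spTrans_mem _ _, fun h => ?_⟩
    refine not_stab_of_spread hD hw (a := 0) (b := 1) (by decide) ?_ ?_ h.1
    · rw [spTrans_mulVec, map_add, map_smul, comp_other hD (by decide) hw, comp_same hD hu, zero_add, one_mul,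
        beta_swap u w]
      exact smul_ne_zero (neg_ne_zero.mpr hwu) hu0
    · rw [spTrans_mulVec, map_add, map_smul, comp_same hD hw, comp_other hD (by decide) hu, smul_zero, add_zero]
      intro h
      exact hwu (by rw [h, map_zero])
  intro M hHM hMK g hg hgH
  let C : Set V := {v | ∀ c, spTrans v c ∈ M}
  have hCconj : ∀ h ∈ M, ∀ v ∈ C, (h : Mat) *ᵥ v ∈ C := by
    intro h hh v hv c
    rw [← conj_spTrans (hMK hh)]
    exact M.mul_mem (M.mul_mem hh (hv c)) (M.inv_mem hh)
  have hCsmul : ∀ v ∈ C, ∀ a : F, a • v ∈ C := fun v hv a c => by rw [spTrans_smul]; exact hv _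
  -- step 1: a mixed element
  obtain ⟨i₀, z₀, hz₀, a, b, hab, ha, hb⟩ := exists_spread hD (fun h => hgH ⟨h, hMK hg⟩)
  set p := (g : Mat) *ᵥ z₀
  have hp : ∀ i, comp hD i p ≠ 0 := fun i => by
    rcases (show i = a ∨ i = b by omega) with rfl | rfl <;> assumption
  obtain ⟨j₀, hij₀⟩ : ∃ j : Fin 2, i₀ ≠ j := exists_ne i₀ |>.imp fun _ h => h.symm
  let Z : Submodule F V := D j₀ ⊓ LinearMap.ker (β z₀)
  let T : Fin 2 → (Z →ₗ[F] V) := fun i => comp hD i ∘ₗ Matrix.mulVecLin (g : Mat) ∘ₗ Z.subtype
  have hZ : m ≤ Module.finrank F Z + 1 := by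
    have h1 := Submodule.finrank_sup_add_finrank_inf_eq (D j₀) (LinearMap.ker (β z₀))
    have h2' := (β z₀).finrank_range_add_finrank_ker
    have h3 := Submodule.finrank_le (D j₀ ⊔ LinearMap.ker (β z₀))
    have h4 := Submodule.finrank_le (LinearMap.range (β z₀))
    have h5 : Module.finrank F V = m + m := by rw [Module.finrank_pi]; simp
    rw [Module.finrank_self] at h4
    rw [hD.finrank_eq] at h1
    change m ≤ Module.finrank F ↥(D j₀ ⊓ LinearMap.ker (β z₀)) + 1
    omega
  obtain ⟨i, x₀, hx₀, hr⟩ : ∃ i, ∃ x₀ : V, x₀ ∈ Z ∧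
      comp hD i ((g : Mat) *ᵥ x₀) ∉ Submodule.span F {comp hD i p} := by
    by_contra hcon
    push Not at hcon
    have hle : (Z ⊔ Submodule.span F {z₀}).map (Matrix.mulVecLin (g : Mat)) ≤
        Submodule.span F {comp hD 0 p, comp hD 1 p} := by
      rw [Submodule.map_le_iff_le_comap, sup_le_iff, Submodule.span_le, Set.singleton_subset_iff]
      refine ⟨fun x hx => ?_, ?_⟩ <;>
        simp only [SetLike.mem_coe, Submodule.mem_comap, Matrix.mulVecLin_apply] <;>
        rw [← hsum (show (0 : Fin 2) ≠ 1 by decide) ((g : Mat) *ᵥ _)]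
      · obtain ⟨a0, ha0⟩ := Submodule.mem_span_singleton.mp (hcon 0 x hx)
        obtain ⟨a1, ha1⟩ := Submodule.mem_span_singleton.mp (hcon 1 x hx)
        rw [← ha0, ← ha1]
        exact add_mem (Submodule.smul_mem _ _ (Submodule.subset_span (by simp)))
          (Submodule.smul_mem _ _ (Submodule.subset_span (by simp)))
      · exact add_mem (Submodule.subset_span (by simp [p])) (Submodule.subset_span (by simp [p]))
    have h0 := (Submodule.equivMapOfInjective (Matrix.mulVecLin (g : Mat))
      (fun u v h => gl_mulVec_injective g h) (Z ⊔ Submodule.span F {z₀})).finrank_eq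
    have hz0 : z₀ ≠ 0 := fun h => hp 0 (by simp [p, h])
    have h1 : Z ⊓ Submodule.span F {z₀} = ⊥ := by
      rw [Submodule.eq_bot_iff]
      rintro x ⟨hxZ, hxs⟩
      obtain ⟨t, rfl⟩ := Submodule.mem_span_singleton.mp hxs
      exact (Submodule.mem_bot F).mp ((hc i₀ j₀ hij₀).disjoint.le_bot ⟨(D i₀).smul_mem t hz₀, hxZ.1⟩)
    have h2' := Submodule.finrank_sup_add_finrank_inf_eq Z (Submodule.span F {z₀})
    rw [h1, finrank_bot, finrank_span_singleton hz0] at h2'
    have h3 := Submodule.finrank_mono hle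
    have h4 : Module.finrank F (Submodule.span F {comp hD 0 p, comp hD 1 p}) ≤ 2 := by
      calc Module.finrank F (Submodule.span F {comp hD 0 p, comp hD 1 p})
          = Module.finrank F (Submodule.span F (({comp hD 0 p, comp hD 1 p} : Finset V) : Set V)) := by
            rw [Finset.coe_pair]
        _ ≤ ({comp hD 0 p, comp hD 1 p} : Finset V).card := finrank_span_finset_le_card _
        _ ≤ 2 := Finset.card_le_two
    omega
  set r := (g : Mat) *ᵥ x₀
  have hpr : β p r = 0 := by rw [mem_spGL.mp (hMK hg)]; exact hx₀.2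
  have hri : comp hD i r ≠ 0 := fun h => hr (h ▸ zero_mem _)
  obtain ⟨j, hji⟩ := exists_ne i
  -- choose `x ∈ D i` orthogonal to `p` and `r`
  let K₂ : Submodule F V := D i ⊓ (LinearMap.ker ((β).flip p) ⊓ LinearMap.ker ((β).flip r))
  obtain ⟨x, hxK, hx0⟩ : ∃ x ∈ K₂, x ≠ 0 := by
    refine Submodule.exists_mem_ne_zero_of_ne_bot fun hK => ?_
    have h5 : Module.finrank F V = m + m := by rw [Module.finrank_pi]; simp
    have hker : ∀ w : V, m + m ≤ Module.finrank F (LinearMap.ker ((β).flip w)) + 1 := fun w => by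
      have := ((β).flip w).finrank_range_add_finrank_ker
      have := Submodule.finrank_le (LinearMap.range ((β).flip w))
      rw [Module.finrank_self] at this
      omega
    have a1 := Submodule.finrank_sup_add_finrank_inf_eq (LinearMap.ker ((β).flip p)) (LinearMap.ker ((β).flip r))
    have a2 := Submodule.finrank_le (LinearMap.ker ((β).flip p) ⊔ LinearMap.ker ((β).flip r))
    have a3 := Submodule.finrank_sup_add_finrank_inf_eq (D i) (LinearMap.ker ((β).flip p) ⊓ LinearMap.ker ((β).flip r))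
    have a4 := Submodule.finrank_le (D i ⊔ (LinearMap.ker ((β).flip p) ⊓ LinearMap.ker ((β).flip r)))
    rw [hD.finrank_eq, show D i ⊓ (LinearMap.ker ((β).flip p) ⊓ LinearMap.ker ((β).flip r)) = ⊥ from hK,
      finrank_bot] at a3
    have := hker p
    have := hker r
    omega
  have hxi : x ∈ D i := hxK.1
  have hxp : β x p = 0 := hxK.2.1
  have hxr : β x r = 0 := hxK.2.2
  have hgX : ∀ d, spX p r d ∈ M := fun d => by
    have h0 : β z₀ x₀ = 0 := hx₀.2
    rw [← conj_spX (hMK hg)]
    exact M.mul_mem (M.mul_mem hg (hHM (spX_stab hts hij₀ hz₀ hx₀.1 h0 d))) (M.inv_mem hg)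
  -- transvection from a mixed element at `x`
  have hfin : ∀ w : V, comp hD i w ∉ Submodule.span F {x} → β x w = 0 →
      (∀ c, ∃ k, spX x w c * spTrans x k ∈ M) → x ∈ C := by
    intro w hwx hxw hwM c
    obtain ⟨z', hz', hz'1, hz'2⟩ := hfind hji (comp hD i w) ((Submodule.span F {x}).comap (D i).subtype)
      (fun _ hmem => hwx hmem) (comp_mem hD i w)
    have hxz' : β x z' = 0 := by
      rw [beta_swap z' x, hz'2 ⟨x, hxi⟩ (Submodule.mem_span_singleton_self x), neg_zero]
    have hwz' : β w z' = -1 := by rw [beta_swap z' w, hbc hji z' hz' w, hz'1]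
    have hwx' : β w x = 0 := by rw [beta_swap x w, hxw, neg_zero]
    obtain ⟨k, hk⟩ := hwM (-c / 2)
    have hmem := hHM (spX_stab hts hji.symm hxi hz' hxz' 1)
    have hxx : (spX x z' 1 : Mat) *ᵥ x = x := by
      rw [spX_mulVec hxz', hxz', beta_self, zero_smul, zero_smul, add_zero, smul_zero, add_zero]
    have h := M.mul_mem (M.mul_mem (M.mul_mem hmem hk) (M.inv_mem hmem)) (M.inv_mem hk)
    have e : spX x z' 1 * (spX x w (-c / 2) * spTrans x k) * (spX x z' 1)⁻¹ * (spX x w (-c / 2) * spTrans x k)⁻¹ =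
        spX x z' 1 * spX x w (-c / 2) * (spX x z' 1)⁻¹ * (spX x w (-c / 2))⁻¹ := by
      have e' : spX x z' 1 * spTrans x k * (spX x z' 1)⁻¹ = spTrans x k := by
        rw [conj_spTrans (spX_mem x z' 1), hxx]
      calc spX x z' 1 * (spX x w (-c / 2) * spTrans x k) * (spX x z' 1)⁻¹ * (spX x w (-c / 2) * spTrans x k)⁻¹
          = spX x z' 1 * spX x w (-c / 2) * (spX x z' 1)⁻¹ * (spX x z' 1 * spTrans x k * (spX x z' 1)⁻¹) *
            (spTrans x k)⁻¹ * (spX x w (-c / 2))⁻¹ := by group
        _ = _ := by rw [e']; group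
    rw [e, conj_spX (spX_mem x z' 1), hxx, spX_mulVec hxz', hwz', hwx', spX_inv hxw] at h
    convert h using 1
    simp only [zero_smul, add_zero, one_smul]
    refine gl_ext fun y => ?_
    have hxw' : β x (w + (-1 : F) • x) = 0 := by
      rw [map_add, map_smul, hxw, beta_self, smul_zero, add_zero]
    simp only [Units.val_mul, ← Matrix.mulVec_mulVec, spX_mulVec hxw, spX_mulVec hxw', spTrans_mulVec,
      map_add, map_smul, LinearMap.add_apply, LinearMap.smul_apply, smul_eq_mul, beta_self, hxw, hwx',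
      mul_zero, add_zero]
    match_scalars <;> field_simp <;> ring
  have hri' : comp hD i p ∉ Submodule.span F {comp hD i r} := fun h => by
    obtain ⟨t, ht⟩ := Submodule.mem_span_singleton.mp h
    have : t ≠ 0 := fun h => hp i (by rw [← ht, h, zero_smul])
    exact hr (Submodule.mem_span_singleton.mpr ⟨t⁻¹, by rw [← ht, smul_smul, inv_mul_cancel₀ this, one_smul]⟩)
  -- one of two commuting parameters
  have hone : ∀ p r : V, β p r = 0 → β x p = 0 → β x r = 0 → (∀ d, spX p r d ∈ M) →
      comp hD i r ≠ 0 → comp hD i p ∉ Submodule.span F {comp hD i r, x} → x ∈ C := by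
    intro p r hpr hxp hxr hgX hri hps
    obtain ⟨z, hz, hz1, hz2⟩ := hfind hji (comp hD i p)
      ((Submodule.span F {comp hD i r, x}).comap (D i).subtype) (fun _ hmem => hps hmem) (comp_mem hD i p)
    have hzr : β z r = 0 := by
      rw [hbc hji z hz]; exact hz2 ⟨_, comp_mem hD i r⟩ (Submodule.subset_span (by simp))
    have hxz : β x z = 0 := by
      rw [beta_swap z x, hz2 ⟨x, hxi⟩ (Submodule.subset_span (by simp)), neg_zero]
    have hzp : β p z = -1 := by rw [beta_swap z p, hbc hji z hz p, hz1]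
    have hxrM : ∀ c, spX x r c ∈ M := fun c => by
      have hmem := hHM (spX_stab hts hji.symm hxi hz hxz (-c))
      have := M.mul_mem (M.mul_mem (M.mul_mem hmem (hgX 1)) (M.inv_mem hmem)) (M.inv_mem (hgX 1))
      rw [spX_commutator hxz hpr hxp hxr hzr, hzp, mul_one, neg_mul_neg, mul_one] at this
      exact this
    by_cases hrx : comp hD i r ∈ Submodule.span F {x}
    · obtain ⟨t, ht⟩ := Submodule.mem_span_singleton.mp hrx
      have ht0 : t ≠ 0 := fun h => hri (by rw [← ht, h, zero_smul])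
      obtain ⟨rj, hrj, rfl⟩ : ∃ rj ∈ D j, r = t • x + rj :=
        ⟨comp hD j r, comp_mem hD j r, by rw [ht, hsum hji.symm]⟩
      have hxrj : β x rj = 0 := by
        rwa [map_add, map_smul, beta_self, smul_zero, zero_add] at hxr
      have he : β rj x = 0 := by rw [beta_swap x rj, hxrj, neg_zero]
      intro c
      have h := M.mul_mem (M.inv_mem (hHM (spX_stab hts hji.symm hxi hrj hxrj (c / (2 * t)))))
        (hxrM (c / (2 * t)))
      convert h using 1
      rw [eq_inv_mul_iff_mul_eq]
      refine gl_ext fun y => ?_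
      simp only [Units.val_mul, ← Matrix.mulVec_mulVec, spX_mulVec hxrj, spX_mulVec hxr, spTrans_mulVec,
        map_add, map_smul, LinearMap.add_apply, LinearMap.smul_apply, smul_eq_mul, beta_self, hxrj, he, mul_zero,
        add_zero]
      match_scalars <;> field_simp <;> ring
    · exact hfin r hrx hxr fun c => ⟨0, by
        rw [show spTrans x (0 : F) = 1 from gl_ext fun y => by simp [spTrans_mulVec], mul_one]; exact hxrM c⟩
  have hxC : x ∈ C := by
    by_cases hxS : x ∈ Submodule.span F {comp hD i p, comp hD i r}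
    swap
    · refine hone p r hpr hxp hxr hgX hri fun hmem => ?_
      obtain ⟨a', b', hab'⟩ := Submodule.mem_span_pair.mp hmem
      have hb' : b' ≠ 0 := fun h => hri' (Submodule.mem_span_singleton.mpr ⟨a', by
        rw [← hab', h, zero_smul, add_zero]⟩)
      refine hxS (Submodule.mem_span_pair.mpr ⟨b'⁻¹, -(b'⁻¹ * a'), ?_⟩)
      rw [← hab']; match_scalars <;> field_simp <;> ring
    obtain ⟨a', b', hab'⟩ := Submodule.mem_span_pair.mp hxS
    by_cases ha' : a' = 0
    · rw [ha', zero_smul, zero_add] at hab'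
      refine hone p r hpr hxp hxr hgX hri fun hmem => hri' ?_
      refine (show Submodule.span F {comp hD i r, x} ≤ _ from Submodule.span_le.mpr ?_) hmem
      rintro _ (rfl | rfl)
      · exact Submodule.mem_span_singleton_self _
      · exact Submodule.mem_span_singleton.mpr ⟨b', hab'⟩
    by_cases hb' : b' = 0
    · rw [hb', zero_smul, add_zero] at hab'
      refine hone r p (by rw [beta_swap p r, hpr, neg_zero]) hxr hxp
        (fun d => by rw [← spX_comm_sym hpr]; exact hgX d) (hp i) fun hmem => hr ?_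
      refine (show Submodule.span F {comp hD i p, x} ≤ _ from Submodule.span_le.mpr ?_) hmem
      rintro _ (rfl | rfl)
      · exact Submodule.mem_span_singleton_self _
      · exact Submodule.mem_span_singleton.mpr ⟨a', hab'⟩
    -- both occur
    obtain ⟨z₁, hz₁, hz₁1, hz₁2⟩ := hfind hji (comp hD i p)
      ((Submodule.span F {comp hD i r}).comap (D i).subtype) (fun _ hmem => hri' hmem) (comp_mem hD i p)
    obtain ⟨z₂, hz₂, hz₂1, hz₂2⟩ := hfind hji (comp hD i r)
      ((Submodule.span F {comp hD i p}).comap (D i).subtype) (fun _ hmem => hr hmem) (comp_mem hD i r)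
    set z := b' • z₁ - a' • z₂
    have hz : z ∈ D j := sub_mem ((D j).smul_mem _ hz₁) ((D j).smul_mem _ hz₂)
    have e1 : β z₁ (comp hD i r) = 0 := hz₁2 ⟨_, comp_mem hD i r⟩ (Submodule.mem_span_singleton_self _)
    have e2 : β z₂ (comp hD i p) = 0 := hz₂2 ⟨_, comp_mem hD i p⟩ (Submodule.mem_span_singleton_self _)
    have hzp : β z p = b' := by
      rw [hbc hji z hz p]; simp [z, hz₁1, e2]
    have hzr : β z r = -a' := by
      rw [hbc hji z hz r]; simp [z, hz₂1, e1]
    have hzx : β z x = 0 := by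
      rw [← hab', map_add, map_smul, map_smul, ← hbc hji z hz, ← hbc hji z hz, hzp, hzr, smul_eq_mul, smul_eq_mul]
      ring
    have hxz : β x z = 0 := by rw [beta_swap z x, hzx, neg_zero]
    set w := a' • p - b' • r
    have hxw : β x w = 0 := by rw [map_sub, map_smul, map_smul, hxp, hxr, smul_zero, smul_zero, sub_zero]
    refine hfin w (fun hmem => ?_) hxw fun c => ?_
    · obtain ⟨t, ht⟩ := Submodule.mem_span_singleton.mp hmem
      have ht' : (t * a' - a') • comp hD i p = -(t * b' + b') • comp hD i r := by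
        simp only [w, map_sub, map_smul, ← hab'] at ht
        linear_combination (norm := module) ht
      rcases eq_or_ne (t * b' + b') 0 with h | h
      · rw [h, neg_zero, zero_smul, smul_eq_zero] at ht'
        have h1 : t * a' - a' = 0 := ht'.resolve_right (hp i)
        have e1 : t = -1 := mul_right_cancel₀ hb' (by linear_combination h)
        exact mul_ne_zero h2 ha' (by rw [e1] at h1; linear_combination -h1)
      · refine hr (Submodule.mem_span_singleton.mpr ⟨-(t * b' + b')⁻¹ * (t * a' - a'), ?_⟩)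
        rw [mul_smul, ht', smul_smul, neg_mul_neg, inv_mul_cancel₀ h, one_smul]
    have hmem := hHM (spX_stab hts hji.symm hxi hz hxz 1)
    refine ⟨c * (-(β p z * β r z)) * (-2), ?_⟩
    have h := M.mul_mem (M.mul_mem (M.mul_mem hmem (hgX c)) (M.inv_mem hmem)) (M.inv_mem (hgX c))
    convert h using 1
    rw [conj_spX (spX_mem x z 1), spX_inv hpr]
    refine gl_ext fun y => ?_
    have hpz : β p z = -b' := by rw [beta_swap z p, hzp]
    have hrz : β r z = a' := by rw [beta_swap z r, hzr, neg_neg]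
    have hpx : β p x = 0 := by rw [beta_swap x p, hxp, neg_zero]
    have hrx : β r x = 0 := by rw [beta_swap x r, hxr, neg_zero]
    have hrp : β r p = 0 := by rw [beta_swap p r, hpr, neg_zero]
    rw [spX_mulVec hxz, spX_mulVec hxz, hpz, hrz, hpx, hrx]
    have h' : β (p + (1 : F) • (-b' • x + (0 : F) • z)) (r + (1 : F) • (a' • x + (0 : F) • z)) = 0 := by
      simp only [map_add, map_smul, LinearMap.add_apply, LinearMap.smul_apply, hpr, hpx, hxr, beta_self,
        smul_eq_mul, mul_zero, zero_mul, add_zero]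
    simp only [Units.val_mul, ← Matrix.mulVec_mulVec]
    rw [spX_mulVec h', spX_mulVec hpr, spX_mulVec hxw, spTrans_mulVec]
    simp only [w, map_add, map_sub, map_neg, map_smul, LinearMap.add_apply, LinearMap.sub_apply,
      LinearMap.neg_apply, LinearMap.smul_apply, smul_eq_mul, beta_self, hxp, hxr, hpx, hrx, hpr, hrp, zero_smul,
      mul_zero, add_zero, one_smul]
    match_scalars <;> ring
  -- the members are covered
  have hmove : ∀ (i j : Fin 2), i ≠ j → ∀ u ∈ D i, ∀ u' ∈ D i, u ≠ 0 → u' ∉ Submodule.span F {u} →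
      ∀ y : V, ∃ h ∈ Cfsg.Geo.decompositionStabilizer D ⊓ Cfsg.spGL m F, (h : Mat) *ᵥ u = u' ∧
        comp hD i ((h : Mat) *ᵥ y) - comp hD i y ∈ Submodule.span F {u' - u} := by
    intro i j hij u hu u' hu' hu0 hne y
    obtain ⟨w, hw, hw1, hw2⟩ := hfind hij.symm u ((Submodule.span F {u' - u}).comap (D i).subtype)
      (fun hu'' hmem => by
        obtain ⟨a', ha'⟩ := Submodule.mem_span_singleton.mp hmem
        have ha'' : a' • (u' - u) = u := ha'
        have : a' ≠ 0 := fun h => hu0 (by rw [← ha'', h, zero_smul])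
        refine hne (Submodule.mem_span_singleton.mpr ⟨a'⁻¹ + 1, ?_⟩)
        rw [add_smul, one_smul]
        conv_lhs => arg 1; rw [← ha'', smul_smul, inv_mul_cancel₀ this, one_smul]
        abel) hu
    have h0 : β (u' - u) w = 0 := by
      rw [beta_swap w, hw2 ⟨_, sub_mem hu' hu⟩ (Submodule.mem_span_singleton_self _), neg_zero]
    refine ⟨spX (u' - u) w (-1), spX_stab hts hij (sub_mem hu' hu) hw h0 _, ?_, ?_⟩
    · rw [spX_mulVec h0, hts i u hu _ (sub_mem hu' hu), beta_swap w u, hw1]
      module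
    · rw [spX_mulVec h0, map_add, map_smul, map_add, map_smul, map_smul, comp_same hD (sub_mem hu' hu),
        comp_other hD hij.symm hw, smul_zero, add_zero, add_sub_cancel_left, smul_smul]
      exact Submodule.smul_mem _ _ (Submodule.mem_span_singleton_self _)
  have hDi : ∀ v ∈ D i, v ∈ C := by
    intro v hv
    by_cases hvx : v ∈ Submodule.span F {x}
    · obtain ⟨a', rfl⟩ := Submodule.mem_span_singleton.mp hvx
      exact hCsmul x hxC a'
    · obtain ⟨h, hh, he, -⟩ := hmove i j hji.symm x hxi v hv hx0 hvx 0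
      exact he ▸ hCconj h (hHM hh) x hxC
  obtain ⟨s, hs, hsmap⟩ := exists_pair_swap hD hts
  have hCD : ∀ l, ∀ v ∈ D l, v ∈ C := by
    intro l v hv
    by_cases hl : l = i
    · exact hDi v (hl ▸ hv)
    · have hswap : Equiv.swap 0 1 l = i := by
        rcases (show l = 0 ∨ l = 1 by omega) with rfl | rfl <;> rcases (show i = 0 ∨ i = 1 by omega) with hi | hi <;>
          first | exact absurd hi.symm hl | (rw [hi]; first | exact Equiv.swap_apply_left _ _ | exact Equiv.swap_apply_right _ _)
      have hs2 := hsmap l v hv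
      rw [hswap] at hs2
      have := hCconj _ (M.inv_mem (hHM hs)) _ (hDi _ hs2)
      rwa [gl_inv_mulVec] at this
  have hpC : p ∈ C := hCconj g hg z₀ (hCD _ z₀ hz₀)
  -- transvections centred in the members generate everything
  have h01 : (0 : Fin 2) ≠ 1 := by decide
  refine spGL_le_of_spTrans M fun v c => (show v ∈ C from ?_) c
  set u := comp hD 0 v with hu
  set w := comp hD 1 v with hw
  have hv : v = u + w := (hsum h01 v).symm
  by_cases hu0 : u = 0
  · exact hCD 1 v (by rw [hv, hu0, zero_add]; exact comp_mem hD 1 v)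
  by_cases hw0 : w = 0
  · exact hCD 0 v (by rw [hv, hw0, add_zero]; exact comp_mem hD 0 v)
  set μ := β u w
  by_cases hμ : μ = 0
  · -- `v` is reached from a vector with non-zero value
    obtain ⟨u₁, hu₁, hu₁1, -⟩ := hfind h01 w ⊥ (fun hw' h => hw0 (congrArg Subtype.val ((Submodule.mem_bot F).mp h)))
      (comp_mem hD 1 v)
    have hmix : u₁ + w ∈ C := by
      have key := hCconj _ (hCD 0 u₁ hu₁ (-1)) w (hCD 1 w (comp_mem hD 1 v))
      rw [spTrans_mulVec, beta_swap u₁ w, hu₁1, neg_mul_neg, one_mul, one_smul, add_comm] at key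
      exact key
    have h4 := hCconj _ (hmix (-1)) (u - u₁) (hCD 0 _ (sub_mem (comp_mem hD 0 v) hu₁))
    rw [spTrans_mulVec, map_sub, LinearMap.sub_apply, map_add, map_add, hts 0 u (comp_mem hD 0 v) u₁ hu₁,
      hts 0 u₁ hu₁ u₁ hu₁, hu₁1, zero_add, zero_add, show β u w = 0 from hμ, zero_sub, neg_mul_neg, one_mul,
      one_smul] at h4
    rw [hv]
    convert h4 using 1
    abel
  · have := hCconj _ (hCD 0 u (comp_mem hD 0 v) (-μ⁻¹)) w (hCD 1 w (comp_mem hD 1 v))
    rw [spTrans_mulVec, beta_swap u w, neg_mul_neg, inv_mul_cancel₀ hμ, one_smul] at this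
    rw [hv, add_comm]; exact this

end Cfsg.Agent.H98
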