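import Cfsg.Agent.H98.SubfieldBase
import Cfsg.Agent.H98.MaximalSpPair

set_option autoImplicit false

/-!
Overgroups of the subfield subgroup of the symplectic group: rational vectors and root elements with new scalars.
-/

namespace Cfsg.Agent.H98

open scoped Matrix

variable {m : ℕ} {F : Type*} [Field F]

local notation "V" => (Fin m ⊕ Fin m → F)
local notation "Mat" => Matrix (Fin m ⊕ Fin m) (Fin m ⊕ Fin m) F
local notation "β" => Cfsg.Agent.H2.sympBilin m F

/-- First half of the standard basis. -/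
def eV (a : Fin m) : Fin m ⊕ Fin m → F := Pi.single (Sum.inl a) 1

/-- Second half of the standard basis. -/
def fV (a : Fin m) : Fin m ⊕ Fin m → F := Pi.single (Sum.inr a) 1

theorem beta_eV (a : Fin m) (v : V) : β (eV a) v = - v (.inr a) := by
  rw [Cfsg.Agent.H2.sympBilin_apply, eV, Cfsg.Agent.H2.sympForm_single_inl]

theorem beta_fV (a : Fin m) (v : V) : β (fV a) v = v (.inl a) := by
  rw [Cfsg.Agent.H2.sympBilin_apply, fV, Cfsg.Agent.H2.sympForm_single_inr]

theorem beta_eV_right (a : Fin m) (v : V) : β v (eV a) = v (.inr a) := by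
  rw [beta_swap (eV a) v, beta_eV, neg_neg]

theorem beta_fV_right (a : Fin m) (v : V) : β v (fV a) = - v (.inl a) := by
  rw [beta_swap (fV a) v, beta_fV]

theorem eV_ne_zero (a : Fin m) : (eV a : V) ≠ 0 := fun h => by simpa [eV] using congrFun h (.inl a)

theorem fV_ne_zero (a : Fin m) : (fV a : V) ≠ 0 := fun h => by simpa [fV] using congrFun h (.inr a)

/-- A vector with all entries in the subfield. -/
def IsRatVec {ι : Type} (F₀ : Subfield F) (v : ι → F) : Prop := ∀ x, v x ∈ F₀

variable {F₀ : Subfield F}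

theorem isRat_single {ι : Type} [DecidableEq ι] (x : ι) : IsRatVec F₀ (Pi.single x (1 : F) : ι → F) := fun y => by
  rw [Pi.single_apply]; split_ifs <;> first | exact one_mem _ | exact zero_mem _

theorem isRat_eV (a : Fin m) : IsRatVec F₀ (eV a : V) := isRat_single _

theorem isRat_fV (a : Fin m) : IsRatVec F₀ (fV a : V) := isRat_single _

theorem isRat_add {ι : Type} {u v : ι → F} (hu : IsRatVec F₀ u) (hv : IsRatVec F₀ v) : IsRatVec F₀ (u + v) :=
  fun x => add_mem (hu x) (hv x)

theorem isRat_sub {ι : Type} {u v : ι → F} (hu : IsRatVec F₀ u) (hv : IsRatVec F₀ v) : IsRatVec F₀ (u - v) :=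
  fun x => sub_mem (hu x) (hv x)

theorem isRat_smul {ι : Type} {c : F} {v : ι → F} (hc : c ∈ F₀) (hv : IsRatVec F₀ v) : IsRatVec F₀ (c • v) :=
  fun x => mul_mem hc (hv x)

theorem beta_rat {u v : V} (hu : IsRatVec F₀ u) (hv : IsRatVec F₀ v) : β u v ∈ F₀ := by
  rw [Cfsg.Agent.H2.sympBilin_apply, Cfsg.Agent.H2.sympForm_apply]
  exact sum_mem fun i _ => sub_mem (mul_mem (hu _) (hv _)) (mul_mem (hu _) (hv _))

theorem spTrans_rat [NeZero m] {v : V} (hv : IsRatVec F₀ v) {c : F} (hc : c ∈ F₀) :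
    spTrans v c ∈ subGroupF (Fin m ⊕ Fin m) F₀ ⊓ Cfsg.spGL m F := by
  refine ⟨mem_subGroupF.mpr ⟨1, one_ne_zero, fun a b => ?_⟩, spTrans_mem v c⟩
  have h := congrFun (spTrans_mulVec v (Pi.single b 1) c) a
  rw [Matrix.mulVec_single_one, Matrix.col_apply] at h
  rw [one_mul, h, Pi.add_apply, Pi.smul_apply, smul_eq_mul]
  exact add_mem (isRat_single b a) (mul_mem (mul_mem hc (beta_rat (isRat_single b) hv)) (hv a))

theorem spX_rat [NeZero m] {x z : V} (hx : IsRatVec F₀ x) (hz : IsRatVec F₀ z) {c : F} (hc : c ∈ F₀) :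
    spX x z c ∈ subGroupF (Fin m ⊕ Fin m) F₀ ⊓ Cfsg.spGL m F :=
  Subgroup.mul_mem _ (Subgroup.mul_mem _ (spTrans_rat (isRat_add hx hz) hc) (spTrans_rat hx (neg_mem hc)))
    (spTrans_rat hz (neg_mem hc))

theorem spTrans_add (v : V) (c d : F) : spTrans v c * spTrans v d = spTrans v (c + d) :=
  gl_ext fun y => by
    simp only [Units.val_mul, ← Matrix.mulVec_mulVec, spTrans_mulVec, map_add, map_smul, LinearMap.add_apply,
      LinearMap.smul_apply, smul_eq_mul, beta_self, mul_zero, add_zero]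
    module

theorem spTrans_zero (v : V) : spTrans v (0 : F) = 1 := gl_ext fun y => by simp [spTrans_mulVec]

theorem spTrans_inv (v : V) (c : F) : (spTrans v c)⁻¹ = spTrans v (-c) :=
  inv_eq_of_mul_eq_one_right (by rw [spTrans_add, add_neg_cancel, spTrans_zero])

theorem spX_add {x z : V} (h : β x z = 0) (c d : F) : spX x z c * spX x z d = spX x z (c + d) := by
  refine gl_ext fun y => ?_
  simp only [Units.val_mul, ← Matrix.mulVec_mulVec, spX_mulVec h, map_add, map_smul, LinearMap.add_apply,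
    LinearMap.smul_apply, smul_eq_mul, beta_self, h, beta_swap x z, neg_zero, mul_zero, add_zero]
  module

theorem spX_smul_right {x z : V} (h : β x z = 0) (k c : F) : spX x (k • z) c = spX x z (k * c) :=
  gl_ext fun y => by
    rw [spX_mulVec (by rw [map_smul, h, smul_zero]), spX_mulVec h, map_smul, smul_eq_mul]
    module

theorem spX_smul_left {x z : V} (h : β x z = 0) (k c : F) : spX (k • x) z c = spX x z (k * c) :=
  gl_ext fun y => by
    rw [spX_mulVec (by rw [map_smul, LinearMap.smul_apply, h, smul_zero]), spX_mulVec h, map_smul, smul_eq_mul]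
    module

/-- Two root elements sharing a parameter. -/
theorem spX_add_right {x z z' : V} (h : β x z = 0) (h' : β x z' = 0) (c : F) :
    spX x z c * spX x z' c = spX x (z + z') c * spTrans x (c * c * β z' z) := by
  refine gl_ext fun y => ?_
  have h1 : β x (z + z') = 0 := by rw [map_add, h, h', add_zero]
  simp only [Units.val_mul, ← Matrix.mulVec_mulVec, spX_mulVec h, spX_mulVec h', spX_mulVec h1, spTrans_mulVec,
    map_add, map_smul, LinearMap.add_apply, LinearMap.smul_apply, smul_eq_mul, beta_self, h, h', h1,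
    beta_swap x z, beta_swap x z', neg_zero, mul_zero, add_zero]
  module

/-- A rational vector pairing non-trivially with two given non-zero vectors. -/
theorem exists_rat_pair {u v : V} (hu : u ≠ 0) (hv : v ≠ 0) :
    ∃ z : V, IsRatVec F₀ z ∧ β z u ≠ 0 ∧ β z v ≠ 0 := by
  have hex : ∀ w : V, w ≠ 0 → ∃ z : V, IsRatVec F₀ z ∧ β z w ≠ 0 := by
    intro w hw
    obtain ⟨x, hx⟩ := Function.ne_iff.mp hw
    rcases x with a | a
    · exact ⟨fV a, isRat_fV a, by rw [beta_fV]; exact hx⟩
    · exact ⟨eV a, isRat_eV a, by rw [beta_eV]; exact neg_ne_zero.mpr hx⟩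
  obtain ⟨a, ha, hau⟩ := hex u hu
  obtain ⟨b, hb, hbv⟩ := hex v hv
  by_cases hav : β a v = 0
  · by_cases hbu : β b u = 0
    · exact ⟨a + b, isRat_add ha hb, by simpa [hbu] using hau, by simpa [hav] using hbv⟩
    · exact ⟨b, hb, hbu, hbv⟩
  · exact ⟨a, ha, hau, hav⟩

/-- Rational elements are transitive on non-zero rational vectors. -/
theorem exists_rat_move [NeZero m] {a b : V} (ha : IsRatVec F₀ a) (hb : IsRatVec F₀ b) (ha0 : a ≠ 0) (hb0 : b ≠ 0) :
    ∃ g ∈ subGroupF (Fin m ⊕ Fin m) F₀ ⊓ Cfsg.spGL m F, (g : Mat) *ᵥ a = b := by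
  obtain ⟨z, hz, hza, hzb⟩ := exists_rat_pair (F₀ := F₀) ha0 hb0
  have haz : β a z ≠ 0 := by rw [beta_swap z a]; exact neg_ne_zero.mpr hza
  refine ⟨spTrans (b - z) (β z b)⁻¹ * spTrans (z - a) (β a z)⁻¹,
    Subgroup.mul_mem _ (spTrans_rat (isRat_sub hb hz) (inv_mem (beta_rat hz hb)))
      (spTrans_rat (isRat_sub hz ha) (inv_mem (beta_rat ha hz))), ?_⟩
  rw [Units.val_mul, ← Matrix.mulVec_mulVec, spTrans_move haz, spTrans_move hzb]

/-- Proper overgroups of the subfield subgroup in the symplectic group. -/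
structure IsSpProperOver (F₀ : Subfield F) (M : Subgroup (GL (Fin m ⊕ Fin m) F)) : Prop where
  le : subGroupF (Fin m ⊕ Fin m) F₀ ⊓ Cfsg.spGL m F ≤ M
  le_sp : M ≤ Cfsg.spGL m F
  proper : ¬ Cfsg.spGL m F ≤ M

/-- A set closed under scalars and under adding non-orthogonal members, containing sums of basis vectors. -/
theorem mem_of_nonorth_closed {C : Set (Fin m ⊕ Fin m → F)} (E G : Fin m → Fin m ⊕ Fin m → F) (k : F) (hk : k ≠ 0)
    (hEE : ∀ a b, β (E a) (E b) = 0) (hEG : ∀ a b, β (E a) (G b) = if a = b then k else 0)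
    (hsmul : ∀ (c : F), ∀ v ∈ C, c • v ∈ C)
    (hadd : ∀ u ∈ C, ∀ v ∈ C, β u v ≠ 0 → u + v ∈ C)
    (hE : ∀ a, E a ∈ C) (hG : ∀ a, G a ∈ C) (hEsum : ∀ a b, a ≠ b → E a + E b ∈ C)
    (s : Finset (Fin m)) (c : Fin m → F) (hz : (0 : Fin m ⊕ Fin m → F) ∈ C) : ∑ a ∈ s, c a • E a ∈ C := by
  classical
  induction s using Finset.induction with
  | empty => simpa using hz
  | @insert i s his ih =>
    rw [Finset.sum_insert his]
    by_cases hci : c i = 0
    · rwa [hci, zero_smul, zero_add]
    by_cases hall : ∀ j ∈ s, c j = 0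
    · rw [Finset.sum_eq_zero fun j hj => by rw [hall j hj, zero_smul], add_zero]
      exact hsmul _ _ (hE i)
    push Not at hall
    obtain ⟨j, hj, hcj⟩ := hall
    have hij : i ≠ j := fun h => his (h ▸ hj)
    set A := ∑ a ∈ s, c a • E a with hA
    have hAG : β A (G j) = c j * k := by
      rw [hA, map_sum, LinearMap.sum_apply, Finset.sum_eq_single j]
      · rw [map_smul, LinearMap.smul_apply, hEG, if_pos rfl, smul_eq_mul]
      · intro b _ hb; rw [map_smul, LinearMap.smul_apply, hEG, if_neg hb, smul_zero]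
      · exact fun h => absurd hj h
    have hAE : ∀ b, β A (E b) = 0 := fun b => by
      rw [hA, map_sum, LinearMap.sum_apply]
      exact Finset.sum_eq_zero fun a _ => by rw [map_smul, LinearMap.smul_apply, hEE, smul_zero]
    have hGE : ∀ a, β (G j) (E a) = if a = j then -k else 0 := fun a => by
      rw [beta_swap (E a) (G j), hEG]; split_ifs <;> simp
    have h1 : A + G j ∈ C := hadd _ ih _ (hG j) (by rw [hAG]; exact mul_ne_zero hcj hk)
    have h2 : A + G j + c i • (E i + E j) ∈ C := hadd _ h1 _ (hsmul _ _ (hEsum i j hij)) (by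
      simp only [map_add, map_smul, LinearMap.add_apply, smul_eq_mul, hAE, hGE, if_neg hij, if_pos, add_zero, zero_add]
      exact mul_ne_zero hci (neg_ne_zero.mpr hk))
    have h3 : A + G j + c i • (E i + E j) + (- c i) • E j ∈ C := hadd _ h2 _ (hsmul _ _ (hE j)) (by
      simp only [map_add, map_smul, LinearMap.add_apply, LinearMap.smul_apply, smul_eq_mul, hAE, hGE, hEE, if_pos,
        add_zero, zero_add, mul_zero]
      exact mul_ne_zero (neg_ne_zero.mpr hci) (neg_ne_zero.mpr hk))
    have h4 : A + G j + c i • (E i + E j) + (- c i) • E j + (-1 : F) • G j ∈ C :=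
      hadd _ h3 _ (hsmul _ _ (hG j)) (by
      simp only [map_add, map_smul, LinearMap.add_apply, LinearMap.smul_apply, smul_eq_mul, hAG, hEG, if_neg hij,
        if_pos, beta_self, add_zero, mul_zero, smul_add]
      intro h
      refine mul_ne_zero hcj hk ?_
      linear_combination -h)
    convert h4 using 1
    module

/-- All transvection centres arise from the standard ones. -/
theorem sp_closed_univ {C : Set (Fin m ⊕ Fin m → F)}
    (hsmul : ∀ (c : F), ∀ v ∈ C, c • v ∈ C) (hadd : ∀ u ∈ C, ∀ v ∈ C, β u v ≠ 0 → u + v ∈ C)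
    (hz : (0 : Fin m ⊕ Fin m → F) ∈ C)
    (he : ∀ a, eV a ∈ C) (hf : ∀ a, fV a ∈ C) (hee : ∀ a b, a ≠ b → eV a + eV b ∈ C)
    (hff : ∀ a b, a ≠ b → fV a + fV b ∈ C) (v : Fin m ⊕ Fin m → F) : v ∈ C := by
  classical
  have hdec : v = (∑ a, v (.inl a) • eV a) + ∑ a, v (.inr a) • fV a := by
    conv_lhs => rw [pi_eq_sum_univ' v, Fintype.sum_sum_type]
    rfl
  have hA := mem_of_nonorth_closed (C := C) eV fV (-1 : F) (by simp) (fun a b => by rw [beta_eV]; simp [eV])
    (fun a b => by rw [beta_eV, fV]; by_cases h : a = b <;> simp [h]) hsmul hadd he hf hee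
    Finset.univ (fun a => v (.inl a)) hz
  have hB := fun w : Fin m → F => mem_of_nonorth_closed (C := C) fV eV 1 one_ne_zero
    (fun a b => by rw [beta_fV]; simp [fV])
    (fun a b => by rw [beta_fV, eV]; by_cases h : a = b <;> simp [h]) hsmul hadd hf he hff Finset.univ w hz
  by_cases hzero : ∀ a, v (.inl a) = 0
  · rw [hdec, Finset.sum_eq_zero fun a _ => by rw [hzero a, zero_smul], zero_add]
    exact hB fun a => v (.inr a)
  push Not at hzero
  obtain ⟨i, hi⟩ := hzero
  set A := ∑ a, v (.inl a) • (eV a : V) with hAdef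
  set B := ∑ a, v (.inr a) • (fV a : V)
  have hB' : B + (-1 : F) • fV i ∈ C := by
    have e : B + (-1 : F) • fV i = ∑ a, (v (.inr a) - if a = i then 1 else 0) • fV a := by
      simp only [B, sub_smul, Finset.sum_sub_distrib, ite_smul, one_smul, zero_smul, Finset.sum_ite_eq',
        Finset.mem_univ, if_true]
      module
    rw [e]; exact hB _
  have hAf : β A (fV i) = - v (.inl i) := by
    rw [hAdef, map_sum, LinearMap.sum_apply, Finset.sum_eq_single i]
    · rw [map_smul, LinearMap.smul_apply, beta_fV_right]; simp [eV]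
    · intro b _ hb; rw [map_smul, LinearMap.smul_apply, beta_fV_right]; simp [eV, hb.symm]
    · simp
  by_cases hAB : β A B = 0
  · have h1 : A + (B + (-1 : F) • fV i) ∈ C := hadd _ hA _ hB' (by
      rw [map_add, map_smul, hAB, hAf, smul_eq_mul, zero_add, neg_mul, one_mul, neg_neg]; exact hi)
    have hfB : β B (fV i) = 0 := by
      simp only [B, map_sum, LinearMap.sum_apply, map_smul, LinearMap.smul_apply, beta_fV_right]
      exact Finset.sum_eq_zero fun a _ => by simp [fV]
    have h2 := hadd _ h1 _ (hf i) (by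
      simp only [map_add, map_smul, LinearMap.add_apply, LinearMap.smul_apply, hAf, hfB, beta_self, smul_zero,
        add_zero]
      exact neg_ne_zero.mpr hi)
    convert h2 using 1
    rw [hdec]; module
  · rw [hdec]; exact hadd _ hA _ (hB fun a => v (.inr a)) hAB

section
variable [Fintype F] [NeZero m] {r : ℕ}

/-- A short root element with a scalar outside the subfield generates everything. -/
theorem spGL_le_of_new_scalar (hm : 3 ≤ m) (hr : r.Prime) (hcard : Fintype.card F = Nat.card F₀ ^ r)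
    {M : Subgroup (GL (Fin m ⊕ Fin m) F)} (hle : subGroupF (Fin m ⊕ Fin m) F₀ ⊓ Cfsg.spGL m F ≤ M)
    (hsp : M ≤ Cfsg.spGL m F) {l k : Fin m} (hlk : l ≠ k) {c : F} (hc : c ∉ F₀)
    (hmem : spX (eV l) (eV k) c ∈ M) : Cfsg.spGL m F ≤ M := by
  classical
  have hee : ∀ a b : Fin m, β (eV a : V) (eV b) = 0 := fun a b => by rw [beta_eV]; simp [eV]
  have hef : ∀ a b : Fin m, a ≠ b → β (eV a : V) (fV b) = 0 := fun a b h => by rw [beta_eV, fV]; simp [h]
  have hfe : ∀ a b : Fin m, a ≠ b → β (fV a : V) (eV b) = 0 := fun a b h => by rw [beta_fV, eV]; simp [h]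
  have hfe1 : ∀ a : Fin m, β (fV a : V) (eV a) = 1 := fun a => by rw [beta_fV, eV]; simp
  have hef1 : ∀ a : Fin m, β (eV a : V) (fV a) = -1 := fun a => by rw [beta_eV, fV]; simp
  have hconj : ∀ (g : GL (Fin m ⊕ Fin m) F), g ∈ M → ∀ (x z : V) (d : F), spX x z d ∈ M →
      spX ((g : Mat) *ᵥ x) ((g : Mat) *ᵥ z) d ∈ M := fun g hg x z d h => by
    rw [← conj_spX (hsp hg)]; exact M.mul_mem (M.mul_mem hg h) (M.inv_mem hg)
  have hrow : ∀ (a b a' : Fin m) (d : F), a ≠ b → a' ≠ b → spX (eV a) (eV b) d ∈ M → spX (eV a') (eV b) d ∈ M := by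
    intro a b a' d hab ha'b h
    by_cases haa : a' = a
    · rwa [haa]
    set z : V := fV a + fV a' with hz
    have h1 : β (eV a) z ≠ 0 := by rw [hz, map_add, hef1, hef _ _ (Ne.symm haa), add_zero]; simp
    have h2 : β z (eV a') ≠ 0 := by
      rw [hz, map_add, LinearMap.add_apply, hfe1, hfe _ _ (Ne.symm haa), zero_add]; simp
    set g := spTrans (eV a' - z) (β z (eV a'))⁻¹ * spTrans (z - eV a) (β (eV a) z)⁻¹
    have hgM : g ∈ M := hle (Subgroup.mul_mem _
      (spTrans_rat (isRat_sub (isRat_eV _) (isRat_add (isRat_fV _) (isRat_fV _)))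
        (inv_mem (beta_rat (isRat_add (isRat_fV _) (isRat_fV _)) (isRat_eV _))))
      (spTrans_rat (isRat_sub (isRat_add (isRat_fV _) (isRat_fV _)) (isRat_eV _))
        (inv_mem (beta_rat (isRat_eV _) (isRat_add (isRat_fV _) (isRat_fV _))))))
    have hga : (g : Mat) *ᵥ eV a = eV a' := by
      rw [Units.val_mul, ← Matrix.mulVec_mulVec, spTrans_move h1, spTrans_move h2]
    have hgb : (g : Mat) *ᵥ eV b = eV b := by
      rw [Units.val_mul, ← Matrix.mulVec_mulVec, spTrans_mulVec (z - eV a)]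
      have e1 : β (eV b) (z - eV a) = 0 := by
        rw [hz, map_sub, map_add, hef _ _ hab.symm, hef _ _ ha'b.symm, hee]; simp
      have e2 : β (eV b) (eV a' - z) = 0 := by
        rw [hz, map_sub, map_add, hef _ _ hab.symm, hef _ _ ha'b.symm, hee]; simp
      rw [e1, mul_zero, zero_smul, add_zero, spTrans_mulVec, e2, mul_zero, zero_smul, add_zero]
    have := hconj g hgM _ _ d h
    rwa [hga, hgb] at this
  have hsym : ∀ (a b : Fin m) (d : F), spX (eV a) (eV b) d ∈ M → spX (eV b) (eV a) d ∈ M := fun a b d h => by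
    rwa [spX_comm_sym (hee b a)]
  have hmixed : ∀ (a b : Fin m) (d : F), a ≠ b → spX (eV a) (eV b) d ∈ M → spX (fV a) (eV b) d ∈ M := by
    intro a b d hab h
    have hne : β (eV a : V) (fV a) ≠ 0 := by rw [hef1]; simp
    have := hconj _ (hle (spTrans_rat (isRat_sub (isRat_fV a) (isRat_eV a))
      (inv_mem (beta_rat (F₀ := F₀) (isRat_eV a) (isRat_fV a))))) _ _ d h
    rwa [spTrans_move hne, spTrans_mulVec _ (eV b), map_sub, hef b a hab.symm, hee, sub_zero, mul_zero, zero_smul,
      add_zero] at this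
  have hthird : ∀ a b : Fin m, ∃ z, z ≠ a ∧ z ≠ b := fun a b => by
    have : ((Finset.univ : Finset (Fin m)) \ {a, b}).Nonempty := by
      rw [← Finset.card_pos, Finset.card_sdiff_of_subset (Finset.subset_univ _), Finset.card_univ, Fintype.card_fin]
      have : ({a, b} : Finset (Fin m)).card ≤ 2 := Finset.card_le_two
      omega
    obtain ⟨z, hz⟩ := this
    simp only [Finset.mem_sdiff, Finset.mem_univ, true_and, Finset.mem_insert, Finset.mem_singleton, not_or] at hz
    exact ⟨z, hz⟩
  have hall : ∀ a b : Fin m, a ≠ b → spX (eV a) (eV b) c ∈ M := by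
    intro a b hab
    obtain ⟨z, hzk, hzb⟩ := hthird k b
    have h1 := hrow l k z c hlk hzk hmem
    have h2 := hrow k z b c hzk.symm hzb.symm (hsym _ _ _ h1)
    exact hrow z b a c hzb hab (hsym _ _ _ h2)
  let Lam : Subalgebra F₀ F :=
    { carrier := {d | ∀ a b : Fin m, a ≠ b → spX (eV a) (eV b) d ∈ M}
      mul_mem' := fun {d d'} hd hd' a b hab => by
        obtain ⟨z, hza, hzb⟩ := hthird a b
        have h1 := hd a z hza.symm
        have h2 := hmixed z b d' hzb (hd' z b hzb)
        have := M.mul_mem (M.mul_mem (M.mul_mem h1 h2) (M.inv_mem h1)) (M.inv_mem h2)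
        rwa [spX_commutator (hee a z) (hfe z b hzb) (hef a z hza.symm) (hee a b) (hee z b), hfe1, mul_one] at this
      add_mem' := fun {d d'} hd hd' a b hab => by
        rw [← spX_add (hee a b)]; exact M.mul_mem (hd a b hab) (hd' a b hab)
      algebraMap_mem' := fun d a b _ => hle (spX_rat (isRat_eV a) (isRat_eV b) d.2) }
  have htop : Lam = ⊤ := by
    let K : IntermediateField F₀ F := Lam.toIntermediateField' (Subalgebra.isField_of_algebraic Lam)
    have hdim : (Module.finrank F₀ F).Prime := by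
      haveI := Fintype.ofFinite F₀
      have h1 : Fintype.card F = Fintype.card F₀ ^ Module.finrank F₀ F := Module.card_eq_pow_finrank
      rw [hcard, Nat.card_eq_fintype_card] at h1
      rwa [← Nat.pow_right_injective (Fintype.one_lt_card (α := F₀)) h1]
    haveI := IntermediateField.isSimpleOrder_of_finrank_prime F₀ F hdim
    rcases eq_bot_or_eq_top K with hK | hK
    · exfalso
      have hcK : c ∈ K := (show ∀ a b : Fin m, a ≠ b → spX (eV a) (eV b) c ∈ M from hall)
      rw [hK, IntermediateField.mem_bot] at hcK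
      obtain ⟨a, ha⟩ := hcK
      exact hc (ha ▸ a.2)
    · refine eq_top_iff.mpr fun a _ => ?_
      exact (show a ∈ K from hK ▸ IntermediateField.mem_top)
  have hX : ∀ (a b : Fin m) (d : F), a ≠ b → spX (eV a) (eV b) d ∈ M :=
    fun a b d hab => (show d ∈ Lam from htop ▸ Algebra.mem_top) a b hab
  have hTsq : ∀ (a : Fin m) (d : F), spTrans (eV a) (d * d) ∈ M := by
    intro a d
    obtain ⟨b, hb, -⟩ := hthird a a
    have h1 := hconj _ (hle (spTrans_rat (F₀ := F₀) (isRat_fV b) (one_mem _))) _ _ d (hX a b d hb.symm)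
    have e1 : (spTrans (fV b : V) (1 : F) : Mat) *ᵥ eV a = eV a := by
      rw [spTrans_mulVec, hef a b hb.symm, mul_zero, zero_smul, add_zero]
    have e2 : (spTrans (fV b : V) (1 : F) : Mat) *ᵥ eV b = eV b + (-1 : F) • fV b := by
      rw [spTrans_mulVec, hef1, one_mul]
    rw [e1, e2] at h1
    have h2 : spX (eV a) ((-1 : F) • fV b) d ∈ M := by
      rw [spX_smul_right (hef a b hb.symm), spX_comm_sym (hef a b hb.symm)]
      exact hmixed b a _ hb (hX b a _ hb)
    have h3 := M.mul_mem (hX a b d hb.symm) h2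
    rw [spX_add_right (hee a b) (by rw [map_smul, hef a b hb.symm, smul_zero])] at h3
    have h4 := (Subgroup.mul_mem_cancel_left M h1).mp h3
    have h5 := M.inv_mem h4
    rw [spTrans_inv] at h5
    convert h5 using 2
    rw [map_smul, LinearMap.smul_apply, hfe1, smul_eq_mul]; ring
  have hT : ∀ (a : Fin m) (d : F), spTrans (eV a) d ∈ M := by
    intro a d
    have hneg : ∀ x : F, spTrans (eV a) (-(x * x)) ∈ M := fun x => by
      rw [← spTrans_inv]; exact M.inv_mem (hTsq a x)
    by_cases h2 : (2 : F) = 0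
    · haveI : CharP F 2 := CharTwo.of_one_ne_zero_of_two_eq_zero one_ne_zero h2
      haveI : Fact (Nat.Prime 2) := ⟨Nat.prime_two⟩
      obtain ⟨x, hx⟩ := Finite.injective_iff_surjective.mp (frobenius_inj F 2) d
      rw [← hx, frobenius_def, pow_two]
      exact hTsq a x
    · have e : d = ((d + 1) / 2) * ((d + 1) / 2) + -(((d - 1) / 2) * ((d - 1) / 2)) := by field_simp; ring
      rw [e, ← spTrans_add]
      exact M.mul_mem (hTsq a _) (hneg _)
  let C : Set V := {v | ∀ d, spTrans v d ∈ M}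
  have hCconj : ∀ g ∈ M, ∀ v ∈ C, (g : Mat) *ᵥ v ∈ C := fun g hg v hv d => by
    rw [← conj_spTrans (hsp hg)]; exact M.mul_mem (M.mul_mem hg (hv d)) (M.inv_mem hg)
  have hCe : ∀ a, eV a ∈ C := hT
  have hCsum : ∀ a b, a ≠ b → eV a + eV b ∈ C := fun a b hab d => by
    have h1 := M.mul_mem (M.mul_mem (hX a b d hab) (hT b d)) (hT a d)
    have e : spX (eV a) (eV b) d * spTrans (eV b) d * spTrans (eV a) d = spTrans (eV a + eV b) d := by
      rw [spX, ← spTrans_inv, ← spTrans_inv]; group
    rwa [e] at h1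
  have hCf : ∀ a, fV a ∈ C := fun a => by
    have := hCconj _ (hle (spTrans_rat (F₀ := F₀) (isRat_sub (isRat_fV a) (isRat_eV a))
      (inv_mem (beta_rat (isRat_eV a) (isRat_fV a))))) _ (hCe a)
    rwa [spTrans_move (by rw [hef1]; simp)] at this
  have hCff : ∀ a b, a ≠ b → fV a + fV b ∈ C := fun a b hab => by
    obtain ⟨g, hg, hgv⟩ := exists_rat_move (F₀ := F₀) (isRat_add (isRat_eV a) (isRat_eV b))
      (isRat_add (isRat_fV a) (isRat_fV b))
      (fun h => by simpa [eV, hab] using congrFun h (.inl a)) (fun h => by simpa [fV, hab] using congrFun h (.inr a))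
    exact hgv ▸ hCconj g (hle hg) _ (hCsum a b hab)
  refine spGL_le_of_spTrans M fun v d => (sp_closed_univ (C := C) (fun k v hv d => ?_) (fun u hu v hv huv => ?_)
    (fun d => by rw [spTrans_zero_vec]; exact M.one_mem) hCe hCf hCsum hCff v) d
  · rw [spTrans_smul]; exact hv _
  · have := hCconj _ (hv (β u v)⁻¹) u hu
    rwa [spTrans_mulVec, inv_mul_cancel₀ huv, one_smul] at this

/-- A transvection with rational centre in a proper overgroup has its scalar in the subfield. -/
theorem long_scalar (hm : 3 ≤ m) (hr : r.Prime) (hcard : Fintype.card F = Nat.card F₀ ^ r)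
    {M : Subgroup (GL (Fin m ⊕ Fin m) F)} (hM : IsSpProperOver F₀ M) {v : V} (hv : IsRatVec F₀ v) (hv0 : v ≠ 0)
    {c : F} (hmem : spTrans v c ∈ M) : c ∈ F₀ := by
  by_contra hc
  have hmove : ∀ w : V, IsRatVec F₀ w → w ≠ 0 → spTrans w c ∈ M := fun w hw hw0 => by
    obtain ⟨g, hg, hgv⟩ := exists_rat_move hv hw hv0 hw0
    rw [← hgv, ← conj_spTrans hg.2]
    exact M.mul_mem (M.mul_mem (hM.le hg) hmem) (M.inv_mem (hM.le hg))
  set a : Fin m := ⟨0, by omega⟩
  set b : Fin m := ⟨1, by omega⟩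
  have hab : a ≠ b := by simp [a, b, Fin.ext_iff]
  refine hM.proper (spGL_le_of_new_scalar hm hr hcard hM.le hM.le_sp hab hc ?_)
  rw [spX, ← spTrans_inv, ← spTrans_inv]
  exact M.mul_mem (M.mul_mem (hmove _ (isRat_add (isRat_eV a) (isRat_eV b))
    (fun h => by simpa [eV, hab] using congrFun h (.inl a))) (M.inv_mem (hmove _ (isRat_eV a) (eV_ne_zero a))))
    (M.inv_mem (hmove _ (isRat_eV b) (eV_ne_zero b)))

end

end Cfsg.Agent.H98
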