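import Cfsg.Agent.H5.RootClosure

set_option autoImplicit false
set_option linter.unusedSectionVars false

/-!
The stabiliser of a pair of complementary totally singular subspaces: a further element of `Ω` gives all of `Ω`.
-/

namespace Cfsg.Agent.H98.SingPair

open Cfsg.Agent.H5 QuadraticMap

variable {F V : Type*} [Field F] [AddCommGroup V] [Module F V] {Q : QuadraticForm F V}

/-- A root element may be read from either of its two singular vectors. -/
theorem rootIn_symm {M : Subgroup (orth Q)} {e a : V} (h : RootIn M e a) (ha : Q a = 0) : RootIn M a (-e) := by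
  obtain ⟨he, hea, hm⟩ := h
  refine ⟨ha, by rw [polar_neg_right, polar_comm, hea, neg_zero], ?_⟩
  convert hm using 1
  refine orth_ext fun x => ?_
  rw [eich_apply ha (by rw [polar_neg_right, polar_comm, hea, neg_zero]), eich_apply he hea, polar_neg_left, ha,
    QuadraticMap.map_neg, he]
  module

theorem rootIn_add_smul {M : Subgroup (orth Q)} {e a : V} (h : RootIn M e a) (t : F) :
    RootIn M e (a + t • e) :=
  ⟨h.1, by rw [polar_add_right, polar_smul_right, polar_self', h.1, h.2.1, mul_zero, smul_zero, add_zero],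
    by rw [eich_add_smul h.1 h.2.1]; exact h.2.2⟩

/-- Two complementary totally singular subspaces. -/
structure Pair (Q : QuadraticForm F V) (W W' : Submodule F V) (k : ℕ) : Prop where
  nondeg : (polarBilin Q).Nondegenerate
  singL : ∀ w ∈ W, Q w = 0
  singR : ∀ w ∈ W', Q w = 0
  compl : IsCompl W W'
  dimL : Module.finrank F W = k
  dimR : Module.finrank F W' = k
  big : 5 ≤ k

variable {W W' : Submodule F V} {k : ℕ}

theorem Pair.symm (P : Pair Q W W' k) : Pair Q W' W k :=
  ⟨P.nondeg, P.singR, P.singL, P.compl.symm, P.dimR, P.dimL, P.big⟩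

theorem polar_ts {U : Submodule F V} (hU : ∀ w ∈ U, Q w = 0) {x y : V} (hx : x ∈ U) (hy : y ∈ U) :
    polar Q x y = 0 :=
  le_perp_of_forall_eq_zero hU hy x hx

theorem Pair.split (P : Pair Q W W' k) (v : V) : ∃ x ∈ W, ∃ y ∈ W', x + y = v :=
  Submodule.mem_sup.mp (P.compl.sup_eq_top.ge (Submodule.mem_top (x := v)))

variable [FiniteDimensional F V]

/-- A functional on the whole space is represented on `W` by an element of `W'`. -/
theorem Pair.rep (P : Pair Q W W' k) (φ : V →ₗ[F] F) : ∃ y ∈ W', ∀ w ∈ W, polar Q y w = φ w := by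
  have hinj : Function.Injective (polarBilin Q) :=
    LinearMap.ker_eq_bot.mp (LinearMap.separatingLeft_iff_ker_eq_bot.mp P.nondeg.1)
  obtain ⟨z, rfl⟩ := (LinearMap.injective_iff_surjective_of_finrank_eq_finrank Subspace.dual_finrank_eq.symm).mp hinj φ
  obtain ⟨x, hx, y, hy, rfl⟩ := P.split z
  refine ⟨y, hy, fun w hw => ?_⟩
  rw [polarBilin_apply_apply, polar_add_left, polar_ts P.singL hx hw, zero_add]

/-- An element of `W'` killing a subspace of `W` but not a given vector outside it. -/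
theorem Pair.rep_one (P : Pair Q W W' k) {S : Submodule F V} (hS : S ≤ W) {a : V} (ha : a ∈ W) (haS : a ∉ S) :
    ∃ y ∈ W', (∀ s ∈ S, polar Q y s = 0) ∧ polar Q y a = 1 := by
  obtain ⟨φ, h1, h2⟩ := Submodule.exists_dual_map_eq_bot_of_notMem haS inferInstance
  obtain ⟨y, hy, hrep⟩ := P.rep ((φ a)⁻¹ • φ)
  refine ⟨y, hy, fun s hs => ?_, by rw [hrep a ha, LinearMap.smul_apply, smul_eq_mul, inv_mul_cancel₀ h1]⟩
  have : φ s = 0 := by
    rw [← Submodule.mem_bot (R := F), ← h2]
    exact Submodule.mem_map_of_mem hs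
  rw [hrep s (hS hs), LinearMap.smul_apply, this, smul_zero]

theorem exists_not_mem_span_pair {U : Submodule F V} (hU : 3 ≤ Module.finrank F U) (a b : V) :
    ∃ u ∈ U, u ∉ Submodule.span F ({a, b} : Set V) := by
  by_contra hc
  push Not at hc
  classical
  have h1 := Submodule.finrank_mono (show U ≤ Submodule.span F ({a, b} : Set V) from hc)
  have h4 := finrank_span_finset_le_card (R := F) ({a, b} : Finset V)
  rw [Finset.coe_insert, Finset.coe_singleton] at h4
  have h5 : Module.finrank F (Submodule.span F ({a, b} : Set V)) ≤ 2 :=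
    le_trans h4 (Finset.card_le_two (a := a) (b := b))
  omega

variable {M : Subgroup (orth Q)}

/-- `M` has the root elements of the Levi factor. -/
def Mixed (M : Subgroup (orth Q)) (W W' : Submodule F V) : Prop :=
  ∀ w ∈ W, ∀ w' ∈ W', polar Q w w' = 0 → RootIn M w w'

/-- `M` has a root element of a line inside `W`. -/
def LineIn (M : Subgroup (orth Q)) (W : Submodule F V) : Prop :=
  ∃ w a, w ∈ W ∧ a ∈ W ∧ w ≠ 0 ∧ a ∉ Submodule.span F {w} ∧ RootIn M w a

theorem Pair.mixed_symm (P : Pair Q W W' k) (hM : Mixed M W W') : Mixed M W' W := by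
  intro w' hw' w hw h
  have h1 := rootIn_symm (hM (-w) (W.neg_mem hw) w' hw' (by rw [polar_neg_left, polar_comm, h, neg_zero]))
    (P.singR w' hw')
  rwa [neg_neg] at h1

/-- One line in `W` gives all root elements inside `W`. -/
theorem Pair.all_in (P : Pair Q W W' k) (hM : Mixed M W W') (hL : LineIn M W) :
    ∀ w ∈ W, ∀ a ∈ W, RootIn M w a := by
  have full : ∀ w a, w ∈ W → a ∈ W → a ∉ Submodule.span F {w} → w ≠ 0 → RootIn M w a →
      ∀ b ∈ W, RootIn M w b := by
    intro w a hw ha hna hw0 hroot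
    have step : ∀ u ∈ W, u ∉ Submodule.span F ({w, a} : Set V) → ∀ t : F, RootIn M w (t • u) := by
      intro u hu hnu t
      have haS : a ∉ Submodule.span F ({w, u} : Set V) := fun h => by
        obtain ⟨c, d, e⟩ := Submodule.mem_span_pair.mp h
        rcases eq_or_ne d 0 with rfl | hd
        · exact hna (Submodule.mem_span_singleton.mpr ⟨c, by rw [← e, zero_smul, add_zero]⟩)
        · refine hnu (Submodule.mem_span_pair.mpr ⟨-(d⁻¹ * c), d⁻¹, ?_⟩)
          rw [← e, smul_add, smul_smul, smul_smul, inv_mul_cancel₀ hd, one_smul]; module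
      obtain ⟨y, hy, hy0, hy1⟩ := P.rep_one (Submodule.span_le.mpr (by simp [Set.insert_subset_iff, hw, hu])) ha haS
      have hyu : polar Q y u = 0 := hy0 u (Submodule.subset_span (by simp))
      have hyw : polar Q y w = 0 := hy0 w (Submodule.subset_span (by simp))
      have huy : polar Q u ((-t) • y) = 0 := by rw [polar_smul_right, polar_comm, hyu, smul_zero]
      obtain ⟨hQu, -, hmem⟩ := hM u hu ((-t) • y) (W'.smul_mem _ hy) huy
      have h1 := hroot.conj hmem
      rw [eich_apply hQu huy, eich_apply hQu huy, polar_ts P.singL hu hw, polar_ts P.singL hu ha,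
        polar_smul_left, polar_smul_left, hyw, hy1] at h1
      simp only [smul_zero, zero_smul, mul_zero, add_zero, sub_zero, smul_eq_mul, mul_one, neg_smul,
        sub_neg_eq_add] at h1
      have := h1.sub hroot
      rwa [add_sub_cancel_left] at this
    intro b hb
    by_cases hnb : b ∈ Submodule.span F ({w, a} : Set V)
    · obtain ⟨u, hu, hnu⟩ := exists_not_mem_span_pair (U := W) (by rw [P.dimL]; have := P.big; omega) w a
      have h1 := step (u + b) (W.add_mem hu hb)
        (fun h => hnu (by simpa using Submodule.sub_mem _ h hnb)) 1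
      have h2 := step u hu hnu 1
      have := h1.sub h2
      rwa [one_smul, one_smul, add_sub_cancel_left] at this
    · have := step b hb hnb 1
      rwa [one_smul] at this
  obtain ⟨w₀, a₀, hw₀, ha₀, hw₀0, hna₀, hroot₀⟩ := hL
  have hall₀ := full w₀ a₀ hw₀ ha₀ hna₀ hw₀0 hroot₀
  intro w hw a ha
  rcases eq_or_ne w 0 with rfl | hw0
  · refine ⟨QuadraticMap.map_zero Q, polar_zero_left Q a, ?_⟩
    convert M.one_mem
    exact orth_ext fun x => by rw [eich_apply (QuadraticMap.map_zero Q) (polar_zero_left Q a)]; simp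
  by_cases hmem : w ∈ Submodule.span F {w₀}
  · obtain ⟨c, rfl⟩ := Submodule.mem_span_singleton.mp hmem
    have h1 := hall₀ (c • a) (W.smul_mem c ha)
    have hwa := polar_ts P.singL hw₀ ha
    exact ⟨P.singL _ hw, polar_ts P.singL hw ha, by rw [eich_smul_smul (P.singL _ hw₀) hwa]; exact h1.2.2⟩
  · refine full w (-w₀) hw (W.neg_mem hw₀) (fun h => ?_) hw0 (rootIn_symm (hall₀ w hw) (P.singL w hw)) a ha
    obtain ⟨c, hc⟩ := Submodule.mem_span_singleton.mp h
    rcases eq_or_ne c 0 with rfl | hc0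
    · rw [zero_smul] at hc; exact hw₀0 (neg_eq_zero.mp hc.symm)
    · refine hmem (Submodule.mem_span_singleton.mpr ⟨-c⁻¹, ?_⟩)
      rw [neg_smul, ← smul_neg, ← hc, smul_smul, inv_mul_cancel₀ hc0, one_smul]

theorem Pair.fullRoot (P : Pair Q W W' k) (hM : Mixed M W W') (hall : ∀ w ∈ W, ∀ a ∈ W, RootIn M w a)
    {w : V} (hw : w ∈ W) : FullRoot M w := by
  refine ⟨P.singL w hw, fun a ha => ?_⟩
  obtain ⟨x, hx, y, hy, rfl⟩ := P.split a
  rw [polar_add_right, polar_ts P.singL hw hx, zero_add] at ha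
  exact ((hall w hw x hx).add (hM w hw y hy ha)).2.2

/-- The only lines of root elements in `M` are mixed, unless there is one inside a subspace. -/
theorem Pair.mixed_line (P : Pair Q W W' k) (hM : Mixed M W W') (hW : ¬ LineIn M W) (hW' : ¬ LineIn M W')
    {p a : V} (hpa : RootIn M p a) (hQa : Q a = 0) (hp0 : p ≠ 0) (hna : a ∉ Submodule.span F {p}) :
    ∃ x ∈ W, ∃ y ∈ W', p ∈ Submodule.span F ({x, y} : Set V) ∧ a ∈ Submodule.span F ({x, y} : Set V) := by
  obtain ⟨p₁, hp₁, p₂, hp₂, rfl⟩ := P.split p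
  obtain ⟨a₁, ha₁, a₂, ha₂, rfl⟩ := P.split a
  -- a line meeting `W`
  have meet : ∀ x z z' : V, x ∈ W → z ∈ W → z' ∈ W' → x ≠ 0 → RootIn M x (z + z') →
      z + z' ∉ Submodule.span F {x} →
      z' ≠ 0 ∧ ∃ c : F, z = c • x := by
    intro x z z' hx hz hz' hx0 hr hn
    have hxz' : polar Q x z' = 0 := by
      have := hr.2.1
      rwa [polar_add_right, polar_ts P.singL hx hz, zero_add] at this
    have hzmem : z ∈ Submodule.span F {x} := by
      by_contra hnz
      refine hW ⟨x, z, hx, hz, hx0, hnz, ?_⟩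
      have := hr.sub (hM x hx z' hz' hxz')
      rwa [add_sub_cancel_right] at this
    obtain ⟨c, hc⟩ := Submodule.mem_span_singleton.mp hzmem
    exact ⟨fun h => hn (by rw [h, add_zero]; exact hzmem), c, hc.symm⟩
  rcases eq_or_ne p₂ 0 with rfl | hp₂0
  · rw [add_zero] at hp0 hna hpa ⊢
    obtain ⟨-, c, rfl⟩ := meet p₁ a₁ a₂ hp₁ ha₁ ha₂ hp0 hpa hna
    exact ⟨p₁, hp₁, a₂, ha₂, Submodule.subset_span (by simp),
      Submodule.mem_span_pair.mpr ⟨c, 1, by rw [one_smul]⟩⟩
  by_cases hdep : a₂ ∈ Submodule.span F {p₂}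
  · obtain ⟨c, rfl⟩ := Submodule.mem_span_singleton.mp hdep
    have h1 := rootIn_add_smul hpa (-c)
    rw [show a₁ + c • p₂ + -c • (p₁ + p₂) = a₁ - c • p₁ by module] at h1
    set x := a₁ - c • p₁ with hx
    have hxW : x ∈ W := W.sub_mem ha₁ (W.smul_mem c hp₁)
    have hx0 : x ≠ 0 := fun h => hna (Submodule.mem_span_singleton.mpr ⟨c, by
      rw [sub_eq_zero.mp h]; module⟩)
    have h2 := rootIn_symm h1 (P.singL x hxW)
    rw [neg_add] at h2
    have hn : -p₁ + -p₂ ∉ Submodule.span F {x} := fun h => hp₂0 (by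
      have h3 : -p₁ + -p₂ ∈ W := (Submodule.span_singleton_le_iff_mem _ _).mpr hxW h
      have h4 : p₂ ∈ W := by
        have := W.add_mem h3 hp₁
        rw [show -p₁ + -p₂ + p₁ = -p₂ by abel] at this
        simpa using this
      exact Submodule.disjoint_def.mp P.compl.disjoint p₂ h4 hp₂)
    obtain ⟨-, d, hd⟩ := meet x (-p₁) (-p₂) hxW (W.neg_mem hp₁) (W'.neg_mem hp₂) hx0 h2 hn
    have hp₁' : p₁ = (-d) • x := by rw [neg_smul, ← hd, neg_neg]
    refine ⟨x, hxW, p₂, hp₂, Submodule.mem_span_pair.mpr ⟨-d, 1, by rw [one_smul, hp₁']⟩,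
      Submodule.mem_span_pair.mpr ⟨1 + c * -d, c, ?_⟩⟩
    have ha₁' : a₁ = x + c • p₁ := by rw [hx, sub_add_cancel]
    rw [ha₁', hp₁']
    module
  exfalso
  obtain ⟨w', hw', hw'1, hw'2⟩ : ∃ w' ∈ W', (polar Q w' p₁ = 0 ∧ polar Q w' a₁ = 0) ∧
      w' ∉ Submodule.span F ({p₂, a₂} : Set V) := by
    set U := W' ⊓ perp Q (Submodule.span F {p₁} ⊔ Submodule.span F {a₁})
    have hU : 3 ≤ Module.finrank F U := by
      have h1 := Submodule.finrank_sup_add_finrank_inf_eq W' (perp Q (Submodule.span F {p₁} ⊔ Submodule.span F {a₁}))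
      have h2 := Submodule.finrank_le (W' ⊔ perp Q (Submodule.span F {p₁} ⊔ Submodule.span F {a₁}))
      have h3 := finrank_perp_add P.nondeg (Submodule.span F {p₁} ⊔ Submodule.span F {a₁})
      have h4 := Submodule.finrank_add_le_finrank_add_finrank (Submodule.span F {p₁}) (Submodule.span F {a₁})
      have h5 := finrank_span_le_card (R := F) ({p₁} : Set V)
      have h6 := finrank_span_le_card (R := F) ({a₁} : Set V)
      rw [Set.toFinset_singleton, Finset.card_singleton] at h5 h6
      rw [P.dimR] at h1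
      have := P.big
      change 3 ≤ Module.finrank F ↥(W' ⊓ perp Q (Submodule.span F {p₁} ⊔ Submodule.span F {a₁}))
      omega
    obtain ⟨u, hu, hnu⟩ := exists_not_mem_span_pair hU p₂ a₂
    have h2 := hu.2
    rw [SetLike.mem_coe, perp_sup, Submodule.mem_inf, mem_perp_span, mem_perp_span] at h2
    exact ⟨u, hu.1, ⟨by rw [polar_comm]; exact h2.1, by rw [polar_comm]; exact h2.2⟩, hnu⟩
  have ha₂S : a₂ ∉ Submodule.span F ({p₂, w'} : Set V) := fun h => by
    obtain ⟨c, d, e⟩ := Submodule.mem_span_pair.mp h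
    rcases eq_or_ne d 0 with rfl | hd
    · exact hdep (Submodule.mem_span_singleton.mpr ⟨c, by rw [← e, zero_smul, add_zero]⟩)
    · refine hw'2 (Submodule.mem_span_pair.mpr ⟨-(d⁻¹ * c), d⁻¹, ?_⟩)
      rw [← e, smul_add, smul_smul, smul_smul, inv_mul_cancel₀ hd, one_smul]; module
  obtain ⟨w, hw, hw0, hw1⟩ := P.symm.rep_one (Submodule.span_le.mpr (by simp [Set.insert_subset_iff, hp₂, hw'])) ha₂ ha₂S
  have hwp : polar Q w p₂ = 0 := hw0 p₂ (Submodule.subset_span (by simp))
  have hww : polar Q w w' = 0 := hw0 w' (Submodule.subset_span (by simp))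
  obtain ⟨hQw, -, hmem⟩ := hM w hw w' hw' hww
  have h1 := hpa.conj hmem
  rw [eich_apply hQw hww, eich_apply hQw hww] at h1
  simp only [polar_add_right, polar_ts P.singL hw hp₁, polar_ts P.singL hw ha₁, polar_ts P.singR hw' hp₂,
    polar_ts P.singR hw' ha₂, hw'1.1, hw'1.2, hwp, hw1, P.singR w' hw', zero_add, add_zero, zero_mul, zero_smul,
    one_smul, sub_zero] at h1
  have h2 := h1.sub hpa
  rw [add_sub_cancel_left] at h2
  have h3 := rootIn_symm h2 (P.singR w' hw')
  have h4 := h3.sub ((P.mixed_symm hM) w' hw' (-p₁) (W.neg_mem hp₁) (by rw [polar_neg_right, hw'1.1, neg_zero]))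
  rw [show -(p₁ + p₂) - -p₁ = -p₂ by abel] at h4
  refine hW' ⟨w', -p₂, hw', W'.neg_mem hp₂, fun h => hw'2 (h ▸ Submodule.zero_mem _), fun h => ?_, h4⟩
  obtain ⟨c, hc⟩ := Submodule.mem_span_singleton.mp h
  rcases eq_or_ne c 0 with rfl | hc0
  · rw [zero_smul] at hc; exact hp₂0 (neg_eq_zero.mp hc.symm)
  · refine hw'2 (Submodule.mem_span_pair.mpr ⟨-c⁻¹, 0, ?_⟩)
    rw [zero_smul, add_zero, neg_smul, ← smul_neg, ← hc, smul_smul, inv_mul_cancel₀ hc0, one_smul]

/-- An element sending all mixed lines to mixed lines maps `W` into one of the two subspaces. -/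
theorem Pair.image_cases (P : Pair Q W W' k) (hM : Mixed M W W') (hW : ¬ LineIn M W) (hW' : ¬ LineIn M W')
    {g : orth Q} (hg : g ∈ M) :
    (∀ z ∈ W, (g : V ≃ₗ[F] V) z ∈ W) ∨ (∀ z ∈ W, (g : V ≃ₗ[F] V) z ∈ W') := by
  have hz : ∀ z ∈ W, (g : V ≃ₗ[F] V) z ∈ W ∨ (g : V ≃ₗ[F] V) z ∈ W' := by
    intro z hzW
    by_contra hc
    push Not at hc
    obtain ⟨u, hu, v, hv, huv⟩ := P.split ((g : V ≃ₗ[F] V) z)
    have hu0 : u ≠ 0 := fun h => hc.2 (by rw [← huv, h, zero_add]; exact hv)
    have hv0 : v ≠ 0 := fun h => hc.1 (by rw [← huv, h, add_zero]; exact hu)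
    have hz0 : z ≠ 0 := fun h => hc.1 (by rw [h, map_zero]; exact W.zero_mem)
    have key : ∀ z' ∈ W', polar Q z z' = 0 → (g : V ≃ₗ[F] V) z' ∈ Submodule.span F ({u, v} : Set V) := by
      intro z' hz' hpol
      rcases eq_or_ne z' 0 with rfl | hz'0
      · rw [map_zero]; exact Submodule.zero_mem _
      have hn : (g : V ≃ₗ[F] V) z' ∉ Submodule.span F {(g : V ≃ₗ[F] V) z} := fun h => hz'0 (by
        obtain ⟨c, hc'⟩ := Submodule.mem_span_singleton.mp h
        rw [← map_smul] at hc'
        have := (g : V ≃ₗ[F] V).injective hc'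
        exact Submodule.disjoint_def.mp P.compl.disjoint z' (this ▸ W.smul_mem c hzW) hz')
      obtain ⟨x, hx, y, hy, hgz, hgz'⟩ := P.mixed_line hM hW hW' ((hM z hzW z' hz' hpol).conj hg)
        (by rw [orth_map, P.singR z' hz']) (fun h => hz0 ((g : V ≃ₗ[F] V).map_eq_zero_iff.mp h)) hn
      obtain ⟨α, β, e⟩ := Submodule.mem_span_pair.mp hgz
      have e1 : α • x - u = v - β • y := by rw [sub_eq_sub_iff_add_eq_add, e, add_comm, huv]
      have e2 : α • x - u = 0 := Submodule.disjoint_def.mp P.compl.disjoint _ (W.sub_mem (W.smul_mem _ hx) hu)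
        (e1 ▸ W'.sub_mem hv (W'.smul_mem _ hy))
      have e3 : v - β • y = 0 := e1 ▸ e2
      rw [sub_eq_zero] at e2 e3
      have hα : α ≠ 0 := fun h => hu0 (by rw [← e2, h, zero_smul])
      have hβ : β ≠ 0 := fun h => hv0 (by rw [e3, h, zero_smul])
      obtain ⟨γ, δ, e'⟩ := Submodule.mem_span_pair.mp hgz'
      refine Submodule.mem_span_pair.mpr ⟨γ / α, δ / β, ?_⟩
      rw [← e2, e3, smul_smul, smul_smul, div_mul_cancel₀ _ hα, div_mul_cancel₀ _ hβ, e']
    set U := W' ⊓ perp Q (Submodule.span F {z})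
    have hUimg : U.map ((g : V ≃ₗ[F] V) : V →ₗ[F] V) ≤ Submodule.span F ({u, v} : Set V) := by
      rintro _ ⟨z', hz', rfl⟩
      exact key z' hz'.1 (mem_perp_span.mp hz'.2)
    have h1 := Submodule.finrank_mono hUimg
    rw [LinearEquiv.finrank_map_eq] at h1
    classical
    have h4 := finrank_span_finset_le_card (R := F) ({u, v} : Finset V)
    rw [Finset.coe_insert, Finset.coe_singleton] at h4
    have h5 : Module.finrank F (Submodule.span F ({u, v} : Set V)) ≤ 2 :=
      le_trans h4 (Finset.card_le_two (a := u) (b := v))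
    have h6 := Submodule.finrank_sup_add_finrank_inf_eq W' (perp Q (Submodule.span F {z}))
    have h7 := Submodule.finrank_le (W' ⊔ perp Q (Submodule.span F {z}))
    have h8 := finrank_perp_add P.nondeg (Submodule.span F {z})
    rw [finrank_span_singleton hz0] at h8
    rw [P.dimR] at h6
    have h9 : Module.finrank F U = Module.finrank F ↥(W' ⊓ perp Q (Submodule.span F {z})) := rfl
    have := P.big
    omega
  by_contra hc
  push Not at hc
  obtain ⟨⟨z₁, hz₁, h1⟩, ⟨z₂, hz₂, h2⟩⟩ := hc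
  have h1' := (hz z₁ hz₁).resolve_left h1
  have h2' := (hz z₂ hz₂).resolve_right h2
  rcases hz (z₁ + z₂) (W.add_mem hz₁ hz₂) with h | h
  · rw [map_add] at h; exact h1 (by simpa using W.sub_mem h h2')
  · rw [map_add] at h; exact h2 (by simpa using W'.sub_mem h h1')

/-- The swapping element for an even dimension. -/
theorem Pair.exists_swap [Finite F] [Finite V] (P : Pair Q W W' k) (hk : Even k) :
    ∃ s ∈ commutator (orth Q), (∀ z ∈ W, (s : V ≃ₗ[F] V) z ∈ W') ∧ ∀ z ∈ W', (s : V ≃ₗ[F] V) z ∈ W := by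
  have hn : 5 ≤ Module.finrank F V := by
    have := Submodule.finrank_le W; have := P.dimL; have := P.big; omega
  let B := Module.finBasisOfFinrankEq F W P.dimL
  have hdual : ∀ i, ∃ y ∈ W', ∀ j, polar Q y (B j : V) = if j = i then 1 else 0 := fun i => by
    obtain ⟨φ, hφ⟩ := LinearMap.exists_extend (B.coord i)
    obtain ⟨y, hy, hrep⟩ := P.rep φ
    refine ⟨y, hy, fun j => ?_⟩
    rw [hrep _ (B j).2, show φ (B j : V) = B.coord i (B j) from LinearMap.congr_fun hφ (B j), B.coord_apply,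
      B.repr_self, Finsupp.single_apply]
  choose c hcW hc using hdual
  set b : Fin k → V := fun i => (B i : V)
  have hbW : ∀ i, b i ∈ W := fun i => (B i).2
  have hbc : ∀ i j, polar Q (b i) (c j) = if i = j then 1 else 0 := fun i j => by rw [polar_comm]; exact hc j i
  have main : ∀ j, 2 * j ≤ k → ∃ s ∈ commutator (orth Q),
      (∀ i : Fin k, i.1 < 2 * j → (s : V ≃ₗ[F] V) (b i) ∈ W' ∧ (s : V ≃ₗ[F] V) (c i) ∈ W) ∧
      ∀ i : Fin k, 2 * j ≤ i.1 → (s : V ≃ₗ[F] V) (b i) = b i ∧ (s : V ≃ₗ[F] V) (c i) = c i := by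
    intro j
    induction j with
    | zero => exact fun _ => ⟨1, Subgroup.one_mem _, fun i hi => absurd hi (by omega), fun i _ => ⟨rfl, rfl⟩⟩
    | succ j ih =>
      intro hj
      obtain ⟨s, hs, hdone, hfix⟩ := ih (by omega)
      set i₁ : Fin k := ⟨2 * j, by omega⟩
      set i₂ : Fin k := ⟨2 * j + 1, by omega⟩
      have hne : i₁ ≠ i₂ := fun h => by have := congrArg Fin.val h; simp [i₁, i₂] at this
      set A := eich Q (b i₁) (b i₂)
      set C := eich Q (c i₁) (c i₂)
      have hA : ∀ x, (A : V ≃ₗ[F] V) x = x + polar Q (b i₁) x • b i₂ - polar Q (b i₂) x • b i₁ := fun x => by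
        rw [eich_apply (P.singL _ (hbW _)) (polar_ts P.singL (hbW _) (hbW _)), P.singL _ (hbW i₂)]
        module
      have hC : ∀ x, (C : V ≃ₗ[F] V) x = x + polar Q (c i₁) x • c i₂ - polar Q (c i₂) x • c i₁ := fun x => by
        rw [eich_apply (P.singR _ (hcW _)) (polar_ts P.singR (hcW _) (hcW _)), P.singR _ (hcW i₂)]
        module
      have hcb : ∀ i j, polar Q (c i) (b j) = if j = i then 1 else 0 := fun i j => hc i j
      have hbb : ∀ i j, polar Q (b i) (b j) = 0 := fun i j => polar_ts P.singL (hbW i) (hbW j)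
      have hcc : ∀ i j, polar Q (c i) (c j) = 0 := fun i j => polar_ts P.singR (hcW i) (hcW j)
      set w := A * C * A
      have e1 : (w : V ≃ₗ[F] V) (b i₁) = c i₂ := by
        simp only [w, orth_mul_apply, hA, hC, polar_add_right, polar_sub_right, polar_smul_right, hbb, hcc, hcb, hbc,
          hne, hne.symm, if_true, if_false, smul_eq_mul]
        module
      have e2 : (w : V ≃ₗ[F] V) (b i₂) = -c i₁ := by
        simp only [w, orth_mul_apply, hA, hC, polar_add_right, polar_sub_right, polar_smul_right, hbb, hcc, hcb, hbc,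
          hne, hne.symm, if_true, if_false, smul_eq_mul]
        module
      have e3 : (w : V ≃ₗ[F] V) (c i₁) = b i₂ := by
        simp only [w, orth_mul_apply, hA, hC, polar_add_right, polar_sub_right, polar_smul_right, hbb, hcc, hcb, hbc,
          hne, hne.symm, if_true, if_false, smul_eq_mul]
        module
      have e4 : (w : V ≃ₗ[F] V) (c i₂) = -b i₁ := by
        simp only [w, orth_mul_apply, hA, hC, polar_add_right, polar_sub_right, polar_smul_right, hbb, hcc, hcb, hbc,
          hne, hne.symm, if_true, if_false, smul_eq_mul]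
        module
      have efix : ∀ i, i ≠ i₁ → i ≠ i₂ → (w : V ≃ₗ[F] V) (b i) = b i ∧ (w : V ≃ₗ[F] V) (c i) = c i := fun i h1 h2 => by
        constructor <;>
          · simp only [w, orth_mul_apply, hA, hC, polar_add_right, polar_sub_right, polar_smul_right, hbb, hcc, hcb,
              hbc, h1, h2, h1.symm, h2.symm, if_false, smul_eq_mul]
            module
      refine ⟨s * w, Subgroup.mul_mem _ hs (Subgroup.mul_mem _ (Subgroup.mul_mem _ (eich_mem_commutator P.nondeg hn _ _)
        (eich_mem_commutator P.nondeg hn _ _)) (eich_mem_commutator P.nondeg hn _ _)), fun i hi => ?_, fun i hi => ?_⟩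
      · rw [orth_mul_apply s w, orth_mul_apply s w]
        by_cases h1 : i = i₁
        · subst h1
          rw [e1, e3, (hfix i₂ (by simp [i₂])).2, (hfix i₂ (by simp [i₂])).1]
          exact ⟨hcW _, hbW _⟩
        by_cases h2 : i = i₂
        · subst h2
          rw [e2, e4, map_neg, map_neg, (hfix i₁ (by simp [i₁])).2, (hfix i₁ (by simp [i₁])).1]
          exact ⟨W'.neg_mem (hcW _), W.neg_mem (hbW _)⟩
        rw [(efix i h1 h2).1, (efix i h1 h2).2]
        refine hdone i ?_
        have v1 : i.1 ≠ 2 * j := fun h => h1 (Fin.ext h)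
        have v2 : i.1 ≠ 2 * j + 1 := fun h => h2 (Fin.ext h)
        omega
      · have v1 : i ≠ i₁ := fun h => by rw [h] at hi; simp [i₁] at hi
        have v2 : i ≠ i₂ := fun h => by rw [h] at hi; simp [i₂] at hi; omega
        rw [orth_mul_apply s w, orth_mul_apply s w, (efix i v1 v2).1, (efix i v1 v2).2]
        exact hfix i (by omega)
  obtain ⟨j, hj⟩ := hk
  obtain ⟨s, hs, hdone, -⟩ := main j (by omega)
  refine ⟨s, hs, fun z hz => ?_, fun z hz => ?_⟩
  · have e : z = ∑ i, B.repr ⟨z, hz⟩ i • b i := by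
      have := congrArg Subtype.val (B.sum_repr ⟨z, hz⟩)
      simp only [Submodule.coe_sum, Submodule.coe_smul] at this
      exact this.symm
    rw [e, map_sum]
    exact W'.sum_mem fun i _ => by rw [map_smul]; exact W'.smul_mem _ (hdone i (by omega)).1
  · have e : z = ∑ i, polar Q (b i) z • c i := by
      rw [← sub_eq_zero]
      refine P.nondeg.1 _ fun v => ?_
      obtain ⟨x, hx, y, hy, rfl⟩ := P.split v
      set d := z - ∑ i, polar Q (b i) z • c i with hd
      have hd' : d ∈ W' := W'.sub_mem hz (W'.sum_mem fun i _ => W'.smul_mem _ (hcW i))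
      have hdb : ∀ l, polar Q d (b l) = 0 := fun l => by
        rw [polar_comm, hd, ← polarBilin_apply_apply, map_sub, map_sum]
        simp only [map_smul, polarBilin_apply_apply, hbc, smul_eq_mul, mul_ite, mul_one, mul_zero,
          Finset.sum_ite_eq, Finset.mem_univ, if_true, sub_self]
      have ex : x = ∑ i, B.repr ⟨x, hx⟩ i • b i := by
        have := congrArg Subtype.val (B.sum_repr ⟨x, hx⟩)
        simp only [Submodule.coe_sum, Submodule.coe_smul] at this
        exact this.symm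
      rw [map_add, polarBilin_apply_apply, polarBilin_apply_apply, polar_ts P.singR hd' hy, add_zero, ex,
        ← polarBilin_apply_apply, map_sum]
      exact Finset.sum_eq_zero fun l _ => by rw [map_smul, polarBilin_apply_apply, hdb, smul_zero]
    rw [e, map_sum]
    exact W.sum_mem fun i _ => by rw [map_smul]; exact W.smul_mem _ (hdone i (by omega)).2

/-- Two subspaces are preserved or exchanged. -/
def KeepsPair (W W' : Submodule F V) (g : orth Q) : Prop :=
  ((∀ z ∈ W, (g : V ≃ₗ[F] V) z ∈ W) ∧ ∀ z ∈ W', (g : V ≃ₗ[F] V) z ∈ W') ∨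
    ((∀ z ∈ W, (g : V ≃ₗ[F] V) z ∈ W') ∧ ∀ z ∈ W', (g : V ≃ₗ[F] V) z ∈ W)

/-- A Levi root element keeps both subspaces. -/
theorem Pair.mixed_keeps (P : Pair Q W W' k) {w w' : V} (hw : w ∈ W) (hw' : w' ∈ W') (h : polar Q w w' = 0) :
    KeepsPair W W' (eich Q w w') := by
  refine Or.inl ⟨fun z hz => ?_, fun z hz => ?_⟩ <;>
    rw [eich_apply (P.singL w hw) h, P.singR w' hw']
  · rw [polar_ts P.singL hw hz, zero_smul, mul_zero, zero_smul, add_zero, sub_zero]
    exact W.sub_mem hz (W.smul_mem _ hw)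
  · rw [polar_ts P.singR hw' hz, zero_smul, zero_mul, zero_smul, sub_zero, sub_zero]
    exact W'.add_mem hz (W'.smul_mem _ hw')

/-- An element outside the stabiliser exists. -/
theorem Pair.exists_not_keeps [Finite F] [Finite V] (P : Pair Q W W' k) :
    ∃ g ∈ commutator (orth Q), ¬ KeepsPair W W' g := by
  have hn : 5 ≤ Module.finrank F V := by
    have := Submodule.finrank_le W; have := P.dimL; have := P.big; omega
  obtain ⟨w₁, hw₁, hw₁0⟩ := Submodule.exists_mem_ne_zero_of_ne_bot
    (show W ≠ ⊥ from fun h => by have := P.dimL; rw [h, finrank_bot] at this; have := P.big; omega)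
  obtain ⟨w₂, hw₂, hn₂⟩ := exists_not_mem_span_pair (U := W) (by rw [P.dimL]; have := P.big; omega) w₁ w₁
  obtain ⟨y, hy, hy0, hy1⟩ := P.rep_one (S := Submodule.span F ({w₁, w₁} : Set V))
    (Submodule.span_le.mpr (by simp [hw₁])) hw₂ hn₂
  have hyw₁ : polar Q w₁ y = 0 := by rw [polar_comm]; exact hy0 w₁ (Submodule.subset_span (by simp))
  have hyw₂ : polar Q w₂ y = 1 := by rw [polar_comm]; exact hy1
  refine ⟨eich Q w₁ w₂, eich_mem_commutator P.nondeg hn _ _, fun h => ?_⟩
  have e1 : (eich Q w₁ w₂ : V ≃ₗ[F] V) y = y - w₁ := by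
    rw [eich_apply (P.singL w₁ hw₁) (polar_ts P.singL hw₁ hw₂), hyw₁, hyw₂]; module
  rcases h with ⟨-, h⟩ | ⟨h, -⟩
  · have := h y hy
    rw [e1] at this
    exact hw₁0 (Submodule.disjoint_def.mp P.compl.disjoint w₁ hw₁ (by simpa using W'.sub_mem hy this))
  · have e2 : (eich Q w₁ w₂ : V ≃ₗ[F] V) w₁ = w₁ :=
      eich_apply_self (P.singL w₁ hw₁) (polar_ts P.singL hw₁ hw₂)
    exact hw₁0 (Submodule.disjoint_def.mp P.compl.disjoint w₁ hw₁ (e2 ▸ h w₁ hw₁))

/-- The main step. -/
theorem Pair.commutator_le [Finite F] [Finite V] (P : Pair Q W W' k) (hk : Even k)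
    (hM : ∀ g ∈ commutator (orth Q), KeepsPair W W' g → g ∈ M) {g : orth Q} (hg : g ∈ M)
    (hgW : ¬ KeepsPair W W' g) : commutator (orth Q) ≤ M := by
  have hn : 5 ≤ Module.finrank F V := by
    have := Submodule.finrank_le W; have := P.dimL; have := P.big; omega
  have hmix : Mixed M W W' := fun w hw w' hw' h =>
    ⟨P.singL w hw, h, hM _ (eich_mem_commutator P.nondeg hn _ _) (P.mixed_keeps hw hw' h)⟩
  obtain ⟨s, hs, hsW, hsW'⟩ := P.exists_swap hk
  have hsM : s ∈ M := hM s hs (Or.inr ⟨hsW, hsW'⟩)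
  have hmove : ∀ U U' : Submodule F V, (∀ z ∈ U, (s : V ≃ₗ[F] V) z ∈ U') → LineIn M U → LineIn M U' := by
    rintro U U' hU ⟨w, a, hw, ha, hw0, hna, hr⟩
    refine ⟨_, _, hU w hw, hU a ha, fun h => hw0 ((s : V ≃ₗ[F] V).map_eq_zero_iff.mp h), fun h => hna ?_,
      hr.conj hsM⟩
    obtain ⟨c, hc⟩ := Submodule.mem_span_singleton.mp h
    rw [← map_smul] at hc
    exact Submodule.mem_span_singleton.mpr ⟨c, (s : V ≃ₗ[F] V).injective hc⟩
  by_cases hboth : LineIn M W ∨ LineIn M W'
  · have hW : LineIn M W := hboth.elim id (hmove W' W hsW')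
    have hW' : LineIn M W' := hboth.elim (hmove W W' hsW) id
    obtain ⟨w, hw, hw0⟩ := Submodule.exists_mem_ne_zero_of_ne_bot
      (show W ≠ ⊥ from fun h => by have := P.dimL; rw [h, finrank_bot] at this; have := P.big; omega)
    obtain ⟨y, hy, -, hy1⟩ := P.rep_one (S := ⊥) bot_le hw (fun h => hw0 ((Submodule.mem_bot F).mp h))
    exact commutator_le_of_fullRoot P.nondeg hn (P.symm.fullRoot (P.mixed_symm hmix)
      (P.symm.all_in (P.mixed_symm hmix) hW') hy) (P.fullRoot hmix (P.all_in hmix hW) hw)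
      (by rw [hy1]; exact one_ne_zero)
  exfalso
  push Not at hboth
  have hdimV : Module.finrank F W + Module.finrank F W' = Module.finrank F V :=
    Submodule.finrank_add_eq_of_isCompl P.compl
  have hboth' : ∀ U : Submodule F V, (∀ z ∈ W, (g : V ≃ₗ[F] V) z ∈ U) → (∀ z ∈ W', (g : V ≃ₗ[F] V) z ∈ U) →
      Module.finrank F U = k → False := fun U h1 h2 hU => by
    have htop : (⊤ : Submodule F V).map ((g : V ≃ₗ[F] V) : V →ₗ[F] V) ≤ U := by
      rintro _ ⟨x, -, rfl⟩
      obtain ⟨a, ha, b, hb, rfl⟩ := P.split x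
      change (g : V ≃ₗ[F] V) (a + b) ∈ U
      rw [map_add]
      exact U.add_mem (h1 a ha) (h2 b hb)
    have h3 := Submodule.finrank_mono htop
    rw [LinearEquiv.finrank_map_eq, finrank_top, hU] at h3
    rw [P.dimL, P.dimR] at hdimV
    have := P.big
    omega
  rcases P.image_cases hmix hboth.1 hboth.2 hg with h1 | h1 <;>
    rcases P.symm.image_cases (P.mixed_symm hmix) hboth.2 hboth.1 hg with h2 | h2
  · exact hgW (Or.inl ⟨h1, h2⟩)
  · exact hboth' W h1 h2 P.dimL
  · exact hboth' W' h1 h2 P.dimR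
  · exact hgW (Or.inr ⟨h1, h2⟩)

end Cfsg.Agent.H98.SingPair
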