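import Cfsg.Agent.H98.MaximalSLSymp
import Cfsg.Agent.H98.QuadFun

set_option autoImplicit false
set_option linter.unusedSectionVars false

/-!
Elementary geometry of a non-degenerate quadratic form over a finite field of odd order: singular vectors,
hyperbolic pairs orthogonal to two vectors, Siegel elements and tori.
-/

namespace Cfsg.Agent.H98.Orth

open scoped Matrix

variable {ι : Type} [Fintype ι] [DecidableEq ι] {F : Type*} [Field F]

/-- The standing hypotheses. -/
structure Good (q : QuadraticForm F (ι → F)) : Prop where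
  two : (2 : F) ≠ 0
  nondeg : q.polarBilin.Nondegenerate

variable {q : QuadraticForm F (ι → F)}

theorem b_comm (x y : ι → F) : q.polarBilin x y = q.polarBilin y x := QuadraticMap.polar_comm (⇑q) x y

theorem b_self (x : ι → F) : q.polarBilin x x = 2 * q x := by
  simp only [QuadraticMap.polarBilin_apply_apply, QuadraticMap.polar_self, nsmul_eq_mul, Nat.cast_ofNat]

theorem q_add (x y : ι → F) : q (x + y) = q x + q y + q.polarBilin x y := QuadraticMap.map_add (⇑q) x y

theorem q_smul (c : F) (x : ι → F) : q (c • x) = c * c * q x := by rw [QuadraticMap.map_smul, smul_eq_mul]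

variable (hq : Good q)
include hq

/-- Every functional is a polar. -/
theorem Good.exists_rep (φ : (ι → F) →ₗ[F] F) : ∃ p, q.polarBilin p = φ := by
  have hinj : Function.Injective q.polarBilin := LinearMap.separatingLeft_iff_ker_eq_bot.mp hq.nondeg.1 |>
    LinearMap.ker_eq_bot.mp
  exact (LinearMap.injective_iff_surjective_of_finrank_eq_finrank Subspace.dual_finrank_eq.symm).mp hinj φ

theorem Good.eq_zero {x : ι → F} (h : ∀ y, q.polarBilin x y = 0) : x = 0 := hq.nondeg.1 x h

/-- A vector with product one. -/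
theorem Good.exists_one {x : ι → F} (hx : x ≠ 0) : ∃ y, q.polarBilin x y = 1 := by
  obtain ⟨y, hy⟩ : ∃ y, q.polarBilin x y ≠ 0 := by
    by_contra hc; push Not at hc
    exact hx (hq.eq_zero hc)
  exact ⟨(q.polarBilin x y)⁻¹ • y, by rw [map_smul, smul_eq_mul, inv_mul_cancel₀ hy]⟩

/-- A singular partner of a singular vector, with prescribed orthogonality. -/
theorem Good.partner_perp {e : ι → F} {S : Submodule F (ι → F)} (hee : q e = 0) (he : e ∉ S)
    (heS : ∀ s ∈ S, q.polarBilin e s = 0) :
    ∃ f, q f = 0 ∧ q.polarBilin e f = 1 ∧ q.polarBilin f e = 1 ∧ ∀ s ∈ S, q.polarBilin f s = 0 := by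
  obtain ⟨φ, h1, h2⟩ := exists_functional he
  obtain ⟨y, rfl⟩ := hq.exists_rep φ
  have hye : q.polarBilin e y = 1 := by rw [b_comm]; exact h1
  refine ⟨y + (-q y) • e, ?_, ?_, ?_, fun s hs => ?_⟩
  · rw [q_add, q_smul, map_smul, hee, h1, smul_eq_mul]; ring
  · rw [map_add, map_smul, hye, b_self, hee]; simp
  · rw [LinearMap.map_add₂, LinearMap.map_smul₂, h1, b_self, hee]; simp
  · rw [LinearMap.map_add₂, LinearMap.map_smul₂, LinearMap.mem_ker.mp (h2 hs), heS s hs, smul_zero, add_zero]

variable [Finite F]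

/-- A subspace of dimension at least three has a non-zero singular vector. -/
theorem Good.exists_singular {U : Submodule F (ι → F)} (hU : 3 ≤ Module.finrank F U) :
    ∃ x ∈ U, x ≠ 0 ∧ q x = 0 := by
  classical
  haveI := Fintype.ofFinite F
  by_contra hc
  push Not at hc
  obtain ⟨x, hx, hx0⟩ := Submodule.exists_mem_ne_zero_of_ne_bot
    (show U ≠ ⊥ from fun h => by rw [h, finrank_bot] at hU; omega)
  have hdrop : ∀ (W : Submodule F (ι → F)) (z : ι → F),
      Module.finrank F W ≤ Module.finrank F ↥(W ⊓ LinearMap.ker (q.polarBilin z)) + 1 := by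
    intro W z
    have h1 := Submodule.finrank_sup_add_finrank_inf_eq W (LinearMap.ker (q.polarBilin z))
    have h2 := Submodule.finrank_le (W ⊔ LinearMap.ker (q.polarBilin z))
    have h3 := LinearMap.finrank_range_add_finrank_ker (q.polarBilin z)
    have h4 := Submodule.finrank_le (LinearMap.range (q.polarBilin z))
    rw [Module.finrank_self] at h4
    omega
  obtain ⟨y, hy, hy0⟩ := Submodule.exists_mem_ne_zero_of_ne_bot
    (show U ⊓ LinearMap.ker (q.polarBilin x) ≠ ⊥ from fun h => by
      have := hdrop U x; rw [h, finrank_bot] at this; omega)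
  obtain ⟨z, hz, hz0⟩ := Submodule.exists_mem_ne_zero_of_ne_bot
    (show (U ⊓ LinearMap.ker (q.polarBilin x)) ⊓ LinearMap.ker (q.polarBilin y) ≠ ⊥ from fun h => by
      have h1 := hdrop U x
      have h2 := hdrop (U ⊓ LinearMap.ker (q.polarBilin x)) y
      rw [h, finrank_bot] at h2; omega)
  have hxy : q.polarBilin x y = 0 := hy.2
  have hxz : q.polarBilin x z = 0 := hz.1.2
  have hyz : q.polarBilin y z = 0 := hz.2
  have hα := hc x hx hx0
  have hβ := hc y hy.1 hy0
  have hodd : Fintype.card F % 2 = 1 := by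
    rcases Nat.mod_two_eq_zero_or_one (Fintype.card F) with h | h
    · haveI : CharP F 2 := ringChar.of_eq (FiniteField.even_card_iff_char_two.mpr h)
      exact absurd CharTwo.two_eq_zero hq.two
    · exact h
  obtain ⟨s, t, hst⟩ := FiniteField.exists_root_sum_quadratic
    (f := Polynomial.C (q x) * Polynomial.X ^ 2) (g := Polynomial.C (q y) * Polynomial.X ^ 2 + Polynomial.C (q z))
    (Polynomial.degree_C_mul_X_pow 2 hα)
    (by rw [Polynomial.degree_add_C (by rw [Polynomial.degree_C_mul_X_pow 2 hβ]; decide)]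
        exact Polynomial.degree_C_mul_X_pow 2 hβ) hodd
  simp only [Polynomial.eval_add, Polynomial.eval_mul, Polynomial.eval_C, Polynomial.eval_pow, Polynomial.eval_X]
    at hst
  refine hc (s • x + t • y + z) (U.add_mem (U.add_mem (U.smul_mem _ hx) (U.smul_mem _ hy.1)) hz.1.1) (fun h0 => ?_) ?_
  · have h1 : q.polarBilin z (s • x + t • y + z) = 2 * q z := by
      rw [map_add, map_add, map_smul, map_smul, b_comm z x, hxz, b_comm z y, hyz, b_self]; simp
    rw [h0, map_zero] at h1
    exact hc z hz.1.1 hz0 ((mul_eq_zero.mp h1.symm).resolve_left hq.two)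
  · rw [q_add, q_add, q_smul, q_smul, LinearMap.map_add₂, LinearMap.map_smul₂, LinearMap.map_smul₂,
      LinearMap.map_smul₂, map_smul, hxy, hxz, hyz]
    simp only [smul_zero, add_zero]
    linear_combination hst

/-- A hyperbolic pair orthogonal to two given vectors, when the dimension is at least seven. -/
theorem Good.perp_pair (hn : 7 ≤ Fintype.card ι) (a b : ι → F) :
    ∃ e f, q e = 0 ∧ q f = 0 ∧ q.polarBilin e f = 1 ∧ q.polarBilin f e = 1 ∧ q.polarBilin e a = 0 ∧
      q.polarBilin e b = 0 ∧ q.polarBilin f a = 0 ∧ q.polarBilin f b = 0 := by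
  classical
  set W := Submodule.span F ({a, b} : Set (ι → F)) with hW
  set U := LinearMap.ker (q.polarBilin a) ⊓ LinearMap.ker (q.polarBilin b)
  obtain ⟨C, hC⟩ := Submodule.exists_isCompl ((W ⊓ U).comap U.subtype)
  have hW2 : Module.finrank F W ≤ 2 := by
    have h4 := finrank_span_finset_le_card (R := F) ({a, b} : Finset (ι → F))
    rw [Finset.coe_insert, Finset.coe_singleton] at h4
    exact le_trans h4 (Finset.card_le_two (a := a) (b := b))
  have hC3 : 3 ≤ Module.finrank F (C.map U.subtype) := by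
    rw [Submodule.finrank_map_subtype_eq]
    have h1 := Submodule.finrank_add_eq_of_isCompl hC
    rw [(Submodule.comapSubtypeEquivOfLe (inf_le_right : W ⊓ U ≤ U)).finrank_eq] at h1
    have h2 := Submodule.finrank_mono (inf_le_left : W ⊓ U ≤ W)
    have h3 : Fintype.card ι ≤ Module.finrank F U + 2 := by
      have k1 := Submodule.finrank_sup_add_finrank_inf_eq (LinearMap.ker (q.polarBilin a))
        (LinearMap.ker (q.polarBilin b))
      have k2 := Submodule.finrank_le (LinearMap.ker (q.polarBilin a) ⊔ LinearMap.ker (q.polarBilin b))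
      have k3 : ∀ z, Module.finrank F (ι → F) ≤ Module.finrank F (LinearMap.ker (q.polarBilin z)) + 1 := fun z => by
        have h3 := LinearMap.finrank_range_add_finrank_ker (q.polarBilin z)
        have h4 := Submodule.finrank_le (LinearMap.range (q.polarBilin z))
        rw [Module.finrank_self] at h4
        omega
      have k4 := k3 a
      have k5 := k3 b
      rw [Module.finrank_pi] at k2 k4 k5
      change Fintype.card ι ≤ Module.finrank F ↥(LinearMap.ker (q.polarBilin a) ⊓ LinearMap.ker (q.polarBilin b)) + 2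
      omega
    omega
  obtain ⟨e, he, he0, hee⟩ := hq.exists_singular hC3
  obtain ⟨e', he', rfl⟩ := Submodule.mem_map.mp he
  have heW : (e' : ι → F) ∉ W := fun h => he0 (by
    have h0 : e' = 0 := Submodule.disjoint_def.mp hC.disjoint e' ⟨h, e'.2⟩ he'
    rw [h0]; rfl)
  have hea : q.polarBilin (e' : ι → F) a = 0 := by rw [b_comm]; exact e'.2.1
  have heb : q.polarBilin (e' : ι → F) b = 0 := by rw [b_comm]; exact e'.2.2
  obtain ⟨f, hf, h1, h2, hfS⟩ := hq.partner_perp hee heW fun s hs => by
    obtain ⟨k, l, rfl⟩ := Submodule.mem_span_pair.mp hs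
    rw [map_add, map_smul, map_smul, show U.subtype e' = (e' : ι → F) from rfl, hea, heb]
    simp
  exact ⟨_, f, hee, hf, h1, h2, hea, heb, hfS a (Submodule.subset_span (by simp)),
    hfS b (Submodule.subset_span (by simp))⟩

/-- The singular vectors orthogonal to two given vectors span all vectors orthogonal to them. -/
theorem Good.perp_span (hn : 7 ≤ Fintype.card ι) (a b : ι → F) (S : Submodule F (ι → F))
    (h : ∀ w, q w = 0 → q.polarBilin w a = 0 → q.polarBilin w b = 0 → w ∈ S) {x : ι → F}
    (hxa : q.polarBilin x a = 0) (hxb : q.polarBilin x b = 0) : x ∈ S := by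
  obtain ⟨e, f, hee, hff, hef, hfe, hea, heb, hfa, hfb⟩ := hq.perp_pair hn a b
  set s := q.polarBilin x f
  set t := q.polarBilin x e
  set x' := x - s • e - t • f with hx'
  have c1 : q.polarBilin x' e = 0 := by
    rw [hx']; simp only [map_sub, map_smul, LinearMap.sub_apply, LinearMap.smul_apply, b_self, hee, hfe, smul_eq_mul]
    ring
  have c2 : q.polarBilin x' f = 0 := by
    rw [hx']; simp only [map_sub, map_smul, LinearMap.sub_apply, LinearMap.smul_apply, b_self, hff, hef, smul_eq_mul]
    ring
  have c3 : q.polarBilin x' a = 0 := by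
    rw [hx']; simp [map_sub, map_smul, LinearMap.sub_apply, LinearMap.smul_apply, hxa, hea, hfa,
      -QuadraticMap.polarBilin_apply_apply]
  have c4 : q.polarBilin x' b = 0 := by
    rw [hx']; simp [map_sub, map_smul, LinearMap.sub_apply, LinearMap.smul_apply, hxb, heb, hfb,
      -QuadraticMap.polarBilin_apply_apply]
  have hsing : q (x' + e + (-q x') • f) = 0 := by
    rw [q_add, q_add, q_smul, hee, hff, c1, map_smul, LinearMap.map_add₂, c2, hef, smul_eq_mul]; ring
  have hw := h _ hsing
    (by rw [LinearMap.map_add₂, LinearMap.map_add₂, LinearMap.map_smul₂, c3, hea, hfa, smul_zero]; ring)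
    (by rw [LinearMap.map_add₂, LinearMap.map_add₂, LinearMap.map_smul₂, c4, heb, hfb, smul_zero]; ring)
  have e0 : x = (x' + e + (-q x') • f) + (s - 1) • e + (t - (-q x')) • f := by rw [hx']; module
  rw [e0]
  exact S.add_mem (S.add_mem hw (S.smul_mem _ (h e hee hea heb))) (S.smul_mem _ (h f hff hfa hfb))

omit [Finite F]

/-- A Siegel element as a matrix. -/
def eichGL {e b : ι → F} (he : q e = 0) (hb : q.polarBilin e b = 0) : GL ι F :=
  transGL (q.polarBilin e) (b - q b • e)
      (by rw [map_sub, map_smul, hb, b_self, he]; simp) *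
    transGL (-q.polarBilin b) e (by rw [LinearMap.neg_apply, b_comm, hb, neg_zero])

omit hq in
theorem eichGL_mulVec {e b : ι → F} (he : q e = 0) (hb : q.polarBilin e b = 0) (x : ι → F) :
    (eichGL he hb : Matrix ι ι F) *ᵥ x =
      x + q.polarBilin e x • b - q.polarBilin b x • e - (q b * q.polarBilin e x) • e := by
  simp only [eichGL, Units.val_mul, ← Matrix.mulVec_mulVec, transGL_mulVec, LinearMap.neg_apply, map_add, map_smul,
    b_self, he, smul_eq_mul, mul_zero, add_zero]
  module

/-- Determinant-one isometries. -/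
def IsoS (q : QuadraticForm F (ι → F)) (g : GL ι F) : Prop :=
  (∀ x, q ((g : Matrix ι ι F) *ᵥ x) = q x) ∧ g ∈ Cfsg.Geo.specialLinear ι F

omit hq in
theorem IsoS.polar {g : GL ι F} (hg : IsoS q g) (x y : ι → F) :
    q.polarBilin ((g : Matrix ι ι F) *ᵥ x) ((g : Matrix ι ι F) *ᵥ y) = q.polarBilin x y := by
  have h := q_add (q := q) ((g : Matrix ι ι F) *ᵥ x) ((g : Matrix ι ι F) *ᵥ y)
  rw [← Matrix.mulVec_add, hg.1, hg.1, hg.1, q_add] at h
  exact (add_left_cancel h).symm

omit hq in
theorem eichGL_iso {e b : ι → F} (he : q e = 0) (hb : q.polarBilin e b = 0) : IsoS q (eichGL he hb) := by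
  refine ⟨fun x => ?_, Subgroup.mul_mem _ (transGL_mem_sl _ _ _) (transGL_mem_sl _ _ _)⟩
  set r := q.polarBilin e x with hr
  set s := -(q.polarBilin b x) - q b * r with hs
  have e1 : (eichGL he hb : Matrix ι ι F) *ᵥ x = (x + r • b) + s • e := by
    rw [eichGL_mulVec, hs, hr]; module
  rw [e1, q_add, q_add, q_smul, q_smul, he, map_smul, map_smul, LinearMap.map_add₂, LinearMap.map_smul₂,
    b_comm x b, b_comm x e, b_comm b e, hb, ← hr]
  simp only [smul_eq_mul, hs]
  ring

/-- The torus element of a hyperbolic pair. -/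
theorem Good.torus {z y : ι → F} (hzz : q z = 0) (hyy : q y = 0) (hzy : q.polarBilin z y = 1) {l : F} (hl0 : l ≠ 0) :
    ∃ k, IsoS q k ∧ ∀ v, (k : Matrix ι ι F) *ᵥ v =
      v + ((l - 1) * q.polarBilin y v) • z + ((l⁻¹ - 1) * q.polarBilin z v) • y := by
  have hyz : q.polarBilin y z = 1 := by rw [b_comm]; exact hzy
  have hzz' : q.polarBilin z z = 0 := by rw [b_self, hzz, mul_zero]
  have hyy' : q.polarBilin y y = 0 := by rw [b_self, hyy, mul_zero]
  have hu : ∀ b : F, (b • q.polarBilin z) z = 0 := fun b => by rw [LinearMap.smul_apply, hzz', smul_zero]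
  have hd : ∀ b : F, (b • q.polarBilin y) y = 0 := fun b => by rw [LinearMap.smul_apply, hyy', smul_zero]
  set k := transGL _ z (hu l) * transGL _ y (hd (-l⁻¹)) * transGL _ z (hu l) * transGL _ z (hu (-1)) *
    transGL _ y (hd 1) * transGL _ z (hu (-1)) with hk
  have hkv : ∀ v, (k : Matrix ι ι F) *ᵥ v =
      v + ((l - 1) * q.polarBilin y v) • z + ((l⁻¹ - 1) * q.polarBilin z v) • y := fun v => by
    simp only [hk, Units.val_mul, ← Matrix.mulVec_mulVec, transGL_mulVec, LinearMap.smul_apply, map_add, map_smul,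
      smul_eq_mul, hzz', hyy', hzy, hyz, mul_zero, mul_one, add_zero]
    match_scalars <;> field_simp <;> ring
  refine ⟨k, ⟨fun v => ?_, ?_⟩, hkv⟩
  · rw [hkv, q_add, q_add, q_smul, q_smul, hzz, hyy, map_smul, map_smul, LinearMap.map_add₂, LinearMap.map_smul₂,
      b_comm v y, b_comm v z, hzy]
    simp only [smul_eq_mul]
    field_simp
    ring
  · rw [hk]
    exact Subgroup.mul_mem _ (Subgroup.mul_mem _ (Subgroup.mul_mem _ (Subgroup.mul_mem _ (Subgroup.mul_mem _
      (transGL_mem_sl _ _ _) (transGL_mem_sl _ _ _)) (transGL_mem_sl _ _ _))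
      (transGL_mem_sl _ _ _)) (transGL_mem_sl _ _ _)) (transGL_mem_sl _ _ _)

end Cfsg.Agent.H98.Orth
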