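import Cfsg.Agent.H98.MaximalSL

set_option autoImplicit false

/-!
The subfield subgroup of `GL(ι, F)`, elementary transvections, and generalities for the maximality of the
subfield subgroup in the special linear group.
-/

namespace Cfsg.Agent.H98

open scoped Matrix

variable {ι : Type} [Fintype ι] [DecidableEq ι] {F : Type*} [Field F]

/-- The matrices over the subfield times the scalars. -/
def subGroupF (ι : Type) [Fintype ι] [DecidableEq ι] (F₀ : Subfield F) : Subgroup (GL ι F) :=
  (Matrix.GeneralLinearGroup.map (F₀.subtype : F₀ →+* F)).range ⊔ Cfsg.Geo.scalars ι F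

theorem subfieldSubgroup_eq_map (F₀ : Subfield F) (P : GL ι F) :
    Cfsg.Geo.subfieldSubgroup F₀ P = (subGroupF ι F₀).map (MulAut.conj P).toMonoidHom := rfl

/-- Membership in the subfield subgroup: some multiple has entries in the subfield. -/
theorem mem_subGroupF [Nonempty ι] {F₀ : Subfield F} {g : GL ι F} :
    g ∈ subGroupF ι F₀ ↔ ∃ c : F, c ≠ 0 ∧ ∀ a b, c * (g : Matrix ι ι F) a b ∈ F₀ := by
  constructor
  · intro hg
    obtain ⟨x, ⟨A, rfl⟩, s, hs, rfl⟩ := Subgroup.mem_sup_of_normal_right.mp hg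
    obtain ⟨c, hc⟩ := (Cfsg.Geo.mem_scalars_iff s).mp hs
    refine ⟨((c : F))⁻¹, inv_ne_zero c.ne_zero, fun a b => ?_⟩
    rw [Units.val_mul, hc, Matrix.mul_smul, Matrix.mul_one, Matrix.smul_apply, smul_eq_mul, ← mul_assoc,
      inv_mul_cancel₀ c.ne_zero, one_mul, Matrix.GeneralLinearGroup.map_apply]
    exact ((A : Matrix ι ι F₀) a b).2
  · rintro ⟨c, hc, h⟩
    let A : Matrix ι ι F₀ := fun a b => ⟨c * (g : Matrix ι ι F) a b, h a b⟩
    have hA : (F₀.subtype : F₀ →+* F).mapMatrix A = c • (g : Matrix ι ι F) := rfl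
    have hdet : A.det ≠ 0 := fun h0 => by
      have h1 : (c • (g : Matrix ι ι F)).det = 0 := by rw [← hA, ← RingHom.map_det, h0, map_zero]
      rw [Matrix.det_smul, mul_eq_zero] at h1
      exact h1.elim (fun h2 => hc (pow_eq_zero_iff (Fintype.card_ne_zero) |>.mp h2)) (Matrix.GeneralLinearGroup.det_ne_zero g)
    have hg : g = Matrix.GeneralLinearGroup.map (F₀.subtype : F₀ →+* F) (Matrix.GeneralLinearGroup.mkOfDetNeZero A hdet) *
        Units.map (Matrix.scalar ι : F →+* Matrix ι ι F).toMonoidHom (Units.mk0 c⁻¹ (inv_ne_zero hc)) := by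
      refine gl_ext fun v => ?_
      simp only [Units.val_mul, ← Matrix.mulVec_mulVec]
      change _ = (c • (g : Matrix ι ι F)) *ᵥ (Matrix.scalar ι c⁻¹ *ᵥ v)
      rw [show Matrix.scalar ι c⁻¹ *ᵥ v = c⁻¹ • v by ext i; simp [Matrix.mulVec_diagonal], Matrix.smul_mulVec,
        Matrix.mulVec_smul, smul_smul, mul_inv_cancel₀ hc, one_smul]
    rw [hg]
    exact Subgroup.mul_mem_sup ⟨_, rfl⟩ ⟨_, rfl⟩

/-- The functional of an elementary transvection kills its centre. -/
theorem elm_aux {l m : ι} (h : l ≠ m) (c : F) :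
    (c • (LinearMap.proj m : (ι → F) →ₗ[F] F)) (Pi.single l 1) = 0 := by simp [h.symm]

/-- Elementary transvection. -/
def elm {l m : ι} (h : l ≠ m) (c : F) : GL ι F :=
  transGL (c • LinearMap.proj m) (Pi.single l 1) (elm_aux h c)

theorem elm_mulVec {l m : ι} (h : l ≠ m) (c : F) (v : ι → F) :
    (elm h c : Matrix ι ι F) *ᵥ v = v + (c * v m) • Pi.single l 1 := by simp [elm]

theorem elm_apply {l m : ι} (h : l ≠ m) (c : F) (a b : ι) :
    (elm h c : Matrix ι ι F) a b = (1 : Matrix ι ι F) a b + if a = l ∧ b = m then c else 0 := by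
  have := congrFun (elm_mulVec h c (Pi.single b 1)) a
  rw [Matrix.mulVec_single_one, Pi.add_apply, Pi.smul_apply, Matrix.col_apply] at this
  rw [this]
  by_cases hb : b = m <;> by_cases ha : a = l <;> simp [Pi.single_apply, Matrix.one_apply, ha, hb, eq_comm]

theorem elm_mem_sl {l m : ι} (h : l ≠ m) (c : F) : elm h c ∈ Cfsg.Geo.specialLinear ι F := transGL_mem_sl _ _ _

theorem elm_mem_subGroupF [Nonempty ι] {F₀ : Subfield F} {l m : ι} (h : l ≠ m) {c : F} (hc : c ∈ F₀) :
    elm h c ∈ subGroupF ι F₀ ⊓ Cfsg.Geo.specialLinear ι F := by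
  refine ⟨mem_subGroupF.mpr ⟨1, one_ne_zero, fun a b => ?_⟩, elm_mem_sl h c⟩
  rw [one_mul, elm_apply]
  refine add_mem ?_ ?_
  · rw [Matrix.one_apply]; split_ifs <;> first | exact one_mem _ | exact zero_mem _
  · split_ifs <;> first | exact hc | exact zero_mem _

theorem elm_mul {l m : ι} (h : l ≠ m) (c d : F) : elm h c * elm h d = elm h (c + d) :=
  gl_ext fun v => by
    simp only [Units.val_mul, ← Matrix.mulVec_mulVec, elm_mulVec, Pi.add_apply, Pi.smul_apply,
      Pi.single_eq_of_ne h.symm, smul_zero, add_zero]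
    module

theorem elm_zero {l m : ι} (h : l ≠ m) : elm h (0 : F) = 1 := gl_ext fun v => by simp [elm_mulVec]

theorem elm_inv {l m : ι} (h : l ≠ m) (c : F) : (elm h c)⁻¹ = elm h (-c) :=
  inv_eq_of_mul_eq_one_right (by rw [elm_mul, add_neg_cancel, elm_zero])

theorem elm_comm {i l m : ι} (hil : i ≠ l) (hlm : l ≠ m) (him : i ≠ m) (a b : F) :
    elm hil a * elm hlm b * (elm hil a)⁻¹ * (elm hlm b)⁻¹ = elm him (a * b) := by
  rw [elm_inv, elm_inv]
  refine gl_ext fun v => ?_
  simp only [Units.val_mul, ← Matrix.mulVec_mulVec, elm_mulVec, Pi.add_apply, Pi.smul_apply,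
    Pi.single_eq_of_ne hil.symm, Pi.single_eq_of_ne him.symm, Pi.single_eq_of_ne hlm.symm,
    Pi.single_eq_same, smul_zero, add_zero, smul_eq_mul, mul_one, mul_zero]
  module

/-- A subgroup with all elementary transvections contains `SL`. -/
theorem sl_le_of_elm (M : Subgroup (GL ι F)) (h : ∀ (l m : ι) (hlm : l ≠ m) (c : F), elm hlm c ∈ M) :
    Cfsg.Geo.specialLinear ι F ≤ M := by
  intro g hg
  have hdet : (g : Matrix ι ι F).det = 1 := congrArg Units.val (MonoidHom.mem_ker.mp hg)
  have htop := Cfsg.Agent.H1.SL_eq_top_of_transvection_mem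
    (M.comap (Matrix.SpecialLinearGroup.toGL : Matrix.SpecialLinearGroup ι F →* GL ι F)) (fun i j hij c => by
      rw [Subgroup.mem_comap]
      convert h i j hij c using 1
      refine gl_ext fun v => ?_
      rw [elm_mulVec]
      change (Matrix.SpecialLinearGroup.transvection hij c : Matrix ι ι F) *ᵥ v = _
      rw [Matrix.SpecialLinearGroup.transvection_coe]
      ext k
      simp [Matrix.add_mulVec, Matrix.one_mulVec, Matrix.single_mulVec, Pi.single_apply, Function.update_apply])
  have : Matrix.SpecialLinearGroup.toGL ⟨(g : Matrix ι ι F), hdet⟩ ∈ M :=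
    Subgroup.mem_comap.mp (htop.ge (Subgroup.mem_top (G := Matrix.SpecialLinearGroup ι F)
      (⟨(g : Matrix ι ι F), hdet⟩ : Matrix.SpecialLinearGroup ι F)))
  convert this using 1
  exact Units.ext rfl

/-- Maximality is invariant under conjugation. -/
theorem isMaximalIn_conj {G : Type*} [Group G] {K H : Subgroup G} (P : G) (h : Cfsg.Geo.IsMaximalIn K H) :
    Cfsg.Geo.IsMaximalIn (K.map (MulAut.conj P).toMonoidHom) (H.map (MulAut.conj P).toMonoidHom) := by
  have hinj : Function.Injective (MulAut.conj P).toMonoidHom := (MulAut.conj P).injective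
  refine ⟨(Subgroup.map_lt_map_iff_of_injective hinj).mpr h.1, fun M h1 h2 => ?_⟩
  have hM : M = (M.comap (MulAut.conj P).toMonoidHom).map (MulAut.conj P).toMonoidHom :=
    (Subgroup.map_comap_eq_self_of_surjective (MulAut.conj P).surjective M).symm
  rcases h.2 (M.comap (MulAut.conj P).toMonoidHom) (Subgroup.map_le_iff_le_comap.mp h1)
      ((Subgroup.comap_mono h2).trans (le_of_eq (Subgroup.comap_map_eq_self_of_injective hinj K))) with h' | h'
  · exact Or.inl (hM.trans (by rw [h']))
  · exact Or.inr (hM.trans (by rw [h']))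

end Cfsg.Agent.H98
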