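import Cfsg.Agent.H98.OrthSubNine
import Cfsg.Agent.H98.SubfieldBase
import Cfsg.Agent.H98.QuadFun
import Cfsg.Agent.H5.OmegaGL

set_option autoImplicit false
set_option linter.unusedSectionVars false

/-!
The subfield subgroup of `Ω` of a quadratic form is maximal.
-/

namespace Cfsg.Agent.H98.OSub

open Cfsg.Agent.H5 QuadraticMap
open scoped Matrix

variable {ι : Type} [Fintype ι] [DecidableEq ι] {F : Type*} [Field F] [Finite F]

local notation "V" => (ι → F)

variable {q : QuadraticForm F (ι → F)} {F₀ : Subfield F} {r : ℕ}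

variable (H : OR q F₀ r)
include H

theorem OR.mem_subGroupF_iff (g : orth q) : toGLHom q rfl g ∈ subGroupF ι F₀ ↔ SubF F₀ g := by
  haveI : Nonempty ι := Fintype.card_pos_iff.mp (by have := H.big; omega)
  rw [mem_subGroupF]
  constructor
  · rintro ⟨c, hc, h⟩
    refine ⟨c, hc, fun x hx i => ?_⟩
    rw [← toGLHom_mulVec q rfl, Pi.smul_apply, smul_eq_mul]
    simp only [Matrix.mulVec, dotProduct, Finset.mul_sum, ← mul_assoc]
    exact sum_mem fun l _ => mul_mem (h i l) (hx l)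
  · rintro ⟨c, hc, h⟩
    refine ⟨c, hc, fun a b => ?_⟩
    have := h _ (isRat_single b) a
    rwa [← toGLHom_mulVec q rfl, Pi.smul_apply, smul_eq_mul, Matrix.mulVec_single_one, Matrix.col_apply] at this

/-- A new scalar gives an element of `Ω` outside the subfield subgroup. -/
theorem OR.exists_outside : ∃ g ∈ commutator (orth q), ¬ SubF F₀ g := by
  obtain ⟨c, hc⟩ := H.exists_new
  obtain ⟨e, h, he, hh, p₁, -, -⟩ := H.exists_pair (Fin.elim0 : Fin 0 → V) (fun i => i.elim0)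
    (by have := H.big; omega)
  obtain ⟨a, a', ha, -, p₂, has, -⟩ := H.exists_pair ![e, h] (fun i => by fin_cases i <;> assumption)
    (by have := H.big; omega)
  have hea : polar q e (c • a) = 0 := by
    rw [polar_smul_right, show polar q e a = 0 by simpa using has 0, smul_zero]
  have hha : polar q (c • a) h = 0 := by
    rw [polar_smul_left, polar_comm, show polar q h a = 0 by simpa using has 1, smul_zero]
  refine ⟨eich q e (c • a), H.eich_comm_mem _ _, fun ⟨k, hk, hrat⟩ => hc ?_⟩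
  have h1 := hrat e he
  rw [eich_apply_self p₁.left hea] at h1
  have hkF := scalar_mem he p₁.ne_zero h1
  have h2 := hrat h hh
  rw [eich_apply p₁.left hea, p₁.pair, hha, one_smul, zero_smul, sub_zero, QuadraticMap.map_smul, p₂.left,
    smul_zero, zero_mul, zero_smul, sub_zero, smul_add] at h2
  have h3 := isRat_sub h2 (isRat_smul hkF hh)
  rw [add_sub_cancel_left] at h3
  refine scalar_mem ha p₂.ne_zero ?_
  have h4 := isRat_smul (inv_mem hkF) h3
  rwa [smul_smul, inv_mul_cancel₀ hk, one_smul] at h4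

/-- The subfield subgroup of `Ω` is maximal, in rational coordinates. -/
theorem OR.maximal (hd : 10 ≤ Fintype.card ι ∨ ((Fintype.card ι = 7 ∨ 9 ≤ Fintype.card ι) ∧ (2 : F) ≠ 0)) :
    Cfsg.Geo.IsMaximalIn (Cfsg.Geo.omegaGL ⇑q) (subGroupF ι F₀ ⊓ Cfsg.Geo.omegaGL ⇑q) := by
  refine isMaximalIn_omegaGL q rfl _ ?_ ?_
  · obtain ⟨g, hg, hgS⟩ := H.exists_outside
    exact ⟨g, hg, fun h => hgS ((H.mem_subGroupF_iff g).mp h)⟩
  · intro M hM g hgM hg hgS
    have hM' : Over F₀ M := fun k hk hkr => hM k hk ((H.mem_subGroupF_iff k).mpr hkr.subF)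
    by_cases hns : NoNew F₀ M
    · exact absurd ((H.mem_subGroupF_iff g).mpr
        (hd.elim (fun h10 => H.subF_of_noNew hM' hns h10 hgM)
          (fun h7 => h7.1.elim (fun hn => H.subF_of_noNew_seven hM' hns h7.2 hn hgM)
            (fun hn => H.subF_of_noNew_large hM' hns h7.2 hn hgM)))) hgS
    · simp only [NoNew, not_forall] at hns
      obtain ⟨e, a, he, ha, he0, hee, haa, hea, hae, c, hmem, hc⟩ := hns
      exact H.le_of_new hM' he ha he0 hee haa hea hae hc hmem

omit H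

theorem omegaGL_eq_commutator (f : (ι → F) → F) :
    Cfsg.Geo.omegaGL f = ⁅Cfsg.isometryGroup F f, Cfsg.isometryGroup F f⁆ := by
  rw [Cfsg.Geo.omegaGL, Cfsg.Omega, commutator_def, Subgroup.map_commutator, ← MonoidHom.range_eq_map, Subgroup.range_subtype]

/-- The subfield subgroup of `Ω` is maximal, in dimension at least ten, or in dimension seven or
at least nine for `q` odd. -/
theorem subfield_maximal_of (Q : QuadraticForm F (ι → F)) {f : (ι → F) → F} (hf : ⇑Q = f)
    (hQ : (polarBilin Q).Nondegenerate)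
    (hd : 10 ≤ Fintype.card ι ∨ ((Fintype.card ι = 7 ∨ 9 ≤ Fintype.card ι) ∧ (2 : F) ≠ 0)) (F₀ : Subfield F) {r : ℕ} (hr : r.Prime)
    (hcard : Nat.card F = Nat.card F₀ ^ r) (P : GL ι F) {ζ : F} (hζ : ζ ≠ 0)
    (hP : ∀ u : ι → F, (∀ i, u i ∈ F₀) → ζ * f ((P : Matrix ι ι F) *ᵥ u) ∈ F₀) :
    Cfsg.Geo.IsMaximalIn (Cfsg.Geo.omegaGL f) (Cfsg.Geo.subfieldSubgroup F₀ P ⊓ Cfsg.Geo.omegaGL f) := by
  subst hf
  set q : QuadraticForm F (ι → F) := ζ • Q.comp (Matrix.mulVecLin (P : Matrix ι ι F)) with hq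
  have hqv : ∀ x, q x = ζ * Q ((P : Matrix ι ι F) *ᵥ x) := fun x => by simp [hq]
  have hpol : ∀ x y, polar q x y = ζ * polar Q ((P : Matrix ι ι F) *ᵥ x) ((P : Matrix ι ι F) *ᵥ y) := fun x y => by
    simp only [polar, hqv, Matrix.mulVec_add]; ring
  have hnd : (polarBilin q).Nondegenerate := by
    have key : ∀ x, (∀ y, polar Q ((P : Matrix ι ι F) *ᵥ x) y = 0) → x = 0 := fun x hx =>
      gl_mulVec_injective P ((hQ.1 _ hx).trans (Matrix.mulVec_zero _).symm)
    refine ⟨fun x hx => key x fun y => ?_, fun y hy => key y fun x => ?_⟩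
    · have := hx (((P⁻¹ : GL ι F) : Matrix ι ι F) *ᵥ y)
      rw [polarBilin_apply_apply, hpol, gl_mulVec_inv] at this
      exact (mul_eq_zero.mp this).resolve_left hζ
    · have := hy (((P⁻¹ : GL ι F) : Matrix ι ι F) *ᵥ x)
      rw [polarBilin_apply_apply, hpol, gl_mulVec_inv] at this
      rw [polar_comm]
      exact (mul_eq_zero.mp this).resolve_left hζ
  have H : OR q F₀ r := ⟨hnd, fun x hx => by rw [hqv]; exact hP x hx, by omega, hr, hcard⟩
  have hiso : (Cfsg.isometryGroup F ⇑q).map (MulAut.conj P).toMonoidHom = Cfsg.isometryGroup F ⇑Q := by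
    ext g
    rw [Subgroup.mem_map_equiv, MulAut.conj_symm_apply, mem_isometryGroup, mem_isometryGroup]
    simp only [hqv, Units.val_mul, ← Matrix.mulVec_mulVec, gl_mulVec_inv]
    refine ⟨fun h x => ?_, fun h x => by rw [h]⟩
    have := mul_left_cancel₀ hζ (h (((P⁻¹ : GL ι F) : Matrix ι ι F) *ᵥ x))
    rwa [gl_mulVec_inv] at this
  have hom : (Cfsg.Geo.omegaGL ⇑q).map (MulAut.conj P).toMonoidHom = Cfsg.Geo.omegaGL ⇑Q := by
    rw [omegaGL_eq_commutator, omegaGL_eq_commutator, Subgroup.map_commutator, hiso]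
  have h := isMaximalIn_conj P (H.maximal hd)
  rw [Subgroup.map_inf _ _ _ (MulAut.conj P).injective, hom, ← subfieldSubgroup_eq_map] at h
  exact h

/-- The subfield subgroup of `Ω` is maximal. -/
theorem subfield_maximal (Q : QuadraticForm F (ι → F)) {f : (ι → F) → F} (hf : ⇑Q = f)
    (hQ : (polarBilin Q).Nondegenerate) (hn : 10 ≤ Fintype.card ι) (F₀ : Subfield F) {r : ℕ} (hr : r.Prime)
    (hcard : Nat.card F = Nat.card F₀ ^ r) (P : GL ι F) {ζ : F} (hζ : ζ ≠ 0)
    (hP : ∀ u : ι → F, (∀ i, u i ∈ F₀) → ζ * f ((P : Matrix ι ι F) *ᵥ u) ∈ F₀) :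
    Cfsg.Geo.IsMaximalIn (Cfsg.Geo.omegaGL f) (Cfsg.Geo.subfieldSubgroup F₀ P ⊓ Cfsg.Geo.omegaGL f) :=
  subfield_maximal_of Q hf hQ (Or.inl hn) F₀ hr hcard P hζ hP

end Cfsg.Agent.H98.OSub
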