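import Mathlib

set_option autoImplicit false

/-!
Scalars forced into a subfield of a finite field.
-/

namespace Cfsg.Agent.H98

variable {F : Type*} [Field F]

/-- The fixed points of the `q₀`-th power map are the subfield with `q₀` elements. -/
theorem mem_subfield_of_pow_card [Finite F] (F₀ : Subfield F) {c : F} (hc : c ^ Nat.card F₀ = c) : c ∈ F₀ := by
  classical
  haveI := Fintype.ofFinite F₀
  rw [Nat.card_eq_fintype_card] at hc
  set q := Fintype.card F₀ with hq
  have hq1 : 1 < q := Fintype.one_lt_card
  set P : Polynomial F := Polynomial.X ^ q - Polynomial.X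
  have hne : P ≠ 0 := FiniteField.X_pow_card_sub_X_ne_zero F hq1
  have hdeg : P.natDegree = q := FiniteField.X_pow_card_sub_X_natDegree_eq F hq1
  set S : Finset F := Finset.univ.map ⟨Subtype.val, (Subtype.val_injective : Function.Injective ((↑) : F₀ → F))⟩
  by_contra hcon
  have hcS : c ∉ S := by
    simp only [S, Finset.mem_map, Finset.mem_univ, true_and, Function.Embedding.coeFn_mk]
    rintro ⟨x, rfl⟩; exact hcon x.2
  have hsub : insert c S ⊆ P.roots.toFinset := by
    intro x hx
    rw [Multiset.mem_toFinset, Polynomial.mem_roots hne, Polynomial.IsRoot]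
    simp only [P, Polynomial.eval_sub, Polynomial.eval_pow, Polynomial.eval_X, sub_eq_zero]
    rcases Finset.mem_insert.mp hx with rfl | hx
    · exact hc
    · obtain ⟨z, -, rfl⟩ := Finset.mem_map.mp hx
      exact congrArg Subtype.val (FiniteField.pow_card z)
  have h1 := Finset.card_le_card hsub
  rw [Finset.card_insert_of_notMem hcS, Finset.card_map, Finset.card_univ] at h1
  have h2 := P.card_roots'
  have h3 := Multiset.toFinset_card_le P.roots
  omega

/-- In characteristic `p` every `p`-th root of an element of a finite subfield lies in it. -/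
theorem mem_subfield_of_pow_char [Finite F] (p : ℕ) [Fact p.Prime] [CharP F p] (F₀ : Subfield F) {c : F}
    (hc : c ^ p ∈ F₀) : c ∈ F₀ := by
  obtain ⟨x, hx⟩ := (Finite.injective_iff_surjective.mp (frobenius_inj F₀ p)) ⟨c ^ p, hc⟩
  have h1 : (x : F) ^ p = c ^ p := congrArg Subtype.val hx
  rw [← (frobenius_inj F p h1 : (x : F) = c)]
  exact x.2

/-- For an odd degree extension, square roots lying in the big field lie in the small one. -/
theorem mem_subfield_of_sq [Fintype F] (F₀ : Subfield F) {r : ℕ} (hr : Odd r) (hodd : Odd (Nat.card F₀))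
    (hcard : Fintype.card F = Nat.card F₀ ^ r) {c : F} (hc : c * c ∈ F₀) : c ∈ F₀ := by
  classical
  haveI := Fintype.ofFinite F₀
  set q := Nat.card F₀ with hq
  obtain ⟨k, hk⟩ := hodd
  have h1 : (c * c) ^ q = c * c := by
    have := congrArg Subtype.val (FiniteField.pow_card (⟨c * c, hc⟩ : F₀))
    rw [← Nat.card_eq_fintype_card, ← hq] at this
    exact this
  have h2 : c ^ q = c ∨ c ^ q = -c := by
    rw [← sq_eq_sq_iff_eq_or_eq_neg, pow_two c, ← h1, ← pow_mul, mul_comm, pow_mul, pow_two]
  rcases h2 with h | h
  · exact mem_subfield_of_pow_card F₀ h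
  · refine mem_subfield_of_pow_card F₀ ?_
    have h3 : ∀ s : ℕ, c ^ (q ^ s) = (-1) ^ s * c := by
      intro s
      induction s with
      | zero => simp
      | succ s ih =>
        rw [pow_succ, pow_mul, ih, mul_pow, h, ← pow_mul, mul_comm s q, pow_mul,
          show ((-1 : F)) ^ q = -1 from Odd.neg_one_pow ⟨k, hk⟩, pow_succ]
        ring
    have h4 := h3 r
    rw [← hcard, FiniteField.pow_card, hr.neg_one_pow, neg_one_mul] at h4
    rw [h, ← h4]

end Cfsg.Agent.H98
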