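import Cfsg.Agent.H98.USubOddBase

set_option autoImplicit false
set_option linter.unusedSectionVars false

/-!
A transvection with rational centre and a new scalar generates all of `SU` over an odd degree subfield subgroup.
-/

namespace Cfsg.Agent.H98.Herm

open scoped Matrix

section
variable {ι : Type} [Fintype ι] [DecidableEq ι] {F : Type*} [Field F] [Finite F]
variable {σ : F ≃+* F} {f : (ι → F) → (ι → F) → F} (hf : Cfsg.Geo.IsUnitaryForm σ f)
include hf

/-- The transvection of a sum of orthogonal isotropic vectors. -/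
theorem uT_add_eich {z x : ι → F} (hz : f z z = 0) (hx : f x x = 0) (hzx : f z x = 0) {d : F} (hd : σ d = -d)
    (hdx : f (d • x) z = 0) (hs : f (z + x) (z + x) = 0) :
    uT hf hs d = uT hf hz d * uT hf hx d * eich hf hz hdx 0 := by
  refine gl_ext fun y => ?_
  simp only [Units.val_mul, ← Matrix.mulVec_mulVec, uT_mulVec, eich_mulVec, add_right hf, smul_right hf, hd,
    sub_left hf, hf.add_left, hf.smul_left, hz, hx, hzx, (eq_zero_comm hf).mp hzx, mul_zero, add_zero, sub_zero,
    zero_smul]
  module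

/-- Scaling the centre of a Siegel element. -/
theorem eich_smul_centre {z x : ι → F} (hz : f z z = 0) {k : F} (hkz : f (k • z) (k • z) = 0)
    (hx : f x (k • z) = 0) (hx' : f (σ k • x) z = 0) :
    eich hf hkz hx 0 = eich hf hz hx' 0 := by
  refine gl_ext fun y => ?_
  simp only [eich_mulVec, smul_right hf, hf.involutive, zero_smul, add_zero]
  module

theorem eich_congr {z x x' : ι → F} (hz : f z z = 0) (hx : f x z = 0) (hx' : f x' z = 0) (e : x = x') (γ : F) :
    eich hf hz hx γ = eich hf hz hx' γ := by subst e; rfl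

/-- The product of two Siegel elements with the same centre. -/
theorem eich_mul_eich {z x x' : ι → F} (hz : f z z = 0) (hx : f x z = 0) (hx' : f x' z = 0)
    (hxx : f (x + x') z = 0) (γ γ' : F) :
    eich hf hz hx γ * eich hf hz hx' γ' = eich hf hz hxx (γ + γ' - f x' x) := by
  refine gl_ext fun y => ?_
  simp only [Units.val_mul, ← Matrix.mulVec_mulVec, eich_mulVec, add_right hf, sub_left hf, hf.add_left,
    hf.smul_left, hz, hx, hx', (eq_zero_comm hf).mp hx, (eq_zero_comm hf).mp hx', mul_zero, add_zero, sub_zero]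
  module

/-- A transvection times a Siegel element with the same centre. -/
theorem uT_mul_eich {z x : ι → F} (hz : f z z = 0) (hx : f x z = 0) (δ γ : F) :
    uT hf hz δ * eich hf hz hx γ = eich hf hz hx (γ + δ) := by
  refine gl_ext fun y => ?_
  simp only [Units.val_mul, ← Matrix.mulVec_mulVec, uT_mulVec, eich_mulVec, sub_left hf, hf.add_left,
    hf.smul_left, hz, hx, mul_zero, add_zero, sub_zero]
  module

/-- Ordered products of two Siegel elements differ by a transvection. -/
theorem eich_comm' {z x x' : ι → F} (hz : f z z = 0) (hx : f x z = 0) (hx' : f x' z = 0) (γ γ' : F) :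
    eich hf hz hx γ * eich hf hz hx' γ' =
      uT hf hz (f x x' - f x' x) * (eich hf hz hx' γ' * eich hf hz hx γ) := by
  refine gl_ext fun y => ?_
  simp only [Units.val_mul, ← Matrix.mulVec_mulVec, eich_mulVec, uT_mulVec, sub_left hf, hf.add_left,
    hf.smul_left, hz, hx, hx', (eq_zero_comm hf).mp hx, (eq_zero_comm hf).mp hx', mul_zero, add_zero, sub_zero]
  module

/-- Commutator of two short Siegel elements in position. -/
theorem eich_short_comm {z x p p' : ι → F} (hz : f z z = 0) (hx : f x x = 0) (hp : f p p = 0)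
    (hp' : f p' p' = 0) (hzx : f z x = 0) (hpz : f p z = 0) (hp'z : f p' z = 0) (hpx : f p x = 0)
    (hp'x : f p' x = 0) (h1 : f p p' = 1) (h2 : f p' p = 1) {c c' : F} (a1 : f (c • p) z = 0)
    (a2 : f (c' • x) p' = 0) (a3 : f ((-(c * c')) • x) z = 0) :
    eich hf hz a1 0 * eich hf hp' a2 0 = eich hf hz a3 0 * (eich hf hp' a2 0 * eich hf hz a1 0) := by
  refine gl_ext fun y => ?_
  simp only [Units.val_mul, ← Matrix.mulVec_mulVec, eich_mulVec, smul_right hf, map_neg, map_mul,
    sub_left hf, hf.add_left, hf.smul_left, hz, hx, hp, hp', hzx, hpz, hp'z, hpx, hp'x, h1, h2,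
    (eq_zero_comm hf).mp hzx, (eq_zero_comm hf).mp hpz, (eq_zero_comm hf).mp hp'z, (eq_zero_comm hf).mp hpx,
    (eq_zero_comm hf).mp hp'x, mul_zero, mul_one, add_zero, sub_zero, zero_smul]
  module

/-- Conjugating a Siegel element by an isometry. -/
theorem conj_eich {g : GL ι F} (hg : ∀ a b, f ((g : Matrix ι ι F) *ᵥ a) ((g : Matrix ι ι F) *ᵥ b) = f a b)
    {z x : ι → F} (hz : f z z = 0) (hx : f x z = 0)
    (hz' : f ((g : Matrix ι ι F) *ᵥ z) ((g : Matrix ι ι F) *ᵥ z) = 0)
    (hx' : f ((g : Matrix ι ι F) *ᵥ x) ((g : Matrix ι ι F) *ᵥ z) = 0) (γ : F) :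
    g * eich hf hz hx γ * g⁻¹ = eich hf hz' hx' γ := by
  refine gl_ext fun y => ?_
  simp only [Units.val_mul, ← Matrix.mulVec_mulVec, eich_mulVec, Matrix.mulVec_add, Matrix.mulVec_sub,
    Matrix.mulVec_smul, gl_mulVec_inv]
  rw [← hg (((g⁻¹ : GL ι F) : Matrix ι ι F) *ᵥ y) x, ← hg (((g⁻¹ : GL ι F) : Matrix ι ι F) *ᵥ y) z,
    gl_mulVec_inv]

theorem uT_eq_one {v : ι → F} (hv : f v v = 0) (d : F) (h : v = 0) : uT hf hv d = 1 :=
  gl_ext fun y => by rw [uT_mulVec, h, smul_zero, add_zero, Units.val_one, Matrix.one_mulVec]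

end

variable {F : Type*} [Field F] [Fintype F] {q n : ℕ}

local notation "Mat" => Matrix (Fin n) (Fin n) F

variable {hF : Fintype.card F = q ^ 2} {F₀ : Subfield F} {r : ℕ} {P : GL (Fin n) F} (H : OddRat hF F₀ r P)
include H

/-- Rational Siegel elements with given parameter. -/
theorem OddRat.eich_rat_of {x z : Fin n → F} (hx : IsRatVec F₀ x) (hz : IsRatVec F₀ z)
    (hzz : pullForm n q P z z = 0) (hxz : pullForm n q P x z = 0) {γ : F} (hγ : γ ∈ F₀)
    (hγ' : γ + frobQ hF γ + pullForm n q P x x = 0) :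
    eich H.herm hzz hxz γ ∈ subGroupF (Fin n) F₀ ⊓ isoSL (pullForm n q P) := by
  haveI : Nonempty (Fin n) := ⟨⟨0, by have := H.hn; omega⟩⟩
  refine ⟨mem_subGroupF.mpr ⟨1, one_ne_zero, fun a b => ?_⟩,
    fun u v => eich_iso H.herm hzz hxz hγ' u v, eich_mem_sl H.herm hzz hxz _⟩
  have h := congrFun (eich_mulVec H.herm hzz hxz γ (Pi.single b 1)) a
  rw [Matrix.mulVec_single_one, Matrix.col_apply] at h
  rw [one_mul, h]
  exact isRat_add (isRat_sub (isRat_single b) (isRat_smul (H.rat _ _ (isRat_single b) hx) hz))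
    (isRat_smul (H.rat _ _ (isRat_single b) hz) (isRat_add hx (isRat_smul hγ hz))) a

/-- Skew elements in the subfield, and the ratio of the degrees, give a generator outside. -/
theorem OddRat.finrank_prime : (Module.finrank F₀ F).Prime := by
  haveI := Fintype.ofFinite F₀
  have h1 : Fintype.card F = Fintype.card F₀ ^ Module.finrank F₀ F := Module.card_eq_pow_finrank
  rw [H.card, Nat.card_eq_fintype_card] at h1
  rw [← Nat.pow_right_injective (Fintype.one_lt_card (α := F₀)) h1]
  exact H.prime

variable {M : Subgroup (GL (Fin n) F)} (hle : subGroupF (Fin n) F₀ ⊓ isoSL (pullForm n q P) ≤ M)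
  (hsu : M ≤ isoSL (pullForm n q P))
include hle hsu

/-- A new scalar gives all short Siegel elements between rational isotropic vectors. -/
theorem OddRat.short_all {u : Fin n → F} (hu : IsRatVec F₀ u) (hu0 : u ≠ 0) (huu : pullForm n q P u u = 0)
    {d : F} (hd : frobQ hF d = -d) (hdn : d ∉ F₀) (hmem : uT H.herm huu d ∈ M)
    {z x : Fin n → F} (hz : IsRatVec F₀ z) (hx : IsRatVec F₀ x) (hzz : pullForm n q P z z = 0)
    (hxx : pullForm n q P x x = 0) (hzx : pullForm n q P z x = 0) (c : F)
    (hcx : pullForm n q P (c • x) z = 0) : eich H.herm hzz hcx 0 ∈ M := by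
  have hT : ∀ w, IsRatVec F₀ w → ∀ hww : pullForm n q P w w = 0, uT H.herm hww d ∈ M := by
    intro w hw hww
    rcases eq_or_ne w 0 with h0 | h0
    · rw [uT_eq_one H.herm hww d h0]; exact M.one_mem
    obtain ⟨g, hg, e⟩ := H.move hu hw huu hww hu0 h0
    subst e
    rw [← conj_uT H.herm (mem_isoSL.mp hg.2).1 huu]
    exact M.mul_mem (M.mul_mem (hle hg) hmem) (M.inv_mem (hle hg))
  let S : Subalgebra F₀ F :=
    { carrier := {c | ∀ z x : Fin n → F, IsRatVec F₀ z → IsRatVec F₀ x → ∀ hzz : pullForm n q P z z = 0,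
        pullForm n q P x x = 0 → pullForm n q P z x = 0 → ∀ hcx : pullForm n q P (c • x) z = 0,
        eich H.herm hzz hcx 0 ∈ M}
      mul_mem' := fun {c c'} hc hc' z x hz hx hzz hxx hzx hcx => by
        obtain ⟨p, p', hp, hp', op, op', hpp, hp'p', hpp', hp'p⟩ := H.exists_pair (show 2 ≤ 5 by norm_num) ![z, x]
          (fun i => by fin_cases i <;> assumption)
        have b0 := op 0; have b1 := op 1; have b2 := op' 0; have b3 := op' 1
        simp at b0 b1 b2 b3
        have hA : ∀ h, eich H.herm hzz (x := (-c) • p) h 0 ∈ M := fun h => by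
          have a : pullForm n q P (c • p) z = 0 := by rw [H.herm.smul_left, b0, mul_zero]
          have e : eich H.herm hzz (x := (-c) • p) h 0 = (eich H.herm hzz a 0)⁻¹ := by
            refine (eq_inv_of_mul_eq_one_left ?_)
            have hsum : pullForm n q P ((-c) • p + c • p) z = 0 := by rw [H.herm.add_left, h, a, add_zero]
            rw [eich_mul_eich H.herm hzz h a hsum, add_zero, H.herm.smul_left, smul_right H.herm, hpp, mul_zero, mul_zero, sub_zero]
            exact gl_ext fun y => by
              rw [eich_mulVec, ← add_smul, neg_add_cancel, zero_smul, zero_smul, zero_right H.herm]; simp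
          rw [e]
          exact M.inv_mem (hc z p hz hp hzz hpp ((eq_zero_comm H.herm).mp b0) a)
        have a1 : pullForm n q P ((-c) • p) z = 0 := by rw [H.herm.smul_left, b0, mul_zero]
        have a2 : pullForm n q P (c' • x) p' = 0 := by
          rw [H.herm.smul_left, (eq_zero_comm H.herm).mp b3, mul_zero]
        have a3 : pullForm n q P ((-(-c * c')) • x) z = 0 := by
          rw [H.herm.smul_left, (eq_zero_comm H.herm).mp hzx, mul_zero]
        have key := eich_short_comm H.herm hzz hxx hpp hp'p' hzx b0 b2 b1 b3 hpp' hp'p a1 a2 a3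
        have h1 := hA a1
        have h2 := hc' p' x hp' hx hp'p' hxx b3 a2
        have h3 := M.mul_mem (M.mul_mem h1 h2) (M.inv_mem (M.mul_mem h2 h1))
        rw [key, mul_inv_cancel_right] at h3
        rwa [eich_congr H.herm hzz a3 hcx (by rw [neg_mul, neg_neg])] at h3
      add_mem' := fun {c c'} hc hc' z x hz hx hzz hxx hzx hcx => by
        have a : ∀ k : F, pullForm n q P (k • x) z = 0 := fun k => by
          rw [H.herm.smul_left, (eq_zero_comm H.herm).mp hzx, mul_zero]
        have hsum : pullForm n q P (c • x + c' • x) z = 0 := by rw [H.herm.add_left, a, a, add_zero]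
        have e := eich_mul_eich H.herm hzz (a c) (a c') hsum 0 0
        rw [add_zero, H.herm.smul_left, smul_right H.herm, hxx, mul_zero, mul_zero, sub_zero,
          eich_congr H.herm hzz _ hcx (add_smul c c' x).symm] at e
        rw [← e]
        exact M.mul_mem (hc z x hz hx hzz hxx hzx (a c)) (hc' z x hz hx hzz hxx hzx (a c'))
      algebraMap_mem' := fun c z x hz hx hzz hxx hzx hcx => hle (H.eich_rat_of (isRat_smul c.2 hx) hz hzz hcx
        (zero_mem _) (by rw [H.herm.smul_left, smul_right H.herm, hxx, map_zero, mul_zero, mul_zero]; ring)) }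
  have hdS : d ∈ S := fun z x hz hx hzz hxx hzx hdx => by
    have hs : pullForm n q P (z + x) (z + x) = 0 := by
      rw [H.herm.add_left, add_right H.herm, add_right H.herm, hzz, hxx, hzx, (eq_zero_comm H.herm).mp hzx]; ring
    have h := hT _ (isRat_add hz hx) hs
    rw [uT_add_eich H.herm hzz hxx hzx hd hdx hs] at h
    have := M.mul_mem (M.inv_mem (M.mul_mem (hT z hz hzz) (hT x hx hxx))) h
    rwa [inv_mul_cancel_left] at this
  have htop : S = ⊤ := by
    let K : IntermediateField F₀ F := S.toIntermediateField' (Subalgebra.isField_of_algebraic S)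
    haveI := IntermediateField.isSimpleOrder_of_finrank_prime F₀ F H.finrank_prime
    rcases eq_bot_or_eq_top K with hK | hK
    · exfalso
      have hcK : d ∈ K := hdS
      rw [hK, IntermediateField.mem_bot] at hcK
      obtain ⟨a, ha⟩ := hcK
      exact hdn (ha ▸ a.2)
    · exact eq_top_iff.mpr fun a _ => show a ∈ K from hK ▸ IntermediateField.mem_top
  exact (show c ∈ S from htop ▸ Algebra.mem_top) z x hz hx hzz hxx hzx hcx

/-- A new scalar makes every rational isotropic vector a centre. -/
theorem OddRat.rat_centres {u : Fin n → F} (hu : IsRatVec F₀ u) (hu0 : u ≠ 0) (huu : pullForm n q P u u = 0)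
    {d : F} (hd : frobQ hF d = -d) (hdn : d ∉ F₀) (hmem : uT H.herm huu d ∈ M)
    {z : Fin n → F} (hz : IsRatVec F₀ z) (hzz : pullForm n q P z z = 0) : z ∈ centres H.herm M := by
  have hiso : ∀ k ∈ M, ∀ a b, pullForm n q P ((k : Mat) *ᵥ a) ((k : Mat) *ᵥ b) = pullForm n q P a b :=
    fun k hk => (mem_isoSL.mp (hsu hk)).1
  have hS := @OddRat.short_all _ _ _ _ _ hF F₀ r P H M hle hsu u hu hu0 huu d hd hdn hmem
  obtain ⟨ζ, hζF, hζ0, hζ⟩ := H.exists_skew₀
  obtain ⟨x, y, hx, hy, ox, oy, hxx, hyy, hxy, hyx⟩ := H.exists_pair (show 1 ≤ 5 by norm_num) ![z]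
    (fun i => by fin_cases i; exact hz)
  have hxz : pullForm n q P x z = 0 := by simpa using ox 0
  have hyz : pullForm n q P y z = 0 := by simpa using oy 0
  have hzy : pullForm n q P z y = 0 := (eq_zero_comm H.herm).mp hyz
  refine ⟨hzz, fun d' hd' => ?_⟩
  obtain ⟨c, hc⟩ := exists_norm H.herm (a := d' / ζ) (by rw [map_div₀, hd', hζ, neg_div_neg_eq])
  -- conjugate a rational transvection at `y`
  have hcx : pullForm n q P (c • x) z = 0 := by rw [H.herm.smul_left, hxz, mul_zero]
  have hgM := hS hz hx hzz hxx ((eq_zero_comm H.herm).mp hxz) c hcx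
  set k : F := - frobQ hF c with hk
  have hgy : (eich H.herm hzz hcx 0 : Mat) *ᵥ y = y + k • z := by
    rw [eich_mulVec, smul_right H.herm, hyx, hyz, hk]; module
  have hyk : pullForm n q P (y + k • z) (y + k • z) = 0 := by rw [← hgy, hiso _ hgM, hyy]
  have hgy' : pullForm n q P ((eich H.herm hzz hcx 0 : Mat) *ᵥ y) ((eich H.herm hzz hcx 0 : Mat) *ᵥ y) = 0 := by
    rw [hiso _ hgM, hyy]
  have hT : uT H.herm hyk ζ ∈ M := by
    have h1 := M.mul_mem (M.mul_mem hgM (hle (H.uT_rat hy hyy hζF hζ))) (M.inv_mem hgM)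
    rw [conj_uT H.herm (hiso _ hgM) hyy ζ hgy'] at h1
    convert h1 using 1
    exact gl_ext fun v => by rw [uT_mulVec, uT_mulVec, hgy]
  have hkz : pullForm n q P (k • z) (k • z) = 0 := by rw [H.herm.smul_left, smul_right H.herm, hzz, mul_zero, mul_zero]
  have hky : pullForm n q P (k • z) y = 0 := by rw [H.herm.smul_left, hzy, mul_zero]
  have hζy : pullForm n q P (ζ • y) (k • z) = 0 := by
    rw [H.herm.smul_left, (eq_zero_comm H.herm).mp hky, mul_zero]
  have hζy' : pullForm n q P (frobQ hF k • (ζ • y)) z = 0 := by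
    rw [H.herm.smul_left, H.herm.smul_left, hyz, mul_zero, mul_zero]
  have hs : pullForm n q P (k • z + y) (k • z + y) = 0 := by rw [add_comm]; exact hyk
  have hT' : uT H.herm hs ζ ∈ M := by
    convert hT using 1
    exact gl_ext fun v => by rw [uT_mulVec, uT_mulVec, add_comm (k • z)]
  rw [uT_add_eich H.herm hkz hyy hky hζ hζy hs, eich_smul_centre H.herm hzz hkz hζy hζy'] at hT'
  have hE : eich H.herm hzz hζy' 0 ∈ M := by
    have a : pullForm n q P ((frobQ hF k * ζ) • y) z = 0 := by rw [H.herm.smul_left, hyz, mul_zero]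
    rw [eich_congr H.herm hzz hζy' a (smul_smul _ _ _)]
    exact hS hz hy hzz hyy hzy _ a
  have h2 := M.mul_mem (M.mul_mem hT' (M.inv_mem hE)) (M.inv_mem (hle (H.uT_rat hy hyy hζF hζ)))
  rw [mul_inv_cancel_right, mul_inv_cancel_right, uT_smul H.herm hzz k ζ hkz] at h2
  rwa [show k * frobQ hF k * ζ = d' by
    rw [hk, map_neg, H.herm.involutive, neg_mul_neg, mul_comm _ c, hc, div_mul_cancel₀ _ hζ0]] at h2

/-- A new scalar generates everything. -/
theorem OddRat.top_of_scalar {u : Fin n → F} (hu : IsRatVec F₀ u) (hu0 : u ≠ 0) (huu : pullForm n q P u u = 0)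
    {d : F} (hd : frobQ hF d = -d) (hdn : d ∉ F₀) (hmem : uT H.herm huu d ∈ M) :
    isoSL (pullForm n q P) ≤ M := by
  have hiso : ∀ k ∈ M, ∀ a b, pullForm n q P ((k : Mat) *ᵥ a) ((k : Mat) *ᵥ b) = pullForm n q P a b :=
    fun k hk => (mem_isoSL.mp (hsu hk)).1
  have hC := @OddRat.rat_centres _ _ _ _ _ hF F₀ r P H M hle hsu u hu hu0 huu d hd hdn hmem
  have hS := @OddRat.short_all _ _ _ _ _ hF F₀ r P H M hle hsu u hu hu0 huu d hd hdn hmem
  refine isoSL_le_of_uT hF (by have := H.hn; omega) P fun v hvv e he => ?_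
  suffices hv : v ∈ centres H.herm M from hv.2 e he
  rcases eq_or_ne v 0 with rfl | hv0
  · have := centres_smul H.herm (hC hu huu) 0
    rwa [zero_smul] at this
  obtain ⟨z, hz, hzz, hvz⟩ : ∃ z, IsRatVec F₀ z ∧ pullForm n q P z z = 0 ∧ pullForm n q P v z ≠ 0 := by
    by_contra hc; push Not at hc
    obtain ⟨w, hw, hne⟩ := H.exists_nonorth hv0
    exact hne ((eq_zero_comm H.herm).mp (H.rat_span (p := fun x => pullForm n q P v x = 0) (zero_right H.herm v)
      (fun a b ha hb => by rw [add_right H.herm, ha, hb, add_zero])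
      (fun c _ a ha => by rw [smul_right H.herm, ha, mul_zero]) hc hw))
  have hz0 : z ≠ 0 := fun h => hvz (by rw [h, zero_right H.herm])
  obtain ⟨z', hz', hz'z', hzz', hz'z⟩ := H.partner hz hzz hz0
  -- every Siegel element with centre `z`
  let Y : Submodule F (Fin n → F) :=
    { carrier := {x | ∀ c : F, ∃ h : pullForm n q P (c • x) z = 0, ∃ γ, eich H.herm hzz h γ ∈ M}
      add_mem' := fun {a b} ha hb c => by
        obtain ⟨h1, γ1, m1⟩ := ha c
        obtain ⟨h2, γ2, m2⟩ := hb c
        have h3 : pullForm n q P (c • a + c • b) z = 0 := by rw [H.herm.add_left, h1, h2, add_zero]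
        have h4 : pullForm n q P (c • (a + b)) z = 0 := by rw [smul_add]; exact h3
        refine ⟨h4, γ1 + γ2 - pullForm n q P (c • b) (c • a), ?_⟩
        rw [eich_congr H.herm hzz h4 h3 (smul_add c a b), ← eich_mul_eich H.herm hzz h1 h2 h3]
        exact M.mul_mem m1 m2
      zero_mem' := fun c => by
        refine ⟨by rw [smul_zero, zero_left H.herm], 0, ?_⟩
        convert M.one_mem
        exact gl_ext fun y => by rw [eich_mulVec, smul_zero, zero_right H.herm]; simp
      smul_mem' := fun k a ha c => by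
        obtain ⟨h, γ, m⟩ := ha (c * k)
        have h' : pullForm n q P (c • k • a) z = 0 := by rw [smul_smul]; exact h
        exact ⟨h', γ, by rw [eich_congr H.herm hzz h' h (smul_smul c k a)]; exact m⟩ }
  have hYgen : ∀ x, IsRatVec F₀ x → pullForm n q P x x = 0 → pullForm n q P x z = 0 → x ∈ Y := fun x hx hxx hxz c =>
    ⟨by rw [H.herm.smul_left, hxz, mul_zero], 0, hS hz hx hzz hxx ((eq_zero_comm H.herm).mp hxz) c _⟩
  have hY : ∀ x, pullForm n q P x z = 0 → x ∈ Y := by
    intro x hxz
    have hgen : ∀ w, IsRatVec F₀ w → w - pullForm n q P w z • z' ∈ Y := by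
      intro w hw
      obtain ⟨a, b, ha, hb, oa, ob, haa, hbb, hab, hba⟩ := H.exists_pair (show 2 ≤ 5 by norm_num) ![z, z']
        (fun i => by fin_cases i <;> assumption)
      have a0 := oa 0; have b0 := ob 0
      simp at a0 b0
      set w' := w - pullForm n q P w z • z' with hw'
      have hw'r : IsRatVec F₀ w' := isRat_sub hw (isRat_smul (H.rat _ _ hw hz) hz')
      have hw'z : pullForm n q P w' z = 0 := by rw [hw', sub_left H.herm, H.herm.smul_left, hz'z, mul_one, sub_self]
      clear_value w'
      set s := pullForm n q P w' b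
      set t := pullForm n q P w' a
      set w'' := w' - s • a - t • b with hw''
      have hw''r : IsRatVec F₀ w'' := isRat_sub (isRat_sub hw'r (isRat_smul (H.rat _ _ hw'r hb) ha))
        (isRat_smul (H.rat _ _ hw'r ha) hb)
      obtain ⟨μ, hμ⟩ := exists_trace H.herm₀ (a := (⟨- pullForm n q P w'' w'',
        neg_mem (H.rat _ _ hw''r hw''r)⟩ : F₀)) (Subtype.ext (by
          rw [H.coe_sigma₀, map_neg, sigma_apply H.herm]))
      have hμ' : (μ : F) + frobQ hF (μ : F) = - pullForm n q P w'' w'' := congrArg Subtype.val hμ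
      have c1 : pullForm n q P w'' a = 0 := by
        rw [hw'', sub_left H.herm, sub_left H.herm, H.herm.smul_left, H.herm.smul_left, haa, hba]; ring
      have c2 : pullForm n q P w'' b = 0 := by
        rw [hw'', sub_left H.herm, sub_left H.herm, H.herm.smul_left, H.herm.smul_left, hab, hbb]; ring
      have c3 : pullForm n q P w'' z = 0 := by
        rw [hw'', sub_left H.herm, sub_left H.herm, H.herm.smul_left, H.herm.smul_left, a0, b0, hw'z]; ring
      clear_value w''
      have hiso' : pullForm n q P (w'' + a + (μ : F) • b) (w'' + a + (μ : F) • b) = 0 := by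
        simp only [H.herm.add_left, add_right H.herm, H.herm.smul_left, smul_right H.herm, c1, c2,
          (eq_zero_comm H.herm).mp c1, (eq_zero_comm H.herm).mp c2, haa, hbb, hab, hba]
        linear_combination hμ'
      have h1 := hYgen _ (isRat_add (isRat_add hw''r ha) (isRat_smul μ.2 hb)) hiso'
        (by rw [H.herm.add_left, H.herm.add_left, H.herm.smul_left, c3, a0, b0]; ring)
      have e : w' = (w'' + a + (μ : F) • b) + (s - 1) • a + (t - (μ : F)) • b := by rw [hw'']; module
      rw [e]
      exact Y.add_mem (Y.add_mem h1 (Y.smul_mem _ (hYgen a ha haa a0))) (Y.smul_mem _ (hYgen b hb hbb b0))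
    have e : x = ∑ i, x i • (Pi.single i 1 - pullForm n q P (Pi.single i 1) z • z') := by
      simp only [smul_sub, Finset.sum_sub_distrib, ← pi_eq_sum_univ' x, smul_smul, ← Finset.sum_smul]
      have : ∑ i, x i * pullForm n q P (Pi.single i 1) z = 0 := by
        rw [← hxz, ← fl_apply H.herm z x]
        conv_rhs => rw [pi_eq_sum_univ' x, map_sum]
        simp [fl_apply, H.herm.smul_left]
      rw [this, zero_smul, sub_zero]
    rw [e]
    exact Y.sum_mem fun i _ => Y.smul_mem _ (hgen _ (isRat_single i))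
  set v' := (pullForm n q P v z)⁻¹ • v with hv'
  have e1 : pullForm n q P v' z = 1 := by rw [hv', H.herm.smul_left, inv_mul_cancel₀ hvz]
  have e1' : pullForm n q P z v' = 1 := by rw [H.herm.herm, e1, map_one]
  have hv'v' : pullForm n q P v' v' = 0 := by rw [hv', H.herm.smul_left, smul_right H.herm, hvv, mul_zero, mul_zero]
  have hv'c : v = pullForm n q P v z • v' := by rw [hv', smul_smul, mul_inv_cancel₀ hvz, one_smul]
  clear_value v'
  obtain ⟨hX, γ, hγ⟩ := hY (v' - z') (by rw [sub_left H.herm, e1, hz'z, sub_self]) 1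
  set k := γ - pullForm n q P z' (v' - z') with hk
  have hgz : (eich H.herm hzz hX γ : Mat) *ᵥ z' = v' + k • z := by
    rw [eich_mulVec, hz'z, one_smul, hk]; module
  have hv1 : v' + k • z ∈ centres H.herm M := hgz ▸ centres_conj H.herm hiso hγ (hC hz' hz'z')
  have hks : frobQ hF (-k) = - -k := by
    have := hv1.1
    rw [H.herm.add_left, add_right H.herm, add_right H.herm, H.herm.smul_left, smul_right H.herm, hv'v', e1, e1',
      H.herm.smul_left, smul_right H.herm, hzz] at this
    rw [map_neg, neg_neg]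
    linear_combination -this
  have h2 := centres_conj H.herm hiso ((hC hz hzz).2 _ hks) hv1
  rw [uT_mulVec, H.herm.add_left, e1, H.herm.smul_left, hzz, mul_zero, add_zero, mul_one, add_assoc, ← add_smul,
    add_neg_cancel, zero_smul, add_zero] at h2
  rw [hv'c]
  exact centres_smul H.herm h2 _

end Cfsg.Agent.H98.Herm
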