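import Cfsg.Agent.H98.HermPull
import Cfsg.Agent.H98.SubfieldScalars
import Cfsg.Agent.H98.SpSubfieldLine

set_option autoImplicit false
set_option linter.unusedSectionVars false

/-!
The symplectic subfield subgroup is maximal in `SU`.
-/

namespace Cfsg.Agent.H98.Herm

open scoped Matrix

variable {F : Type*} [Field F] [Fintype F] {q n : ℕ}

local notation "Mat" => Matrix (Fin n) (Fin n) F

/-- The fixed field of `x ↦ x ^ q` is the subfield with `q` elements. -/
theorem frobQ_fixed_iff (hF : Fintype.card F = q ^ 2) {F₀ : Subfield F} (hcard : Fintype.card F = Nat.card F₀ ^ 2)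
    (x : F) : frobQ hF x = x ↔ x ∈ F₀ := by
  haveI := Fintype.ofFinite F₀
  have hq : Nat.card F₀ = q := Nat.pow_left_injective two_ne_zero (hcard.symm.trans hF)
  rw [frobQ_apply]
  constructor
  · intro h; exact mem_subfield_of_pow_card F₀ (hq.symm ▸ h)
  · intro h
    have := congrArg Subtype.val (FiniteField.pow_card (⟨x, h⟩ : F₀))
    rw [← Nat.card_eq_fintype_card, hq] at this
    exact this

/-- A matrix sending rational vectors to multiples of rational vectors is rational up to a scalar. -/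
theorem mem_subGroupF_of_lines {ι : Type} [Fintype ι] [DecidableEq ι] [Nonempty ι] {K : Type*} [Field K]
    {σ : K ≃+* K} {F₀ : Subfield K} (hfix : ∀ x, σ x = x ↔ x ∈ F₀) {g : GL ι K}
    (h : ∀ u : ι → K, IsRatVec F₀ u → ∃ (k : K) (r : ι → K), IsRatVec F₀ r ∧ (g : Matrix ι ι K) *ᵥ u = k • r) :
    g ∈ subGroupF ι F₀ := by
  choose c r hr hc using fun b : ι => h (Pi.single b 1) (isRat_single b)
  have hc0 : ∀ b, c b ≠ 0 := fun b hb => by
    have := hc b
    rw [hb, zero_smul, ← Matrix.mulVec_zero (g : Matrix ι ι K)] at this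
    exact one_ne_zero (by simpa using congrFun (gl_mulVec_injective g this) b : (1 : K) = 0)
  have hr0 : ∀ b, r b ≠ 0 := fun b hb => by
    have := hc b
    rw [hb, smul_zero, ← Matrix.mulVec_zero (g : Matrix ι ι K)] at this
    exact one_ne_zero (by simpa using congrFun (gl_mulVec_injective g this) b : (1 : K) = 0)
  have hind : ∀ b b', b ≠ b' → ∀ s t : K, s • r b + t • r b' = 0 → s = 0 ∧ t = 0 := by
    intro b b' hbb s t hst
    have : (g : Matrix ι ι K) *ᵥ ((s / c b) • Pi.single b 1 + (t / c b') • Pi.single b' 1) =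
        (g : Matrix ι ι K) *ᵥ 0 := by
      rw [Matrix.mulVec_add, Matrix.mulVec_smul, Matrix.mulVec_smul, hc, hc, smul_smul, smul_smul,
        div_mul_cancel₀ _ (hc0 b), div_mul_cancel₀ _ (hc0 b'), hst, Matrix.mulVec_zero]
    have h1 := gl_mulVec_injective g this
    have h2 := congrFun h1 b
    have h3 := congrFun h1 b'
    simp [hbb, hbb.symm, hc0] at h2 h3
    exact ⟨h2, h3⟩
  obtain ⟨b₀⟩ := (inferInstance : Nonempty ι)
  have hratio : ∀ b, c b / c b₀ ∈ F₀ := by
    intro b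
    by_cases hb : b = b₀
    · rw [hb, div_self (hc0 b₀)]; exact one_mem _
    rw [← hfix]
    obtain ⟨l, w, hw, hl⟩ := h (Pi.single b₀ 1 + Pi.single b 1) (isRat_add (isRat_single b₀) (isRat_single b))
    rw [Matrix.mulVec_add, hc, hc] at hl
    set k := c b / c b₀
    have h1 : r b₀ + k • r b = (l / c b₀) • w := by
      have := congrArg (fun y => (c b₀)⁻¹ • y) hl
      simp only [smul_add, smul_smul, inv_mul_cancel₀ (hc0 b₀), one_smul] at this
      simpa [k, div_eq_inv_mul] using this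
    set L := l / c b₀
    have h2 : r b₀ + σ k • r b = σ L • w := funext fun x => by
      have h3 := congrArg σ (congrFun h1 x)
      simp only [Pi.add_apply, Pi.smul_apply, smul_eq_mul, map_add, map_mul, (hfix _).mpr (hr b₀ x),
        (hfix _).mpr (hr b x), (hfix _).mpr (hw x)] at h3
      simpa using h3
    have h4 : (σ L - L) • r b₀ + (σ L * k - L * σ k) • r b = 0 := by
      have e : σ L • (r b₀ + k • r b) = L • (r b₀ + σ k • r b) := by rw [h1, h2, smul_smul, smul_smul, mul_comm]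
      linear_combination (norm := module) e
    obtain ⟨e1, e2⟩ := hind b₀ b (Ne.symm hb) _ _ h4
    rw [sub_eq_zero] at e1 e2
    rw [e1] at e2
    have hL : L ≠ 0 := fun hL => by
      rw [hL, zero_smul] at h1
      exact one_ne_zero (hind b₀ b (Ne.symm hb) 1 k (by rw [one_smul]; exact h1)).1
    exact (mul_left_cancel₀ hL e2).symm
  refine mem_subGroupF.mpr ⟨(c b₀)⁻¹, inv_ne_zero (hc0 b₀), fun a b => ?_⟩
  have h1 := congrFun (hc b) a
  rw [Matrix.mulVec_single_one, Matrix.col_apply] at h1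
  rw [h1, Pi.smul_apply, smul_eq_mul, ← mul_assoc, inv_mul_eq_div]
  exact mul_mem (hratio b) (hr b a)

section
variable (hF : Fintype.card F = q ^ 2) (hn : 4 ≤ n) {F₀ : Subfield F} (P : GL (Fin n) F)
variable (hfix : ∀ x, frobQ hF x = x ↔ x ∈ F₀) {ζ : F} (hζ0 : ζ ≠ 0) (hζ : frobQ hF ζ = -ζ)
variable (hrat : ∀ u v : Fin n → F, IsRatVec F₀ u → IsRatVec F₀ v → ζ * pullForm n q P u v ∈ F₀)
variable (halt : ∀ u : Fin n → F, IsRatVec F₀ u → pullForm n q P u u = 0)
include hF hn hfix hζ0 hζ hrat halt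

/-- Transvections with rational centres are rational. -/
theorem uT_rat {u : Fin n → F} (hu : IsRatVec F₀ u) {d : F} (hd : frobQ hF d = -d) :
    uT (isUnitary_pull hF P) (halt u hu) d ∈ subGroupF (Fin n) F₀ ⊓ isoSL (pullForm n q P) := by
  haveI : Nonempty (Fin n) := ⟨⟨0, by omega⟩⟩
  refine ⟨mem_subGroupF.mpr ⟨1, one_ne_zero, fun a b => ?_⟩, fun x y => uT_iso _ (halt u hu) hd x y,
    transGL_mem_sl _ _ _⟩
  have h := congrFun (uT_mulVec (isUnitary_pull hF P) (halt u hu) d (Pi.single b 1)) a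
  rw [Matrix.mulVec_single_one, Matrix.col_apply] at h
  rw [one_mul, h, Pi.add_apply, Pi.smul_apply, smul_eq_mul]
  refine add_mem (isRat_single b a) (mul_mem ?_ (hu a))
  rw [show d * pullForm n q P (Pi.single b 1) u = (d / ζ) * (ζ * pullForm n q P (Pi.single b 1) u) by
    field_simp]
  refine mul_mem ((hfix _).mp ?_) (hrat _ _ (isRat_single b) hu)
  rw [map_div₀, hd, hζ, neg_div_neg_eq]

theorem swap_rat {u v : Fin n → F} (hu : IsRatVec F₀ u) (hv : IsRatVec F₀ v) :
    pullForm n q P v u = - pullForm n q P u v := by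
  have h := (hfix _).mpr (hrat u v hu hv)
  rw [map_mul, hζ, sigma_apply (isUnitary_pull hF P)] at h
  exact mul_left_cancel₀ hζ0 (by linear_combination -h)

/-- A rational vector with non-zero product. -/
theorem exists_rat_nonorth {w : Fin n → F} (hw : w ≠ 0) :
    ∃ z : Fin n → F, IsRatVec F₀ z ∧ pullForm n q P z w ≠ 0 := by
  by_contra hc
  push Not at hc
  obtain ⟨x, hx⟩ := ((isUnitary_pull hF P).nondegenerate w hw).1
  rw [← fl_apply (isUnitary_pull hF P), pi_eq_sum_univ' x, map_sum] at hx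
  exact hx (Finset.sum_eq_zero fun i _ => by rw [map_smul, fl_apply, hc _ (isRat_single i), smul_zero])

/-- A rational transvection carrying one vector to another. -/
theorem rat_step {a b : Fin n → F} (ha : IsRatVec F₀ a) (hb : IsRatVec F₀ b) (hab : pullForm n q P a b ≠ 0) :
    ∃ g ∈ subGroupF (Fin n) F₀ ⊓ isoSL (pullForm n q P), (g : Mat) *ᵥ a = b ∧
      ∀ c, pullForm n q P c (b - a) = 0 → (g : Mat) *ᵥ c = c := by
  set hf := isUnitary_pull hF P
  refine ⟨_, uT_rat hF hn P hfix hζ0 hζ hrat halt (isRat_sub hb ha) (d := (pullForm n q P a b)⁻¹) ?_, ?_,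
    fun c hc => ?_⟩
  · rw [map_inv₀, sigma_apply hf, swap_rat hF hn P hfix hζ0 hζ hrat halt ha hb, inv_neg]
  · rw [uT_mulVec, sub_right hf, halt a ha, sub_zero, inv_mul_cancel₀ hab, one_smul, add_sub_cancel]
  · rw [uT_mulVec, hc, mul_zero, zero_smul, add_zero]

/-- Transitivity on rational orthogonal independent pairs. -/
theorem rat_pair_transitive {a b a' b' : Fin n → F} (ha : IsRatVec F₀ a) (hb : IsRatVec F₀ b)
    (ha' : IsRatVec F₀ a') (hb' : IsRatVec F₀ b') (h0 : a ≠ 0) (h0' : a' ≠ 0) (hab : pullForm n q P a b = 0)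
    (hab' : pullForm n q P a' b' = 0) (hi : ∀ k : F, b ≠ k • a) (hi' : ∀ k : F, b' ≠ k • a') :
    ∃ g ∈ subGroupF (Fin n) F₀ ⊓ isoSL (pullForm n q P), (g : Mat) *ᵥ a = a' ∧ (g : Mat) *ᵥ b = b' := by
  set hf := isUnitary_pull hF P
  obtain ⟨z, hz, hza, hza'⟩ : ∃ z, IsRatVec F₀ z ∧ pullForm n q P z a ≠ 0 ∧ pullForm n q P z a' ≠ 0 := by
    obtain ⟨x, hx, hxa⟩ := exists_rat_nonorth hF hn P hfix hζ0 hζ hrat halt h0
    obtain ⟨y, hy, hya⟩ := exists_rat_nonorth hF hn P hfix hζ0 hζ hrat halt h0'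
    by_cases h1 : pullForm n q P x a' = 0
    · by_cases h2 : pullForm n q P y a = 0
      · exact ⟨x + y, isRat_add hx hy, by rw [hf.add_left, h2, add_zero]; exact hxa,
          by rw [hf.add_left, h1, zero_add]; exact hya⟩
      · exact ⟨y, hy, h2, hya⟩
    · exact ⟨x, hx, hxa, h1⟩
  obtain ⟨g₁, hg₁, e1, -⟩ := rat_step hF hn P hfix hζ0 hζ hrat halt ha hz (fun h => hza ((eq_zero_comm hf).mp h))
  obtain ⟨g₂, hg₂, e2, -⟩ := rat_step hF hn P hfix hζ0 hζ hrat halt hz ha' hza'
  set g := g₂ * g₁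
  have hg : g ∈ subGroupF (Fin n) F₀ ⊓ isoSL (pullForm n q P) := Subgroup.mul_mem _ hg₂ hg₁
  have hga : (g : Mat) *ᵥ a = a' := by rw [Units.val_mul, ← Matrix.mulVec_mulVec, e1, e2]
  set b₁ := (g : Mat) *ᵥ b with hb₁def
  haveI : Nonempty (Fin n) := ⟨⟨0, by omega⟩⟩
  have hb₁ : IsRatVec F₀ b₁ := by
    obtain ⟨c, hc, hcr⟩ := mem_subGroupF.mp hg.1
    obtain ⟨x, hx⟩ := Function.ne_iff.mp h0'
    have h1 : c * a' x = ∑ y, c * (g : Mat) x y * a y := by
      conv_lhs => rw [← hga]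
      simp only [Matrix.mulVec, dotProduct, Finset.mul_sum, mul_assoc]
    have hcF : c ∈ F₀ := by
      have h2 : c * a' x ∈ F₀ := h1 ▸ sum_mem fun y _ => mul_mem (hcr x y) (ha y)
      have := mul_mem h2 (inv_mem (ha' x))
      rwa [mul_assoc, mul_inv_cancel₀ hx, mul_one] at this
    refine mulVec_rat (fun i j => ?_) hb
    have := mul_mem (inv_mem hcF) (hcr i j)
    rwa [← mul_assoc, inv_mul_cancel₀ hc, one_mul] at this
  have hab₁ : pullForm n q P a' b₁ = 0 := by rw [hb₁def, ← hga, (mem_isoSL.mp hg.2).1, hab]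
  have hi₁ : ∀ k : F, b₁ ≠ k • a' := fun k h => hi k (gl_mulVec_injective g (by
    change (g : Mat) *ᵥ b = (g : Mat) *ᵥ (k • a)
    rw [Matrix.mulVec_smul, hga]; exact h))
  -- rational vectors orthogonal to `a'`
  have hperp : ∀ w : Fin n → F, (∀ k : F, w ≠ k • a') → ∃ z, IsRatVec F₀ z ∧ pullForm n q P z a' = 0 ∧
      pullForm n q P z w ≠ 0 := by
    intro w hw
    obtain ⟨y, hy, hya⟩ := exists_rat_nonorth hF hn P hfix hζ0 hζ hrat halt h0'
    by_contra hc
    push Not at hc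
    refine hw (frobQ hF (pullForm n q P y w / pullForm n q P y a')) (fl_injective hf (LinearMap.ext fun x => ?_))
    rw [pi_eq_sum_univ' x, map_sum, map_sum]
    refine Finset.sum_congr rfl fun i _ => ?_
    rw [map_smul, map_smul, fl_apply, fl_apply, smul_right hf, hf.involutive]
    congr 1
    set t := pullForm n q P (Pi.single i 1) a' / pullForm n q P y a' with ht
    have htF : t ∈ F₀ := by
      rw [ht, ← mul_div_mul_left _ _ hζ0]
      exact div_mem (hrat _ _ (isRat_single i) ha') (hrat _ _ hy ha')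
    have h1 := hc (Pi.single i 1 - t • y) (isRat_sub (isRat_single i) (isRat_smul htF hy))
      (by rw [sub_left hf, hf.smul_left, ht, div_mul_cancel₀ _ hya, sub_self])
    rw [sub_left hf, hf.smul_left, sub_eq_zero] at h1
    rw [h1, ht]; ring
  obtain ⟨z', hz', hz'a, hzb, hzb'⟩ : ∃ z, IsRatVec F₀ z ∧ pullForm n q P z a' = 0 ∧ pullForm n q P z b₁ ≠ 0 ∧
      pullForm n q P z b' ≠ 0 := by
    obtain ⟨x, hx, hxa, hxb⟩ := hperp b₁ hi₁
    obtain ⟨y, hy, hya, hyb⟩ := hperp b' hi'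
    by_cases h1 : pullForm n q P x b' = 0
    · by_cases h2 : pullForm n q P y b₁ = 0
      · exact ⟨x + y, isRat_add hx hy, by rw [hf.add_left, hxa, hya, add_zero],
          by rw [hf.add_left, h2, add_zero]; exact hxb, by rw [hf.add_left, h1, zero_add]; exact hyb⟩
      · exact ⟨y, hy, hya, h2, hyb⟩
    · exact ⟨x, hx, hxa, hxb, h1⟩
  obtain ⟨g₃, hg₃, e3, f3⟩ := rat_step hF hn P hfix hζ0 hζ hrat halt hb₁ hz' (fun h => hzb ((eq_zero_comm hf).mp h))
  obtain ⟨g₄, hg₄, e4, f4⟩ := rat_step hF hn P hfix hζ0 hζ hrat halt hz' hb' hzb'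
  refine ⟨g₄ * g₃ * g, Subgroup.mul_mem _ (Subgroup.mul_mem _ hg₄ hg₃) hg, ?_, ?_⟩
  · rw [Units.val_mul, ← Matrix.mulVec_mulVec, hga, Units.val_mul, ← Matrix.mulVec_mulVec,
      f3 a' (by rw [sub_right hf, (eq_zero_comm hf).mp hz'a, hab₁, sub_zero]),
      f4 a' (by rw [sub_right hf, (eq_zero_comm hf).mp hz'a, hab', sub_zero])]
  · rw [Units.val_mul, ← Matrix.mulVec_mulVec, Units.val_mul, ← Matrix.mulVec_mulVec, ← hb₁def, e3, e4]

/-- The symplectic subfield subgroup is maximal. -/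
theorem isoSL_symp_subfield_maximal :
    Cfsg.Geo.IsMaximalIn (isoSL (pullForm n q P)) (subGroupF (Fin n) F₀ ⊓ isoSL (pullForm n q P)) := by
  classical
  haveI : Nonempty (Fin n) := ⟨⟨0, by omega⟩⟩
  set hf := isUnitary_pull hF P
  obtain ⟨ε, hε⟩ : ∃ ε : F, frobQ hF ε ≠ ε := by
    by_contra h; push Not at h
    exact hf.ne_refl (RingEquiv.ext fun x => by rw [h x, RingEquiv.refl_apply])
  have hε' : ε - frobQ hF ε ≠ 0 := sub_ne_zero.mpr (Ne.symm hε)
  have hσrat : ∀ r : Fin n → F, IsRatVec F₀ r → ∀ x, frobQ hF (r x) = r x := fun r hr x => (hfix _).mpr (hr x)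
  -- decomposition into rational parts
  have hdec : ∀ v : Fin n → F, ∃ a b, IsRatVec F₀ a ∧ IsRatVec F₀ b ∧ v = a + ε • b := by
    intro v
    set b : Fin n → F := fun x => (v x - frobQ hF (v x)) / (ε - frobQ hF ε)
    have hb : IsRatVec F₀ b := fun x => (hfix _).mp (by
      simp only [b, map_div₀, map_sub, hf.involutive]
      rw [← neg_sub (v x), ← neg_sub ε, neg_div_neg_eq])
    refine ⟨v - ε • b, b, fun x => (hfix _).mp ?_, hb, by rw [sub_add_cancel]⟩
    have hbx := hσrat b hb x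
    simp only [Pi.sub_apply, Pi.smul_apply, smul_eq_mul, map_sub, map_mul, hbx]
    simp only [b]
    field_simp
    ring
  have hisoab : ∀ a b : Fin n → F, IsRatVec F₀ a → IsRatVec F₀ b →
      pullForm n q P (a + ε • b) (a + ε • b) = (frobQ hF ε - ε) * pullForm n q P a b := by
    intro a b ha hb
    rw [hf.add_left, add_right hf, add_right hf, hf.smul_left, hf.smul_left, smul_right hf, smul_right hf,
      halt a ha, halt b hb, swap_rat hF hn P hfix hζ0 hζ hrat halt ha hb]
    ring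
  -- a pair of independent orthogonal rational vectors
  obtain ⟨a₀, b₀, ha₀, hb₀, ha₀0, hab₀, hi₀⟩ : ∃ a b : Fin n → F, IsRatVec F₀ a ∧ IsRatVec F₀ b ∧ a ≠ 0 ∧
      pullForm n q P a b = 0 ∧ ∀ k : F, b ≠ k • a := by
    set a : Fin n → F := Pi.single ⟨0, by omega⟩ 1
    have ha : IsRatVec F₀ a := isRat_single _
    have ha0 : a ≠ 0 := fun h => by simpa [a] using congrFun h ⟨0, by omega⟩
    obtain ⟨y, hy, hya⟩ := exists_rat_nonorth hF hn P hfix hζ0 hζ hrat halt ha0
    by_contra hc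
    push Not at hc
    have hle : (⊤ : Submodule F (Fin n → F)) ≤ Submodule.span F {a, y} := by
      intro x _
      rw [pi_eq_sum_univ' x]
      refine Submodule.sum_mem _ fun i _ => Submodule.smul_mem _ _ ?_
      set t := pullForm n q P (Pi.single i 1) a / pullForm n q P y a with ht
      have htF : t ∈ F₀ := by
        rw [ht, ← mul_div_mul_left _ _ hζ0]
        exact div_mem (hrat _ _ (isRat_single i) ha) (hrat _ _ hy ha)
      obtain ⟨k, hk⟩ := hc a (Pi.single i 1 - t • y) ha (isRat_sub (isRat_single i) (isRat_smul htF hy)) ha0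
        ((eq_zero_comm hf).mp (by rw [sub_left hf, hf.smul_left, ht, div_mul_cancel₀ _ hya, sub_self]))
      exact Submodule.mem_span_pair.mpr ⟨k, t, by rw [← hk, sub_add_cancel]⟩
    have h1 := (Submodule.finrank_mono hle).trans (finrank_span_le_card _)
    have h2 : Set.toFinset ({a, y} : Set (Fin n → F)) ⊆ {a, y} := fun w => by simp
    have h3 := (Finset.card_le_card h2).trans Finset.card_le_two
    rw [finrank_top, Module.finrank_pi, Fintype.card_fin] at h1
    omega
  refine isMaximalIn_of inf_le_right ?_ fun M h1 h2 g hgM hgH => ?_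
  · set v := a₀ + ε • b₀
    have hvv : pullForm n q P v v = 0 := by rw [hisoab a₀ b₀ ha₀ hb₀, hab₀, mul_zero]
    obtain ⟨d, hd0, hd⟩ := exists_skew hf
    refine ⟨uT hf hvv d, ⟨fun x y => uT_iso hf hvv hd x y, transGL_mem_sl _ _ _⟩, fun h => ?_⟩
    have hav : pullForm n q P a₀ v = 0 := by
      rw [add_right hf, smul_right hf, halt a₀ ha₀, hab₀, mul_zero, add_zero]
    have hfixa : (uT hf hvv d : Mat) *ᵥ a₀ = a₀ := by rw [uT_mulVec, hav, mul_zero, zero_smul, add_zero]
    have hTr := rational_of_fix h.1 ha₀ ha₀0 hfixa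
    have hv0 : v ≠ 0 := fun h0 => by
      refine ha₀0 (funext fun x => ?_)
      have e1 := congrFun h0 x
      have e2 := congrArg (frobQ hF) e1
      simp only [v, Pi.add_apply, Pi.smul_apply, smul_eq_mul, Pi.zero_apply, map_add, map_mul, map_zero,
        hσrat a₀ ha₀ x, hσrat b₀ hb₀ x] at e1 e2
      have hb : b₀ x = 0 := (mul_eq_zero.mp (show (ε - frobQ hF ε) * b₀ x = 0 by linear_combination e1 - e2)).resolve_left hε'
      rw [hb, mul_zero, add_zero] at e1
      exact e1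
    obtain ⟨z, hz, hzv⟩ := exists_rat_nonorth hF hn P hfix hζ0 hζ hrat halt hv0
    have hr := isRat_sub (mulVec_rat hTr hz) hz
    rw [uT_mulVec, add_sub_cancel_left] at hr
    set k := d * pullForm n q P z v
    have hk : k ≠ 0 := mul_ne_zero hd0 hzv
    -- `k • v` rational forces proportional parts
    have e : ∀ x, (frobQ hF k - k) * a₀ x + (frobQ hF k * frobQ hF ε - k * ε) * b₀ x = 0 := fun x => by
      have := (hfix _).mpr (hr x)
      simp only [Pi.smul_apply, v, Pi.add_apply, smul_eq_mul, map_mul, map_add, hσrat a₀ ha₀ x, hσrat b₀ hb₀ x] at this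
      linear_combination this
    by_cases hc2 : frobQ hF k * frobQ hF ε - k * ε = 0
    · obtain ⟨x, hx⟩ := Function.ne_iff.mp ha₀0
      have e1 := e x
      rw [hc2, zero_mul, add_zero] at e1
      have hkk := sub_eq_zero.mp ((mul_eq_zero.mp e1).resolve_right hx)
      rw [hkk] at hc2
      exact hε (mul_left_cancel₀ hk (sub_eq_zero.mp hc2))
    · refine hi₀ (-(frobQ hF k - k) / (frobQ hF k * frobQ hF ε - k * ε)) (funext fun x => ?_)
      rw [Pi.smul_apply, smul_eq_mul, div_mul_eq_mul_div, eq_div_iff hc2]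
      linear_combination e x
  have hiso : ∀ k ∈ M, ∀ a b, pullForm n q P ((k : Mat) *ᵥ a) ((k : Mat) *ᵥ b) = pullForm n q P a b :=
    fun k hk => (mem_isoSL.mp (h2 hk)).1
  have hCr : ∀ u, IsRatVec F₀ u → u ∈ centres hf M := fun u hu =>
    ⟨halt u hu, fun d hd => h1 (uT_rat hF hn P hfix hζ0 hζ hrat halt hu hd)⟩
  have hgS : g ∉ subGroupF (Fin n) F₀ := fun h => hgH ⟨h, h2 hgM⟩
  obtain ⟨u, hu, hline⟩ : ∃ u, IsRatVec F₀ u ∧ ∀ (k : F) (r : Fin n → F), IsRatVec F₀ r → (g : Mat) *ᵥ u ≠ k • r := by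
    by_contra hc; push Not at hc
    exact hgS (mem_subGroupF_of_lines (σ := frobQ hF) hfix hc)
  obtain ⟨a, b, ha, hb, hv⟩ := hdec ((g : Mat) *ᵥ u)
  have hvC : a + ε • b ∈ centres hf M := hv ▸ centres_conj hf hiso hgM (hCr u hu)
  have hab : pullForm n q P a b = 0 := by
    have h := hvC.1
    rw [hisoab a b ha hb] at h
    exact (mul_eq_zero.mp h).resolve_left (sub_ne_zero.mpr hε)
  have ha0 : a ≠ 0 := fun h => hline ε b hb (by rw [hv, h, zero_add])
  have hi : ∀ k : F, b ≠ k • a := fun k h => hline (1 + ε * k) a ha (by rw [hv, h]; module)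
  refine isoSL_le_of_uT hF hn P fun v hvv d hd => ?_
  suffices hvc : v ∈ centres hf M by
    obtain ⟨_, hv'⟩ := hvc
    exact hv' d hd
  obtain ⟨a', b', ha', hb', rfl⟩ := hdec v
  by_cases ha'0 : a' = 0
  · rw [ha'0, zero_add]; exact centres_smul hf (hCr b' hb') ε
  by_cases hk : ∃ k : F, b' = k • a'
  · obtain ⟨k, hk⟩ := hk
    rw [hk, show a' + ε • k • a' = (1 + ε * k) • a' by module]
    exact centres_smul hf (hCr a' ha') _
  push Not at hk
  have hab' : pullForm n q P a' b' = 0 := by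
    rw [hisoab a' b' ha' hb'] at hvv
    exact (mul_eq_zero.mp hvv).resolve_left (sub_ne_zero.mpr hε)
  obtain ⟨h, hh, e1, e2⟩ := rat_pair_transitive hF hn P hfix hζ0 hζ hrat halt ha hb ha' hb' ha0 ha'0 hab hab' hi hk
  have := centres_conj hf hiso (h1 hh) hvC
  rwa [Matrix.mulVec_add, Matrix.mulVec_smul, e1, e2] at this

end

end Cfsg.Agent.H98.Herm
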