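import Mathlib

set_option autoImplicit false

/-!
Two involutions: either they are conjugate, or an involution commutes with both.
-/

namespace Cfsg.Agent.H98

variable {G : Type*} [Group G]

theorem involution_mul_zpow {i j : G} (hi : i * i = 1) (hj : j * j = 1) (k : ℕ) :
    (i * j) ^ k * i = i * ((i * j) ^ k)⁻¹ := by
  induction k with
  | zero => simp
  | succ k ih =>
    have hii : i⁻¹ = i := inv_eq_of_mul_eq_one_right hi
    have hjj : j⁻¹ = j := inv_eq_of_mul_eq_one_right hj
    calc (i * j) ^ (k + 1) * i = (i * j) ^ k * i * (j * i) := by rw [pow_succ]; group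
      _ = i * ((i * j) ^ k)⁻¹ * (j * i) := by rw [ih]
      _ = i * (((i * j) ^ k)⁻¹ * (i * j)⁻¹) := by rw [mul_inv_rev i j, hii, hjj, mul_assoc]
      _ = i * ((i * j) ^ (k + 1))⁻¹ := by rw [← mul_inv_rev, ← pow_succ']

/-- Conjugating `i` by a power of `i * j`. -/
theorem involution_conj_pow {i j : G} (hi : i * i = 1) (hj : j * j = 1) (k : ℕ) :
    (i * j) ^ k * i * ((i * j) ^ k)⁻¹ = i * ((i * j) ^ (2 * k))⁻¹ := by
  rw [involution_mul_zpow hi hj, two_mul, pow_add, mul_inv_rev, mul_assoc]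

/-- Two involutions of a finite group are conjugate, or an involution commutes with both, a power of their product. -/
theorem involution_pair [Finite G] {i j : G} (hi : i * i = 1) (hj : j * j = 1) :
    IsConj i j ∨ ∃ k : ℕ, (i * j) ^ k ≠ 1 ∧ ((i * j) ^ k) * ((i * j) ^ k) = 1 ∧
      ((i * j) ^ k * i = i * (i * j) ^ k) ∧ ((i * j) ^ k * j = j * (i * j) ^ k) := by
  obtain ⟨k, hk | hk⟩ := Nat.even_or_odd' (orderOf (i * j))
  · refine Or.inr ⟨k, ?_, ?_, ?_, ?_⟩
    · intro h
      have h1 := orderOf_dvd_of_pow_eq_one h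
      have h2 := orderOf_pos (i * j)
      rcases Nat.eq_zero_or_pos k with h0 | h0
      · omega
      · exact absurd (Nat.le_of_dvd h0 h1) (by omega)
    all_goals
      have hsq : (i * j) ^ k * (i * j) ^ k = 1 := by rw [← pow_add, ← two_mul, ← hk, pow_orderOf_eq_one]
      have hinv : ((i * j) ^ k)⁻¹ = (i * j) ^ k := inv_eq_of_mul_eq_one_right hsq
      have hci : (i * j) ^ k * i = i * (i * j) ^ k := by rw [involution_mul_zpow hi hj, hinv]
    · exact hsq
    · exact hci
    · have hij : (i * j) ^ k * (i * j) = (i * j) * (i * j) ^ k := (Commute.pow_self (i * j) k).eq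
      calc (i * j) ^ k * j = i * ((i * j) ^ k * (i * j)) := by
            rw [← mul_assoc, ← mul_assoc, ← hci, mul_assoc ((i * j) ^ k) i i, hi, mul_one]
        _ = i * i * j * (i * j) ^ k := by rw [hij]; simp only [mul_assoc]
        _ = j * (i * j) ^ k := by rw [hi, one_mul]
  · refine Or.inl (isConj_iff.mpr ⟨(i * j) ^ k, ?_⟩)
    rw [involution_conj_pow hi hj]
    have h1 : ((i * j) ^ (2 * k))⁻¹ = i * j := inv_eq_of_mul_eq_one_right (by
      rw [← pow_succ, ← hk, pow_orderOf_eq_one])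
    rw [h1, ← mul_assoc, hi, one_mul]

/-- When a central involution `ε` is a power of `i * j`, one of `i`, `j` is conjugate to a twist of `i`. -/
theorem involution_pair_central {i j ε : G} (hi : i * i = 1) (hj : j * j = 1) (_hc : ∀ x, x * ε = ε * x)
    (he : ε * ε = 1) {k : ℕ} (hk : (i * j) ^ k = ε) : IsConj i (j * ε) ∨ IsConj i (i * ε) := by
  have heinv : ε⁻¹ = ε := inv_eq_of_mul_eq_one_right he
  obtain ⟨l, hl | hl⟩ := Nat.even_or_odd' k
  · refine Or.inr (isConj_iff.mpr ⟨(i * j) ^ l, ?_⟩)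
    rw [involution_conj_pow hi hj, ← hl, hk, heinv]
  · refine Or.inl (isConj_iff.mpr ⟨(i * j) ^ l, ?_⟩)
    rw [involution_conj_pow hi hj]
    have h1 : (i * j) ^ (2 * l) * (i * j) = ε := by rw [← pow_succ, ← hl, hk]
    have h2 : ((i * j) ^ (2 * l))⁻¹ = (i * j) * ε := inv_eq_of_mul_eq_one_right (by
      rw [← mul_assoc, h1, he])
    rw [h2, ← mul_assoc, ← mul_assoc, hi, one_mul]

end Cfsg.Agent.H98
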