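import Cfsg.Agent.H98.HermSub
import Cfsg.Agent.H98.HermStd
import Cfsg.Agent.H98.SubfieldBase

set_option autoImplicit false
set_option linter.unusedSectionVars false

/-!
Pulling the standard unitary form back along an invertible matrix, and maximality transported back.
-/

namespace Cfsg.Agent.H98.Herm

open scoped Matrix

variable {F : Type*} [Field F] [Fintype F] {q n : ℕ}

/-- The determinant-one isometries of a two-argument form. -/
def isoSL (f : (Fin n → F) → (Fin n → F) → F) : Subgroup (GL (Fin n) F) :=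
  Cfsg.preserving (Units.coeHom (Matrix (Fin n) (Fin n) F)) f ⊓ Cfsg.Geo.specialLinear (Fin n) F

theorem mem_isoSL {f : (Fin n → F) → (Fin n → F) → F} {g : GL (Fin n) F} :
    g ∈ isoSL f ↔ (∀ a b, f ((g : Matrix (Fin n) (Fin n) F) *ᵥ a) ((g : Matrix (Fin n) (Fin n) F) *ᵥ b) = f a b) ∧
      g ∈ Cfsg.Geo.specialLinear (Fin n) F := Iff.rfl

/-- The form in the coordinates of `P`. -/
def pullForm (n q : ℕ) (P : GL (Fin n) F) : (Fin n → F) → (Fin n → F) → F :=
  fun u v => Cfsg.hermForm n F q ((P : Matrix (Fin n) (Fin n) F) *ᵥ u) ((P : Matrix (Fin n) (Fin n) F) *ᵥ v)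

theorem isUnitary_pull (hF : Fintype.card F = q ^ 2) (P : GL (Fin n) F) :
    Cfsg.Geo.IsUnitaryForm (frobQ hF) (pullForm n q P) := by
  set hf := isUnitary_std (n := n) hF
  refine ⟨hf.ne_refl, hf.involutive, fun x y v => ?_, fun c x v => ?_, fun v w => hf.herm _ _, fun v hv => ?_⟩
  · simp only [pullForm, Matrix.mulVec_add, hf.add_left]
  · simp only [pullForm, Matrix.mulVec_smul, hf.smul_left]
  · have h0 : (P : Matrix (Fin n) (Fin n) F) *ᵥ v ≠ 0 := fun h => hv (gl_mulVec_injective P (by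
      change (P : Matrix (Fin n) (Fin n) F) *ᵥ v = (P : Matrix (Fin n) (Fin n) F) *ᵥ 0
      rw [h, Matrix.mulVec_zero]))
    obtain ⟨⟨x, hx⟩, ⟨y, hy⟩⟩ := hf.nondegenerate _ h0
    exact ⟨⟨((P⁻¹ : GL (Fin n) F) : Matrix (Fin n) (Fin n) F) *ᵥ x, by simpa [pullForm, gl_mulVec_inv] using hx⟩,
      ⟨((P⁻¹ : GL (Fin n) F) : Matrix (Fin n) (Fin n) F) *ᵥ y, by simpa [pullForm, gl_mulVec_inv] using hy⟩⟩

theorem map_isoSL_pull (P : GL (Fin n) F) :
    (isoSL (pullForm n q P)).map (MulAut.conj P).toMonoidHom = Cfsg.GU n F q ⊓ Cfsg.Geo.specialLinear (Fin n) F := by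
  have hsl : ∀ (Q g : GL (Fin n) F), g ∈ Cfsg.Geo.specialLinear (Fin n) F →
      Q * g * Q⁻¹ ∈ Cfsg.Geo.specialLinear (Fin n) F := fun Q g hg => by
    rw [Cfsg.Geo.specialLinear, MonoidHom.mem_ker] at hg ⊢
    simp [hg]
  refine le_antisymm ?_ fun g hg => ⟨P⁻¹ * g * P, ⟨fun a b => ?_, by simpa using hsl P⁻¹ g hg.2⟩,
    by change P * (P⁻¹ * g * P) * P⁻¹ = g; group⟩
  · rintro _ ⟨g, hg, rfl⟩
    refine ⟨fun a b => ?_, hsl P g hg.2⟩
    change Cfsg.hermForm n F q (((P * g * P⁻¹ : GL (Fin n) F) : Matrix (Fin n) (Fin n) F) *ᵥ a)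
      (((P * g * P⁻¹ : GL (Fin n) F) : Matrix (Fin n) (Fin n) F) *ᵥ b) = Cfsg.hermForm n F q a b
    simp only [Units.val_mul, ← Matrix.mulVec_mulVec]
    refine ((mem_isoSL.mp hg).1 (((P⁻¹ : GL (Fin n) F) : Matrix (Fin n) (Fin n) F) *ᵥ a)
      (((P⁻¹ : GL (Fin n) F) : Matrix (Fin n) (Fin n) F) *ᵥ b)).trans ?_
    simp only [pullForm, gl_mulVec_inv]
  · change pullForm n q P (((P⁻¹ * g * P : GL (Fin n) F) : Matrix (Fin n) (Fin n) F) *ᵥ a)
      (((P⁻¹ * g * P : GL (Fin n) F) : Matrix (Fin n) (Fin n) F) *ᵥ b) = pullForm n q P a b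
    simp only [pullForm, Units.val_mul, ← Matrix.mulVec_mulVec, gl_mulVec_inv]
    exact hg.1 _ _

/-- All transvections give all determinant-one isometries. -/
theorem isoSL_le_of_uT (hF : Fintype.card F = q ^ 2) (hn : 4 ≤ n) (P : GL (Fin n) F) {M : Subgroup (GL (Fin n) F)}
    (h : ∀ v, ∀ hv : pullForm n q P v v = 0, ∀ d, frobQ hF d = -d → uT (isUnitary_pull hF P) hv d ∈ M) :
    isoSL (pullForm n q P) ≤ M := by
  have hle : Cfsg.GU n F q ⊓ Cfsg.Geo.specialLinear (Fin n) F ≤ M.map (MulAut.conj P).toMonoidHom := by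
    refine su_le_of_uT hF hn fun v hv d hd => ?_
    have hv' : pullForm n q P (((P⁻¹ : GL (Fin n) F) : Matrix (Fin n) (Fin n) F) *ᵥ v)
        (((P⁻¹ : GL (Fin n) F) : Matrix (Fin n) (Fin n) F) *ᵥ v) = 0 := by
      simp only [pullForm, gl_mulVec_inv]; exact hv
    refine ⟨_, h _ hv' d hd, gl_ext fun x => ?_⟩
    change ((P * uT (isUnitary_pull hF P) hv' d * P⁻¹ : GL (Fin n) F) : Matrix (Fin n) (Fin n) F) *ᵥ x = _
    simp only [Units.val_mul, ← Matrix.mulVec_mulVec, uT_mulVec, Matrix.mulVec_add, Matrix.mulVec_smul,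
      gl_mulVec_inv, pullForm]
  rw [← map_isoSL_pull P] at hle
  exact (Subgroup.map_le_map_iff_of_injective (MulAut.conj P).injective).mp hle

/-- Maximality transported from the coordinates of `P`. -/
theorem su_subfield_of_pull (F₀ : Subfield F) (P : GL (Fin n) F)
    (h : Cfsg.Geo.IsMaximalIn (isoSL (pullForm n q P)) (subGroupF (Fin n) F₀ ⊓ isoSL (pullForm n q P))) :
    Cfsg.Geo.IsMaximalIn (Cfsg.GU n F q ⊓ Cfsg.Geo.specialLinear (Fin n) F)
      (Cfsg.Geo.subfieldSubgroup F₀ P ⊓ (Cfsg.GU n F q ⊓ Cfsg.Geo.specialLinear (Fin n) F)) := by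
  have h' := isMaximalIn_conj P h
  rw [Subgroup.map_inf _ _ _ (MulAut.conj P).injective, map_isoSL_pull, ← subfieldSubgroup_eq_map] at h'
  exact h'

end Cfsg.Agent.H98.Herm
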