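import Cfsg.Agent.H98.OrthForm

set_option autoImplicit false
set_option linter.unusedSectionVars false

/-!
The similitude group of a quadratic form is maximal in the special linear group in odd characteristic: a conjugate
of a short root element gives a transvection, which generates all transvections.
-/

namespace Cfsg.Agent.H98.Orth

open scoped Matrix

variable {ι : Type} [Fintype ι] [DecidableEq ι] {F : Type*} [Field F]

local notation "Mat" => Matrix ι ι F

variable {q : QuadraticForm F (ι → F)}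

/-- `M` contains the transvection with functional the polar of `p` and centre `a`. -/
def HasT (q : QuadraticForm F (ι → F)) (M : Subgroup (GL ι F)) (p a : ι → F) : Prop :=
  ∃ h : q.polarBilin p a = 0, transGL (q.polarBilin p) a h ∈ M

variable {M : Subgroup (GL ι F)}

theorem hasT_congr {φ : (ι → F) →ₗ[F] F} {a b : ι → F} {h : φ a = 0} (hm : transGL φ a h ∈ M) {p : ι → F}
    (he : ∀ x, φ x • a = q.polarBilin p x • b) (hb : q.polarBilin p b = 0) : HasT q M p b := by
  refine ⟨hb, ?_⟩
  convert hm using 1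
  exact gl_ext fun x => by rw [transGL_mulVec, transGL_mulVec, he]

theorem hasT_add {p a a' : ι → F} (h : HasT q M p a) (h' : HasT q M p a') : HasT q M p (a + a') := by
  obtain ⟨h1, m1⟩ := h
  obtain ⟨h2, m2⟩ := h'
  refine ⟨by rw [map_add, h1, h2, add_zero], ?_⟩
  convert M.mul_mem m1 m2 using 1
  refine gl_ext fun x => ?_
  simp only [Units.val_mul, ← Matrix.mulVec_mulVec, transGL_mulVec, map_add, map_smul, h2, smul_eq_mul, mul_zero,
    add_zero, smul_add]
  module

theorem hasT_neg {p a : ι → F} (h : HasT q M p a) : HasT q M p (-a) := by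
  obtain ⟨h1, m1⟩ := h
  have hn : q.polarBilin p (-a) = 0 := by rw [map_neg, h1, neg_zero]
  refine ⟨hn, ?_⟩
  have e : transGL (q.polarBilin p) (-a) hn = (transGL (q.polarBilin p) a h1)⁻¹ := by
    refine eq_inv_of_mul_eq_one_left (gl_ext fun x => ?_)
    simp only [Units.val_mul, ← Matrix.mulVec_mulVec, transGL_mulVec, map_add, map_smul, h1, smul_eq_mul, mul_zero,
      add_zero, Units.val_one, Matrix.one_mulVec, smul_neg]
    module
  rw [e]; exact M.inv_mem m1

theorem hasT_zero (p : ι → F) : HasT q M p 0 := by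
  refine ⟨map_zero _, ?_⟩
  convert M.one_mem
  exact gl_ext fun x => by simp

theorem hasT_zero_left (a : ι → F) : HasT q M 0 a := by
  refine ⟨by simp, ?_⟩
  convert M.one_mem
  exact gl_ext fun x => by simp

theorem hasT_sub {p a a' : ι → F} (h : HasT q M p a) (h' : HasT q M p a') : HasT q M p (a' - a) := by
  rw [sub_eq_add_neg]; exact hasT_add h' (hasT_neg h)

theorem hasT_left {p p' a : ι → F} (h : HasT q M p a) (h' : HasT q M p' a) : HasT q M (p + p') a := by
  obtain ⟨h1, m1⟩ := h
  obtain ⟨h2, m2⟩ := h'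
  have := M.mul_mem m1 m2
  rw [transGL_mul] at this
  exact hasT_congr this (fun x => by rw [map_add]) (by rw [map_add, LinearMap.add_apply, h1, h2, add_zero])

theorem hasT_scale {p a : ι → F} {c : F} (hc : c ≠ 0) (h : HasT q M (c • p) a) : HasT q M p (c • a) := by
  obtain ⟨h1, m1⟩ := h
  refine hasT_congr m1 (fun x => by rw [map_smul, LinearMap.smul_apply, smul_smul, smul_eq_mul, mul_comm]) ?_
  rw [map_smul, LinearMap.smul_apply] at h1
  rw [map_smul]; exact h1

variable [Finite F] (hq : Good q) (hn : 7 ≤ Fintype.card ι) (hH : ∀ g, IsoS q g → g ∈ M)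
include hq hn hH

theorem hasT_conj {g : GL ι F} (hg : IsoS q g) {p a : ι → F} (h : HasT q M p a) :
    HasT q M ((g : Mat) *ᵥ p) ((g : Mat) *ᵥ a) := by
  obtain ⟨h1, m1⟩ := h
  have := M.mul_mem (M.mul_mem (hH g hg) m1) (M.inv_mem (hH g hg))
  rw [conj_transGL] at this
  refine hasT_congr this (fun x => ?_) (by rw [hg.polar, h1])
  rw [LinearMap.comp_apply, Matrix.mulVecLin_apply, ← hg.polar p, gl_mulVec_inv]

/-- A transvection with singular functional gives the symplectic type transvections of that vector. -/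
theorem long_of_hasT {w a : ι → F} (hw : q w = 0) (hw0 : w ≠ 0) (ha0 : a ≠ 0) (h : HasT q M w a) (t : F) :
    HasT q M w (t • w) := by
  have hwa : q.polarBilin w a = 0 := h.1
  have hww : q.polarBilin w w = 0 := by rw [b_self, hw, mul_zero]
  by_cases hmem : a ∈ Submodule.span F {w}
  · obtain ⟨c, rfl⟩ := Submodule.mem_span_singleton.mp hmem
    have hc : c ≠ 0 := fun hc => ha0 (by rw [hc, zero_smul])
    obtain ⟨y₀, hy₀⟩ := hq.exists_one hw0
    set y := y₀ + (-q y₀) • w with hy
    have hwy : q.polarBilin w y = 1 := by rw [hy, map_add, map_smul, hy₀, hww, smul_zero, add_zero]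
    have hyy : q y = 0 := by rw [hy, q_add, q_smul, map_smul, b_comm y₀ w, hy₀, hw, smul_eq_mul]; ring
    have hyw : q.polarBilin y w = 1 := by rw [b_comm]; exact hwy
    have hsq : ∀ l : F, HasT q M w ((c * (l * l)) • w) := fun l => by
      rcases eq_or_ne l 0 with rfl | hl
      · rw [mul_zero, mul_zero, zero_smul]; exact hasT_zero w
      obtain ⟨k, hk, hkv⟩ := hq.torus hw hyy hwy hl
      have hkw : (k : Mat) *ᵥ w = l • w := by rw [hkv, hyw, hww]; module
      have h2 := hasT_conj hq hn hH hk h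
      rw [Matrix.mulVec_smul, hkw] at h2
      have h3 := hasT_scale hl h2
      rwa [smul_smul, smul_smul, show l * c * l = c * (l * l) by ring] at h3
    have h2 := hq.two
    have := hasT_sub (hsq ((t / c - 1) / 2)) (hsq ((t / c + 1) / 2))
    rw [← sub_smul] at this
    convert this using 2
    field_simp
    ring
  · obtain ⟨y, hy1, hy2⟩ : ∃ y, q.polarBilin w y = 0 ∧ q.polarBilin y a = 1 := by
      obtain ⟨φ, h1, h2⟩ := exists_functional hmem
      obtain ⟨p, rfl⟩ := hq.exists_rep φ
      exact ⟨p, by rw [b_comm]; exact LinearMap.mem_ker.mp (h2 (Submodule.mem_span_singleton_self w)), h1⟩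
    have hb : q.polarBilin w ((-t) • y) = 0 := by rw [map_smul, hy1, smul_zero]
    have h2 := hasT_conj hq hn hH (eichGL_iso hw hb) h
    rw [eichGL_mulVec, eichGL_mulVec, hww, hwa, map_smul, LinearMap.smul_apply, LinearMap.smul_apply,
      b_comm y w, hy1, hy2] at h2
    simp only [smul_zero, mul_zero, zero_smul, sub_zero, add_zero, smul_eq_mul, mul_one] at h2
    have h3 := hasT_sub h h2
    rwa [sub_sub_cancel_left, neg_smul, neg_neg] at h3

/-- Symplectic type transvections move between non-orthogonal singular vectors. -/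
theorem long_move {w v : ι → F} (hw : q w = 0) (hv : q v = 0) (hwv : q.polarBilin w v ≠ 0)
    (h : ∀ t : F, HasT q M w (t • w)) (t : F) : HasT q M v (t • v) := by
  set v' := (q.polarBilin w v)⁻¹ • v with hv'
  have hv'v' : q v' = 0 := by rw [hv', q_smul, hv, mul_zero]
  have hwv' : q.polarBilin w v' = 1 := by rw [hv', map_smul, smul_eq_mul, inv_mul_cancel₀ hwv]
  have hv'w : q.polarBilin v' w = 1 := by rw [b_comm]; exact hwv'
  obtain ⟨e, f, hee, hff, hef, -, hew, hev, hfw, hfv⟩ := hq.perp_pair hn w v'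
  set r := e + f with hr
  have hrr : q r = 1 := by rw [hr, q_add, hee, hff, hef]; ring
  have hrw : q.polarBilin r w = 0 := by rw [hr, LinearMap.map_add₂, hew, hfw, add_zero]
  have hrv : q.polarBilin r v' = 0 := by rw [hr, LinearMap.map_add₂, hev, hfv, add_zero]
  have hvr : q.polarBilin v' r = 0 := by rw [b_comm]; exact hrv
  have hwr : q.polarBilin w r = 0 := by rw [b_comm]; exact hrw
  have hww : q.polarBilin w w = 0 := by rw [b_self, hw, mul_zero]
  have hvv : q.polarBilin v' v' = 0 := by rw [b_self, hv'v', mul_zero]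
  clear_value r
  have h1 := eichGL_iso hv'v' hvr
  have h2 := eichGL_iso hw hwr
  set g := eichGL hw hwr * eichGL hv'v' hvr
  have hg : IsoS q g := ⟨fun x => by rw [Units.val_mul, ← Matrix.mulVec_mulVec, h2.1, h1.1],
    Subgroup.mul_mem _ h2.2 h1.2⟩
  have hgw : (g : Mat) *ᵥ w = -v' := by
    simp only [g, Units.val_mul, ← Matrix.mulVec_mulVec, eichGL_mulVec, map_add, map_sub, map_smul, hv'w, hwv', hrw,
      hwr, hrv, hww, hvv, hrr, b_self r, smul_eq_mul]
    module
  have h3 := hasT_conj hq hn hH hg (h (t * q.polarBilin w v * q.polarBilin w v))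
  rw [Matrix.mulVec_smul, hgw, hv', ← neg_smul] at h3
  have h4 := hasT_scale (neg_ne_zero.mpr (inv_ne_zero hwv)) h3
  rwa [smul_smul, smul_smul, show -(q.polarBilin w v)⁻¹ * (t * q.polarBilin w v * q.polarBilin w v) *
    -(q.polarBilin w v)⁻¹ = t by field_simp] at h4

/-- A transvection with singular functional generates the special linear group. -/
theorem sl_le_of_hasT {w a : ι → F} (hw : q w = 0) (hw0 : w ≠ 0) (ha0 : a ≠ 0) (h : HasT q M w a) :
    Cfsg.Geo.specialLinear ι F ≤ M := by
  classical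
  have hW := long_of_hasT hq hn hH hw hw0 ha0 h
  have hall : ∀ v, q v = 0 → v ≠ 0 → ∀ t : F, HasT q M v (t • v) := by
    intro v hv hv0
    by_cases hwv : q.polarBilin w v = 0
    swap
    · exact long_move hq hn hH hw hv hwv hW
    obtain ⟨a', ha'⟩ : ∃ a', q a' = 0 ∧ q.polarBilin w a' = 1 := by
      obtain ⟨y, hy⟩ := hq.exists_one hw0
      exact ⟨y + (-q y) • w, by rw [q_add, q_smul, map_smul, b_comm y w, hy, hw, smul_eq_mul]; ring,
        by rw [map_add, map_smul, b_self, hw, hy]; simp⟩
    obtain ⟨b', hb'⟩ : ∃ b', q b' = 0 ∧ q.polarBilin v b' = 1 := by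
      obtain ⟨y, hy⟩ := hq.exists_one hv0
      exact ⟨y + (-q y) • v, by rw [q_add, q_smul, map_smul, b_comm y v, hy, hv, smul_eq_mul]; ring,
        by rw [map_add, map_smul, b_self, hv, hy]; simp⟩
    by_cases h1 : q.polarBilin v a' = 0
    swap
    · exact long_move hq hn hH ha'.1 hv (by rw [b_comm]; exact h1)
        (long_move hq hn hH hw ha'.1 (by rw [ha'.2]; exact one_ne_zero) hW)
    by_cases h2 : q.polarBilin w b' = 0
    swap
    · exact long_move hq hn hH hb'.1 hv (by rw [b_comm, hb'.2]; exact one_ne_zero)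
        (long_move hq hn hH hw hb'.1 h2 hW)
    set u := a' + b' + (-q.polarBilin a' b') • w with hu
    have e1 : q.polarBilin w u = 1 := by
      rw [hu, map_add, map_add, map_smul, ha'.2, h2, b_self, hw]; simp
    have e2 : q.polarBilin v u = 1 := by
      rw [hu, map_add, map_add, map_smul, h1, hb'.2, b_comm v w, hwv]; simp
    have huu : q u = 0 := by
      rw [hu, q_add, q_add, q_smul, map_smul, LinearMap.map_add₂, b_comm a' w, b_comm b' w, ha'.1, hb'.1, ha'.2,
        h2, hw, smul_eq_mul]
      ring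
    exact long_move hq hn hH huu hv (by rw [b_comm, e2]; exact one_ne_zero)
      (long_move hq hn hH hw huu (by rw [e1]; exact one_ne_zero) hW)
  -- anisotropic functionals
  have haniso : ∀ p, q p ≠ 0 → ∀ x, q.polarBilin p x = 0 → HasT q M p x := by
    intro p hp x hx
    have hp0 : p ≠ 0 := fun h0 => hp (by rw [h0, QuadraticMap.map_zero])
    obtain ⟨z, hz, hzp⟩ : ∃ z, q z = 0 ∧ q.polarBilin z p ≠ 0 := by
      by_contra hc; push Not at hc
      exact hp0 (hq.eq_zero fun y => by
        have := hq.perp_span hn 0 0 (LinearMap.ker (q.polarBilin p))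
          (fun w hw _ _ => by rw [LinearMap.mem_ker, b_comm]; exact hc w hw) (x := y) (by simp) (by simp)
        exact LinearMap.mem_ker.mp this)
    set ww := (q.polarBilin z p)⁻¹ • z with hww
    have hww0 : q ww = 0 := by rw [hww, q_smul, hz, mul_zero]
    have hwwp : q.polarBilin ww p = 1 := by rw [hww, map_smul, LinearMap.smul_apply, smul_eq_mul, inv_mul_cancel₀ hzp]
    have hpww : q.polarBilin p ww = 1 := by rw [b_comm]; exact hwwp
    clear_value ww
    set c := -q p with hc
    have hc0 : c ≠ 0 := neg_ne_zero.mpr hp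
    set v := p + c • ww with hv
    have hwwww : q.polarBilin ww ww = 0 := by rw [b_self, hww0, mul_zero]
    have hvv : q v = 0 := by rw [hv, q_add, q_smul, map_smul, hpww, hww0, hc, smul_eq_mul]; ring
    have hvw : q.polarBilin v ww = 1 := by rw [hv, LinearMap.map_add₂, LinearMap.map_smul₂, hpww, hwwww, smul_zero, add_zero]
    have hv0 : v ≠ 0 := fun h0 => by rw [h0] at hvw; simp at hvw
    have hw'0 : ww ≠ 0 := fun h0 => by rw [h0] at hvw; simp at hvw
    have hwv : q.polarBilin ww v = 1 := by rw [b_comm]; exact hvw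
    set a₀ := v + c • ww with ha₀
    have hbase : ∀ s : F, HasT q M p (s • a₀) := fun s => by
      obtain ⟨k1, m1⟩ := hall ww hww0 hw'0 c
      obtain ⟨k2, m2⟩ := hall v hvv hv0 s
      have h3 := M.mul_mem (M.mul_mem m1 m2) (M.inv_mem m1)
      rw [conj_transGL] at h3
      refine hasT_congr h3 (fun y => ?_) ?_
      · have e : ((transGL (q.polarBilin ww) (c • ww) k1)⁻¹ : GL ι F) =
            transGL (-q.polarBilin ww) (c • ww) (by rw [LinearMap.neg_apply, k1, neg_zero]) := transGL_inv _ _ k1
        rw [e]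
        simp only [LinearMap.comp_apply, Matrix.mulVecLin_apply, transGL_mulVec, LinearMap.neg_apply, map_add, map_smul,
          hvw, hwv, smul_eq_mul, ha₀, hv, LinearMap.add_apply, LinearMap.smul_apply, hpww, hwwp, hwwww]
        module
      · simp only [ha₀, hv, map_smul, map_add, hpww, b_self, hc, smul_eq_mul]
        ring
    have hpa : q.polarBilin p a₀ = 0 := by simpa [-QuadraticMap.polarBilin_apply_apply] using (hbase 1).1
    have ha₀a₀ : q.polarBilin a₀ a₀ = 2 * c := by
      rw [b_self, ha₀, q_add, q_smul, map_smul, hvw, hvv, hww0, smul_eq_mul]; ring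
    let S : Submodule F (ι → F) :=
      { carrier := {y | ∀ s : F, HasT q M p (s • y)}
        add_mem' := fun {y y'} hy hy' s => by rw [smul_add]; exact hasT_add (hy s) (hy' s)
        zero_mem' := fun s => by rw [smul_zero]; exact hasT_zero p
        smul_mem' := fun k y hy s => by rw [smul_smul]; exact hy _ }
    have hsing : ∀ e, q e = 0 → q.polarBilin e p = 0 → q.polarBilin e a₀ = 0 → e ∈ S := by
      intro e he hep hea s
      have h20 := hq.two
      set k := -(s / (2 * c)) with hk
      have hb : q.polarBilin e (k • a₀) = 0 := by rw [map_smul, hea, smul_zero]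
      have h1 := hasT_conj hq hn hH (eichGL_iso he hb) (hbase 1)
      have e1 : (eichGL he hb : Mat) *ᵥ p = p := by
        rw [eichGL_mulVec, hep, map_smul, LinearMap.smul_apply, b_comm a₀ p, hpa]; simp
      rw [e1, Matrix.mulVec_smul, one_smul, eichGL_mulVec, hea, map_smul, LinearMap.smul_apply, ha₀a₀] at h1
      have h2 := hasT_sub (hbase 1) h1
      convert h2 using 1
      rw [one_smul, hk, smul_eq_mul]
      match_scalars <;> field_simp <;> ring
    set l := q.polarBilin a₀ x / (2 * c) with hl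
    have hx' : x - l • a₀ ∈ S := hq.perp_span hn p a₀ S hsing
      (by rw [LinearMap.map_sub₂, LinearMap.map_smul₂, b_comm x p, hx, b_comm a₀ p, hpa, smul_zero, sub_zero])
      (by rw [LinearMap.map_sub₂, LinearMap.map_smul₂, b_comm x a₀, ha₀a₀, hl, smul_eq_mul,
        div_mul_cancel₀ _ (mul_ne_zero hq.two hc0), sub_self])
    have := hasT_add (hx' 1) (hbase l)
    rwa [one_smul, sub_add_cancel] at this
  have hgen : ∀ p x, q.polarBilin p x = 0 → HasT q M p x := by
    intro p x hx
    by_cases hp : q p = 0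
    swap
    · exact haniso p hp x hx
    -- an anisotropic vector orthogonal to `x`, off a quadric
    obtain ⟨e, f, hee, hff, hef, -, hex, -, hfx, -⟩ := hq.perp_pair hn x p
    obtain ⟨p₁, h1, h2, h3⟩ : ∃ p₁, q p₁ ≠ 0 ∧ q.polarBilin p₁ x = 0 ∧ q (p - p₁) ≠ 0 := by
      set y := e + f with hy
      have hyy : q y = 1 := by rw [hy, q_add, hee, hff, hef]; ring
      have hyx : q.polarBilin y x = 0 := by rw [hy, LinearMap.map_add₂, hex, hfx, add_zero]
      have key : ∀ k : F, q (p - k • y) = k * k - k * q.polarBilin p y := fun k => by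
        rw [sub_eq_add_neg, ← neg_smul, q_add, q_smul, map_smul, hp, hyy, smul_eq_mul]; ring
      by_cases h : q.polarBilin p y = 1
      · refine ⟨(-1 : F) • y, by rw [q_smul, hyy]; simp, by rw [LinearMap.map_smul₂, hyx, smul_zero], ?_⟩
        rw [key, h]
        exact fun h0 => hq.two (by linear_combination h0)
      · refine ⟨(1 : F) • y, by rw [q_smul, hyy]; simp, by rw [LinearMap.map_smul₂, hyx, smul_zero], ?_⟩
        rw [key]
        exact fun h0 => h (by linear_combination -h0)
    have := hasT_left (haniso p₁ h1 x h2)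
      (haniso (p - p₁) h3 x (by rw [map_sub, LinearMap.sub_apply, hx, h2, sub_zero]))
    rwa [add_sub_cancel] at this
  refine sl_le_of_transvections M fun φ x hφ => ?_
  obtain ⟨p, rfl⟩ := hq.exists_rep φ
  exact (hgen p x hφ).2

/-- An element whose conjugated short root elements give no transvection is a similitude. -/
theorem sim_of_no_transvection {g : GL ι F} (hgM : g ∈ M) (hn' : 8 ≤ Fintype.card ι)
    (hno : ¬ Cfsg.Geo.specialLinear ι F ≤ M) :
    ∃ L : F, L ≠ 0 ∧ ∀ v, q ((g : Mat) *ᵥ v) = L * q v := by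
  classical
  set G : (ι → F) →ₗ[F] (ι → F) := Matrix.mulVecLin (g : Mat) with hG
  have hGinj : Function.Injective G := gl_mulVec_injective g
  let Ψ : (ι → F) →ₗ[F] ((ι → F) →ₗ[F] F) := q.polarBilin.compl₁₂ G G
  have hΨ : ∀ x y, Ψ x y = q.polarBilin ((g : Mat) *ᵥ x) ((g : Mat) *ᵥ y) := fun x y => rfl
  -- the functional of a singular line stays in the line
  have hline : ∀ e a, q e = 0 → q a = 0 → q.polarBilin e a = 0 → (∀ s t : F, s • e + t • a = 0 → s = 0 ∧ t = 0) →
      ∃ α β : F, q.polarBilin e = α • Ψ e + β • Ψ a := by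
    intro e a he ha hea hind
    set A1 := (g : Mat) *ᵥ a with hA1
    set A2 := (g : Mat) *ᵥ e with hA2
    set φ1 := (q.polarBilin e).comp (Matrix.mulVecLin ((g⁻¹ : GL ι F) : Mat)) with hφ1
    set φ2 := (q.polarBilin a).comp (Matrix.mulVecLin ((g⁻¹ : GL ι F) : Mat)) with hφ2
    suffices hv : ∀ w, q w = 0 → q.polarBilin w A1 = 0 → q.polarBilin w A2 = 0 → φ1 w = 0 by
      have hk : ∀ x, q.polarBilin A1 x = 0 → q.polarBilin A2 x = 0 → φ1 x = 0 := fun x h1 h2 =>
        LinearMap.mem_ker.mp (hq.perp_span hn A1 A2 (LinearMap.ker φ1)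
          (fun w hw k1 k2 => LinearMap.mem_ker.mpr (hv w hw k1 k2)) (by rw [b_comm]; exact h1)
          (by rw [b_comm]; exact h2))
      have hmem := mem_span_of_iInf_ker_le_ker (L := ![q.polarBilin A1, q.polarBilin A2]) (K := φ1) fun x hx => by
        simp only [Submodule.mem_iInf, LinearMap.mem_ker] at hx
        exact LinearMap.mem_ker.mpr (hk x (hx 0) (hx 1))
      rw [Matrix.range_cons, Matrix.range_cons, Matrix.range_empty, Set.union_empty] at hmem
      obtain ⟨α, β, hab⟩ := Submodule.mem_span_pair.mp (by simpa [Set.union_comm] using hmem)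
      refine ⟨β, α, LinearMap.ext fun y => ?_⟩
      have h1 := LinearMap.congr_fun hab ((g : Mat) *ᵥ y)
      rw [hφ1, LinearMap.comp_apply, Matrix.mulVecLin_apply, gl_inv_mulVec] at h1
      rw [← h1, hA1, hA2]
      simp only [LinearMap.add_apply, LinearMap.smul_apply, hΨ]
      ring
    intro w₁ hw₁ hwA1 hwA2
    by_contra hne
    -- a second vector killed by both functionals
    obtain ⟨c1, hc1⟩ := hq.exists_rep φ1
    obtain ⟨c2, hc2⟩ := hq.exists_rep φ2
    set U : Submodule F (ι → F) := LinearMap.ker (LinearMap.pi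
      (![q.polarBilin A1, q.polarBilin A2, q.polarBilin w₁, q.polarBilin c1, q.polarBilin c2] :
        Fin 5 → (ι → F) →ₗ[F] F))
    obtain ⟨w₂, hw₂U, hw₂0, hw₂⟩ := hq.exists_singular (U := U) (by
      have h1 := LinearMap.finrank_range_add_finrank_ker (LinearMap.pi
        (![q.polarBilin A1, q.polarBilin A2, q.polarBilin w₁, q.polarBilin c1, q.polarBilin c2] :
          Fin 5 → (ι → F) →ₗ[F] F))
      have h2 := Submodule.finrank_le (LinearMap.range (LinearMap.pi
        (![q.polarBilin A1, q.polarBilin A2, q.polarBilin w₁, q.polarBilin c1, q.polarBilin c2] :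
          Fin 5 → (ι → F) →ₗ[F] F)))
      rw [Module.finrank_pi] at h1 h2
      rw [Fintype.card_fin] at h2
      change 3 ≤ Module.finrank F ↥(LinearMap.ker (LinearMap.pi
        (![q.polarBilin A1, q.polarBilin A2, q.polarBilin w₁, q.polarBilin c1, q.polarBilin c2] :
          Fin 5 → (ι → F) →ₗ[F] F)))
      omega)
    have hu : ∀ i, (![q.polarBilin A1, q.polarBilin A2, q.polarBilin w₁, q.polarBilin c1, q.polarBilin c2] :
        Fin 5 → (ι → F) →ₗ[F] F) i w₂ = 0 := fun i => congrFun (LinearMap.mem_ker.mp hw₂U) i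
    have u0 : q.polarBilin A1 w₂ = 0 := hu 0
    have u1 : q.polarBilin A2 w₂ = 0 := hu 1
    have hw12 : q.polarBilin w₁ w₂ = 0 := hu 2
    have u3 : φ1 w₂ = 0 := hc1 ▸ hu 3
    have u4 : φ2 w₂ = 0 := hc2 ▸ hu 4
    set u := eichGL (b := w₂) hw₁ hw12
    set v := g * eichGL (b := a) he hea * g⁻¹
    have hvM : v ∈ M := M.mul_mem (M.mul_mem hgM (hH _ (eichGL_iso he hea))) (M.inv_mem hgM)
    have huM : u ∈ M := hH _ (eichGL_iso hw₁ hw12)
    have hvx : ∀ x, (v : Mat) *ᵥ x = x + φ1 x • A1 - φ2 x • A2 := fun x => by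
      simp only [v, Units.val_mul, ← Matrix.mulVec_mulVec, eichGL_mulVec, ha, zero_mul, zero_smul, sub_zero,
        Matrix.mulVec_add, Matrix.mulVec_sub, Matrix.mulVec_smul, gl_mulVec_inv, hφ1, hφ2, LinearMap.comp_apply,
        Matrix.mulVecLin_apply, hA1, hA2]
    have hux : ∀ x, (u : Mat) *ᵥ x = x + q.polarBilin w₁ x • w₂ - q.polarBilin w₂ x • w₁ := fun x => by
      simp only [u, eichGL_mulVec, hw₂, zero_mul, zero_smul, sub_zero]
    set A := φ1 w₁ • A1 - φ2 w₁ • A2 with hA
    have hw1A1 : q.polarBilin w₁ A1 = 0 := hwA1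
    have hw2A1 : q.polarBilin w₂ A1 = 0 := by rw [b_comm]; exact u0
    have hw2A2 : q.polarBilin w₂ A2 = 0 := by rw [b_comm]; exact u1
    have hwAz : q.polarBilin w₂ A = 0 := by rw [hA, map_sub, map_smul, map_smul, hw2A1, hw2A2]; simp
    have key : u * v = transGL (q.polarBilin w₂) A hwAz * (v * u) := by
      refine gl_ext fun x => ?_
      simp only [Units.val_mul, ← Matrix.mulVec_mulVec, transGL_mulVec, hvx, hux, map_add, map_sub, map_smul, hwA1,
        hwA2, hw2A1, hw2A2, u3, u4, smul_eq_mul, hw12, b_comm w₂ w₁, b_self w₂, hw₂, mul_zero, add_zero, sub_zero,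
        zero_smul, hA]
      module
    have hmem : HasT q M w₂ A := by
      refine ⟨hwAz, ?_⟩
      have := M.mul_mem (M.mul_mem huM hvM) (M.inv_mem (M.mul_mem hvM huM))
      rwa [key, mul_inv_cancel_right] at this
    refine hno (sl_le_of_hasT hq hn hH hw₂ hw₂0 (fun h0 => hne ?_) hmem)
    have h1 : (g : Mat) *ᵥ (φ1 w₁ • a + (-φ2 w₁) • e) = (g : Mat) *ᵥ 0 := by
      rw [Matrix.mulVec_add, Matrix.mulVec_smul, Matrix.mulVec_smul, Matrix.mulVec_zero, neg_smul, ← sub_eq_add_neg]
      exact h0
    exact (hind _ _ (by rw [add_comm]; exact gl_mulVec_injective g h1)).2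
  -- eigenvectors
  have heig : ∀ e a, q e = 0 → q a = 0 → q.polarBilin e a = 0 → (∀ s t : F, s • e + t • a = 0 → s = 0 ∧ t = 0) →
      ∃ α β : F, Ψ e = α • q.polarBilin e + β • q.polarBilin a := by
    intro e a he ha hea hind
    obtain ⟨α, β, h1⟩ := hline e a he ha hea hind
    obtain ⟨γ, δ, h2⟩ := hline a e ha he (by rw [b_comm]; exact hea)
      (fun s t h => (hind t s (by rw [add_comm]; exact h)).symm)
    have hinj : Function.Injective q.polarBilin :=
      LinearMap.ker_eq_bot.mp (LinearMap.separatingLeft_iff_ker_eq_bot.mp hq.nondeg.1)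
    have hzero : ∀ s t : F, s • q.polarBilin e + t • q.polarBilin a = 0 → s = 0 ∧ t = 0 := fun s t h =>
      hind s t (hinj (by rw [map_add, map_smul, map_smul, h, map_zero]))
    by_cases hΔ : α * γ - β * δ = 0
    · obtain ⟨hγ, hβ⟩ := hzero γ (-β) (by
        rw [h1, h2]
        have : (α * γ - β * δ) • Ψ e = 0 := by rw [hΔ, zero_smul]
        linear_combination (norm := module) this)
      rw [neg_eq_zero] at hβ
      obtain ⟨hδ, hα⟩ := hzero δ (-α) (by rw [h1, h2, hγ, hβ]; module)
      rw [neg_eq_zero] at hα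
      rw [hα, hβ, zero_smul, zero_smul, add_zero] at h1
      exact absurd (hzero 1 0 (by rw [h1]; simp)).1 one_ne_zero
    · refine ⟨γ / (α * γ - β * δ), -β / (α * γ - β * δ), ?_⟩
      have e1 : (α * γ - β * δ) • Ψ e = γ • q.polarBilin e + (-β) • q.polarBilin a := by rw [h1, h2]; module
      have e2 := congrArg (fun φ => (α * γ - β * δ)⁻¹ • φ) e1
      simp only [smul_add, smul_smul, inv_mul_cancel₀ hΔ, one_smul] at e2
      rw [e2, div_eq_inv_mul, div_eq_inv_mul]
  have hscal : ∀ e, q e = 0 → e ≠ 0 → ∃ l : F, Ψ e = l • q.polarBilin e := by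
    intro e he he0
    obtain ⟨a, b, haa, hbb, hab, hba, hae, -, hbe, -⟩ := hq.perp_pair hn e e
    have hind : ∀ a b : ι → F, q.polarBilin a b = 1 → q.polarBilin e b = 0 →
        ∀ s t : F, s • e + t • a = 0 → s = 0 ∧ t = 0 := fun a b hab heb s t h => by
      have := congrArg (fun x => q.polarBilin x b) h
      simp only [map_add, map_smul, LinearMap.add_apply, LinearMap.smul_apply, hab, heb, smul_zero, zero_add,
        map_zero, LinearMap.zero_apply, smul_eq_mul, mul_one, mul_zero] at this
      exact ⟨(smul_eq_zero.mp (by rwa [this, zero_smul, add_zero] at h)).resolve_right he0, this⟩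
    have hea : q.polarBilin e a = 0 := by rw [b_comm]; exact hae
    have heb : q.polarBilin e b = 0 := by rw [b_comm]; exact hbe
    obtain ⟨α, β, h1⟩ := heig e a he haa hea (hind a b hab heb)
    obtain ⟨γ, δ, h2⟩ := heig e b he hbb heb (hind b a hba hea)
    refine ⟨α, ?_⟩
    have h3 := congrArg (fun φ => φ b) (h1.symm.trans h2)
    simp only [LinearMap.add_apply, LinearMap.smul_apply, hab, heb, b_self, hbb, smul_zero, smul_eq_mul, mul_zero,
      mul_one, zero_add] at h3
    rw [h1, h3, zero_smul, add_zero]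
  have hsame : ∀ e a, q e = 0 → q a = 0 → q.polarBilin e a = 0 → (∀ s t : F, s • e + t • a = 0 → s = 0 ∧ t = 0) →
      ∀ l l' : F, Ψ e = l • q.polarBilin e → Ψ a = l' • q.polarBilin a → l = l' := by
    intro e a he ha hea hind l l' h1 h2
    obtain ⟨m, hm⟩ := hscal (e + a) (by rw [q_add, he, ha, hea]; ring)
      (fun h => one_ne_zero (hind 1 1 (by rw [one_smul, one_smul]; exact h)).1)
    have hinj : Function.Injective q.polarBilin :=
      LinearMap.ker_eq_bot.mp (LinearMap.separatingLeft_iff_ker_eq_bot.mp hq.nondeg.1)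
    rw [map_add, map_add, h1, h2] at hm
    obtain ⟨k1, k2⟩ := hind (l - m) (l' - m) (hinj (by
      rw [map_add, map_smul, map_smul, map_zero]
      linear_combination (norm := module) hm))
    exact (sub_eq_zero.mp k1).trans (sub_eq_zero.mp k2).symm
  obtain ⟨e₀, f₀, he₀, hf₀, hef₀, -, -, -, -, -⟩ := hq.perp_pair hn 0 0
  have he₀0 : e₀ ≠ 0 := fun h => by rw [h] at hef₀; simp at hef₀
  obtain ⟨L, hL⟩ := hscal e₀ he₀ he₀0
  have hL0 : L ≠ 0 := fun h0 => by
    rw [h0, zero_smul] at hL
    refine he₀0 (hGinj (?_ : G e₀ = G 0))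
    rw [map_zero]
    refine hq.eq_zero fun y => ?_
    have := LinearMap.congr_fun hL (((g⁻¹ : GL ι F) : Mat) *ᵥ y)
    rw [hΨ, gl_mulVec_inv] at this
    exact this
  have htop : ∀ x, Ψ x = L • q.polarBilin x := fun x => by
    have := hq.perp_span hn 0 0 (LinearMap.ker (Ψ - L • q.polarBilin)) (fun w hw _ _ => ?_) (x := x) (by simp)
      (by simp)
    · rwa [LinearMap.mem_ker, LinearMap.sub_apply, LinearMap.smul_apply, sub_eq_zero] at this
    rw [LinearMap.mem_ker, LinearMap.sub_apply, LinearMap.smul_apply, sub_eq_zero]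
    rcases eq_or_ne w 0 with rfl | hw0
    · simp
    obtain ⟨l, hl⟩ := hscal w hw hw0
    obtain ⟨c, d, hcc, -, hcd, -, hce, hcw, hde, hdw⟩ := hq.perp_pair hn e₀ w
    have hc0 : c ≠ 0 := fun h => by rw [h] at hcd; simp at hcd
    obtain ⟨m, hm⟩ := hscal c hcc hc0
    have hind : ∀ z : ι → F, z ≠ 0 → q.polarBilin d z = 0 → ∀ s t : F, s • z + t • c = 0 → s = 0 ∧ t = 0 :=
      fun z hz hdz s t h => by
      have := congrArg (fun x => q.polarBilin x d) h
      simp only [map_add, map_smul, LinearMap.add_apply, LinearMap.smul_apply, hcd, b_comm z d, hdz, smul_zero,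
        zero_add, map_zero, LinearMap.zero_apply, smul_eq_mul, mul_one, mul_zero] at this
      exact ⟨(smul_eq_zero.mp (by rwa [this, zero_smul, add_zero] at h)).resolve_right hz, this⟩
    have h1 := hsame e₀ c he₀ hcc (by rw [b_comm]; exact hce) (hind e₀ he₀0 hde) L m hL hm
    have h2 := hsame w c hw hcc (by rw [b_comm]; exact hcw) (hind w hw0 hdw) l m hl hm
    rw [hl, h1, h2]
  refine ⟨L, hL0, fun v => ?_⟩
  have h1 := LinearMap.congr_fun (htop v) v
  rw [hΨ, b_self, LinearMap.smul_apply, b_self, smul_eq_mul] at h1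
  exact mul_left_cancel₀ hq.two (by linear_combination h1)

omit hH in
/-- The similitudes are maximal in the special linear group. -/
theorem sl_orth_maximal (hn' : 8 ≤ Fintype.card ι) :
    Cfsg.Geo.IsMaximalIn (Cfsg.Geo.specialLinear ι F)
      (Cfsg.Geo.quadSimilarityGroup (⇑q) ⊓ Cfsg.Geo.specialLinear ι F) := by
  classical
  refine isMaximalIn_of inf_le_right ?_ fun M h1 h2 g hgM hgH => ?_
  · obtain ⟨e, f, hee, hff, hef, hfe, -, -, -, -⟩ := hq.perp_pair hn 0 0
    have he' : q.polarBilin e e = 0 := by rw [b_self, hee, mul_zero]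
    refine ⟨transGL (q.polarBilin e) e he', transGL_mem_sl _ _ _, fun hm => ?_⟩
    obtain ⟨c, hc⟩ := hm.1
    have := hc f
    rw [transGL_mulVec, hef, one_smul, hff, mul_zero, q_add, hff, hee, hfe] at this
    simp at this
  by_contra hno
  obtain ⟨L, hL0, hL⟩ := sim_of_no_transvection (M := M) hq hn
    (fun k hk => h1 ⟨⟨1, fun v => by rw [hk.1, Units.val_one, one_mul]⟩, hk.2⟩) hgM hn' hno
  exact hgH ⟨⟨Units.mk0 L hL0, hL⟩, h2 hgM⟩

end Cfsg.Agent.H98.Orth
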