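import Cfsg.Agent.H98.SubfieldFrame
import Cfsg.Agent.H98.InvolutionPair
import Cfsg.Agent.H98.SubfieldScalars

set_option autoImplicit false

/-!
The subfield subgroup of a prime index subfield is maximal in the special linear group.
-/

namespace Cfsg.Agent.H98

open scoped Matrix

variable {ι : Type} [Fintype ι] [DecidableEq ι] {F : Type*} [Field F]

/-- Powers of an elementary transvection. -/
theorem elm_pow {l m : ι} (h : l ≠ m) (c : F) (k : ℕ) : elm h c ^ k = elm h ((k : F) * c) := by
  induction k with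
  | zero => simp [elm_zero]
  | succ k ih => rw [pow_succ, ih, elm_mul, Nat.cast_succ, add_mul, one_mul]

/-- The diagonal involution with `-1` on `S`. -/
def signGL (S : Finset ι) : GL ι F :=
  Matrix.GeneralLinearGroup.mkOfDetNeZero (Matrix.diagonal fun x => if x ∈ S then -1 else 1) (by
    rw [Matrix.det_diagonal]
    exact Finset.prod_ne_zero_iff.mpr fun x _ => by split_ifs <;> simp)

theorem signGL_coe (S : Finset ι) :
    (signGL S : GL ι F).val = Matrix.diagonal fun x => if x ∈ S then (-1 : F) else 1 := rfl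

theorem signGL_mulVec (S : Finset ι) (v : ι → F) (x : ι) :
    ((signGL S : GL ι F).val *ᵥ v) x = (if x ∈ S then (-1 : F) else 1) * v x := by
  rw [signGL_coe, Matrix.mulVec_diagonal]

theorem signGL_sq (S : Finset ι) : (signGL S : GL ι F) * signGL S = 1 :=
  gl_ext fun v => funext fun x => by
    rw [Units.val_mul, ← Matrix.mulVec_mulVec, signGL_mulVec, signGL_mulVec, Units.val_one, Matrix.one_mulVec]
    split_ifs <;> simp

theorem signGL_mem (F₀ : Subfield F) [Nonempty ι] (S : Finset ι) (hS : Even S.card) :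
    (signGL S : GL ι F) ∈ subGroupF ι F₀ ⊓ Cfsg.Geo.specialLinear ι F := by
  refine ⟨mem_subGroupF.mpr ⟨1, one_ne_zero, fun a b => ?_⟩, ?_⟩
  · rw [one_mul, signGL_coe, Matrix.diagonal_apply]
    split_ifs <;> first | exact zero_mem _ | exact one_mem _ | exact neg_mem (one_mem _)
  · change signGL S ∈ Matrix.GeneralLinearGroup.det.ker
    rw [MonoidHom.mem_ker]
    refine Units.ext ?_
    change (signGL S : GL ι F).val.det = 1
    rw [signGL_coe, Matrix.det_diagonal, Finset.prod_ite_mem, Finset.univ_inter, Finset.prod_const,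
      hS.neg_one_pow]

/-- The rank of `x - 1`. -/
noncomputable def moveRank (x : GL ι F) : ℕ := ((x : Matrix ι ι F) - 1).rank

theorem moveRank_isConj {x y : GL ι F} (h : IsConj x y) : moveRank x = moveRank y := by
  obtain ⟨c, rfl⟩ := isConj_iff.mp h
  have hu : IsUnit (c : Matrix ι ι F).det := isUnit_iff_ne_zero.mpr (Matrix.GeneralLinearGroup.det_ne_zero c)
  have hu' : IsUnit ((c⁻¹ : GL ι F) : Matrix ι ι F).det :=
    isUnit_iff_ne_zero.mpr (Matrix.GeneralLinearGroup.det_ne_zero c⁻¹)
  unfold moveRank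
  have e : ((c * x * c⁻¹ : GL ι F) : Matrix ι ι F) - 1 =
      (c : Matrix ι ι F) * ((x : Matrix ι ι F) - 1) * ((c⁻¹ : GL ι F) : Matrix ι ι F) := by
    rw [Matrix.mul_sub, Matrix.sub_mul, Matrix.mul_one, Units.val_mul, Units.val_mul, Units.mul_inv]
  rw [e, Matrix.rank_mul_eq_left_of_isUnit_det _ _ hu', Matrix.rank_mul_eq_right_of_isUnit_det _ _ hu]

theorem moveRank_signGL (h2 : (2 : F) ≠ 0) (S : Finset ι) : moveRank (signGL S : GL ι F) = S.card := by
  classical
  have hm : (-1 : F) - 1 ≠ 0 := by
    intro h; exact h2 (by linear_combination -h)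
  unfold moveRank
  rw [signGL_coe, ← Matrix.diagonal_one, Matrix.diagonal_sub, Matrix.rank_diagonal,
    Fintype.card_of_subtype S fun x => ?_]
  by_cases hx : x ∈ S <;> simp [hx, hm]

theorem moveRank_signGL_neg (h2 : (2 : F) ≠ 0) (S : Finset ι) {z : GL ι F} (hz : (z : Matrix ι ι F) = -1) :
    moveRank (signGL S * z) = Fintype.card ι - S.card := by
  classical
  have hm : (-1 : F) - 1 ≠ 0 := by
    intro h; exact h2 (by linear_combination -h)
  unfold moveRank
  rw [Units.val_mul, hz, Matrix.mul_neg, Matrix.mul_one, signGL_coe, Matrix.diagonal_neg, ← Matrix.diagonal_one,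
    Matrix.diagonal_sub, Matrix.rank_diagonal, Fintype.card_of_subtype Sᶜ (fun x => ?_), Finset.card_compl]
  by_cases hx : x ∈ S <;> simp [hx, hm]

variable {F₀ : Subfield F}

/-- An element of order dividing two in the subfield subgroup is rational. -/
theorem rational_of_invol [Nonempty ι] (hsq : ∀ c : F, c * c ∈ F₀ → c ∈ F₀) {z : GL ι F} (hz : z * z = 1)
    (hmem : z ∈ subGroupF ι F₀) (a b : ι) : (z : Matrix ι ι F) a b ∈ F₀ := by
  obtain ⟨c, hc, h⟩ := mem_subGroupF.mp hmem
  have hz' : (z : Matrix ι ι F) * (z : Matrix ι ι F) = 1 := by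
    rw [← Units.val_mul, hz, Units.val_one]
  have h1 : ∑ x, (c * (z : Matrix ι ι F) a x) * (c * (z : Matrix ι ι F) x a) = c * c := by
    have := congrFun (congrFun hz' a) a
    rw [Matrix.mul_apply, Matrix.one_apply_eq] at this
    rw [Finset.sum_congr rfl fun x _ => mul_mul_mul_comm c _ c _, ← Finset.mul_sum, this, mul_one]
  have hcF : c ∈ F₀ := hsq c (h1 ▸ sum_mem fun x _ => mul_mem (h _ _) (h _ _))
  have := mul_mem (inv_mem hcF) (h a b)
  rwa [← mul_assoc, inv_mul_cancel₀ hc, one_mul] at this

/-- An element commuting with a rational matrix of small rank lies in the subfield subgroup. -/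
theorem mem_of_commute_rational [Fintype F] [Nonempty ι] {r : ℕ} (hn : 3 ≤ Fintype.card ι) (hr : r.Prime)
    (hcard : Fintype.card F = Nat.card F₀ ^ r) {M : Subgroup (GL ι F)} (hM : IsProperOver F₀ M)
    (A : Matrix ι ι F) (hA : ∀ a b, A a b ∈ F₀) (hA0 : A ≠ 0) (hA2 : A.rank + 2 ≤ Fintype.card ι)
    {y : GL ι F} (hy : y ∈ M) (hc : (y : Matrix ι ι F) * A = A * (y : Matrix ι ι F)) :
    y ∈ subGroupF ι F₀ := by
  refine rat_stab_mem hn hr hcard hM A hA hA0 hA2 hy ?_
  rintro _ ⟨v, rfl⟩
  refine ⟨(y : Matrix ι ι F) *ᵥ v, ?_⟩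
  rw [Matrix.mulVecLin_apply, Matrix.mulVecLin_apply, Matrix.mulVec_mulVec, Matrix.mulVec_mulVec, hc]

/-- If `B * A = 0` then the ranks add up to at most the size. -/
theorem rank_add_rank_le {A B : Matrix ι ι F} (h : B * A = 0) : A.rank + B.rank ≤ Fintype.card ι := by
  have hle : LinearMap.range A.mulVecLin ≤ LinearMap.ker B.mulVecLin := by
    rintro _ ⟨v, rfl⟩
    rw [LinearMap.mem_ker, Matrix.mulVecLin_apply, Matrix.mulVecLin_apply, Matrix.mulVec_mulVec, h,
      Matrix.zero_mulVec]
  have h1 := Submodule.finrank_mono hle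
  have h2 := LinearMap.finrank_range_add_finrank_ker B.mulVecLin
  rw [Module.finrank_pi] at h2
  unfold Matrix.rank
  omega

/-- Conjugates of all elementary transvections being rational forces the element into the subfield subgroup. -/
theorem mem_of_conj_elm [Nonempty ι] [Finite F] (hn : 3 ≤ Fintype.card ι) {g : GL ι F}
    (h : ∀ (l m : ι) (hlm : l ≠ m), g * elm hlm (1 : F) * g⁻¹ ∈ subGroupF ι F₀) : g ∈ subGroupF ι F₀ := by
  classical
  obtain ⟨p, hp⟩ := CharP.exists F
  haveI : Fact p.Prime := ⟨CharP.char_is_prime F p⟩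
  have hcol : ∀ (k : GL ι F) (x a : ι), ((k : Matrix ι ι F) *ᵥ Pi.single a 1) x = (k : Matrix ι ι F) x a :=
    fun k x a => by rw [Matrix.mulVec_single_one, Matrix.col_apply]
  set k := g⁻¹ with hk
  have hprod : ∀ (l m : ι), l ≠ m → ∀ x b, (g : Matrix ι ι F) x l * (k : Matrix ι ι F) m b ∈ F₀ := by
    intro l m hlm x b
    obtain ⟨c, hc, hent⟩ := mem_subGroupF.mp (h l m hlm)
    set u := g * elm hlm (1 : F) * k with hu
    have hup : u ^ p = 1 := by
      rw [hu, hk, conj_pow, elm_pow, CharP.cast_eq_zero, zero_mul, elm_zero]; simp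
    let R : Matrix ι ι F₀ := fun a b => ⟨c * (u : Matrix ι ι F) a b, hent a b⟩
    have hR : (F₀.subtype : F₀ →+* F).mapMatrix R = c • (u : Matrix ι ι F) := rfl
    have hRp := congrFun (congrFun (map_pow (F₀.subtype : F₀ →+* F).mapMatrix R p) x) x
    rw [hR, smul_pow, ← Units.val_pow_eq_pow_val, hup, Units.val_one] at hRp
    have hcF : c ∈ F₀ := by
      refine mem_subfield_of_pow_char p F₀ ?_
      simp only [Matrix.smul_apply, Matrix.one_apply_eq, smul_eq_mul, mul_one] at hRp
      rw [← hRp]
      exact ((R ^ p) x x).2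
    have h1 := mul_mem (inv_mem hcF) (hent x b)
    rw [← mul_assoc, inv_mul_cancel₀ hc, one_mul] at h1
    have h2 : (u : Matrix ι ι F) x b = (1 : Matrix ι ι F) x b + (g : Matrix ι ι F) x l * (k : Matrix ι ι F) m b := by
      rw [← hcol, hu, hk]
      simp only [Units.val_mul, ← Matrix.mulVec_mulVec, elm_mulVec, Matrix.mulVec_add, Matrix.mulVec_smul,
        gl_mulVec_inv, one_mul, Pi.add_apply, Pi.smul_apply, smul_eq_mul, hcol, Pi.single_apply, Matrix.one_apply]
      ring
    rw [h2] at h1
    have h3 : (1 : Matrix ι ι F) x b ∈ F₀ := by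
      rw [Matrix.one_apply]; split_ifs <;> first | exact one_mem _ | exact zero_mem _
    simpa using sub_mem h1 h3
  have hrowk : ∀ m, ∃ b, (k : Matrix ι ι F) m b ≠ 0 := fun m => by
    by_contra hc; push Not at hc
    exact Matrix.GeneralLinearGroup.det_ne_zero k (Matrix.det_eq_zero_of_row_eq_zero m hc)
  obtain ⟨m⟩ := (inferInstance : Nonempty ι)
  obtain ⟨b, hb⟩ := hrowk m
  refine mem_subGroupF.mpr ⟨(k : Matrix ι ι F) m b, hb, fun x l => ?_⟩
  by_cases hl : l = m
  · subst hl
    obtain ⟨m', hm'⟩ := Fintype.exists_ne_of_one_lt_card (by omega) l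
    obtain ⟨b', hb'⟩ := hrowk m'
    obtain ⟨t, ht⟩ : ((Finset.univ : Finset ι) \ {l, m'}).Nonempty := by
      rw [← Finset.card_pos, Finset.card_sdiff_of_subset (Finset.subset_univ _), Finset.card_univ]
      have : ({l, m'} : Finset ι).card ≤ 2 := Finset.card_le_two
      omega
    simp only [Finset.mem_sdiff, Finset.mem_univ, true_and, Finset.mem_insert, Finset.mem_singleton, not_or] at ht
    obtain ⟨y, hy⟩ : ∃ y, (g : Matrix ι ι F) y t ≠ 0 := by
      by_contra hc; push Not at hc
      exact Matrix.GeneralLinearGroup.det_ne_zero g (Matrix.det_eq_zero_of_column_eq_zero t hc)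
    have h1 := mul_mem (div_mem (hprod t l ht.1 y b) (hprod t m' ht.2 y b')) (hprod l m' hm'.symm x b')
    rw [mul_div_mul_left _ _ hy, mul_comm ((g : Matrix ι ι F) x l), ← mul_assoc, div_mul_cancel₀ _ hb'] at h1
    exact h1
  · rw [mul_comm]; exact hprod l m hl x b

/-- The subfield subgroup is maximal in the special linear group. -/
theorem sl_subfield_maximal' [Fintype F] {n : ℕ} (hn : 9 ≤ n) {r : ℕ} (hr : r.Prime)
    (hcard : Fintype.card F = Nat.card F₀ ^ r) :
    Cfsg.Geo.IsMaximalIn (Cfsg.Geo.specialLinear (Fin n) F)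
      (subGroupF (Fin n) F₀ ⊓ Cfsg.Geo.specialLinear (Fin n) F) := by
  classical
  haveI : Nonempty (Fin n) := ⟨⟨0, by omega⟩⟩
  have hn3 : 3 ≤ Fintype.card (Fin n) := by rw [Fintype.card_fin]; omega
  haveI := Fintype.ofFinite F₀
  set e0 : Fin n := ⟨0, by omega⟩
  set e1 : Fin n := ⟨1, by omega⟩
  set e2 : Fin n := ⟨2, by omega⟩
  set e3 : Fin n := ⟨3, by omega⟩
  have h01 : e0 ≠ e1 := by simp [e0, e1, Fin.ext_iff]
  have h02 : e0 ≠ e2 := by simp [e0, e2, Fin.ext_iff]
  have h03 : e0 ≠ e3 := by simp [e0, e3, Fin.ext_iff]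
  have h12 : e1 ≠ e2 := by simp [e1, e2, Fin.ext_iff]
  have h13 : e1 ≠ e3 := by simp [e1, e3, Fin.ext_iff]
  have h23 : e2 ≠ e3 := by simp [e2, e3, Fin.ext_iff]
  have hstrict : ∃ x ∈ Cfsg.Geo.specialLinear (Fin n) F,
      x ∉ subGroupF (Fin n) F₀ ⊓ Cfsg.Geo.specialLinear (Fin n) F := by
    obtain ⟨c, hc⟩ : ∃ c : F, c ∉ F₀ := by
      by_contra hall; push Not at hall
      have h1 : Fintype.card F ≤ Fintype.card F₀ :=
        Fintype.card_le_of_injective (fun c => (⟨c, hall c⟩ : F₀)) fun a b h => congrArg Subtype.val h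
      rw [hcard, Nat.card_eq_fintype_card] at h1
      have h2 := Nat.pow_lt_pow_right (Fintype.one_lt_card (α := F₀)) hr.one_lt
      rw [pow_one] at h2; omega
    refine ⟨elm h01 c, elm_mem_sl _ _, fun h => hc ?_⟩
    obtain ⟨k, hk, hk'⟩ := mem_subGroupF.mp h.1
    have ha := hk' e0 e0
    have hb := hk' e0 e1
    simp only [elm_apply, Matrix.one_apply, h01, if_false, and_self, if_true, zero_add, and_false, add_zero,
      mul_one] at ha hb
    simpa [hk] using mul_mem (inv_mem ha) hb
  refine isMaximalIn_of inf_le_right hstrict fun M h1 h2 g hgM hgH => ?_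
  by_contra hcon
  have hM : IsProperOver F₀ M := ⟨h1, h2, hcon⟩
  have hgS : g ∉ subGroupF (Fin n) F₀ := fun h => hgH ⟨h, h2 hgM⟩
  obtain ⟨l, m, hlm, hj⟩ : ∃ (l m : Fin n) (hlm : l ≠ m), g * elm hlm (1 : F) * g⁻¹ ∉ subGroupF (Fin n) F₀ := by
    by_contra hall; push Not at hall
    exact hgS (mem_of_conj_elm hn3 hall)
  set j := g * elm hlm (1 : F) * g⁻¹ with hjdef
  have hjM : j ∈ M := M.mul_mem (M.mul_mem hgM (h1 (elm_mem_subGroupF _ (one_mem _)))) (M.inv_mem hgM)
  have hjv : ∀ v, (j : Matrix (Fin n) (Fin n) F) *ᵥ v =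
      v + (((g⁻¹ : GL (Fin n) F) : Matrix (Fin n) (Fin n) F) *ᵥ v) m • ((g : Matrix (Fin n) (Fin n) F) *ᵥ Pi.single l 1) :=
    fun v => by
      simp only [hjdef, Units.val_mul, ← Matrix.mulVec_mulVec, elm_mulVec, Matrix.mulVec_add,
        Matrix.mulVec_smul, gl_mulVec_inv, one_mul]
  have h3' : n ≤ r := by
    by_contra hrn
    push Not at hrn
    -- a rational vector killed by the functional
    let T : (Fin n → F₀) → F := fun a =>
      (((g⁻¹ : GL (Fin n) F) : Matrix (Fin n) (Fin n) F) *ᵥ fun b => (a b : F)) m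
    have hTni : ¬ Function.Injective T := fun hT => by
      have := Fintype.card_le_of_injective T hT
      rw [Fintype.card_fun, Fintype.card_fin, hcard, Nat.card_eq_fintype_card] at this
      exact absurd this (not_le.mpr (Nat.pow_lt_pow_right (Fintype.one_lt_card (α := F₀)) hrn))
    obtain ⟨a, a', haa, hne⟩ := Function.not_injective_iff.mp hTni
    set d : Fin n → F := fun b => (a b : F) - (a' b : F) with hd
    have hdm : (((g⁻¹ : GL (Fin n) F) : Matrix (Fin n) (Fin n) F) *ᵥ d) m = 0 := by
      have : d = (fun b => (a b : F)) - fun b => (a' b : F) := rfl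
      rw [this, Matrix.mulVec_sub, Pi.sub_apply, sub_eq_zero]
      exact haa
    let A : Matrix (Fin n) (Fin n) F := fun x b => if b = e0 then d x else 0
    have hAv : ∀ v, A *ᵥ v = v e0 • d := fun v => funext fun x => by
      simp [A, Matrix.mulVec, dotProduct, mul_comm]
    refine hj (rat_stab_mem hn3 hr hcard hM A (fun x b => ?_) (fun h => hne ?_) ?_ hjM ?_)
    · simp only [A]; split_ifs
      · exact sub_mem (a x).2 (a' x).2
      · exact zero_mem _
    · funext x
      have := congrFun (congrFun h x) e0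
      simp only [A, if_pos, Matrix.zero_apply, hd, sub_eq_zero] at this
      exact Subtype.ext this
    · have hle : LinearMap.range A.mulVecLin ≤ Submodule.span F {d} := by
        rintro _ ⟨v, rfl⟩
        rw [Matrix.mulVecLin_apply, hAv]
        exact Submodule.mem_span_singleton.mpr ⟨_, rfl⟩
      have h4 := (Submodule.finrank_mono hle).trans (finrank_span_le_card ({d} : Set (Fin n → F)))
      simp only [Set.toFinset_singleton, Finset.card_singleton] at h4
      rw [Fintype.card_fin]; omega
    · rintro _ ⟨v, rfl⟩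
      refine ⟨v, ?_⟩
      rw [Matrix.mulVecLin_apply, hAv, hjv, Matrix.mulVec_smul, Pi.smul_apply, hdm, smul_zero, zero_smul, add_zero]
  have hodd : Odd r := hr.odd_of_ne_two (by omega)
  by_cases h2c : (2 : F) = 0
  · -- even characteristic
    haveI : CharP F 2 := CharTwo.of_one_ne_zero_of_two_eq_zero one_ne_zero h2c
    haveI : Fact (Nat.Prime 2) := ⟨Nat.prime_two⟩
    have hsq : ∀ c : F, c * c ∈ F₀ → c ∈ F₀ := fun c hc => mem_subfield_of_pow_char 2 F₀ (by rwa [pow_two])
    have helm2 : ∀ {x y : Fin n} (h : x ≠ y), elm h (1 : F) * elm h 1 = 1 := fun h => by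
      rw [elm_mul, one_add_one_eq_two, h2c, elm_zero]
    set i := elm h01 (1 : F) * elm h23 1 with hidef
    have hiv : ∀ v, (i : Matrix (Fin n) (Fin n) F) *ᵥ v = v + v e1 • Pi.single e0 1 + v e3 • Pi.single e2 1 := fun v => by
      simp only [hidef, Units.val_mul, ← Matrix.mulVec_mulVec, elm_mulVec, Pi.add_apply, Pi.smul_apply,
        Pi.single_eq_of_ne h12, smul_zero, add_zero, one_mul]
      module
    have hiM : i ∈ M := M.mul_mem (h1 (elm_mem_subGroupF _ (one_mem _))) (h1 (elm_mem_subGroupF _ (one_mem _)))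
    have hii : i * i = 1 := gl_ext fun v => by
      rw [Units.val_mul, ← Matrix.mulVec_mulVec, hiv, hiv, Units.val_one, Matrix.one_mulVec]
      simp only [Pi.add_apply, Pi.smul_apply, Pi.single_eq_of_ne h01.symm, Pi.single_eq_of_ne h12,
        Pi.single_eq_of_ne h03.symm, Pi.single_eq_of_ne h23.symm, smul_zero, add_zero]
      have e : ∀ w : Fin n → F, w + w = 0 := fun w => by rw [← two_smul F, h2c, zero_smul]
      linear_combination (norm := module) e (v e1 • (Pi.single e0 1 : Fin n → F)) + e (v e3 • (Pi.single e2 1 : Fin n → F))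
    have hjj : j * j = 1 := by
      rw [hjdef]
      calc g * elm hlm (1 : F) * g⁻¹ * (g * elm hlm (1 : F) * g⁻¹) = g * (elm hlm (1 : F) * elm hlm 1) * g⁻¹ := by group
        _ = 1 := by rw [helm2]; simp
    rcases involution_pair hii hjj with hconj | ⟨k, hz1, hzz, hzi, hzj⟩
    · obtain ⟨c, hc⟩ := isConj_iff.mp hconj
      have hi' : i = c⁻¹ * j * c := by rw [← hc]; group
      set A := ((c⁻¹ : GL (Fin n) F) : Matrix (Fin n) (Fin n) F) *ᵥ ((g : Matrix (Fin n) (Fin n) F) *ᵥ Pi.single l 1)
      have hform : ∀ v, ∃ α : F, (i : Matrix (Fin n) (Fin n) F) *ᵥ v = v + α • A := fun v => by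
        rw [hi']
        simp only [Units.val_mul, ← Matrix.mulVec_mulVec, hjv, Matrix.mulVec_add, Matrix.mulVec_smul,
          gl_inv_mulVec]
        exact ⟨_, rfl⟩
      obtain ⟨α, hα⟩ := hform (Pi.single e1 1)
      obtain ⟨β, hβ⟩ := hform (Pi.single e3 1)
      rw [hiv] at hα hβ
      have a0 := congrFun hα e0
      have b0 := congrFun hβ e0
      have b2 := congrFun hβ e2
      simp only [Pi.add_apply, Pi.smul_apply, Pi.single_eq_same, Pi.single_eq_of_ne h01, Pi.single_eq_of_ne h03,
        Pi.single_eq_of_ne h02, Pi.single_eq_of_ne h02.symm, Pi.single_eq_of_ne h12.symm, Pi.single_eq_of_ne h23,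
        Pi.single_eq_of_ne h13, Pi.single_eq_of_ne h13.symm, smul_eq_mul, mul_zero, zero_mul, mul_one, zero_add, add_zero] at a0 b0 b2
      have hA0 : A e0 ≠ 0 := fun h => by rw [h, mul_zero] at a0; exact one_ne_zero a0
      rw [(mul_eq_zero.mp b0.symm).resolve_right hA0, zero_mul] at b2
      exact one_ne_zero b2
    · set z := (i * j) ^ k
      have hzM : z ∈ M := M.pow_mem (M.mul_mem hiM hjM) k
      have hrankA : ((i : Matrix (Fin n) (Fin n) F) - 1).rank + 2 ≤ Fintype.card (Fin n) := by
        have hle : LinearMap.range ((i : Matrix (Fin n) (Fin n) F) - 1).mulVecLin ≤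
            Submodule.span F {(Pi.single e0 1 : Fin n → F), Pi.single e2 1} := by
          rintro _ ⟨v, rfl⟩
          rw [Matrix.mulVecLin_apply, Matrix.sub_mulVec, Matrix.one_mulVec, hiv, Submodule.mem_span_pair]
          exact ⟨v e1, v e3, by module⟩
        have h4 := (Submodule.finrank_mono hle).trans (finrank_span_le_card _)
        have h5 : Set.toFinset ({(Pi.single e0 1 : Fin n → F), Pi.single e2 1}) ⊆
            {(Pi.single e0 1 : Fin n → F), Pi.single e2 1} := fun w => by simp
        have h6 := (Finset.card_le_card h5).trans Finset.card_le_two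
        unfold Matrix.rank
        rw [Fintype.card_fin]; omega
      have hrati : ∀ a b, ((i : Matrix (Fin n) (Fin n) F) - 1) a b ∈ F₀ := fun a b => by
        have h4 := congrFun (hiv (Pi.single b 1)) a
        rw [Matrix.mulVec_single_one, Matrix.col_apply] at h4
        rw [Matrix.sub_apply, h4]
        have hs : ∀ u w : Fin n, (Pi.single u (1 : F) : Fin n → F) w ∈ F₀ := fun u w => by
          rw [Pi.single_apply]; split_ifs <;> first | exact one_mem _ | exact zero_mem _
        have h5 : (1 : Matrix (Fin n) (Fin n) F) a b ∈ F₀ := by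
          rw [Matrix.one_apply]; split_ifs <;> first | exact one_mem _ | exact zero_mem _
        simp only [Pi.add_apply, Pi.smul_apply, smul_eq_mul]
        exact sub_mem (add_mem (add_mem (hs _ _) (mul_mem (hs _ _) (hs _ _))) (mul_mem (hs _ _) (hs _ _))) h5
      have hine : (i : Matrix (Fin n) (Fin n) F) - 1 ≠ 0 := fun h => by
        have := congrFun (hiv (Pi.single e1 1)) e0
        rw [sub_eq_zero.mp h, Matrix.one_mulVec] at this
        simp [h01, h03, h02, h13.symm] at this
      have hzS : z ∈ subGroupF (Fin n) F₀ := mem_of_commute_rational hn3 hr hcard hM _ hrati hine hrankA hzM (by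
        rw [Matrix.mul_sub, Matrix.sub_mul, Matrix.mul_one, Matrix.one_mul, ← Units.val_mul, hzi, Units.val_mul])
      have hzne : (z : Matrix (Fin n) (Fin n) F) - 1 ≠ 0 := fun h =>
        hz1 (Units.ext (by rw [Units.val_one]; exact sub_eq_zero.mp h))
      refine hj (mem_of_commute_rational hn3 hr hcard hM _ (fun a b => ?_) hzne ?_ hjM ?_)
      · rw [Matrix.sub_apply]
        refine sub_mem (rational_of_invol hsq hzz hzS a b) ?_
        rw [Matrix.one_apply]; split_ifs <;> first | exact one_mem _ | exact zero_mem _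
      · have h0 : ((z : Matrix (Fin n) (Fin n) F) - 1) * ((z : Matrix (Fin n) (Fin n) F) - 1) = 0 := by
          rw [Matrix.sub_mul, Matrix.mul_sub, Matrix.mul_sub, Matrix.one_mul, Matrix.one_mul, Matrix.mul_one,
            ← Units.val_mul, hzz, Units.val_one]
          have e : ∀ w : Matrix (Fin n) (Fin n) F, w + w = 0 := fun w => by rw [← two_smul F, h2c, zero_smul]
          linear_combination (norm := module) e (1 - (z : Matrix (Fin n) (Fin n) F))
        have := rank_add_rank_le h0
        rw [Fintype.card_fin] at this ⊢; omega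
      · rw [Matrix.mul_sub, Matrix.sub_mul, Matrix.mul_one, Matrix.one_mul, ← Units.val_mul, ← hzj, Units.val_mul]
  · -- odd characteristic
    have hoddq : Odd (Nat.card F₀) := by
      have h4 : ¬ Fintype.card F % 2 = 0 := fun h => h2c (by
        haveI : CharP F 2 := ringChar.of_eq (FiniteField.even_card_iff_char_two.mpr h)
        exact CharTwo.two_eq_zero)
      rw [hcard, ← Nat.even_iff, Nat.not_even_iff_odd, Nat.odd_pow_iff hr.ne_zero] at h4
      exact h4
    have hsq : ∀ c : F, c * c ∈ F₀ → c ∈ F₀ := fun c hc => mem_subfield_of_sq F₀ hodd hoddq hcard hc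
    obtain ⟨b, hb⟩ : ((Finset.univ : Finset (Fin n)) \ {l, m}).Nonempty := by
      rw [← Finset.card_pos, Finset.card_sdiff_of_subset (Finset.subset_univ _), Finset.card_univ]
      have : ({l, m} : Finset (Fin n)).card ≤ 2 := Finset.card_le_two
      omega
    simp only [Finset.mem_sdiff, Finset.mem_univ, true_and, Finset.mem_insert, Finset.mem_singleton, not_or] at hb
    set D : GL (Fin n) F := signGL {l, b} with hD
    set T : GL (Fin n) F := elm hlm (-(2 : F)⁻¹) with hT
    have h2F : (2 : F)⁻¹ ∈ F₀ := inv_mem (by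
      have : (1 : F) + 1 ∈ F₀ := add_mem (one_mem _) (one_mem _)
      rwa [one_add_one_eq_two] at this)
    have hTM : T ∈ M := h1 (elm_mem_subGroupF _ (neg_mem h2F))
    have hDM : D ∈ M := h1 (signGL_mem F₀ _ (by rw [Finset.card_pair (Ne.symm hb.1)]; exact even_two))
    have hdec : elm hlm (1 : F) = D * (T * D * T⁻¹) := by
      rw [hT, elm_inv, neg_neg]
      refine gl_ext fun v => funext fun x => ?_
      simp only [Units.val_mul, ← Matrix.mulVec_mulVec, elm_mulVec, Pi.add_apply, Pi.smul_apply,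
        signGL_mulVec, hD, Finset.mem_insert, Finset.mem_singleton, hlm.symm, (Ne.symm hb.2), or_self, if_false]
      rcases eq_or_ne x l with rfl | hx
      · simp [hlm.symm]; field_simp; ring
      · rw [Pi.single_eq_of_ne hx]; split_ifs <;> simp
    obtain ⟨y, hyM, hy⟩ : ∃ y ∈ M, y * D * y⁻¹ ∉ subGroupF (Fin n) F₀ := by
      by_contra hall; push Not at hall
      refine hj ?_
      have e : j = (g * D * g⁻¹) * ((g * T) * D * (g * T)⁻¹) := by rw [hjdef, hdec]; group
      rw [e]
      exact Subgroup.mul_mem _ (hall g hgM) (hall _ (M.mul_mem hgM hTM))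
    set i : GL (Fin n) F := signGL {e0, e1, e2, e3} with hidef
    have h4card : ({e0, e1, e2, e3} : Finset (Fin n)).card = 4 := by
      simp [Finset.card_insert_of_notMem, h01, h02, h03, h12, h13, h23]
    set j' := y * D * y⁻¹ with hj'
    have hiM : i ∈ M := h1 (signGL_mem F₀ _ (by rw [h4card]; decide))
    have hjM' : j' ∈ M := M.mul_mem (M.mul_mem hyM hDM) (M.inv_mem hyM)
    have hjj : j' * j' = 1 := by
      calc y * D * y⁻¹ * (y * D * y⁻¹) = y * (D * D) * y⁻¹ := by group
        _ = 1 := by rw [hD, signGL_sq]; simp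
    have hjD : IsConj D j' := isConj_iff.mpr ⟨y, rfl⟩
    have hDrank : moveRank D = 2 := by rw [hD, moveRank_signGL h2c, Finset.card_pair (Ne.symm hb.1)]
    have hirank : moveRank i = 4 := by rw [hidef, moveRank_signGL h2c, h4card]
    rcases involution_pair (signGL_sq {e0, e1, e2, e3}) hjj with hconj | ⟨k, hz1, hzz, hzi, hzj⟩
    · have := moveRank_isConj hconj
      rw [← hidef, hirank, ← moveRank_isConj hjD, hDrank] at this
      omega
    rw [← hidef] at hz1 hzz hzi hzj
    set z := (i * j') ^ k with hzdef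
    have hzM : z ∈ M := M.pow_mem (M.mul_mem hiM hjM') k
    have hone : ∀ a c : Fin n, (1 : Matrix (Fin n) (Fin n) F) a c ∈ F₀ := fun a c => by
      rw [Matrix.one_apply]; split_ifs <;> first | exact one_mem _ | exact zero_mem _
    have hzS : z ∈ subGroupF (Fin n) F₀ := by
      refine mem_of_commute_rational hn3 hr hcard hM ((i : Matrix (Fin n) (Fin n) F) - 1) (fun a c => ?_)
        (fun h => ?_) ?_ hzM ?_
      · rw [Matrix.sub_apply, hidef, signGL_coe, Matrix.diagonal_apply]
        refine sub_mem ?_ (hone a c)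
        split_ifs <;> first | exact zero_mem _ | exact one_mem _ | exact neg_mem (one_mem _)
      · rw [moveRank, h, Matrix.rank_zero] at hirank; omega
      · rw [show ((i : Matrix (Fin n) (Fin n) F) - 1).rank = 4 from hirank, Fintype.card_fin]; omega
      · rw [Matrix.mul_sub, Matrix.sub_mul, Matrix.mul_one, Matrix.one_mul, ← Units.val_mul, hzi, Units.val_mul]
    by_cases hzm : (z : Matrix (Fin n) (Fin n) F) = -1
    · have hcen : ∀ x : GL (Fin n) F, x * z = z * x := fun x => Units.ext (by
        rw [Units.val_mul, Units.val_mul, hzm]; simp)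
      rcases involution_pair_central (signGL_sq {e0, e1, e2, e3}) hjj hcen hzz (hzdef.symm) with hc | hc
      · have hc' : IsConj (D * z) (j' * z) := isConj_iff.mpr ⟨y, by
          rw [hj', mul_assoc, mul_assoc, ← hcen y⁻¹]; group⟩
        have := moveRank_isConj hc
        rw [← hidef, hirank, ← moveRank_isConj hc', hD, moveRank_signGL_neg h2c _ hzm,
          Finset.card_pair (Ne.symm hb.1), Fintype.card_fin] at this
        omega
      · have := moveRank_isConj hc
        rw [← hidef, hirank, hidef, moveRank_signGL_neg h2c _ hzm, h4card, Fintype.card_fin] at this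
        omega
    · have hzne : (z : Matrix (Fin n) (Fin n) F) - 1 ≠ 0 := fun h =>
        hz1 (Units.ext (by rw [Units.val_one]; exact sub_eq_zero.mp h))
      have hzne' : (z : Matrix (Fin n) (Fin n) F) + 1 ≠ 0 := fun h => hzm (eq_neg_of_add_eq_zero_left h)
      have h0 : ((z : Matrix (Fin n) (Fin n) F) + 1) * ((z : Matrix (Fin n) (Fin n) F) - 1) = 0 := by
        rw [Matrix.add_mul, Matrix.mul_sub, Matrix.one_mul, Matrix.mul_one, ← Units.val_mul, hzz, Units.val_one]
        abel
      have hsum := rank_add_rank_le h0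
      rw [Fintype.card_fin] at hsum
      rcases le_total ((z : Matrix (Fin n) (Fin n) F) - 1).rank ((z : Matrix (Fin n) (Fin n) F) + 1).rank with hl' | hl'
      · refine hy (mem_of_commute_rational hn3 hr hcard hM ((z : Matrix (Fin n) (Fin n) F) - 1)
          (fun a c => sub_mem (rational_of_invol hsq hzz hzS a c) (hone a c)) hzne ?_ hjM' ?_)
        · rw [Fintype.card_fin]; omega
        · rw [Matrix.mul_sub, Matrix.sub_mul, Matrix.mul_one, Matrix.one_mul, ← Units.val_mul, ← hzj, Units.val_mul]
      · refine hy (mem_of_commute_rational hn3 hr hcard hM ((z : Matrix (Fin n) (Fin n) F) + 1)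
          (fun a c => add_mem (rational_of_invol hsq hzz hzS a c) (hone a c)) hzne' ?_ hjM' ?_)
        · rw [Fintype.card_fin]; omega
        · rw [Matrix.mul_add, Matrix.add_mul, Matrix.mul_one, Matrix.one_mul, ← Units.val_mul, ← hzj, Units.val_mul]

/-- The subfield subgroup is maximal in the special linear group, in dimension at least 13. -/
theorem sl_subfield_maximal [Fintype F] {n : ℕ} (hn : 13 ≤ n) {r : ℕ} (hr : r.Prime)
    (hcard : Fintype.card F = Nat.card F₀ ^ r) :
    Cfsg.Geo.IsMaximalIn (Cfsg.Geo.specialLinear (Fin n) F)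
      (subGroupF (Fin n) F₀ ⊓ Cfsg.Geo.specialLinear (Fin n) F) :=
  sl_subfield_maximal' (by omega) hr hcard

end Cfsg.Agent.H98
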