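import Cfsg.Agent.H98.MaximalSL

set_option autoImplicit false

/-!
The similitude group of a symplectic form is maximal in the special linear group.
-/

namespace Cfsg.Agent.H98

open scoped Matrix

variable {ι : Type} [Fintype ι] [DecidableEq ι] {F : Type*} [Field F]

omit [DecidableEq ι] in
/-- A bilinear function as a linear map in each argument: `u ↦ (x ↦ f x u)`. -/
def flipLin (f : (ι → F) → (ι → F) → F) (hf : Cfsg.Geo.IsBilinearForm f) : (ι → F) →ₗ[F] (ι → F) →ₗ[F] F :=
  LinearMap.mk₂ F (fun u x => f x u) (fun a b x => hf.add_right x a b) (fun c a x => hf.smul_right c x a)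
    (fun u a b => hf.add_left a b u) (fun c u a => hf.smul_left c a u)

omit [DecidableEq ι] in
theorem flipLin_apply {f : (ι → F) → (ι → F) → F} (hf : Cfsg.Geo.IsBilinearForm f) (u x : ι → F) :
    flipLin f hf u x = f x u := rfl

omit [DecidableEq ι] in
/-- Non-degeneracy: every functional is `f(·, d)`. -/
theorem flipLin_surjective {f : (ι → F) → (ι → F) → F} (hf : Cfsg.Geo.IsBilinearForm f)
    (hn : Cfsg.Geo.IsNondegenerateForm f) : Function.Surjective (flipLin f hf) := by
  have hinj : Function.Injective (flipLin f hf) := by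
    rw [injective_iff_map_eq_zero]
    intro u hu
    by_contra h
    obtain ⟨⟨x, hx⟩, -⟩ := hn u h
    exact hx (by rw [← flipLin_apply hf u x, hu]; rfl)
  exact (LinearMap.injective_iff_surjective_of_finrank_eq_finrank Subspace.dual_finrank_eq.symm).mp hinj

/-- Adding the functionals of two transvections with the same centre. -/
theorem transGL_mul (φ ψ : (ι → F) →ₗ[F] F) (a : ι → F) (h : φ a = 0) (h' : ψ a = 0) :
    transGL φ a h * transGL ψ a h' = transGL (φ + ψ) a (by simp [h, h']) := by
  refine gl_ext fun v => ?_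
  simp only [Units.val_mul, ← Matrix.mulVec_mulVec, transGL_mulVec, map_add, map_smul, LinearMap.add_apply, h,
    smul_eq_mul, mul_zero, add_zero, add_smul]
  abel

/-- Inverse of a transvection. -/
theorem transGL_inv (φ : (ι → F) →ₗ[F] F) (a : ι → F) (h : φ a = 0) :
    (transGL φ a h)⁻¹ = transGL (-φ) a (by simp [h]) := by
  refine inv_eq_of_mul_eq_one_right ?_
  rw [transGL_mul]
  exact gl_ext fun v => by simp

/-- Similitude groups of symplectic forms are maximal in `SL`. -/
theorem sl_symp_maximal (f : (ι → F) → (ι → F) → F) (hf : Cfsg.Geo.IsSymplecticForm f)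
    (hn : 3 ≤ Fintype.card ι) :
    Cfsg.Geo.IsMaximalIn (Cfsg.Geo.specialLinear ι F)
      (Cfsg.Geo.similarityGroup f ⊓ Cfsg.Geo.specialLinear ι F) := by
  have hb := hf.bilinear
  set L := flipLin f hb with hL
  have hL' : ∀ u x, L u x = f x u := fun u x => rfl
  have hsurj := flipLin_surjective hb hf.nondegenerate
  have hself : ∀ a, L a a = 0 := fun a => hf.alternating a
  have hsw : ∀ x y, f y x = - f x y := fun x y => hf.skew y x
  have hfun : ∀ (d a : ι → F), d ∉ Submodule.span F {a} → ∃ z, f d z = 1 ∧ f a z = 0 := by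
    intro d a h
    obtain ⟨φ, h1, h2⟩ := exists_functional h
    obtain ⟨z, hz⟩ := hsurj φ
    exact ⟨z, by rw [← hL', hz, h1],
      by rw [← hL', hz, LinearMap.mem_ker.mp (h2 (Submodule.mem_span_singleton_self a))]⟩
  -- symplectic transvections
  have hT : ∀ (z : ι → F) (c : F), transGL (c • L z) z (by rw [LinearMap.smul_apply, hself, smul_zero]) ∈
      Cfsg.Geo.similarityGroup f ⊓ Cfsg.Geo.specialLinear ι F := fun z c => by
    refine ⟨⟨1, fun x y => ?_⟩, transGL_mem_sl _ _ _⟩
    simp only [transGL_mulVec, LinearMap.smul_apply, hL', smul_eq_mul, hb.add_left, hb.add_right, hb.smul_left,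
      hb.smul_right, hf.alternating, Units.val_one, hsw y z]
    ring
  refine isMaximalIn_of inf_le_right ?_ ?_
  · haveI : Nonempty ι := Fintype.card_pos_iff.mp (by omega)
    obtain ⟨a, ha⟩ := exists_ne (0 : ι → F)
    obtain ⟨d, hd, hda⟩ : ∃ d, f a d = 0 ∧ d ∉ Submodule.span F {a} := by
      by_contra h; push Not at h
      let φ : (ι → F) →ₗ[F] F := { toFun := f a, map_add' := hb.add_right a, map_smul' := fun c x => hb.smul_right c a x }
      have hle : LinearMap.ker φ ≤ Submodule.span F {a} := fun d hd => h d hd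
      have h1 := LinearMap.finrank_range_add_finrank_ker φ
      have h2 := Submodule.finrank_mono hle
      have h3 := Submodule.finrank_le (LinearMap.range φ)
      rw [Module.finrank_self] at h3
      rw [finrank_span_singleton ha] at h2
      rw [Module.finrank_pi] at h1
      omega
    have hda' : (L d) a = 0 := hd
    refine ⟨transGL (L d) a hda', transGL_mem_sl _ _ _, fun h => ?_⟩
    obtain ⟨c, hc⟩ := h.1
    obtain ⟨y, hy⟩ := (hf.nondegenerate a ha).2
    have h1 := hc a y
    rw [transGL_mulVec, transGL_mulVec, hda', zero_smul, add_zero, hb.add_right, hb.smul_right,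
      hf.alternating, mul_zero, add_zero] at h1
    have hc1 : (c : F) = 1 := (mul_eq_right₀ hy).mp h1.symm
    obtain ⟨z, hz1, hz2⟩ := hfun d a hda
    have h2 := hc z y
    simp only [transGL_mulVec, hL', hb.add_left, hb.add_right, hb.smul_left, hb.smul_right, hf.alternating,
      hc1, hsw d z, hsw a z, hz1, hz2, mul_zero, add_zero, one_mul, neg_zero, neg_mul] at h2
    exact hy (by linear_combination -h2)
  intro M hHM hMK g hg hgH
  have hA : ∀ b, (∀ φ (h : φ b = 0), transGL φ b h ∈ M) → ∀ a, f b a ≠ 0 →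
      ∀ φ (h : φ a = 0), transGL φ a h ∈ M := by
    intro b hb' a hba φ h
    have e : ((transGL ((f b a)⁻¹ • L (a - b)) (a - b) (by rw [LinearMap.smul_apply, hself, smul_zero]) :
        GL ι F) : Matrix ι ι F) *ᵥ b = a := by
      rw [transGL_mulVec, LinearMap.smul_apply, map_sub, LinearMap.sub_apply, hself, sub_zero, hL', smul_eq_mul,
        inv_mul_cancel₀ hba, one_smul, add_sub_cancel]
    set t := transGL ((f b a)⁻¹ • L (a - b)) (a - b) (by rw [LinearMap.smul_apply, hself, smul_zero])
    have h0 : (φ.comp (Matrix.mulVecLin (t : Matrix ι ι F))) b = 0 := by simpa [e] using h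
    have hmem : t ∈ M := hHM (hT (a - b) (f b a)⁻¹)
    have hm := M.mul_mem (M.mul_mem hmem (hb' _ h0)) (M.inv_mem hmem)
    rw [conj_transGL] at hm
    convert hm using 1
    exact gl_ext fun v => by
      rw [transGL_mulVec, transGL_mulVec]
      simp only [LinearMap.comp_apply, Matrix.mulVecLin_apply, gl_mulVec_inv, e]
  -- a transvection of `M` that is not symplectic
  obtain ⟨a, ha⟩ : ∃ a, ∀ μ : F, ∃ x, f (((g⁻¹ : GL ι F) : Matrix ι ι F) *ᵥ x) a ≠
      μ * f x ((g : Matrix ι ι F) *ᵥ a) := by
    by_contra hcon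
    push Not at hcon
    choose μ hμ using hcon
    have hm : ∀ x a, f x a = μ a * f ((g : Matrix ι ι F) *ᵥ x) ((g : Matrix ι ι F) *ᵥ a) := fun x a => by
      have := hμ a ((g : Matrix ι ι F) *ᵥ x)
      rwa [gl_inv_mulVec] at this
    have hpair : ∀ a b, f a b ≠ 0 → μ a = μ b := fun a b hab => by
      have h1 := hm b a
      rw [hsw a b, hsw ((g : Matrix ι ι F) *ᵥ a) ((g : Matrix ι ι F) *ᵥ b), hm a b] at h1
      have : f ((g : Matrix ι ι F) *ᵥ a) ((g : Matrix ι ι F) *ᵥ b) ≠ 0 := fun h => hab (by rw [hm, h, mul_zero])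
      exact mul_right_cancel₀ this (by linear_combination h1)
    haveI : Nonempty ι := Fintype.card_pos_iff.mp (by omega)
    obtain ⟨a₀, ha₀⟩ := exists_ne (0 : ι → F)
    have hconst : ∀ b, b ≠ 0 → μ b = μ a₀ := by
      intro b hb0
      obtain ⟨x, hx⟩ := (hf.nondegenerate a₀ ha₀).1
      obtain ⟨y, hy⟩ := (hf.nondegenerate b hb0).1
      by_cases hxb : f x b ≠ 0
      · exact (hpair x b hxb).symm.trans (hpair x a₀ hx)
      by_cases hya : f y a₀ ≠ 0
      · exact (hpair y b hy).symm.trans (hpair y a₀ hya)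
      push Not at hxb hya
      have h1 : f (x + y) b ≠ 0 := by rw [hb.add_left, hxb, zero_add]; exact hy
      have h2 : f (x + y) a₀ ≠ 0 := by rw [hb.add_left, hya, add_zero]; exact hx
      exact (hpair _ b h1).symm.trans (hpair _ a₀ h2)
    have hμ0 : μ a₀ ≠ 0 := by
      intro h
      obtain ⟨x, hx⟩ := (hf.nondegenerate a₀ ha₀).1
      exact hx (by rw [hm, h, zero_mul])
    refine hgH ⟨⟨(Units.mk0 _ hμ0)⁻¹, fun u v => ?_⟩, hMK hg⟩
    rw [Units.val_inv_eq_inv_val, Units.val_mk0]
    by_cases hv : v = 0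
    · subst hv
      have hz : ∀ u, f u 0 = 0 := fun u => by simpa using hb.smul_right 0 u 0
      rw [Matrix.mulVec_zero, hz, hz, mul_zero]
    · rw [hm u v, hconst v hv, ← mul_assoc, inv_mul_cancel₀ hμ0, one_mul]
  set b := (g : Matrix ι ι F) *ᵥ a
  obtain ⟨d₀, hd₀⟩ := hsurj ((L a).comp (Matrix.mulVecLin ((g⁻¹ : GL ι F) : Matrix ι ι F)))
  have hd₀b : L d₀ b = 0 := by
    rw [hd₀]; simp [b, gl_inv_mulVec, hself]
  have hd₀M : transGL (L d₀) b hd₀b ∈ M := by
    have := M.mul_mem (M.mul_mem hg (hHM (hT a 1))) (M.inv_mem hg)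
    rw [conj_transGL] at this
    convert this using 1
    exact gl_ext fun v => by rw [transGL_mulVec, transGL_mulVec, hd₀, one_smul]
  have hd₀span : d₀ ∉ Submodule.span F {b} := by
    intro h
    obtain ⟨μ, hμ⟩ := Submodule.mem_span_singleton.mp h
    obtain ⟨x, hx⟩ := ha μ
    refine hx ?_
    have := LinearMap.congr_fun hd₀ x
    rw [← hμ, map_smul, LinearMap.smul_apply, LinearMap.comp_apply, Matrix.mulVecLin_apply, hL', hL',
      smul_eq_mul] at this
    exact this.symm
  -- all transvections with centre `b`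
  have hbM : ∀ φ (h : φ b = 0), transGL φ b h ∈ M := by
    intro φ h
    obtain ⟨d, rfl⟩ := hsurj φ
    have step : ∀ z, L z b = 0 → f d₀ z ≠ 0 → ∃ hz : L z b = 0, transGL (L z) b hz ∈ M := by
      intro z hz hdz
      refine ⟨hz, ?_⟩
      set t := transGL ((f d₀ z)⁻¹ • L z) z (by rw [LinearMap.smul_apply, hself, smul_zero]) with ht
      have htb : (t : Matrix ι ι F) *ᵥ b = b := by
        rw [ht, transGL_mulVec, LinearMap.smul_apply, hz, smul_zero, zero_smul, add_zero]
      have hm := M.mul_mem (M.mul_mem (M.mul_mem (hHM (hT z (f d₀ z)⁻¹)) hd₀M)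
        (M.inv_mem (hHM (hT z (f d₀ z)⁻¹)))) (M.inv_mem hd₀M)
      have htinv : ∀ v, ((t⁻¹ : GL ι F) : Matrix ι ι F) *ᵥ v = v + (-((f d₀ z)⁻¹ • L z)) v • z := fun v => by
        rw [ht, transGL_inv, transGL_mulVec]
      rw [conj_transGL, transGL_inv (L d₀) b hd₀b] at hm
      convert hm using 1
      refine gl_ext fun v => ?_
      simp only [ht] at htinv htb ⊢
      simp only [Units.val_mul, ← Matrix.mulVec_mulVec, transGL_mulVec, LinearMap.comp_apply,
        Matrix.mulVecLin_apply, htinv, LinearMap.neg_apply, LinearMap.smul_apply, hL', smul_eq_mul, Matrix.mulVec_add,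
        Matrix.mulVec_smul, hb.add_left, hb.smul_left, htb]
      have hbz : f b z = 0 := hz
      have hbd : f b d₀ = 0 := hd₀b
      rw [hbd, hbz, hsw d₀ z]
      match_scalars <;> field_simp <;> ring
    by_cases hdd : f d₀ d = 0
    · obtain ⟨z, hz1, hz2⟩ := hfun d₀ b hd₀span
      have hzb : L z b = 0 := hz2
      obtain ⟨h1, hm1⟩ := step (d + z) (by rw [map_add, LinearMap.add_apply, h, hzb, add_zero])
        (by rw [hb.add_right, hdd, zero_add, hz1]; exact one_ne_zero)
      obtain ⟨h2, hm2⟩ := step z hzb (by rw [hz1]; exact one_ne_zero)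
      have := M.mul_mem hm1 (M.inv_mem hm2)
      rw [transGL_inv, transGL_mul] at this
      convert this using 1
      exact gl_ext fun v => by simp [L]
    · exact (step d h hdd).2
  refine sl_le_of_transvections M fun φ v hv => ?_
  by_cases hv0 : v = 0
  · subst hv0
    convert M.one_mem
    exact gl_ext fun x => by simp
  have hb0 : b ≠ 0 := by
    intro h
    exact hd₀span (by
      rw [h, Submodule.span_zero_singleton, Submodule.mem_bot]
      have : a = 0 := gl_mulVec_injective g (show (g : Matrix ι ι F) *ᵥ a = (g : Matrix ι ι F) *ᵥ 0 by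
        rw [Matrix.mulVec_zero]; exact h)
      apply (injective_iff_map_eq_zero L).mp ?_ d₀ ?_
      · exact ((LinearMap.injective_iff_surjective_of_finrank_eq_finrank Subspace.dual_finrank_eq.symm).mpr hsurj)
      · rw [hd₀, this, map_zero]; simp)
  by_cases hbv : f b v = 0
  · obtain ⟨x, hx⟩ := (hf.nondegenerate b hb0).2
    obtain ⟨y, hy⟩ := (hf.nondegenerate v hv0).1
    obtain ⟨w, hw1, hw2⟩ : ∃ w, f b w ≠ 0 ∧ f w v ≠ 0 := by
      by_cases hxv : f x v ≠ 0
      · exact ⟨x, hx, hxv⟩
      by_cases hby : f b y ≠ 0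
      · exact ⟨y, hby, hy⟩
      push Not at hxv hby
      exact ⟨x + y, by rw [hb.add_right, hby, add_zero]; exact hx, by rw [hb.add_left, hxv, zero_add]; exact hy⟩
    exact hA w (hA b hbM w hw1) v hw2 φ hv
  · exact hA b hbM v hbv φ hv

end Cfsg.Agent.H98
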