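import Cfsg.Agent.H98.HermBase
import Cfsg.Agent.H98.MaximalSL
import Cfsg.Agent.H98.MaximalSLSymp

set_option autoImplicit false

/-!
The similarity group of a unitary form is maximal in the special linear group.
-/

namespace Cfsg.Agent.H98.Herm

open scoped Matrix

variable {ι : Type} [Fintype ι] [DecidableEq ι] {F : Type*} [Field F] [Finite F]
variable {σ : F ≃+* F} {f : (ι → F) → (ι → F) → F} (hf : Cfsg.Geo.IsUnitaryForm σ f)

include hf

/-- `M` has the transvection with centre `a` and functional `f · b`. -/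
def HasTv (M : Subgroup (GL ι F)) (a b : ι → F) : Prop :=
  ∃ h : fl hf b a = 0, transGL (fl hf b) a h ∈ M

variable {M : Subgroup (GL ι F)}

theorem transGL_eq_of {φ ψ : (ι → F) →ₗ[F] F} {a : ι → F} {h : φ a = 0} {h' : ψ a = 0} (e : φ = ψ) :
    transGL φ a h = transGL ψ a h' := by subst e; rfl

theorem transGL_scale (φ : (ι → F) →ₗ[F] F) (a : ι → F) (k : F) (h : φ (k • a) = 0) (h' : (k • φ) a = 0) :
    transGL φ (k • a) h = transGL (k • φ) a h' :=
  gl_ext fun v => by
    rw [transGL_mulVec, transGL_mulVec, LinearMap.smul_apply, smul_smul, smul_eq_mul, mul_comm]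

theorem hasTv_of_eq {φ : (ι → F) →ₗ[F] F} {a b : ι → F} {h : φ a = 0} (e : φ = fl hf b)
    (hmem : transGL φ a h ∈ M) : HasTv hf M a b :=
  ⟨by rw [← e]; exact h, by rwa [← transGL_eq_of hf e (h := h)]⟩

theorem hasTv_add {a b b' : ι → F} (h1 : HasTv hf M a b) (h2 : HasTv hf M a b') : HasTv hf M a (b + b') := by
  obtain ⟨hb, hbM⟩ := h1
  obtain ⟨hb', hb'M⟩ := h2
  have := M.mul_mem hbM hb'M
  rw [transGL_mul] at this
  exact hasTv_of_eq hf (fl_add hf b b').symm this

theorem hasTv_zero (a : ι → F) : HasTv hf M a 0 := by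
  refine ⟨by rw [fl_apply, zero_right hf], ?_⟩
  convert M.one_mem using 1
  exact gl_ext fun v => by simp [fl_apply, zero_right hf]

theorem hasTv_neg {a b : ι → F} (h1 : HasTv hf M a b) : HasTv hf M a (-b) := by
  obtain ⟨hb, hbM⟩ := h1
  have := M.inv_mem hbM
  rw [transGL_inv] at this
  exact hasTv_of_eq hf (LinearMap.ext fun x => (neg_right hf x b).symm) this

variable (hH : Cfsg.Geo.similarityGroup f ⊓ Cfsg.Geo.specialLinear ι F ≤ M)
include hH

/-- Moving a transvection by a unitary transvection fixing its centre. -/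
theorem hasTv_move {a b w : ι → F} (h : HasTv hf M a b) (hw : f w w = 0) (haw : f a w = 0) {d : F}
    (hd : σ d = -d) : HasTv hf M a ((d * f b w) • w) := by
  obtain ⟨hb, hbM⟩ := h
  have hT := hH (uT_mem_sim hf hw hd)
  have hTa : (uT hf hw d : Matrix ι ι F) *ᵥ a = a := by
    rw [uT_mulVec, haw, mul_zero, zero_smul, add_zero]
  have hfun : (fl hf b).comp (Matrix.mulVecLin (((uT hf hw d)⁻¹ : GL ι F) : Matrix ι ι F)) =
      fl hf ((uT hf hw d : Matrix ι ι F) *ᵥ b) := LinearMap.ext fun x => by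
    rw [LinearMap.comp_apply, Matrix.mulVecLin_apply, fl_apply, fl_apply,
      ← uT_iso hf hw hd (((uT hf hw d)⁻¹ : GL ι F).val *ᵥ x) b, gl_mulVec_inv]
  have h2 := M.mul_mem (M.mul_mem hT hbM) (M.inv_mem hT)
  rw [conj_transGL] at h2
  have h3 : HasTv hf M a ((uT hf hw d : Matrix ι ι F) *ᵥ b) := by
    refine ⟨by rw [fl_apply, ← hTa, uT_iso hf hw hd]; exact hb, ?_⟩
    convert h2 using 1
    exact gl_ext fun v => by rw [transGL_mulVec, transGL_mulVec, ← hfun, hTa]
  have h4 := hasTv_add hf h3 (hasTv_neg hf ⟨hb, hbM⟩)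
  rwa [uT_mulVec, ← sub_eq_add_neg, add_sub_cancel_left] at h4

variable (hn : 9 ≤ Fintype.card ι)
include hn

/-- A transvection with isotropic centre and wrong axis generates the full transvection group of that centre. -/
theorem hasTv_all {a b : ι → F} (ha0 : a ≠ 0) (haa : f a a = 0) (hb : HasTv hf M a b) (hbne : ∀ k : F, b ≠ k • a) :
    ∀ x, f a x = 0 → HasTv hf M a x := by
  classical
  obtain ⟨ζ, hζ0, hζ⟩ := exists_skew hf
  have hab : f a b = 0 := hb.1
  set U := LinearMap.ker (LinearMap.pi fun i => fl hf ((![a] : Fin 1 → (ι → F)) i)) with hUdef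
  have hU : ∀ x, x ∈ U ↔ f x a = 0 := fun x => by
    rw [hUdef, mem_perp hf]
    simp [Fin.forall_fin_one]
  obtain ⟨e₁, he₁, e₂, he₂, q1, q2, q3, q4⟩ := exists_pair_in hf U (by
    have := finrank_perp hf (![a] : Fin 1 → (ι → F))
    rw [← hUdef] at this
    omega)
  -- an isotropic vector of `U` not orthogonal to `b`
  obtain ⟨w₁, hw₁U, hw₁, hbw⟩ : ∃ w ∈ U, f w w = 0 ∧ f b w ≠ 0 := by
    by_contra hc
    push Not at hc
    have hle := le_of_isotropic hf (U := U) (S := LinearMap.ker (fl hf b)) he₁ he₂ q1 q2 q3 q4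
      (fun w hw hww => LinearMap.mem_ker.mpr ((eq_zero_comm hf).mp (hc w hw hww)))
    obtain ⟨y, hy⟩ := (hf.nondegenerate a ha0).1
    refine hbne (σ (f y b / f y a)) (fl_injective hf (LinearMap.ext fun x => ?_))
    have hmem : x - (f x a / f y a) • y ∈ U := by
      rw [hU, sub_left hf, hf.smul_left, div_mul_cancel₀ _ hy, sub_self]
    have := LinearMap.mem_ker.mp (hle hmem)
    rw [fl_apply, sub_left hf, hf.smul_left, sub_eq_zero] at this
    rw [fl_apply, fl_apply, smul_right hf, hf.involutive, this]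
    ring
  have haw₁ : f a w₁ = 0 := (eq_zero_comm hf).mp ((hU w₁).mp hw₁U)
  -- its partner
  obtain ⟨y, hyU, hy⟩ : ∃ y ∈ U, f w₁ y ≠ 0 := by
    by_contra hc
    push Not at hc
    obtain ⟨z, hz⟩ := (hf.nondegenerate a ha0).1
    have hmem : b - (f b a / f z a) • z ∈ U := by
      rw [hU, sub_left hf, hf.smul_left, div_mul_cancel₀ _ hz, sub_self]
    have := hc _ hmem
    rw [(eq_zero_comm hf).mp hab, zero_div, zero_smul, sub_zero] at this
    exact hbw ((eq_zero_comm hf).mp this)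
  obtain ⟨w₂, hw₂U, hw₂, h12, h21⟩ := partner_in hf hw₁U hyU hw₁ hy
  set U₂ := LinearMap.ker (LinearMap.pi fun i => fl hf ((![a, w₁, w₂] : Fin 3 → (ι → F)) i)) with hU₂def
  have hU₂ : ∀ x, x ∈ U₂ ↔ f x a = 0 ∧ f x w₁ = 0 ∧ f x w₂ = 0 := fun x => by
    rw [hU₂def, mem_perp hf]
    simp [Fin.forall_fin_succ]
  obtain ⟨g₁, hg₁, g₂, hg₂, p1, p2, p3, p4⟩ := exists_pair_in hf U₂ (by
    have := finrank_perp hf (![a, w₁, w₂] : Fin 3 → (ι → F))
    rw [← hU₂def] at this
    omega)
  -- the scalar step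
  have step : ∀ (k : F) (w w' : ι → F), HasTv hf M a (k • w) → f w' w' = 0 → f w' a = 0 → ∀ d, σ d = -d →
      HasTv hf M a ((d * (k * f w w')) • w') := fun k w w' h hw' haw' d hd => by
    have := hasTv_move hf hH h hw' ((eq_zero_comm hf).mp haw') hd
    rwa [hf.smul_left] at this
  have hstart : HasTv hf M a ((ζ * f b w₁) • w₁) := hasTv_move hf hH hb hw₁ haw₁ hζ
  set k₀ := ζ * f b w₁
  have hk₀ : k₀ ≠ 0 := mul_ne_zero hζ0 hbw
  have hall₁ : ∀ t : F, HasTv hf M a (t • w₁) := by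
    intro t
    rcases eq_or_ne t 0 with rfl | ht
    · rw [zero_smul]; exact hasTv_zero hf a
    set β := t / (k₀ * ζ * ζ * ζ) with hβ
    set μ := - σ β
    set z := g₁ + μ • g₂ with hz
    obtain ⟨za, zw₁, zw₂⟩ := (hU₂ z).mp (U₂.add_mem hg₁ (U₂.smul_mem μ hg₂))
    have zz : f z z = μ + σ μ := by
      rw [hz, hf.add_left, add_right hf, add_right hf, hf.smul_left, hf.smul_left, smul_right hf, smul_right hf,
        p1, p2, p3, p4]
      ring
    set w₃ := w₁ + β • w₂ + z with hw₃def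
    have hw₃ : f w₃ w₃ = 0 := by
      simp only [hw₃def, hf.add_left, add_right hf, hf.smul_left, smul_right hf, hw₁, hw₂, h12, h21, zw₁, zw₂,
        (eq_zero_comm hf).mp zw₁, (eq_zero_comm hf).mp zw₂, zz, μ, map_neg, hf.involutive]
      ring
    have hw₃a : f w₃ a = 0 := by
      rw [hw₃def, hf.add_left, hf.add_left, hf.smul_left, za, (hU w₁).mp hw₁U, (hU w₂).mp hw₂U]; ring
    have f23 : f w₂ w₃ = 1 := by
      rw [hw₃def, add_right hf, add_right hf, smul_right hf, h21, hw₂, (eq_zero_comm hf).mp zw₂]; ring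
    have f31 : f w₃ w₁ = β := by
      rw [hw₃def, hf.add_left, hf.add_left, hf.smul_left, hw₁, h21, zw₁]; ring
    have s1 := step k₀ w₁ w₂ hstart hw₂ ((hU w₂).mp hw₂U) ζ hζ
    have s2 := step _ w₂ w₃ s1 hw₃ hw₃a ζ hζ
    have s3 := step _ w₃ w₁ s2 hw₁ ((hU w₁).mp hw₁U) ζ hζ
    rw [h12, f23, f31] at s3
    convert s3 using 2
    rw [hβ]; field_simp
  let S : Submodule F (ι → F) :=
    { carrier := {x | ∀ t : F, HasTv hf M a (t • x)}
      add_mem' := fun {x y} hx hy t => by rw [smul_add]; exact hasTv_add hf (hx t) (hy t)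
      zero_mem' := fun t => by rw [smul_zero]; exact hasTv_zero hf a
      smul_mem' := fun c x hx t => by rw [smul_smul]; exact hx _ }
  have hw₁S : w₁ ∈ S := hall₁
  have hnext : ∀ w w' : ι → F, w ∈ S → f w' w' = 0 → f w' a = 0 → f w w' ≠ 0 → w' ∈ S := by
    intro w w' hw hw' haw' hne t
    have := step (t / (ζ * f w w')) w w' (hw _) hw' haw' ζ hζ
    convert this using 2
    field_simp
  have hw₂S : w₂ ∈ S := hnext w₁ w₂ hw₁S hw₂ ((hU w₂).mp hw₂U) (h12 ▸ one_ne_zero)
  have hUS : U ≤ S := by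
    refine le_of_isotropic hf hw₁U hw₂U hw₁ hw₂ h12 h21 fun w hw hww => ?_
    by_cases h1 : f w₁ w = 0
    · by_cases h2 : f w₂ w = 0
      · have hsum : w + w₁ ∈ S := hnext w₂ (w + w₁) hw₂S
          (by rw [hf.add_left, add_right hf, add_right hf, hww, hw₁, h1, (eq_zero_comm hf).mp h1]; ring)
          (by rw [hf.add_left, (hU w).mp hw, (hU w₁).mp hw₁U, add_zero])
          (by rw [add_right hf, h2, h21, zero_add]; exact one_ne_zero)
        have := S.sub_mem hsum hw₁S
        rwa [add_sub_cancel_right] at this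
      · exact hnext w₂ w hw₂S hww ((hU w).mp hw) h2
    · exact hnext w₁ w hw₁S hww ((hU w).mp hw) h1
  intro x hx
  have := hUS ((hU x).mpr ((eq_zero_comm hf).mp hx)) 1
  rwa [one_smul] at this

/-- A transvection with isotropic centre and wrong axis generates the special linear group. -/
theorem sl_le_of_hasTv {a b : ι → F} (hMsl : M ≤ Cfsg.Geo.specialLinear ι F) (ha0 : a ≠ 0) (haa : f a a = 0)
    (hb : HasTv hf M a b) (hbne : ∀ k : F, b ≠ k • a) : Cfsg.Geo.specialLinear ι F ≤ M := by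
  classical
  obtain ⟨ζ, hζ0, hζ⟩ := exists_skew hf
  let C : Set (ι → F) := {v | ∀ (φ : (ι → F) →ₗ[F] F) (h : φ v = 0), transGL φ v h ∈ M}
  have haC : a ∈ C := by
    intro φ h
    obtain ⟨x, rfl⟩ := fl_surjective hf φ
    obtain ⟨h', hm⟩ := hasTv_all hf hH hn ha0 haa hb hbne x h
    exact hm
  have hsmul : ∀ (k : F), ∀ v ∈ C, k • v ∈ C := fun k v hv φ h => by
    rcases eq_or_ne k 0 with rfl | hk
    · convert M.one_mem using 1
      exact gl_ext fun y => by simp
    have h' : (k • φ) v = 0 := by rwa [LinearMap.smul_apply, ← map_smul]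
    rw [transGL_scale hf φ v k h h']
    exact hv _ _
  have hconj : ∀ g ∈ M, ∀ v ∈ C, (g : Matrix ι ι F) *ᵥ v ∈ C := by
    intro g hg v hv φ h
    have h' : (φ.comp (Matrix.mulVecLin (g : Matrix ι ι F))) v = 0 := h
    have := M.mul_mem (M.mul_mem hg (hv _ h')) (M.inv_mem hg)
    rw [conj_transGL] at this
    convert this using 1
    exact gl_ext fun y => by simp [gl_mulVec_inv]
  have hadd : ∀ u ∈ C, ∀ v ∈ C, u + v ∈ C := by
    intro u hu v hv
    by_cases hmem : u ∈ Submodule.span F {v}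
    · obtain ⟨k, rfl⟩ := Submodule.mem_span_singleton.mp hmem
      rw [show k • v + v = (k + 1) • v by rw [add_smul, one_smul]]
      exact hsmul _ _ hv
    · obtain ⟨φ, hφu, hφker⟩ := exists_functional hmem
      have hφv : φ v = 0 := hφker (Submodule.mem_span_singleton_self v)
      have := hconj _ (hv φ hφv) u hu
      rwa [transGL_mulVec, hφu, one_smul] at this
  let W : Submodule F (ι → F) :=
    { carrier := C
      add_mem' := fun {u v} hu hv => hadd u hu v hv
      zero_mem' := by simpa using hsmul 0 a haC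
      smul_mem' := fun k v hv => hsmul k v hv }
  have hnon : ∀ v w : ι → F, v ∈ W → f w w = 0 → f v w ≠ 0 → w ∈ W := by
    intro v w hv hw hne
    have h1 : (uT hf hw ζ : Matrix ι ι F) *ᵥ v ∈ W := hconj _ (hH (uT_mem_sim hf hw hζ)) v hv
    have h2 := W.smul_mem (ζ * f v w)⁻¹ (W.sub_mem h1 hv)
    rwa [uT_mulVec, add_sub_cancel_left, smul_smul, inv_mul_cancel₀ (mul_ne_zero hζ0 hne), one_smul] at h2
  have hiso : ∀ w, f w w = 0 → w ∈ W := by
    intro w hw
    rcases eq_or_ne w 0 with rfl | hw0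
    · exact W.zero_mem
    obtain ⟨u, huu, hau, hwu⟩ := exists_common hf ha0 hw0 haa hw
    exact hnon u w (hnon a u haC huu hau) hw (fun h => hwu ((eq_zero_comm hf).mp h))
  obtain ⟨e, -, e', -, q1, q2, q3, q4⟩ := exists_pair_in hf ⊤ (by rw [finrank_top, Module.finrank_pi]; omega)
  have htop : (⊤ : Submodule F (ι → F)) ≤ W :=
    le_of_isotropic hf Submodule.mem_top Submodule.mem_top q1 q2 q3 q4 fun w _ hw => hiso w hw
  exact sl_le_of_transvections M fun φ v h => (htop (Submodule.mem_top (x := v))) φ h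

omit hH hn in
/-- A linear map preserving the form on isotropic vectors up to individual factors is a similarity. -/
theorem similarity_of_isotropic (hn : 9 ≤ Fintype.card ι) (g : GL ι F)
    (h : ∀ v, f v v = 0 → v ≠ 0 → ∃ l : F, ∀ y, f y v = l * f ((g : Matrix ι ι F) *ᵥ y) ((g : Matrix ι ι F) *ᵥ v))
    (hiso : ∀ v, f v v = 0 → f ((g : Matrix ι ι F) *ᵥ v) ((g : Matrix ι ι F) *ᵥ v) = 0) :
    g ∈ Cfsg.Geo.similarityGroup f := by
  classical
  obtain ⟨ζ, hζ0, hζ⟩ := exists_skew hf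
  set G : (ι → F) → (ι → F) := fun v => (g : Matrix ι ι F) *ᵥ v with hG
  obtain ⟨e, -, e', -, q1, q2, q3, q4⟩ := exists_pair_in hf ⊤ (by rw [finrank_top, Module.finrank_pi]; omega)
  have he0 : e ≠ 0 := fun h0 => by rw [h0, zero_left hf] at q3; exact zero_ne_one q3
  obtain ⟨L, hL⟩ := h e q1 he0
  have hsame : ∀ v w l l', f v v = 0 → f w w = 0 → f v w ≠ 0 → (∀ y, f y v = l * f (G y) (G v)) →
      (∀ y, f y w = l' * f (G y) (G w)) → l = l' := by
    intro v w l l' hv hw hne hl hl'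
    obtain ⟨μ, hμ0, hμ⟩ : ∃ μ : F, μ ≠ 0 ∧ σ μ * f v w + μ * f w v = 0 :=
      ⟨ζ * f v w, mul_ne_zero hζ0 hne, by rw [map_mul, hζ, sigma_apply hf]; ring⟩
    set z := v + μ • w with hzdef
    have hzz : f z z = 0 := by
      rw [hzdef, hf.add_left, add_right hf, add_right hf, hf.smul_left, hf.smul_left, smul_right hf, smul_right hf,
        hv, hw]
      linear_combination hμ
    have hz0 : z ≠ 0 := fun h0 => by
      have h1 : f v z = 0 := by rw [h0, zero_right hf]
      rw [hzdef, add_right hf, smul_right hf, hv, zero_add, mul_eq_zero] at h1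
      exact h1.elim (fun h2 => hμ0 (by rw [← hf.involutive μ, h2, map_zero])) hne
    obtain ⟨lz, hlz⟩ := h z hzz hz0
    have hGz : G z = G v + μ • G w := by simp [hG, hzdef, Matrix.mulVec_add, Matrix.mulVec_smul]
    have key : ∀ y, l * f (G y) (G v) + σ μ * (l' * f (G y) (G w)) =
        lz * (f (G y) (G v) + σ μ * f (G y) (G w)) := fun y => by
      have := hlz y
      rw [hzdef, add_right hf, smul_right hf, hl, hl'] at this
      rw [this]
      change lz * f (G y) (G z) = _
      rw [hGz, add_right hf, smul_right hf]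
    have hσμ : σ μ ≠ 0 := by simpa using hμ0
    have hvw : f (G v) (G w) ≠ 0 := fun h0 => hne (by rw [hl', h0, mul_zero])
    have hwv : f (G w) (G v) ≠ 0 := fun h0 => hvw ((eq_zero_comm hf).mp h0)
    have k1 := key v
    rw [hiso v hv, mul_zero, zero_add, zero_add, ← mul_assoc, ← mul_assoc] at k1
    have k2 := key w
    rw [hiso w hw, mul_zero, mul_zero, add_zero, add_zero] at k2
    have e1 : l' = lz := mul_left_cancel₀ hσμ ((mul_right_cancel₀ hvw k1).trans (mul_comm _ _))
    exact (mul_right_cancel₀ hwv k2).trans e1.symm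
  let S : Submodule F (ι → F) :=
    { carrier := {x | ∀ y, f y x = L * f (G y) (G x)}
      add_mem' := fun {x x'} hx hx' y => by
        rw [add_right hf, hx, hx']; simp only [hG, Matrix.mulVec_add, add_right hf]; ring
      zero_mem' := fun y => by simp [hG, zero_right hf]
      smul_mem' := fun c x hx y => by
        rw [smul_right hf, hx]; simp only [hG, Matrix.mulVec_smul, smul_right hf]; ring }
  have htop : (⊤ : Submodule F (ι → F)) ≤ S := by
    refine le_of_isotropic hf Submodule.mem_top Submodule.mem_top q1 q2 q3 q4 fun w _ hw => ?_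
    rcases eq_or_ne w 0 with rfl | hw0
    · exact S.zero_mem
    obtain ⟨l, hl⟩ := h w hw hw0
    obtain ⟨u, huu, heu, hwu⟩ := exists_common hf he0 hw0 q1 hw
    obtain ⟨lu, hlu⟩ := h u huu (fun h0 => heu (by rw [h0, zero_right hf]))
    have e1 := hsame e u L lu q1 huu heu hL hlu
    have e2 := hsame w u l lu hw huu hwu hl hlu
    intro y
    rw [e1, ← e2]; exact hl y
  have hL0 : L ≠ 0 := fun h0 => by
    have := hL e'
    rw [q4, h0, zero_mul] at this
    exact one_ne_zero this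
  refine ⟨Units.mk0 L⁻¹ (inv_ne_zero hL0), fun u v => ?_⟩
  rw [Units.val_mk0, htop (Submodule.mem_top (x := v)) u, ← mul_assoc, inv_mul_cancel₀ hL0, one_mul]

omit hH hn in
/-- The similarity group is maximal. -/
theorem sl_unitary_maximal (hn : 9 ≤ Fintype.card ι) :
    Cfsg.Geo.IsMaximalIn (Cfsg.Geo.specialLinear ι F)
      (Cfsg.Geo.similarityGroup f ⊓ Cfsg.Geo.specialLinear ι F) := by
  classical
  obtain ⟨ζ, hζ0, hζ⟩ := exists_skew hf
  obtain ⟨e, -, e', -, q1, q2, q3, q4⟩ := exists_pair_in hf ⊤ (by rw [finrank_top, Module.finrank_pi]; omega)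
  have hstrict : ∃ x ∈ Cfsg.Geo.specialLinear ι F,
      x ∉ Cfsg.Geo.similarityGroup f ⊓ Cfsg.Geo.specialLinear ι F := by
    set U₂ := LinearMap.ker (LinearMap.pi fun i => fl hf ((![e, e'] : Fin 2 → (ι → F)) i)) with hU₂def
    have hU₂ : ∀ x, x ∈ U₂ ↔ f x e = 0 ∧ f x e' = 0 := fun x => by
      rw [hU₂def, mem_perp hf]; simp [Fin.forall_fin_two]
    obtain ⟨g₁, hg₁, g₂, hg₂, p1, p2, p3, p4⟩ := exists_pair_in hf U₂ (by
      have := finrank_perp hf (![e, e'] : Fin 2 → (ι → F))
      rw [← hU₂def] at this; omega)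
    obtain ⟨μ, hμ⟩ := exists_trace hf (a := (1 : F)) (map_one σ)
    set z := g₁ + μ • g₂ with hzdef
    obtain ⟨ze, ze'⟩ := (hU₂ z).mp (U₂.add_mem hg₁ (U₂.smul_mem μ hg₂))
    have hz1 : f z z = 1 := by
      rw [hzdef, hf.add_left, add_right hf, add_right hf, hf.smul_left, hf.smul_left, smul_right hf, smul_right hf,
        p1, p2, p3, p4]
      linear_combination hμ
    clear_value z
    have hze : fl hf e z = 0 := ze
    refine ⟨transGL (fl hf e) z hze, transGL_mem_sl _ _ _, fun hm => ?_⟩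
    obtain ⟨c, hc⟩ := hm.1
    have := hc e' e'
    rw [transGL_mulVec, fl_apply, q4, one_smul, q2, mul_zero, hf.add_left, add_right hf, add_right hf, q2, hz1,
      ze', (eq_zero_comm hf).mp ze'] at this
    simp at this
  refine isMaximalIn_of inf_le_right hstrict fun M h1 h2 g hgM hgH => ?_
  have hgS : g ∉ Cfsg.Geo.similarityGroup f := fun h => hgH ⟨h, h2 hgM⟩
  by_contra hcon
  apply hgS
  have hgen : ∀ v, f v v = 0 → v ≠ 0 →
      ∃ (φ : (ι → F) →ₗ[F] F) (h : φ ((g : Matrix ι ι F) *ᵥ v) = 0),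
        transGL φ ((g : Matrix ι ι F) *ᵥ v) h ∈ M ∧ ∀ y, φ ((g : Matrix ι ι F) *ᵥ y) = ζ * f y v := by
    intro v hv hv0
    have := M.mul_mem (M.mul_mem hgM (h1 (uT_mem_sim hf hv hζ))) (M.inv_mem hgM)
    rw [uT, conj_transGL] at this
    exact ⟨_, _, this, fun y => by simp [gl_inv_mulVec, fl_apply]⟩
  have hgne : ∀ v : ι → F, v ≠ 0 → (g : Matrix ι ι F) *ᵥ v ≠ 0 := fun v hv h0 =>
    hv (gl_mulVec_injective g (by change (g : Matrix ι ι F) *ᵥ v = (g : Matrix ι ι F) *ᵥ 0; rw [h0, Matrix.mulVec_zero]))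
  have hiso : ∀ v, f v v = 0 → f ((g : Matrix ι ι F) *ᵥ v) ((g : Matrix ι ι F) *ᵥ v) = 0 := by
    intro v hv
    rcases eq_or_ne v 0 with rfl | hv0
    · rw [Matrix.mulVec_zero, zero_left hf]
    by_contra hne
    obtain ⟨φ, hφ, hmem, hφy⟩ := hgen v hv hv0
    set a := (g : Matrix ι ι F) *ᵥ v with ha
    obtain ⟨p, hp⟩ := fl_surjective hf φ
    have hp0 : p ≠ 0 := fun h0 => by
      obtain ⟨y, hy⟩ := (hf.nondegenerate v hv0).1
      have := hφy y
      rw [← hp, h0, fl_apply, zero_right hf] at this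
      exact mul_ne_zero hζ0 hy this.symm
    set U := LinearMap.ker (LinearMap.pi fun i => fl hf ((![p] : Fin 1 → (ι → F)) i)) with hUdef
    have hU : ∀ x, x ∈ U ↔ f x p = 0 := fun x => by
      rw [hUdef, mem_perp hf]; simp [Fin.forall_fin_one]
    have haU : a ∈ U := (hU a).mpr (by rw [← fl_apply hf, hp]; exact hφ)
    obtain ⟨e₁, he₁, e₂, he₂, r1, r2, r3, r4⟩ := exists_pair_in hf U (by
      have := finrank_perp hf (![p] : Fin 1 → (ι → F))
      rw [← hUdef] at this; omega)
    obtain ⟨w, hwU, hww, haw⟩ : ∃ w ∈ U, f w w = 0 ∧ f a w ≠ 0 := by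
      by_contra hc
      push Not at hc
      exact hne (LinearMap.mem_ker.mp (le_of_isotropic hf (U := U) (S := LinearMap.ker (fl hf a)) he₁ he₂ r1 r2 r3 r4
        (fun w hw hww => LinearMap.mem_ker.mpr ((eq_zero_comm hf).mp (hc w hw hww))) haU))
    have hφw : φ w = 0 := by rw [← hp, fl_apply]; exact (hU w).mp hwU
    set T := uT hf hww ζ with hT
    have hTM := h1 (uT_mem_sim hf hww hζ)
    have hc := M.mul_mem (M.mul_mem (M.mul_mem hTM hmem) (M.inv_mem hTM)) (M.inv_mem hmem)
    set k := ζ * f a w with hk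
    have hk0 : k ≠ 0 := mul_ne_zero hζ0 haw
    have he : T * transGL φ a hφ * T⁻¹ * (transGL φ a hφ)⁻¹ =
        transGL (k • φ) w (by rw [LinearMap.smul_apply, hφw, smul_zero]) := by
      rw [transGL_inv, conj_transGL]
      refine gl_ext fun y => ?_
      have hcomp : ∀ x, φ (((T⁻¹ : GL ι F) : Matrix ι ι F) *ᵥ x) = φ x := fun x => by
        set u := ((T⁻¹ : GL ι F) : Matrix ι ι F) *ᵥ x
        have hx : (T : Matrix ι ι F) *ᵥ u = x := gl_mulVec_inv T x
        conv_rhs => rw [← hx]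
        rw [hT, uT_mulVec, map_add, map_smul, hφw, smul_zero, add_zero]
      simp only [Units.val_mul, ← Matrix.mulVec_mulVec, transGL_mulVec, LinearMap.comp_apply, Matrix.mulVecLin_apply,
        hcomp, LinearMap.neg_apply, map_add, map_smul, smul_eq_mul, hφ, mul_zero, add_zero, LinearMap.smul_apply]
      simp only [hT, uT_mulVec, hk]
      module
    rw [he] at hc
    have hb : k • φ = fl hf (σ k • p) := by rw [fl_smul, hf.involutive, hp]
    refine hcon (sl_le_of_hasTv hf h1 hn h2 ?_ hww (hasTv_of_eq hf hb hc) fun l hl => ?_)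
    · exact fun h0 => haw (by rw [h0, zero_right hf])
    · have e1 : f a (σ k • p) = 0 := by rw [smul_right hf, (hU a).mp haU, mul_zero]
      rw [hl, smul_right hf] at e1
      rcases mul_eq_zero.mp e1 with h0 | h0
      · have hl0 : l = 0 := by rw [← hf.involutive l, h0, map_zero]
        rw [hl0, zero_smul, smul_eq_zero] at hl
        exact hl.elim (fun h => hk0 (by rw [← hf.involutive k, h, map_zero])) hp0
      · exact haw h0
  refine similarity_of_isotropic hf hn g (fun v hv hv0 => ?_) hiso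
  obtain ⟨φ, hφ, hmem, hφy⟩ := hgen v hv hv0
  obtain ⟨p, hp⟩ := fl_surjective hf φ
  by_cases hex : ∃ k : F, p = k • (g : Matrix ι ι F) *ᵥ v
  · obtain ⟨k, hk⟩ := hex
    refine ⟨σ k / ζ, fun y => ?_⟩
    have := hφy y
    rw [← hp, hk, fl_apply, smul_right hf] at this
    rw [div_mul_eq_mul_div, this, mul_div_cancel_left₀ _ hζ0]
  · push Not at hex
    exact absurd (sl_le_of_hasTv hf h1 hn h2 (hgne v hv0) (hiso v hv) (hasTv_of_eq hf hp.symm hmem) hex) hcon

end Cfsg.Agent.H98.Herm
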