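import Cfsg.Agent.H98.SpSubfieldLine
import Cfsg.Agent.H98.MaximalSLSubfield
import Cfsg.Agent.H2.Basis
import Cfsg.Prelude.Def_GeometricClasses

set_option autoImplicit false
set_option linter.unusedSectionVars false

/-!
The subfield subgroup of a prime index subfield is maximal in the symplectic group.
-/

namespace Cfsg.Agent.H98

open scoped Matrix

variable {m : ℕ} {F : Type*} [Field F]

local notation "V" => (Fin m ⊕ Fin m → F)
local notation "Mat" => Matrix (Fin m ⊕ Fin m) (Fin m ⊕ Fin m) F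
local notation "β" => Cfsg.Agent.H2.sympBilin m F

variable {F₀ : Subfield F}

/-- Eigenvectors of an isometry for `1` and `-1` are orthogonal. -/
theorem beta_eigen (h2 : (2 : F) ≠ 0) {g : GL (Fin m ⊕ Fin m) F} (hg : g ∈ Cfsg.spGL m F) {a b : V}
    (ha : (g : Mat) *ᵥ a = a) (hb : (g : Mat) *ᵥ b = -b) : β a b = 0 := by
  have := mem_spGL.mp hg a b
  rw [ha, hb, map_neg] at this
  have h : (2 : F) * β a b = 0 := by linear_combination -this
  exact (mul_eq_zero.mp h).resolve_left h2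

/-- A sign involution on hyperbolic pairs. -/
theorem signGL_spGL (T : Finset (Fin m)) : (signGL (T.disjSum T) : GL (Fin m ⊕ Fin m) F) ∈ Cfsg.spGL m F := by
  rw [mem_spGL]
  intro u v
  simp only [Cfsg.Agent.H2.sympBilin_apply, Cfsg.Agent.H2.sympForm_apply, signGL_mulVec,
    Finset.inl_mem_disjSum, Finset.inr_mem_disjSum]
  refine Finset.sum_congr rfl fun i _ => ?_
  split_ifs <;> ring

section
variable [Fintype F] [NeZero m] {r : ℕ}

/-- The subfield subgroup is maximal in the symplectic group. -/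
theorem sp_subfield_maximal₃ (hm : 3 ≤ m) (hr : r.Prime) (hcard : Fintype.card F = Nat.card F₀ ^ r) :
    Cfsg.Geo.IsMaximalIn (Cfsg.spGL m F) (subGroupF (Fin m ⊕ Fin m) F₀ ⊓ Cfsg.spGL m F) := by
  classical
  haveI := Fintype.ofFinite F₀
  set i0 : Fin m := ⟨0, by omega⟩
  set i1 : Fin m := ⟨1, by omega⟩
  have h01 : i0 ≠ i1 := by simp [i0, i1, Fin.ext_iff]
  have hstrict : ∃ x ∈ Cfsg.spGL m F, x ∉ subGroupF (Fin m ⊕ Fin m) F₀ ⊓ Cfsg.spGL m F := by
    obtain ⟨c, hc⟩ : ∃ c : F, c ∉ F₀ := by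
      by_contra hall; push Not at hall
      have h1 : Fintype.card F ≤ Fintype.card F₀ :=
        Fintype.card_le_of_injective (fun c => (⟨c, hall c⟩ : F₀)) fun a b h => congrArg Subtype.val h
      rw [hcard, Nat.card_eq_fintype_card] at h1
      have h2 := Nat.pow_lt_pow_right (Fintype.one_lt_card (α := F₀)) hr.one_lt
      rw [pow_one] at h2; omega
    refine ⟨spTrans (eV i0) c, spTrans_mem _ _, fun h => hc ?_⟩
    have hfix : (spTrans (eV i0 : V) c : Mat) *ᵥ eV i0 = eV i0 := by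
      rw [spTrans_mulVec, beta_self, mul_zero, zero_smul, add_zero]
    have h1 := mulVec_rat (rational_of_fix h.1 (isRat_eV i0) (eV_ne_zero i0) hfix) (isRat_fV (F₀ := F₀) i0) (.inl i0)
    rw [spTrans_mulVec, beta_fV] at h1
    simpa [eV, fV] using h1
  refine isMaximalIn_of inf_le_right hstrict fun M h1 h2 g hgM hgH => ?_
  by_contra hcon
  have hM : IsSpProperOver F₀ M := ⟨h1, h2, hcon⟩
  have hgS : g ∉ subGroupF (Fin m ⊕ Fin m) F₀ := fun h => hgH ⟨h, h2 hgM⟩
  set v := (g : Mat) *ᵥ eV i0 with hv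
  have hkey : ∀ u' : V, IsRatVec F₀ u' → u' ≠ 0 → β u' v ≠ 0 := fun u' hu' hu'0 h =>
    hgS (sp_rat_orth_mem hm hr hcard hM hgM (isRat_eV i0) (eV_ne_zero i0) hu' hu'0 h)
  have hrm : 2 * m ≤ r := by
    by_contra hrn
    push Not at hrn
    let T : (Fin m ⊕ Fin m → F₀) → F := fun a => β (fun x => (a x : F)) v
    have hTni : ¬ Function.Injective T := fun hT => by
      have := Fintype.card_le_of_injective T hT
      rw [Fintype.card_fun, Fintype.card_sum, Fintype.card_fin, hcard, Nat.card_eq_fintype_card] at this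
      exact absurd this (not_le.mpr (Nat.pow_lt_pow_right (Fintype.one_lt_card (α := F₀)) (by omega)))
    obtain ⟨a, a', haa, hne⟩ := Function.not_injective_iff.mp hTni
    refine hkey ((fun x => (a x : F)) - fun x => (a' x : F))
      (isRat_sub (fun x => (a x).2) fun x => (a' x).2)
      (fun h => hne (funext fun x => Subtype.ext (sub_eq_zero.mp (congrFun h x)))) ?_
    rw [map_sub, LinearMap.sub_apply, sub_eq_zero]
    exact haa
  have hodd : Odd r := hr.odd_of_ne_two (by omega)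
  by_cases h2c : (2 : F) = 0
  · haveI : CharP F 2 := CharTwo.of_one_ne_zero_of_two_eq_zero one_ne_zero h2c
    haveI : Fact (Nat.Prime 2) := ⟨Nat.prime_two⟩
    have hsq : ∀ c : F, c * c ∈ F₀ → c ∈ F₀ := fun c hc => mem_subfield_of_pow_char 2 F₀ (by rwa [pow_two])
    have hww : ∀ w : V, w + w = 0 := fun w => by rw [← two_smul F, h2c, zero_smul]
    set i := spX (eV i0) (eV i1) (1 : F) with hidef
    have he01 : β (eV i0 : V) (eV i1) = 0 := by rw [beta_eV]; simp [eV]
    have hiS := spX_rat (F₀ := F₀) (isRat_eV i0) (isRat_eV i1) (one_mem _)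
    have hiM : i ∈ M := h1 hiS
    have hiv : ∀ w, (i : Mat) *ᵥ w = w + w (.inr i1) • eV i0 + w (.inr i0) • eV i1 := fun w => by
      rw [hidef, spX_mulVec he01, beta_eV_right, beta_eV_right, one_smul]; module
    have hii : i * i = 1 := by
      rw [hidef, spX_add he01, one_add_one_eq_two, h2c]
      exact gl_ext fun w => by simp [spX_mulVec he01]
    set j := g * spTrans (eV i0) 1 * g⁻¹ with hjdef
    have hj : j = spTrans v 1 := conj_spTrans (h2 hgM) _ _
    have hjM : j ∈ M := M.mul_mem (M.mul_mem hgM (h1 (spTrans_rat (isRat_eV i0) (one_mem _)))) (M.inv_mem hgM)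
    have hjj : j * j = 1 := by rw [hj, spTrans_add, one_add_one_eq_two, h2c, spTrans_zero]
    have hv0 : v ≠ 0 := fun h => by
      have := hkey (eV i0) (isRat_eV i0) (eV_ne_zero i0)
      rw [h, map_zero] at this; exact this rfl
    have hjH : j ∉ subGroupF (Fin m ⊕ Fin m) F₀ := fun h => by
      have hrat := rational_of_invol hsq hjj h
      obtain ⟨z, hz, hzv, -⟩ := exists_rat_pair (F₀ := F₀) hv0 hv0
      have h3 : IsRatVec F₀ (β z v • v) := by
        have h4 := isRat_sub (mulVec_rat hrat hz) hz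
        rwa [hj, spTrans_mulVec, add_sub_cancel_left, one_mul] at h4
      exact hkey _ h3 (smul_ne_zero hzv hv0) (by rw [map_smul, LinearMap.smul_apply, beta_self, smul_zero])
    rcases involution_pair hii hjj with hconj | ⟨k, hz1, hzz, hzi, hzj⟩
    · obtain ⟨c, hc⟩ := isConj_iff.mp hconj
      have hi' : i = c⁻¹ * j * c := by rw [← hc]; group
      set A := ((c⁻¹ : GL (Fin m ⊕ Fin m) F) : Mat) *ᵥ v
      have hform : ∀ w, ∃ α : F, (i : Mat) *ᵥ w = w + α • A := fun w => by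
        rw [hi', hj]
        simp only [Units.val_mul, ← Matrix.mulVec_mulVec, spTrans_mulVec, Matrix.mulVec_add, Matrix.mulVec_smul,
          gl_inv_mulVec]
        exact ⟨_, rfl⟩
      obtain ⟨α, hα⟩ := hform (fV i1)
      obtain ⟨γ, hγ⟩ := hform (fV i0)
      rw [hiv] at hα hγ
      have a0 := congrFun hα (.inl i0)
      have b0 := congrFun hγ (.inl i0)
      have b1 := congrFun hγ (.inl i1)
      simp [eV, fV, h01, h01.symm] at a0 b0 b1
      rcases b0 with h | h
      · rw [h, zero_mul] at b1; exact one_ne_zero b1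
      · rw [h, mul_zero] at a0; exact one_ne_zero a0
    · set z := (i * j) ^ k
      have hzM : z ∈ M := M.pow_mem (M.mul_mem hiM hjM) k
      have hzS : z ∈ subGroupF (Fin m ⊕ Fin m) F₀ := by
        refine sp_rat_orth_mem hm hr hcard hM hzM (isRat_eV i0) (eV_ne_zero i0) (isRat_eV i0) (eV_ne_zero i0) ?_
        have e0 : (i : Mat) *ᵥ fV i1 - fV i1 = eV i0 := by
          rw [hiv]; simp [fV, h01]
        have e1 : (z : Mat) *ᵥ eV i0 =
            (i : Mat) *ᵥ ((z : Mat) *ᵥ fV i1) - (z : Mat) *ᵥ fV i1 := by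
          conv_lhs => rw [← e0]
          rw [Matrix.mulVec_sub, Matrix.mulVec_mulVec, ← Units.val_mul, hzi, Units.val_mul, Matrix.mulVec_mulVec]
        rw [e1, hiv, add_assoc, add_sub_cancel_left, map_add, map_smul, map_smul, beta_self, he01, smul_zero,
          smul_zero, add_zero]
      have hzrat := rational_of_invol hsq hzz hzS
      obtain ⟨x, hx⟩ : ∃ x, (z : Mat) *ᵥ Pi.single x 1 - Pi.single x 1 ≠ 0 := by
        by_contra hall; push Not at hall
        refine hz1 (gl_ext fun w => ?_)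
        rw [Units.val_one, Matrix.one_mulVec, pi_eq_sum_univ' w, Matrix.mulVec_sum]
        exact Finset.sum_congr rfl fun y _ => by rw [Matrix.mulVec_smul, sub_eq_zero.mp (hall y)]
      have hur : IsRatVec F₀ ((z : Mat) *ᵥ Pi.single x 1 - Pi.single x 1) :=
        isRat_sub (mulVec_rat hzrat (isRat_single x)) (isRat_single x)
      refine hjH (sp_rat_orth_mem hm hr hcard hM hjM hur hx hur hx ?_)
      rw [Matrix.mulVec_sub, Matrix.mulVec_mulVec, ← Units.val_mul, ← hzj, Units.val_mul, ← Matrix.mulVec_mulVec]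
      set a : V := Pi.single x 1
      set b : V := (j : Mat) *ᵥ a
      have hiso := mem_spGL.mp (h2 hzM)
      have e3 : β ((z : Mat) *ᵥ a) b = β a ((z : Mat) *ᵥ b) := by
        conv_lhs => rw [← hiso, Matrix.mulVec_mulVec, ← Units.val_mul, hzz, Units.val_one, Matrix.one_mulVec]
      simp only [map_sub, LinearMap.sub_apply, hiso, e3]
      linear_combination (β a b - β a ((z : Mat) *ᵥ b)) * h2c
  · have hoddq : Odd (Nat.card F₀) := by
      have h4 : ¬ Fintype.card F % 2 = 0 := fun h => h2c (by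
        haveI : CharP F 2 := ringChar.of_eq (FiniteField.even_card_iff_char_two.mpr h)
        exact CharTwo.two_eq_zero)
      rw [hcard, ← Nat.even_iff, Nat.not_even_iff_odd, Nat.odd_pow_iff hr.ne_zero] at h4
      exact h4
    have hsq : ∀ c : F, c * c ∈ F₀ → c ∈ F₀ := fun c hc => mem_subfield_of_sq F₀ hodd hoddq hcard hc
    set D : GL (Fin m ⊕ Fin m) F := signGL (({i0} : Finset (Fin m)).disjSum {i0}) with hD
    have hDS : D ∈ subGroupF (Fin m ⊕ Fin m) F₀ ⊓ Cfsg.spGL m F :=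
      ⟨(signGL_mem F₀ _ (by rw [Finset.card_disjSum]; exact ⟨1, rfl⟩)).1, signGL_spGL _⟩
    set j := g * D * g⁻¹ with hjdef
    have hjM : j ∈ M := M.mul_mem (M.mul_mem hgM (h1 hDS)) (M.inv_mem hgM)
    have hjj : j * j = 1 := by
      calc g * D * g⁻¹ * (g * D * g⁻¹) = g * (D * D) * g⁻¹ := by group
        _ = 1 := by rw [hD, signGL_sq]; simp
    have hjv : (j : Mat) *ᵥ v = -v := by
      rw [hjdef, hv]
      simp only [Units.val_mul, ← Matrix.mulVec_mulVec, gl_inv_mulVec]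
      rw [← Matrix.mulVec_neg]
      congr 1
      funext x
      rw [hD, signGL_mulVec, Pi.neg_apply]
      by_cases hx : x = Sum.inl i0
      · subst hx; simp
      · simp [eV, hx]
    have hjne : ∀ z : GL (Fin m ⊕ Fin m) F, (z : Mat) = -1 → j ≠ z := fun z hz h => by
      have e : D = z := by
        refine gl_ext fun w => ?_
        have hD' : D = g⁻¹ * j * g := by rw [hjdef]; group
        rw [hD', h]
        simp only [Units.val_mul, ← Matrix.mulVec_mulVec, hz, Matrix.neg_mulVec, Matrix.one_mulVec,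
          Matrix.mulVec_neg, gl_inv_mulVec]
      have := congrFun (congrArg (fun w : GL (Fin m ⊕ Fin m) F => (w : Mat) *ᵥ eV i1) e) (.inl i1)
      simp only [hD, signGL_mulVec, hz, Matrix.neg_mulVec, Matrix.one_mulVec] at this
      simp [eV, h01.symm] at this
      exact h2c (by linear_combination this)
    have hjH : j ∉ subGroupF (Fin m ⊕ Fin m) F₀ := fun h => by
      have hrat := rational_of_invol hsq hjj h
      obtain ⟨x, hx⟩ : ∃ x, (j : Mat) *ᵥ Pi.single x 1 + Pi.single x 1 ≠ 0 := by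
        by_contra hall; push Not at hall
        refine hjne j (Matrix.ext_of_mulVec_single fun y => ?_) rfl
        rw [eq_neg_of_add_eq_zero_left (hall y), Matrix.neg_mulVec, Matrix.one_mulVec]
      refine hkey _ (isRat_add (mulVec_rat hrat (isRat_single x)) (isRat_single x)) hx ?_
      refine beta_eigen h2c (h2 hjM) ?_ hjv
      rw [Matrix.mulVec_add, Matrix.mulVec_mulVec, ← Units.val_mul, hjj, Units.val_one, Matrix.one_mulVec, add_comm]
    refine hjH (sp_rat_orth_mem hm hr hcard hM hjM (isRat_eV i0) (eV_ne_zero i0) (isRat_eV i0) (eV_ne_zero i0) ?_)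
    have hiso := mem_spGL.mp (h2 hjM) (eV i0) ((j : Mat) *ᵥ eV i0)
    rw [Matrix.mulVec_mulVec, ← Units.val_mul, hjj, Units.val_one, Matrix.one_mulVec,
      beta_swap (eV i0 : V) ((j : Mat) *ᵥ eV i0)] at hiso
    have h : (2 : F) * β (eV i0) ((j : Mat) *ᵥ eV i0) = 0 := by linear_combination -hiso
    exact (mul_eq_zero.mp h).resolve_left h2c

/-- The subfield subgroup of any rational structure of the form is conjugate to the standard one by a similitude. -/
theorem exists_similitude_frame (ζ : F) (hζ : ζ ≠ 0) (P : GL (Fin m ⊕ Fin m) F)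
    (hP : Cfsg.Geo.IsFormRationalStructure (Cfsg.sympForm m F) F₀ ζ P) :
    ∃ Q : GL (Fin m ⊕ Fin m) F, Cfsg.Geo.subfieldSubgroup F₀ Q = Cfsg.Geo.subfieldSubgroup F₀ P ∧
      ∀ u v : V, β ((Q : Mat) *ᵥ u) ((Q : Mat) *ᵥ v) = ζ⁻¹ * β u v := by
  classical
  let inc : (Fin m ⊕ Fin m → F₀) → V := fun a x => (a x : F)
  have hinc : ∀ a, IsRatVec F₀ (inc a) := fun a x => (a x).2
  have hval : ∀ a b, ζ * β ((P : Mat) *ᵥ inc a) ((P : Mat) *ᵥ inc b) ∈ F₀ := fun a b => by
    rw [Cfsg.Agent.H2.sympBilin_apply]; exact hP _ _ (hinc a) (hinc b)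
  let B : LinearMap.BilinForm F₀ (Fin m ⊕ Fin m → F₀) := LinearMap.mk₂ F₀
    (fun a b => (⟨ζ * β ((P : Mat) *ᵥ inc a) ((P : Mat) *ᵥ inc b), hval a b⟩ : F₀))
    (fun a a' b => Subtype.ext (show ζ * β ((P : Mat) *ᵥ (inc a + inc a')) ((P : Mat) *ᵥ inc b) =
        ζ * β ((P : Mat) *ᵥ inc a) ((P : Mat) *ᵥ inc b) + ζ * β ((P : Mat) *ᵥ inc a') ((P : Mat) *ᵥ inc b) by
      rw [Matrix.mulVec_add, map_add, LinearMap.add_apply, mul_add]))
    (fun c a b => Subtype.ext (show ζ * β ((P : Mat) *ᵥ ((c : F) • inc a)) ((P : Mat) *ᵥ inc b) =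
        (c : F) * (ζ * β ((P : Mat) *ᵥ inc a) ((P : Mat) *ᵥ inc b)) by
      rw [Matrix.mulVec_smul, map_smul, LinearMap.smul_apply, smul_eq_mul]; ring))
    (fun a b b' => Subtype.ext (show ζ * β ((P : Mat) *ᵥ inc a) ((P : Mat) *ᵥ (inc b + inc b')) =
        ζ * β ((P : Mat) *ᵥ inc a) ((P : Mat) *ᵥ inc b) + ζ * β ((P : Mat) *ᵥ inc a) ((P : Mat) *ᵥ inc b') by
      rw [Matrix.mulVec_add, map_add, mul_add]))
    (fun c a b => Subtype.ext (show ζ * β ((P : Mat) *ᵥ inc a) ((P : Mat) *ᵥ ((c : F) • inc b)) =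
        (c : F) * (ζ * β ((P : Mat) *ᵥ inc a) ((P : Mat) *ᵥ inc b)) by
      rw [Matrix.mulVec_smul, map_smul, smul_eq_mul]; ring))
  have hB : ∀ a b, (B a b : F) = ζ * β ((P : Mat) *ᵥ inc a) ((P : Mat) *ᵥ inc b) := fun a b => rfl
  have halt : B.IsAlt := fun a => Subtype.ext (by rw [hB, beta_self, mul_zero]; rfl)
  have hsingle : ∀ x, inc (Pi.single x 1) = (Pi.single x 1 : V) := fun x => funext fun y => by
    simp only [inc, Pi.single_apply]; split_ifs <;> rfl
  have hsep : ∀ a, (∀ b, B a b = 0) → a = 0 := by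
    intro a ha
    have h0 : (P : Mat) *ᵥ inc a = 0 := (Cfsg.Agent.H2.sympBilin_nondegenerate m F).1 _ fun w => by
      rw [← gl_mulVec_inv P w, pi_eq_sum_univ' (((P⁻¹ : GL (Fin m ⊕ Fin m) F) : Mat) *ᵥ w), Matrix.mulVec_sum,
        map_sum]
      refine Finset.sum_eq_zero fun x _ => ?_
      rw [Matrix.mulVec_smul, map_smul]
      have h1 := congrArg Subtype.val (ha (Pi.single x 1))
      rw [hB, hsingle] at h1
      rw [(mul_eq_zero.mp h1).resolve_left hζ, smul_zero]
    have h1 : inc a = 0 := gl_mulVec_injective P (by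
      change (P : Mat) *ᵥ inc a = (P : Mat) *ᵥ 0
      rw [h0, Matrix.mulVec_zero])
    exact funext fun x => Subtype.ext (congrFun h1 x)
  have hnd : B.Nondegenerate :=
    (LinearMap.IsRefl.nondegenerate_iff_separatingLeft halt.isRefl).mpr hsep
  obtain ⟨m', e, hdim, he⟩ := Cfsg.Agent.H2.exists_equiv_std B hnd halt
  obtain rfl : m' = m := by
    rw [Module.finrank_pi, Fintype.card_sum, Fintype.card_fin] at hdim; omega
  let A₀ := glOfEquiv e.symm
  set A := Matrix.GeneralLinearGroup.map (F₀.subtype : F₀ →+* F) A₀ with hA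
  have hAS : A ∈ subGroupF (Fin m' ⊕ Fin m') F₀ := le_sup_left (a := (Matrix.GeneralLinearGroup.map
    (F₀.subtype : F₀ →+* F)).range) ⟨A₀, rfl⟩
  have hAinc : ∀ a, (A : Matrix (Fin m' ⊕ Fin m') (Fin m' ⊕ Fin m') F) *ᵥ inc a = inc (e.symm a) := fun a => by
    funext x
    rw [hA, ← glOfEquiv_mulVec e.symm a]
    simp only [inc, Matrix.mulVec, dotProduct, Matrix.GeneralLinearGroup.map_apply]
    push_cast
    rfl
  refine ⟨P * A, ?_, fun u v => ?_⟩
  · rw [subfieldSubgroup_eq_map, subfieldSubgroup_eq_map, show (MulAut.conj (P * A)).toMonoidHom =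
      (MulAut.conj P).toMonoidHom.comp (MulAut.conj A).toMonoidHom by ext1 x; simp [mul_assoc], ← Subgroup.map_map]
    congr 1
    refine le_antisymm ?_ fun x hx => ⟨A⁻¹ * x * A, Subgroup.mul_mem _ (Subgroup.mul_mem _
      (Subgroup.inv_mem _ hAS) hx) hAS, by change A * (A⁻¹ * x * A) * A⁻¹ = x; group⟩
    rintro _ ⟨x, hx, rfl⟩
    exact Subgroup.mul_mem _ (Subgroup.mul_mem _ hAS hx) (Subgroup.inv_mem _ hAS)
  · have hbasis : ∀ x y : Fin m' ⊕ Fin m', Cfsg.Agent.H2.sympBilin m' F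
        (((P * A : GL (Fin m' ⊕ Fin m') F) : Matrix (Fin m' ⊕ Fin m') (Fin m' ⊕ Fin m') F) *ᵥ Pi.single x 1)
        (((P * A : GL (Fin m' ⊕ Fin m') F) : Matrix (Fin m' ⊕ Fin m') (Fin m' ⊕ Fin m') F) *ᵥ Pi.single y 1) =
        ζ⁻¹ * Cfsg.Agent.H2.sympBilin m' F (Pi.single x 1) (Pi.single y 1) := fun x y => by
      rw [← hsingle x, ← hsingle y, Units.val_mul, ← Matrix.mulVec_mulVec, ← Matrix.mulVec_mulVec, hAinc, hAinc,
        eq_inv_mul_iff_mul_eq₀ hζ, ← hB, ← he, e.apply_symm_apply, e.apply_symm_apply,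
        Cfsg.Agent.H2.sympBilin_apply, Cfsg.Agent.H2.sympForm_apply, Cfsg.Agent.H2.sympForm_apply]
      push_cast
      rfl
    conv_lhs => rw [pi_eq_sum_univ' u, pi_eq_sum_univ' v]
    conv_rhs => rw [pi_eq_sum_univ' u, pi_eq_sum_univ' v]
    simp only [Matrix.mulVec_sum, Matrix.mulVec_smul, map_sum, map_smul, LinearMap.sum_apply, LinearMap.smul_apply,
      smul_eq_mul, hbasis, Finset.mul_sum]
    exact Finset.sum_congr rfl fun x _ => Finset.sum_congr rfl fun y _ => by ring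

/-- Similitudes normalise the symplectic group. -/
theorem spGL_map_similitude {Q : GL (Fin m ⊕ Fin m) F} {k : F} (hk : k ≠ 0)
    (hQ : ∀ u v : V, β ((Q : Mat) *ᵥ u) ((Q : Mat) *ᵥ v) = k * β u v) :
    (Cfsg.spGL m F).map (MulAut.conj Q).toMonoidHom = Cfsg.spGL m F := by
  have hQi : ∀ u v : V, β (((Q⁻¹ : GL (Fin m ⊕ Fin m) F) : Mat) *ᵥ u) (((Q⁻¹ : GL (Fin m ⊕ Fin m) F) : Mat) *ᵥ v) =
      k⁻¹ * β u v := fun u v => by
    rw [eq_inv_mul_iff_mul_eq₀ hk, ← hQ, gl_mulVec_inv, gl_mulVec_inv]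
  refine le_antisymm ?_ fun x hx => ⟨Q⁻¹ * x * Q, ?_, by change Q * (Q⁻¹ * x * Q) * Q⁻¹ = x; group⟩
  · rintro _ ⟨x, hx, rfl⟩
    refine mem_spGL.mpr fun u v => ?_
    change β (((Q * x * Q⁻¹ : GL (Fin m ⊕ Fin m) F) : Mat) *ᵥ u) (((Q * x * Q⁻¹ : GL (Fin m ⊕ Fin m) F) : Mat) *ᵥ v) = _
    simp only [Units.val_mul, ← Matrix.mulVec_mulVec, hQ, mem_spGL.mp hx, hQi, ← mul_assoc, mul_inv_cancel₀ hk,
      one_mul]
  · refine mem_spGL.mpr fun u v => ?_
    simp only [Units.val_mul, ← Matrix.mulVec_mulVec, hQi, mem_spGL.mp hx, hQ, ← mul_assoc, inv_mul_cancel₀ hk,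
      one_mul]

/-- The subfield subgroup of a rational structure is maximal in the symplectic group. -/
theorem sp_subfield_maximal₃' (hm : 3 ≤ m) (hr : r.Prime) (hcard : Fintype.card F = Nat.card F₀ ^ r)
    (P : GL (Fin m ⊕ Fin m) F) (ζ : F) (hζ : ζ ≠ 0)
    (hP : Cfsg.Geo.IsFormRationalStructure (Cfsg.sympForm m F) F₀ ζ P) :
    Cfsg.Geo.IsMaximalIn (Cfsg.spGL m F) (Cfsg.Geo.subfieldSubgroup F₀ P ⊓ Cfsg.spGL m F) := by
  obtain ⟨Q, hQ, hQsim⟩ := exists_similitude_frame ζ hζ P hP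
  have h := isMaximalIn_conj Q (sp_subfield_maximal₃ hm hr hcard)
  rw [Subgroup.map_inf _ _ _ (MulAut.conj Q).injective, spGL_map_similitude (inv_ne_zero hζ) hQsim,
    ← subfieldSubgroup_eq_map, hQ] at h
  exact h

/-- The subfield subgroup is maximal in the symplectic group, for rank at least 5. -/
theorem sp_subfield_maximal₅ (hm : 5 ≤ m) (hr : r.Prime) (hcard : Fintype.card F = Nat.card F₀ ^ r) :
    Cfsg.Geo.IsMaximalIn (Cfsg.spGL m F) (subGroupF (Fin m ⊕ Fin m) F₀ ⊓ Cfsg.spGL m F) :=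
  sp_subfield_maximal₃ (by omega) hr hcard

/-- The subfield subgroup of a rational structure is maximal, for rank at least 5. -/
theorem sp_subfield_maximal₅' (hm : 5 ≤ m) (hr : r.Prime) (hcard : Fintype.card F = Nat.card F₀ ^ r)
    (P : GL (Fin m ⊕ Fin m) F) (ζ : F) (hζ : ζ ≠ 0)
    (hP : Cfsg.Geo.IsFormRationalStructure (Cfsg.sympForm m F) F₀ ζ P) :
    Cfsg.Geo.IsMaximalIn (Cfsg.spGL m F) (Cfsg.Geo.subfieldSubgroup F₀ P ⊓ Cfsg.spGL m F) :=
  sp_subfield_maximal₃' (by omega) hr hcard P ζ hζ hP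

/-- The subfield subgroup is maximal in the symplectic group, for rank at least 7. -/
theorem sp_subfield_maximal (hm : 7 ≤ m) (hr : r.Prime) (hcard : Fintype.card F = Nat.card F₀ ^ r) :
    Cfsg.Geo.IsMaximalIn (Cfsg.spGL m F) (subGroupF (Fin m ⊕ Fin m) F₀ ⊓ Cfsg.spGL m F) :=
  sp_subfield_maximal₅ (by omega) hr hcard

/-- The subfield subgroup of a rational structure is maximal, for rank at least 7. -/
theorem sp_subfield_maximal' (hm : 7 ≤ m) (hr : r.Prime) (hcard : Fintype.card F = Nat.card F₀ ^ r)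
    (P : GL (Fin m ⊕ Fin m) F) (ζ : F) (hζ : ζ ≠ 0)
    (hP : Cfsg.Geo.IsFormRationalStructure (Cfsg.sympForm m F) F₀ ζ P) :
    Cfsg.Geo.IsMaximalIn (Cfsg.spGL m F) (Cfsg.Geo.subfieldSubgroup F₀ P ⊓ Cfsg.spGL m F) :=
  sp_subfield_maximal₅' (by omega) hr hcard P ζ hζ hP

end

end Cfsg.Agent.H98
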