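import Cfsg.Agent.H98.HermSub
import Cfsg.Agent.H98.HermStd

set_option autoImplicit false
set_option linter.unusedSectionVars false

/-!
Stabilisers of totally singular and of non-degenerate subspaces are maximal in `SU`.
-/

namespace Cfsg.Agent.H98.Herm

open scoped Matrix

variable {F : Type*} [Field F] [Fintype F] {q n : ℕ} (hF : Fintype.card F = q ^ 2)

local notation "Mat" => Matrix (Fin n) (Fin n) F
local notation "G₁" => Cfsg.GU n F q ⊓ Cfsg.Geo.specialLinear (Fin n) F

include hF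

/-- The stabiliser of a totally singular subspace is maximal. -/
theorem su_stab_ts_maximal (hn : 4 ≤ n) (W : Submodule F (Fin n → F)) (hW0 : W ≠ ⊥)
    (hW : ∀ u ∈ W, ∀ v ∈ W, Cfsg.hermForm n F q u v = 0) :
    Cfsg.Geo.IsMaximalIn G₁ (Cfsg.Geo.subspaceStabilizer W ⊓ G₁) := by
  classical
  set hf := isUnitary_std (n := n) hF
  obtain ⟨ζ, hζ0, hζ⟩ := exists_skew hf
  have hWle : W ≤ perp hf W := fun v hv => (mem_perpW hf).mpr fun w hw => hW v hv w hw
  obtain ⟨w₀, hw₀, hw₀0⟩ := Submodule.exists_mem_ne_zero_of_ne_bot hW0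
  have hw₀₀ := hW w₀ hw₀ w₀ hw₀
  obtain ⟨y₀, hy₀⟩ := (hf.nondegenerate w₀ hw₀0).2
  obtain ⟨e, -, hee, hwe, -⟩ := partner_in hf (U := ⊤) (e := w₀) Submodule.mem_top Submodule.mem_top hw₀₀ hy₀
  have heW : e ∉ perp hf W := fun h => by
    have := (eq_zero_comm hf).mp ((mem_perpW hf).mp h w₀ hw₀)
    rw [hwe] at this; exact one_ne_zero this
  refine isMaximalIn_of inf_le_right ⟨uT hf hee ζ, uT_mem_su hF hee hζ, fun h => ?_⟩ fun M hHM hMK g hg hgH => ?_
  · have h1 := (mem_subspaceStabilizer.mp h.1 w₀).mp hw₀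
    rw [uT_mulVec, hwe, mul_one] at h1
    have h2 := W.smul_mem ζ⁻¹ (W.sub_mem h1 hw₀)
    rw [add_sub_cancel_left, smul_smul, inv_mul_cancel₀ hζ0, one_smul] at h2
    exact heW (hWle h2)
  have hiso : ∀ k ∈ M, ∀ a b, Cfsg.hermForm n F q ((k : Mat) *ᵥ a) ((k : Mat) *ᵥ b) = Cfsg.hermForm n F q a b :=
    fun k hk => (hMK hk).1
  have hCP : ∀ v ∈ perp hf W, Cfsg.hermForm n F q v v = 0 → v ∈ centres hf M := fun v hv hvv =>
    ⟨hvv, fun d hd => hHM ⟨uT_stab hf hvv (Or.inr hv) d, uT_mem_su hF hvv hd⟩⟩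
  have hgstab : g ∉ Cfsg.Geo.subspaceStabilizer W := fun h => hgH ⟨h, hMK hg⟩
  obtain ⟨p, hp, hpp, hu⟩ : ∃ p ∈ perp hf W, Cfsg.hermForm n F q p p = 0 ∧ (g : Mat) *ᵥ p ∉ perp hf W := by
    by_contra hc
    push Not at hc
    apply hgstab
    by_cases hex : ∃ p ∈ perp hf W, Cfsg.hermForm n F q p p = 0 ∧ p ∉ W
    · obtain ⟨p, hp, hpp, hpW⟩ := hex
      obtain ⟨y, hy, hpy⟩ : ∃ y ∈ perp hf W, Cfsg.hermForm n F q p y ≠ 0 := by
        by_contra h
        push Not at h
        rw [← perp_perp hf W, mem_perpW hf] at hpW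
        exact hpW h
      obtain ⟨p', hp', h1, h2, h3⟩ := partner_in hf hp hy hpp hpy
      let L : Submodule F (Fin n → F) := (perp hf W).comap (Matrix.mulVecLin (g : Mat))
      have hL : perp hf W ≤ L := le_of_isotropic hf hp hp' hpp h1 h2 h3 fun w hw hww => hc w hw hww
      refine stab_of_maps_into fun w hw => ?_
      rw [← perp_perp hf W, mem_perpW hf]
      intro x hx
      have hx' : ((g⁻¹ : GL (Fin n) F) : Mat) *ᵥ x ∈ perp hf W :=
        ((mem_subspaceStabilizer.mp (stab_of_maps_into (W := perp hf W) hL)) _).mpr (by rwa [gl_mulVec_inv])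
      rw [← gl_mulVec_inv g x, hiso g hg]
      exact (eq_zero_comm hf).mp ((mem_perpW hf).mp hx' w hw)
    · push Not at hex
      refine stab_of_maps_into fun w hw => hex _ (hc w (hWle hw) (hW w hw w hw)) ?_
      rw [hiso g hg]; exact hW w hw w hw
  set u := (g : Mat) *ᵥ p
  have huC : u ∈ centres hf M := centres_conj hf hiso hg (hCP p hp hpp)
  have huu : Cfsg.hermForm n F q u u = 0 := huC.1
  refine su_le_of_uT hF hn fun v hvv d hd => ?_
  suffices hv : v ∈ centres hf M by
    obtain ⟨_, hv'⟩ := hv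
    exact hv' d hd
  by_cases hvP : v ∈ perp hf W
  · exact hCP v hvP hvv
  obtain ⟨z, hz, hzu, hzv⟩ : ∃ z ∈ W, Cfsg.hermForm n F q u z ≠ 0 ∧ Cfsg.hermForm n F q v z ≠ 0 := by
    obtain ⟨a, ha, hau⟩ : ∃ a ∈ W, Cfsg.hermForm n F q u a ≠ 0 := by
      by_contra h; push Not at h; exact hu ((mem_perpW hf).mpr h)
    obtain ⟨b, hb, hbv⟩ : ∃ b ∈ W, Cfsg.hermForm n F q v b ≠ 0 := by
      by_contra h; push Not at h; exact hvP ((mem_perpW hf).mpr h)
    by_cases hav : Cfsg.hermForm n F q v a = 0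
    · by_cases hbu : Cfsg.hermForm n F q u b = 0
      · exact ⟨a + b, W.add_mem ha hb, by rw [add_right hf, hbu, add_zero]; exact hau,
          by rw [add_right hf, hav, zero_add]; exact hbv⟩
      · exact ⟨b, hb, hbu, hbv⟩
    · exact ⟨a, ha, hau, hav⟩
  obtain ⟨c, hc⟩ : ∃ c, (frobQ hF) c * Cfsg.hermForm n F q u z = 1 :=
    ⟨frobQ hF ((Cfsg.hermForm n F q u z)⁻¹), by rw [hf.involutive, inv_mul_cancel₀ hzu]⟩
  set z' := c • z with hz'def
  have hc0 : c ≠ 0 := fun h0 => by rw [h0, map_zero, zero_mul] at hc; exact zero_ne_one hc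
  have huz : Cfsg.hermForm n F q u z' = 1 := by rw [hz'def, smul_right hf, hc]
  have hvz : Cfsg.hermForm n F q v z' ≠ 0 := by
    rw [hz'def, smul_right hf]; exact mul_ne_zero (by simpa using hc0) hzv
  have hz'W : z' ∈ W := W.smul_mem c hz
  have hzz : Cfsg.hermForm n F q z' z' = 0 := hW z' hz'W z' hz'W
  set v' := (Cfsg.hermForm n F q v z')⁻¹ • v with hv'def
  clear_value z'
  have hv'z : Cfsg.hermForm n F q v' z' = 1 := by rw [hv'def, hf.smul_left, inv_mul_cancel₀ hvz]
  have hv'v' : Cfsg.hermForm n F q v' v' = 0 := by rw [hv'def, hf.smul_left, smul_right hf, hvv, mul_zero, mul_zero]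
  set x := v' - u with hx
  have hxz : Cfsg.hermForm n F q x z' = 0 := by rw [hx, sub_left hf, hv'z, huz, sub_self]
  set γ := Cfsg.hermForm n F q u x with hγdef
  have hγ : γ + frobQ hF γ + Cfsg.hermForm n F q x x = 0 := by
    have e : v' = u + x := by rw [hx]; abel
    have h1 := hv'v'
    rw [e, hf.add_left, add_right hf, add_right hf, huu] at h1
    rw [hγdef, sigma_apply hf]
    linear_combination h1
  set E := eich hf hzz hxz γ with hE
  have hEH : E ∈ M := by
    refine hHM ⟨stab_of_maps_into fun w hw => ?_, fun a b => eich_iso hf hzz hxz hγ a b, eich_mem_sl hf hzz hxz γ⟩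
    rw [hE, eich_mulVec, hW w hw z' hz'W, zero_smul, add_zero]
    exact W.sub_mem hw (W.smul_mem _ hz'W)
  have hEu : (E : Mat) *ᵥ u = v' := by
    rw [hE, eich_mulVec, huz, one_smul, ← hγdef, hx]; module
  have h1 := centres_conj hf hiso hEH huC
  rw [hEu] at h1
  have h2 := centres_smul hf h1 (Cfsg.hermForm n F q v z')
  rwa [hv'def, smul_smul, mul_inv_cancel₀ hvz, one_smul] at h2

/-- The stabiliser of a non-degenerate subspace is maximal. -/
theorem su_stab_nd_maximal (hn : 13 ≤ n) (W : Submodule F (Fin n → F)) (hW0 : W ≠ ⊥)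
    (hW : ∀ x ∈ W, x ∈ perp (isUnitary_std (n := n) hF) W → x = 0) (hdim : 2 * Module.finrank F W < n) :
    Cfsg.Geo.IsMaximalIn G₁ (Cfsg.Geo.subspaceStabilizer W ⊓ G₁) := by
  classical
  set hf := isUnitary_std (n := n) hF with hfdef
  obtain ⟨ζ, hζ0, hζ⟩ := exists_skew hf
  set P := perp hf W with hPdef
  have hP : ∀ x ∈ P, x ∈ perp hf P → x = 0 := fun x hx hx' => by
    rw [hPdef, perp_perp hf] at hx'; exact hW x hx' hx
  have hcompl : IsCompl W P := isCompl_perp hf hW
  have hdimP : n ≤ Module.finrank F P + Module.finrank F W := by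
    have := finrank_perpW hf W; rwa [Fintype.card_fin] at this
  have hdecomp : ∀ v, ∃ a ∈ W, ∃ b ∈ P, v = a + b := fun v => by
    obtain ⟨a, ha, b, hb, he⟩ := Submodule.mem_sup.mp (hcompl.sup_eq_top.ge (Submodule.mem_top (x := v)))
    exact ⟨a, ha, b, hb, he.symm⟩
  have horth : ∀ a ∈ W, ∀ b ∈ P, Cfsg.hermForm n F q a b = 0 ∧ Cfsg.hermForm n F q b a = 0 := fun a ha b hb =>
    ⟨(eq_zero_comm hf).mp ((mem_perpW hf).mp hb a ha), (mem_perpW hf).mp hb a ha⟩
  -- pairs inside `P` orthogonal to at most two vectors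
  have hpairs : ∀ k ≤ 2, ∀ v : Fin k → (Fin n → F), ∃ g₁ ∈ P, ∃ g₂ ∈ P, (∀ i, Cfsg.hermForm n F q g₁ (v i) = 0) ∧
      (∀ i, Cfsg.hermForm n F q g₂ (v i) = 0) ∧ Cfsg.hermForm n F q g₁ g₁ = 0 ∧ Cfsg.hermForm n F q g₂ g₂ = 0 ∧
      Cfsg.hermForm n F q g₁ g₂ = 1 ∧ Cfsg.hermForm n F q g₂ g₁ = 1 := by
    intro k hk v
    set K := LinearMap.ker (LinearMap.pi fun i => fl hf (v i))
    have hU : Module.finrank F P ≤ Module.finrank F (P ⊓ K : Submodule F (Fin n → F)) + k := by
      have h1 := Submodule.finrank_sup_add_finrank_inf_eq P K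
      have h2 := Submodule.finrank_le (P ⊔ K)
      have h3 := finrank_perp hf v
      rw [Module.finrank_pi, Fintype.card_fin] at h2
      rw [Fintype.card_fin] at h3
      change n ≤ Module.finrank F K + k at h3
      change _ ≤ Module.finrank F ↥(P ⊓ K) + k
      omega
    obtain ⟨g₁, hg₁, g₂, hg₂, r⟩ := exists_pair_of_bound hf (P ⊓ K) fun T hT hTT => by
      have := ti_bound_rel hf hP (hT.trans inf_le_left) hTT
      omega
    exact ⟨g₁, hg₁.1, g₂, hg₂.1, (mem_perp hf v g₁).mp hg₁.2, (mem_perp hf v g₂).mp hg₂.2, r⟩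
  have hnormP : ∀ k ≤ 2, ∀ v : Fin k → (Fin n → F), ∀ c : F, frobQ hF c = c →
      ∃ z ∈ P, (∀ i, Cfsg.hermForm n F q z (v i) = 0) ∧ Cfsg.hermForm n F q z z = c := by
    intro k hk v c hc
    obtain ⟨g₁, hg₁, g₂, hg₂, o1, o2, p1, p2, p3, p4⟩ := hpairs k hk v
    obtain ⟨μ, hμ⟩ := exists_trace hf hc
    refine ⟨g₁ + μ • g₂, P.add_mem hg₁ (P.smul_mem μ hg₂),
      fun i => by rw [hf.add_left, hf.smul_left, o1, o2, mul_zero, add_zero], ?_⟩
    rw [hf.add_left, add_right hf, add_right hf, hf.smul_left, hf.smul_left, smul_right hf, smul_right hf,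
      p1, p2, p3, p4]
    linear_combination hμ
  have hfix : ∀ a, frobQ hF (- Cfsg.hermForm n F q a a) = - Cfsg.hermForm n F q a a := fun a => by
    rw [map_neg, sigma_apply hf]
  refine isMaximalIn_of inf_le_right ?_ fun M hHM hMK g hg hgH => ?_
  · obtain ⟨a, ha, ha0⟩ := Submodule.exists_mem_ne_zero_of_ne_bot hW0
    obtain ⟨b₀, hb₀, -, hbb₀⟩ := hnormP 0 (by omega) Fin.elim0 _ (hfix a)
    obtain ⟨b, hb, hb0, hbb⟩ : ∃ b ∈ P, b ≠ 0 ∧ Cfsg.hermForm n F q b b = - Cfsg.hermForm n F q a a := by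
      rcases eq_or_ne b₀ 0 with rfl | h0
      · obtain ⟨g₁, hg₁, g₂, -, -, -, p1, -, p3, -⟩ := hpairs 0 (by omega) Fin.elim0
        refine ⟨g₁, hg₁, fun h => ?_, ?_⟩
        · rw [h, zero_left hf] at p3; exact zero_ne_one p3
        · rw [p1, ← hbb₀, zero_left hf]
      · exact ⟨b₀, hb₀, h0, hbb₀⟩
    obtain ⟨w, hw, hwa⟩ : ∃ w ∈ W, Cfsg.hermForm n F q w a ≠ 0 := by
      by_contra h; push Not at h
      exact ha0 (hW a ha ((mem_perpW hf).mpr fun w hw => (eq_zero_comm hf).mp (h w hw)))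
    have hvv : Cfsg.hermForm n F q (a + b) (a + b) = 0 := by
      rw [hf.add_left, add_right hf, add_right hf, (horth a ha b hb).1, (horth a ha b hb).2, hbb]; ring
    refine ⟨uT hf hvv ζ, uT_mem_su hF hvv hζ, fun h => ?_⟩
    have h1 := (mem_subspaceStabilizer.mp h.1 w).mp hw
    rw [uT_mulVec, add_right hf, (horth w hw b hb).1, add_zero] at h1
    have h2 := W.smul_mem (ζ * Cfsg.hermForm n F q w a)⁻¹ (W.sub_mem h1 hw)
    rw [add_sub_cancel_left, smul_smul, inv_mul_cancel₀ (mul_ne_zero hζ0 hwa), one_smul] at h2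
    have h3 : b ∈ W := by simpa using W.sub_mem h2 ha
    exact hb0 (hW b h3 hb)
  have hiso : ∀ k ∈ M, ∀ a b, Cfsg.hermForm n F q ((k : Mat) *ᵥ a) ((k : Mat) *ᵥ b) = Cfsg.hermForm n F q a b :=
    fun k hk => (hMK hk).1
  have hCW : ∀ v, Cfsg.hermForm n F q v v = 0 → (v ∈ W ∨ v ∈ P) → v ∈ centres hf M := fun v hvv hv =>
    ⟨hvv, fun d hd => hHM ⟨uT_stab hf hvv hv d, uT_mem_su hF hvv hd⟩⟩
  -- a mixed centre
  obtain ⟨u, huC, huW, huP⟩ : ∃ u ∈ centres hf M, u ∉ W ∧ u ∉ P := by
    by_contra hc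
    push Not at hc
    obtain ⟨e, he, e', he', -, -, ee, e'e', e1, e2⟩ := hpairs 0 (by omega) Fin.elim0
    have hor : ∀ v ∈ P, Cfsg.hermForm n F q v v = 0 → (g : Mat) *ᵥ v ∈ W ∨ (g : Mat) *ᵥ v ∈ P := fun v hv hvv =>
      or_iff_not_imp_left.mpr (hc _ (centres_conj hf hiso hg (hCW v hvv (Or.inr hv))))
    have hlink : ∀ v w, (g : Mat) *ᵥ v ∈ W → (g : Mat) *ᵥ w ∈ P → Cfsg.hermForm n F q v w = 0 := fun v w hv hw => by
      rw [← hiso g hg]; exact (horth _ hv _ hw).1
    have hspan : ∀ A : Submodule F (Fin n → F), (∀ v ∈ P, Cfsg.hermForm n F q v v = 0 → (g : Mat) *ᵥ v ∈ A) →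
        P ≤ A.comap (Matrix.mulVecLin (g : Mat)) := fun A hA => le_of_isotropic hf he he' ee e'e' e1 e2 hA
    rcases hor e he ee with heW | heP
    · have he'W : (g : Mat) *ᵥ e' ∈ W := (hor e' he' e'e').resolve_right fun h => by
        rw [hlink e e' heW h] at e1; exact zero_ne_one e1
      have hall : ∀ v ∈ P, Cfsg.hermForm n F q v v = 0 → (g : Mat) *ᵥ v ∈ W := by
        intro v hv hvv
        refine (hor v hv hvv).elim id fun hvP => ?_
        have h1 := hlink e v heW hvP
        have h2 := hlink e' v he'W hvP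
        have hsum : Cfsg.hermForm n F q (v + e) (v + e) = 0 := by
          rw [hf.add_left, add_right hf, add_right hf, hvv, ee, h1, (eq_zero_comm hf).mp h1]; ring
        rcases hor (v + e) (P.add_mem hv he) hsum with h | h
        · rw [Matrix.mulVec_add] at h
          have := W.sub_mem h heW
          rwa [add_sub_cancel_right] at this
        · have := hlink e' (v + e) he'W h
          rw [add_right hf, h2, e2, zero_add] at this
          exact absurd this one_ne_zero
      have hle := hspan W hall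
      have hmap : P.map (Matrix.mulVecLin (g : Mat)) ≤ W := Submodule.map_le_iff_le_comap.mpr hle
      have h5 := Submodule.finrank_mono hmap
      rw [← (Submodule.equivMapOfInjective _ (gl_mulVec_injective g) P).finrank_eq] at h5
      omega
    · have he'P : (g : Mat) *ᵥ e' ∈ P := (hor e' he' e'e').resolve_left fun h => by
        rw [hlink e' e h heP] at e2; exact zero_ne_one e2
      have hall : ∀ v ∈ P, Cfsg.hermForm n F q v v = 0 → (g : Mat) *ᵥ v ∈ P := by
        intro v hv hvv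
        refine (hor v hv hvv).elim (fun hvW => ?_) id
        have h1 := hlink v e hvW heP
        have h2 := hlink v e' hvW he'P
        have hsum : Cfsg.hermForm n F q (v + e) (v + e) = 0 := by
          rw [hf.add_left, add_right hf, add_right hf, hvv, ee, h1, (eq_zero_comm hf).mp h1]; ring
        rcases hor (v + e) (P.add_mem hv he) hsum with h | h
        · have := hlink (v + e) e' h he'P
          rw [hf.add_left, h2, e1, zero_add] at this
          exact absurd this one_ne_zero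
        · rw [Matrix.mulVec_add] at h
          have := P.sub_mem h heP
          rwa [add_sub_cancel_right] at this
      have hle := hspan P hall
      refine hgH ⟨stab_of_maps_into fun w hw => ?_, hMK hg⟩
      rw [← perp_perp hf W, mem_perpW hf]
      intro x hx
      have hx' : ((g⁻¹ : GL (Fin n) F) : Mat) *ᵥ x ∈ P :=
        ((mem_subspaceStabilizer.mp (stab_of_maps_into (W := P) hle)) _).mpr (by rwa [gl_mulVec_inv])
      rw [← gl_mulVec_inv g x, hiso g hg]
      exact (horth w hw _ hx').1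
  -- adding an isotropic vector of `P`
  have hstep : ∀ a ∈ W, ∀ b ∈ P, ∀ b' ∈ P, a + b ∈ centres hf M → Cfsg.hermForm n F q (b' - b) (b' - b) = 0 →
      Cfsg.hermForm n F q (a + b') (a + b') = 0 → Cfsg.hermForm n F q b (b' - b) ≠ 0 → a + b' ∈ centres hf M := by
    intro a ha b hb b' hb' hC he hiso' hne
    have h1 := centres_pair hf hiso hC (hCW _ he (Or.inr (P.sub_mem hb' hb)))
      (by rw [hf.add_left, (horth a ha _ (P.sub_mem hb' hb)).1, zero_add]; exact hne) (k := 1) (l := 1)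
      (by rw [one_smul, one_smul, show a + b + (b' - b) = a + b' by abel]; exact hiso')
    rwa [one_smul, one_smul, show a + b + (b' - b) = a + b' by abel] at h1
  let A : Set (Fin n → F) := {a | a ∈ W ∧ ∀ b ∈ P, Cfsg.hermForm n F q b b = - Cfsg.hermForm n F q a a →
    a + b ∈ centres hf M}
  have hindep : ∀ a ∈ W, ∀ b ∈ P, ∀ b' ∈ P, a + b ∈ centres hf M →
      Cfsg.hermForm n F q b b = - Cfsg.hermForm n F q a a → Cfsg.hermForm n F q b' b' = - Cfsg.hermForm n F q a a →
      LinearIndependent F ![b, b'] → a + b' ∈ centres hf M := by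
    intro a ha b hb b' hb' hC hbb hbb' hli
    obtain ⟨φ, hφ, hφker⟩ := exists_functional (S := Submodule.span F {b'}) (x := b) fun hmem => by
      obtain ⟨k, hk⟩ := Submodule.mem_span_singleton.mp hmem
      exact (LinearIndependent.pair_iff.mp hli 1 (-k) (by rw [one_smul, neg_smul, hk, add_neg_cancel])).1 |> one_ne_zero
    obtain ⟨ψ, hψ, hψker⟩ := exists_functional (S := Submodule.span F {b}) (x := b') fun hmem => by
      obtain ⟨k, hk⟩ := Submodule.mem_span_singleton.mp hmem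
      exact (LinearIndependent.pair_iff.mp hli (-k) 1 (by rw [one_smul, neg_smul, hk, neg_add_cancel])).2 |> one_ne_zero
    obtain ⟨p, hp⟩ := fl_surjective hf φ
    obtain ⟨r, hr⟩ := fl_surjective hf ψ
    obtain ⟨pw, hpw, pp, hpp, hpe⟩ := hdecomp p
    obtain ⟨rw', hrw, rp, hrp, hre⟩ := hdecomp r
    set ν := - Cfsg.hermForm n F q a a with hν
    have hνσ : frobQ hF ν = ν := hfix a
    -- inner products of the dual vectors with `b` and `b'`
    have hdual : ∀ (y yw yp : Fin n → F) (χ : (Fin n → F) →ₗ[F] F) (c : Fin n → F), y = yw + yp → yw ∈ W →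
        fl hf y = χ → c ∈ P → Cfsg.hermForm n F q yp c = frobQ hF (χ c) := by
      intro y yw yp χ c hy hyw hχ hc
      rw [← hχ, fl_apply, sigma_apply hf, hy, hf.add_left, (horth yw hyw c hc).1, zero_add]
    have e1 : Cfsg.hermForm n F q pp b = 1 := by rw [hdual p pw pp φ b hpe hpw hp hb, hφ, map_one]
    have e2 : Cfsg.hermForm n F q pp b' = 0 := by
      rw [hdual p pw pp φ b' hpe hpw hp hb', LinearMap.mem_ker.mp (hφker (Submodule.mem_span_singleton_self b')), map_zero]
    have e3 : Cfsg.hermForm n F q rp b' = 1 := by rw [hdual r rw' rp ψ b' hre hrw hr hb', hψ, map_one]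
    have e4 : Cfsg.hermForm n F q rp b = 0 := by
      rw [hdual r rw' rp ψ b hre hrw hr hb, LinearMap.mem_ker.mp (hψker (Submodule.mem_span_singleton_self b)), map_zero]
    set x₀ := (ν + ζ) • pp + (ν + ζ) • rp with hx₀
    obtain ⟨z, hz, hzorth, hzz⟩ := hnormP 2 le_rfl ![b, b'] (ν - Cfsg.hermForm n F q x₀ x₀ -
      0) (by rw [sub_zero, map_sub, hνσ, sigma_apply hf])
    by_cases hzx : Cfsg.hermForm n F q z x₀ = 0
    swap
    · -- replace `z` by one orthogonal to `x₀` as well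
      obtain ⟨g₁, hg₁, g₂, hg₂, o1, o2, p1, p2, p3, p4⟩ := hpairs 2 le_rfl ![b, b']
      set x₁ := x₀ - Cfsg.hermForm n F q x₀ g₂ • g₁ - Cfsg.hermForm n F q x₀ g₁ • g₂ with hx₁
      have hx₁P : x₁ ∈ P := P.sub_mem (P.sub_mem (P.add_mem (P.smul_mem _ hpp) (P.smul_mem _ hrp)) (P.smul_mem _ hg₁))
        (P.smul_mem _ hg₂)
      have q1 : Cfsg.hermForm n F q x₁ g₁ = 0 := by
        rw [hx₁, sub_left hf, sub_left hf, hf.smul_left, hf.smul_left, p1, p4]; ring
      have q2 : Cfsg.hermForm n F q x₁ g₂ = 0 := by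
        rw [hx₁, sub_left hf, sub_left hf, hf.smul_left, hf.smul_left, p2, p3]; ring
      have hx₁b : Cfsg.hermForm n F q x₁ b = ν + ζ ∧ Cfsg.hermForm n F q x₁ b' = ν + ζ := by
        have s1 := o1 0; have s2 := o1 1; have s3 := o2 0; have s4 := o2 1
        simp only [Matrix.cons_val_zero, Matrix.cons_val_one] at s1 s2 s3 s4
        constructor <;>
          simp only [hx₁, hx₀, sub_left hf, hf.add_left, hf.smul_left, e1, e2, e3, e4, s1, s2, s3, s4] <;> ring
      obtain ⟨μ, hμ⟩ := exists_trace hf (a := ν - Cfsg.hermForm n F q x₁ x₁)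
        (by rw [map_sub, hνσ, sigma_apply hf])
      set x := x₁ + (g₁ + μ • g₂) with hxdef
      have hxP : x ∈ P := P.add_mem hx₁P (P.add_mem hg₁ (P.smul_mem μ hg₂))
      have hxx : Cfsg.hermForm n F q x x = ν := by
        simp only [hxdef, hf.add_left, add_right hf, hf.smul_left, smul_right hf, q1, q2, (eq_zero_comm hf).mp q1,
          (eq_zero_comm hf).mp q2, p1, p2, p3, p4]
        linear_combination hμ
      have hxb : Cfsg.hermForm n F q x b = ν + ζ ∧ Cfsg.hermForm n F q x b' = ν + ζ := by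
        have s1 := o1 0; have s2 := o1 1; have s3 := o2 0; have s4 := o2 1
        simp only [Matrix.cons_val_zero, Matrix.cons_val_one] at s1 s2 s3 s4
        constructor <;>
          simp only [hxdef, hf.add_left, hf.smul_left, hx₁b.1, hx₁b.2, s1, s2, s3, s4] <;> ring
      have hbx : Cfsg.hermForm n F q b x = ν - ζ := by
        rw [hf.herm, hxb.1, map_add, hνσ, hζ]; ring
      have hb'x : Cfsg.hermForm n F q b' x = ν - ζ := by
        rw [hf.herm, hxb.2, map_add, hνσ, hζ]; ring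
      have hax : ∀ c ∈ P, Cfsg.hermForm n F q c c = ν → Cfsg.hermForm n F q (a + c) (a + c) = 0 := fun c hc hcc => by
        rw [hf.add_left, add_right hf, add_right hf, (horth a ha c hc).1, (horth a ha c hc).2, hcc, hν]; ring
      have hC1 : a + x ∈ centres hf M := hstep a ha b hb x hxP hC
        (by rw [sub_left hf, sub_right hf, sub_right hf, hxx, hbb, hbx, hxb.1]; ring) (hax x hxP hxx)
        (by rw [sub_right hf, hbx, hbb]; intro h; exact hζ0 (by linear_combination -h))
      exact hstep a ha x hxP b' hb' hC1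
        (by rw [sub_left hf, sub_right hf, sub_right hf, hxx, hbb', hb'x, hxb.2]; ring) (hax b' hb' hbb')
        (by rw [sub_right hf, hxb.2, hxx]; intro h; exact hζ0 (by linear_combination h))
    have s5 := hzorth 0; have s6 := hzorth 1
    simp only [Matrix.cons_val_zero, Matrix.cons_val_one] at s5 s6
    set x := x₀ + z with hxdef
    have hxP : x ∈ P := P.add_mem (P.add_mem (P.smul_mem _ hpp) (P.smul_mem _ hrp)) hz
    have hxx : Cfsg.hermForm n F q x x = ν := by
      simp only [hxdef, hf.add_left, add_right hf, hzx, (eq_zero_comm hf).mp hzx, hzz]; ring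
    have hxb : Cfsg.hermForm n F q x b = ν + ζ := by
      simp only [hxdef, hx₀, hf.add_left, hf.smul_left, e1, e4, s5]; ring
    have hxb' : Cfsg.hermForm n F q x b' = ν + ζ := by
      simp only [hxdef, hx₀, hf.add_left, hf.smul_left, e2, e3, s6]; ring
    have hbx : Cfsg.hermForm n F q b x = ν - ζ := by rw [hf.herm, hxb, map_add, hνσ, hζ]; ring
    have hb'x : Cfsg.hermForm n F q b' x = ν - ζ := by rw [hf.herm, hxb', map_add, hνσ, hζ]; ring
    have hax : ∀ c ∈ P, Cfsg.hermForm n F q c c = ν → Cfsg.hermForm n F q (a + c) (a + c) = 0 := fun c hc hcc => by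
      rw [hf.add_left, add_right hf, add_right hf, (horth a ha c hc).1, (horth a ha c hc).2, hcc, hν]; ring
    have hC1 : a + x ∈ centres hf M := hstep a ha b hb x hxP hC
      (by rw [sub_left hf, sub_right hf, sub_right hf, hxx, hbb, hbx, hxb]; ring) (hax x hxP hxx)
      (by rw [sub_right hf, hbx, hbb]; intro h; exact hζ0 (by linear_combination -h))
    exact hstep a ha x hxP b' hb' hC1
      (by rw [sub_left hf, sub_right hf, sub_right hf, hxx, hbb', hb'x, hxb']; ring) (hax b' hb' hbb')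
      (by rw [sub_right hf, hxb', hxx]; intro h; exact hζ0 (by linear_combination h))
  have hone : ∀ a ∈ W, ∀ b ∈ P, a ≠ 0 → b ≠ 0 → a + b ∈ centres hf M → a ∈ A := by
    intro a ha b hb ha0 hb0 hC
    refine ⟨ha, fun b' hb' hbb' => ?_⟩
    have hbb : Cfsg.hermForm n F q b b = - Cfsg.hermForm n F q a a := by
      have h1 : Cfsg.hermForm n F q (a + b) (a + b) = 0 := hC.1
      rw [hf.add_left, add_right hf, add_right hf, (horth a ha b hb).1, (horth a ha b hb).2] at h1
      linear_combination h1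
    rcases eq_or_ne b' 0 with rfl | hb'0
    · rw [zero_left hf] at hbb'
      rw [add_zero]
      exact hCW a (by linear_combination hbb') (Or.inl ha)
    by_cases hli : LinearIndependent F ![b, b']
    · exact hindep a ha b hb b' hb' hC hbb hbb' hli
    -- a third vector
    obtain ⟨e, he, e', he', -, -, ee, e'e', h1, h2⟩ := hpairs 0 (by omega) Fin.elim0
    obtain ⟨w, hw, hww, hbw⟩ : ∃ w ∈ P, Cfsg.hermForm n F q w w = 0 ∧ Cfsg.hermForm n F q b w ≠ 0 := by
      by_contra hcc
      push Not at hcc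
      refine hb0 (hP b hb ((mem_perpW hf).mpr fun y hy => (eq_zero_comm hf).mp ?_))
      exact LinearMap.mem_ker.mp (le_of_isotropic hf (U := P) (S := LinearMap.ker (fl hf b)) he he' ee e'e' h1 h2
        (fun w hw hww => LinearMap.mem_ker.mpr ((eq_zero_comm hf).mp (hcc w hw hww))) hy)
    obtain ⟨c, hc⟩ : ∃ c, frobQ hF c * Cfsg.hermForm n F q b w = ζ :=
      ⟨frobQ hF (ζ / Cfsg.hermForm n F q b w), by rw [hf.involutive, div_mul_cancel₀ _ hbw]⟩
    set b'' := b + c • w
    have hbcw : Cfsg.hermForm n F q b (c • w) = ζ := by rw [smul_right hf, hc]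
    have hcwb : Cfsg.hermForm n F q (c • w) b = -ζ := by rw [hf.herm, hbcw, hζ]
    have hcc : Cfsg.hermForm n F q (c • w) (c • w) = 0 := by
      rw [hf.smul_left, smul_right hf, hww, mul_zero, mul_zero]
    have hb''P : b'' ∈ P := P.add_mem hb (P.smul_mem c hw)
    have hbb'' : Cfsg.hermForm n F q b'' b'' = - Cfsg.hermForm n F q a a := by
      rw [hf.add_left, add_right hf, add_right hf, hbb, hbcw, hcwb, hcc]; ring
    have hsub : b'' - b = c • w := by simp [b'']
    have hdef : b'' = b + c • w := rfl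
    have hC'' : a + b'' ∈ centres hf M := by
      clear_value b''
      refine hstep a ha b hb b'' hb''P hC ?_ ?_ ?_
      · rw [hsub]; exact hcc
      · rw [hf.add_left, add_right hf, add_right hf, (horth a ha b'' hb''P).1, (horth a ha b'' hb''P).2, hbb'']; ring
      · rw [hsub, hbcw]; exact hζ0
    refine hindep a ha b'' hb''P b' hb' hC'' hbb'' hbb' ?_
    rw [LinearIndependent.pair_iff] at hli ⊢
    push Not at hli
    obtain ⟨s, t, hst, hne⟩ := hli
    have ht : t ≠ 0 := fun h => by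
      rw [h, zero_smul, add_zero, smul_eq_zero] at hst
      exact (hne (hst.resolve_right hb0)) h
    have hb'eq : b' = (-(t⁻¹ * s)) • b := by
      have := congrArg (fun y => t⁻¹ • y) hst
      simp only [smul_add, smul_smul, inv_mul_cancel₀ ht, one_smul, smul_zero] at this
      rw [neg_smul]; exact eq_neg_of_add_eq_zero_right this
    intro s' t' h'
    set k := -(t⁻¹ * s)
    have hk : k ≠ 0 := fun h => hb'0 (by rw [hb'eq, h, zero_smul])
    rw [hb'eq, smul_smul, smul_add, smul_smul] at h'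
    have hs' : s' = 0 := by
      by_contra hs'
      have h'' : c • w = (-(s'⁻¹ * (s' + t' * k))) • b := by
        have := congrArg (fun y => s'⁻¹ • y) h'
        simp only [smul_add, smul_smul, ← mul_assoc, inv_mul_cancel₀ hs', one_mul, one_smul, smul_zero] at this
        rw [mul_add, inv_mul_cancel₀ hs']
        linear_combination (norm := module) this
      set l := -(s'⁻¹ * (s' + t' * k))
      have h5 := hcc
      rw [h'', hf.smul_left, smul_right hf] at h5
      have h6 := hbcw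
      rw [h'', smul_right hf] at h6
      rw [h6] at h5
      exact hζ0 ((mul_eq_zero.mp h5).resolve_left fun hl => by
        rw [hl, map_zero, zero_mul] at h6; exact hζ0 h6.symm)
    subst hs'
    simp only [zero_mul, zero_smul, zero_add, smul_eq_zero, mul_eq_zero] at h'
    exact ⟨rfl, (h'.resolve_right hb0).resolve_right hk⟩
  have hAsmul : ∀ k : F, ∀ a ∈ A, k • a ∈ A := by
    rintro k a ⟨ha, haA⟩
    refine ⟨W.smul_mem k ha, fun b hb hbb => ?_⟩
    rcases eq_or_ne k 0 with rfl | hk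
    · rw [zero_smul, zero_left hf, neg_zero] at hbb
      rw [zero_smul, zero_add]; exact hCW b hbb (Or.inr hb)
    have h1 := centres_smul hf (haA (k⁻¹ • b) (P.smul_mem _ hb) (by
      rw [hf.smul_left, smul_right hf, hbb, hf.smul_left, smul_right hf, map_inv₀]
      have : frobQ hF k ≠ 0 := by simpa using hk
      field_simp)) k
    rwa [smul_add, smul_smul, mul_inv_cancel₀ hk, one_smul] at h1
  have hAadd : ∀ a₁ ∈ A, ∀ a₂ ∈ A, a₁ + a₂ ∈ A := by
    rintro a₁ ⟨ha₁, hA₁⟩ a₂ ⟨ha₂, hA₂⟩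
    refine ⟨W.add_mem ha₁ ha₂, fun b' hb' hbb' => ?_⟩
    rcases eq_or_ne b' 0 with rfl | hb'0
    · rw [zero_left hf] at hbb'
      rw [add_zero]
      exact hCW _ (by linear_combination hbb') (Or.inl (W.add_mem ha₁ ha₂))
    obtain ⟨y, hy, hyb⟩ : ∃ y ∈ P, Cfsg.hermForm n F q y b' ≠ 0 := by
      by_contra h; push Not at h
      exact hb'0 (hP b' hb' ((mem_perpW hf).mpr fun y hy => (eq_zero_comm hf).mp (h y hy)))
    set ν₁ := - Cfsg.hermForm n F q a₁ a₁ with hν₁
    set ν₂ := - Cfsg.hermForm n F q a₂ a₂ with hν₂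
    set τ := Cfsg.hermForm n F q b' b' + ν₁ - ν₂ with hτ
    obtain ⟨t₀, ht₀⟩ := exists_trace hf (a := τ) (by
      rw [hτ, map_sub, map_add, hfix a₁, hfix a₂, sigma_apply hf])
    set X := Cfsg.hermForm n F q a₁ a₂ - ν₁
    obtain ⟨t, ht, htX⟩ : ∃ t, t + frobQ hF t = τ ∧ X + t ≠ 0 := by
      by_cases h0 : X + t₀ = 0
      · exact ⟨t₀ + ζ, by rw [map_add, hζ]; linear_combination ht₀, fun h => hζ0 (by linear_combination h - h0)⟩
      · exact ⟨t₀, ht₀, h0⟩
    obtain ⟨g₁, hg₁, g₂, hg₂, o1, o2, p1, p2, p3, p4⟩ := hpairs 1 (by omega) ![b']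
    have s1 := o1 0; have s2 := o2 0
    simp only [Matrix.cons_val_zero] at s1 s2
    set x₀ := (t / Cfsg.hermForm n F q y b') • y with hx₀
    have hx₀b : Cfsg.hermForm n F q x₀ b' = t := by rw [hx₀, hf.smul_left, div_mul_cancel₀ _ hyb]
    set x₁ := x₀ - Cfsg.hermForm n F q x₀ g₂ • g₁ - Cfsg.hermForm n F q x₀ g₁ • g₂ with hx₁
    have hx₁P : x₁ ∈ P := P.sub_mem (P.sub_mem (P.smul_mem _ hy) (P.smul_mem _ hg₁)) (P.smul_mem _ hg₂)
    clear_value x₀
    have q1 : Cfsg.hermForm n F q x₁ g₁ = 0 := by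
      rw [hx₁, sub_left hf, sub_left hf, hf.smul_left, hf.smul_left, p1, p4]; ring
    have q2 : Cfsg.hermForm n F q x₁ g₂ = 0 := by
      rw [hx₁, sub_left hf, sub_left hf, hf.smul_left, hf.smul_left, p2, p3]; ring
    obtain ⟨μ, hμ⟩ := exists_trace hf (a := ν₁ - Cfsg.hermForm n F q x₁ x₁)
      (by rw [map_sub, hfix a₁, sigma_apply hf])
    set b₁ := x₁ + (g₁ + μ • g₂) with hb₁def
    have hb₁P : b₁ ∈ P := P.add_mem hx₁P (P.add_mem hg₁ (P.smul_mem μ hg₂))
    have hb₁b₁ : Cfsg.hermForm n F q b₁ b₁ = ν₁ := by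
      simp only [hb₁def, hf.add_left, add_right hf, hf.smul_left, smul_right hf, q1, q2, (eq_zero_comm hf).mp q1,
        (eq_zero_comm hf).mp q2, p1, p2, p3, p4]
      linear_combination hμ
    have hb₁b' : Cfsg.hermForm n F q b₁ b' = t := by
      simp only [hb₁def, hx₁, hf.add_left, sub_left hf, hf.smul_left, hx₀b, s1, s2]; ring
    have hb'b₁ : Cfsg.hermForm n F q b' b₁ = frobQ hF t := by rw [hf.herm, hb₁b']
    have hC1 := hA₁ b₁ hb₁P hb₁b₁
    have hC2 := hA₂ (b' - b₁) (P.sub_mem hb' hb₁P) (by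
      rw [sub_left hf, sub_right hf, sub_right hf, hb₁b₁, hb₁b', hb'b₁]
      linear_combination -ht - hτ)
    have hne : Cfsg.hermForm n F q (a₁ + b₁) (a₂ + (b' - b₁)) ≠ 0 := by
      rw [hf.add_left, add_right hf, add_right hf, (horth a₁ ha₁ _ (P.sub_mem hb' hb₁P)).1,
        (horth a₂ ha₂ b₁ hb₁P).2, sub_right hf, hb₁b', hb₁b₁]
      intro h; exact htX (by linear_combination h)
    have e : (1 : F) • (a₁ + b₁) + (1 : F) • (a₂ + (b' - b₁)) = a₁ + a₂ + b' := by module
    have := centres_pair hf hiso hC1 hC2 hne (k := 1) (l := 1) (by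
      rw [e]
      have i1 := (horth _ (W.add_mem ha₁ ha₂) b' hb').1
      have i2 := (horth _ (W.add_mem ha₁ ha₂) b' hb').2
      generalize a₁ + a₂ = aa at i1 i2 hbb' ⊢
      rw [hf.add_left, add_right hf, add_right hf, i1, i2, hbb']
      ring)
    rwa [e] at this
  obtain ⟨a₀, ha₀, b₀, hb₀, hu⟩ := hdecomp u
  have ha₀0 : a₀ ≠ 0 := fun h => huP (by rw [hu, h, zero_add]; exact hb₀)
  have hb₀0 : b₀ ≠ 0 := fun h => huW (by rw [hu, h, add_zero]; exact ha₀)
  have ha₀A : a₀ ∈ A := hone a₀ ha₀ b₀ hb₀ ha₀0 hb₀0 (hu ▸ huC)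
  let As : Submodule F (Fin n → F) :=
    { carrier := A
      add_mem' := fun {x y} hx hy => hAadd x hx y hy
      zero_mem' := by simpa using hAsmul 0 a₀ ha₀A
      smul_mem' := fun k x hx => hAsmul k x hx }
  have hAtop : W ≤ As := by
    by_cases hd1 : Module.finrank F W ≤ 1
    · intro x hx
      have hspan : W = Submodule.span F {a₀} :=
        (Submodule.eq_of_le_of_finrank_le (Submodule.span_le.mpr (Set.singleton_subset_iff.mpr ha₀))
          (by rw [finrank_span_singleton ha₀0]; exact hd1)).symm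
      rw [hspan] at hx
      obtain ⟨k, rfl⟩ := Submodule.mem_span_singleton.mp hx
      exact As.smul_mem k ha₀A
    obtain ⟨e, he, e', he', ee, e'e', e1, e2⟩ := exists_pair_nondeg hf hW (by omega)
    -- moving inside `W`
    have hmove : ∀ a ∈ As, ∀ w ∈ W, Cfsg.hermForm n F q w w = 0 → Cfsg.hermForm n F q a w ≠ 0 → w ∈ As := by
      rintro a ⟨ha, haA⟩ w hw hww hne
      set T := uT hf hww ζ
      have hTM : T ∈ M := hHM ⟨uT_stab hf hww (Or.inl hw) ζ, uT_mem_su hF hww hζ⟩
      have h1 : (T : Mat) *ᵥ a ∈ As := by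
        refine ⟨by rw [uT_mulVec]; exact W.add_mem ha (W.smul_mem _ hw), fun b hb hbb => ?_⟩
        have h2 := centres_conj hf hiso hTM (haA b hb (by rw [hbb, uT_iso hf hww hζ]))
        rwa [Matrix.mulVec_add, uT_mulVec hf hww ζ b, (horth w hw b hb).2, mul_zero, zero_smul, add_zero] at h2
      rw [uT_mulVec] at h1
      have h2 := As.smul_mem (ζ * Cfsg.hermForm n F q a w)⁻¹ (As.sub_mem h1 (show a ∈ As from ⟨ha, haA⟩))
      rwa [add_sub_cancel_left, smul_smul, inv_mul_cancel₀ (mul_ne_zero hζ0 hne), one_smul] at h2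
    obtain ⟨w₁, hw₁, hw₁w₁, haw₁⟩ : ∃ w ∈ W, Cfsg.hermForm n F q w w = 0 ∧ Cfsg.hermForm n F q a₀ w ≠ 0 := by
      by_contra hcc
      push Not at hcc
      refine ha₀0 (hW a₀ ha₀ ((mem_perpW hf).mpr fun y hy => (eq_zero_comm hf).mp ?_))
      exact LinearMap.mem_ker.mp (le_of_isotropic hf (U := W) (S := LinearMap.ker (fl hf a₀)) he he' ee e'e' e1 e2
        (fun w hw hww => LinearMap.mem_ker.mpr ((eq_zero_comm hf).mp (hcc w hw hww))) hy)
    have hw₁A := hmove a₀ ha₀A w₁ hw₁ hw₁w₁ haw₁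
    obtain ⟨y, hy, hyw⟩ : ∃ y ∈ W, Cfsg.hermForm n F q w₁ y ≠ 0 := by
      by_contra h; push Not at h
      exact haw₁ (by rw [hW w₁ hw₁ ((mem_perpW hf).mpr h), zero_right hf])
    obtain ⟨w₂, hw₂, hw₂w₂, h12, h21⟩ := partner_in hf hw₁ hy hw₁w₁ hyw
    have hw₂A := hmove w₁ hw₁A w₂ hw₂ hw₂w₂ (by rw [h12]; exact one_ne_zero)
    refine le_of_isotropic hf hw₁ hw₂ hw₁w₁ hw₂w₂ h12 h21 fun w hw hww => ?_
    by_cases h1 : Cfsg.hermForm n F q w₁ w = 0
    · by_cases h2 : Cfsg.hermForm n F q w₂ w = 0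
      · have hs := hmove w₂ hw₂A (w + w₁) (W.add_mem hw hw₁)
          (by rw [hf.add_left, add_right hf, add_right hf, hww, hw₁w₁, h1, (eq_zero_comm hf).mp h1]; ring)
          (by rw [add_right hf, h2, h21, zero_add]; exact one_ne_zero)
        have := As.sub_mem hs hw₁A
        rwa [add_sub_cancel_right] at this
      · exact hmove w₂ hw₂A w hw hww h2
    · exact hmove w₁ hw₁A w hw hww h1
  refine su_le_of_uT hF (by omega) fun v hvv d hd => ?_
  suffices hv : v ∈ centres hf M by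
    obtain ⟨_, hv'⟩ := hv
    exact hv' d hd
  obtain ⟨a, ha, b, hb, rfl⟩ := hdecomp v
  refine (hAtop ha).2 b hb ?_
  rw [hf.add_left, add_right hf, add_right hf, (horth a ha b hb).1, (horth a ha b hb).2] at hvv
  linear_combination hvv

end Cfsg.Agent.H98.Herm
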