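import Cfsg.Agent.H98.MaximalUSubSymp

set_option autoImplicit false
set_option linter.unusedSectionVars false

/-!
The orthogonal subfield subgroup is maximal in `SU` for odd `q`.
-/

namespace Cfsg.Agent.H98.Herm

open scoped Matrix

variable {F : Type*} [Field F] [Fintype F] {q n : ℕ}

local notation "Mat" => Matrix (Fin n) (Fin n) F

/-- Hypotheses: the form in the given coordinates is rational and symmetric on rational vectors. -/
structure OrthRat (hF : Fintype.card F = q ^ 2) (F₀ : Subfield F) (P : GL (Fin n) F) : Prop where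
  hn : 13 ≤ n
  two : (2 : F) ≠ 0
  fixed : ∀ x, frobQ hF x = x ↔ x ∈ F₀
  rat : ∀ u v : Fin n → F, IsRatVec F₀ u → IsRatVec F₀ v → pullForm n q P u v ∈ F₀

/-- Two rational vectors whose combination is a multiple of a rational one have a rational ratio. -/
theorem ratio_fixed {ι : Type} {K : Type*} [Field K] {σ : K ≃+* K} {F₀ : Subfield K}
    (hfix : ∀ x, σ x = x ↔ x ∈ F₀) {r s w : ι → K} (hr : IsRatVec F₀ r) (hs : IsRatVec F₀ s) (hw : IsRatVec F₀ w)
    (hind : ∀ a b : K, a • r + b • s = 0 → a = 0 ∧ b = 0) {k L : K} (h : r + k • s = L • w) : k ∈ F₀ := by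
  rw [← hfix]
  have h2 : r + σ k • s = σ L • w := funext fun x => by
    have h3 := congrArg σ (congrFun h x)
    simp only [Pi.add_apply, Pi.smul_apply, smul_eq_mul, map_add, map_mul, (hfix _).mpr (hr x),
      (hfix _).mpr (hs x), (hfix _).mpr (hw x)] at h3
    simpa using h3
  have h4 : (σ L - L) • r + (σ L * k - L * σ k) • s = 0 := by
    have e : σ L • (r + k • s) = L • (r + σ k • s) := by rw [h, h2, smul_smul, smul_smul, mul_comm]
    linear_combination (norm := module) e
  obtain ⟨e1, e2⟩ := hind _ _ h4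
  rw [sub_eq_zero] at e1 e2
  rw [e1] at e2
  have hL : L ≠ 0 := fun hL => by
    rw [hL, zero_smul] at h
    exact one_ne_zero (hind 1 k (by rw [one_smul]; exact h)).1
  exact (mul_left_cancel₀ hL e2).symm

section
variable {hF : Fintype.card F = q ^ 2} {F₀ : Subfield F} {P : GL (Fin n) F} (H : OrthRat hF F₀ P)
include H

/-- The pulled back form is unitary. -/
theorem OrthRat.herm : Cfsg.Geo.IsUnitaryForm (frobQ hF) (pullForm n q P) := isUnitary_pull hF P

theorem OrthRat.symm {u v : Fin n → F} (hu : IsRatVec F₀ u) (hv : IsRatVec F₀ v) :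
    pullForm n q P v u = pullForm n q P u v := by
  rw [H.herm.herm v u]; exact (H.fixed _).mpr (H.rat u v hu hv)

theorem OrthRat.sigma_rat {r : Fin n → F} (hr : IsRatVec F₀ r) (x : Fin n) : frobQ hF (r x) = r x :=
  (H.fixed _).mpr (hr x)

theorem OrthRat.two_mem : (2 : F) ∈ F₀ := one_add_one_eq_two (R := F) ▸ add_mem (one_mem F₀) (one_mem F₀)

/-- Splitting into rational parts. -/
theorem OrthRat.decomp {ε : F} (hε0 : ε ≠ 0) (hε : frobQ hF ε = -ε) (v : Fin n → F) :
    ∃ a b, IsRatVec F₀ a ∧ IsRatVec F₀ b ∧ v = a + ε • b := by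
  set b : Fin n → F := fun x => (v x - frobQ hF (v x)) / (2 * ε)
  have h2ε : 2 * ε ≠ 0 := mul_ne_zero H.two hε0
  have hb : IsRatVec F₀ b := fun x => (H.fixed _).mp (by
    simp only [b, map_div₀, map_sub, map_mul, H.herm.involutive, hε, map_ofNat]
    rw [← neg_sub (v x), mul_neg, neg_div_neg_eq])
  refine ⟨v - ε • b, b, fun x => (H.fixed _).mp ?_, hb, by rw [sub_add_cancel]⟩
  simp only [Pi.sub_apply, Pi.smul_apply, smul_eq_mul, map_sub, map_mul, H.sigma_rat hb x, hε]
  simp only [b]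
  have := H.two
  field_simp
  ring

/-- Rational parts of a vector orthogonal to a rational vector are orthogonal to it. -/
theorem OrthRat.split_zero {ε : F} (hε0 : ε ≠ 0) (hε : frobQ hF ε = -ε) {c d : F} (hc : c ∈ F₀) (hd : d ∈ F₀)
    (h : c + ε * d = 0) : c = 0 ∧ d = 0 := by
  have h1 := congrArg (frobQ hF) h
  rw [map_add, map_mul, map_zero, (H.fixed _).mpr hc, (H.fixed _).mpr hd, hε] at h1
  have hd0 : d = 0 := (mul_eq_zero.mp (show (2 * ε) * d = 0 by linear_combination h - h1)).resolve_left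
    (mul_ne_zero H.two hε0)
  exact ⟨by rw [hd0] at h; linear_combination h, hd0⟩

/-- A rational vector with non-zero product. -/
theorem OrthRat.exists_nonorth {w : Fin n → F} (hw : w ≠ 0) :
    ∃ z : Fin n → F, IsRatVec F₀ z ∧ pullForm n q P z w ≠ 0 := by
  by_contra hc
  push Not at hc
  obtain ⟨x, hx⟩ := (H.herm.nondegenerate w hw).1
  rw [← fl_apply H.herm, pi_eq_sum_univ' x, map_sum] at hx
  exact hx (Finset.sum_eq_zero fun i _ => by rw [map_smul, fl_apply, hc _ (isRat_single i), smul_zero])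

/-- An anisotropic rational vector orthogonal to few rational vectors. -/
theorem OrthRat.exists_aniso {k : ℕ} (hk : k ≤ 6) (v : Fin k → Fin n → F) (hv : ∀ i, IsRatVec F₀ (v i)) :
    ∃ x, IsRatVec F₀ x ∧ (∀ i, pullForm n q P x (v i) = 0) ∧ pullForm n q P x x ≠ 0 := by
  obtain ⟨ε, hε0, hε⟩ := exists_skew H.herm
  by_contra hc
  push Not at hc
  set U := LinearMap.ker (LinearMap.pi fun i => fl H.herm (v i))
  have hrr : ∀ x y, IsRatVec F₀ x → IsRatVec F₀ y → x ∈ U → y ∈ U → pullForm n q P x y = 0 := by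
    intro x y hx hy hxU hyU
    have e1 := hc x hx ((mem_perp H.herm v x).mp hxU)
    have e2 := hc y hy ((mem_perp H.herm v y).mp hyU)
    have e3 := hc (x + y) (isRat_add hx hy) ((mem_perp H.herm v (x + y)).mp (U.add_mem hxU hyU))
    rw [H.herm.add_left, add_right H.herm, add_right H.herm, e1, e2, H.symm hx hy] at e3
    exact (mul_eq_zero.mp (show (2 : F) * pullForm n q P x y = 0 by linear_combination e3)).resolve_left H.two
  have hTI : ∀ x ∈ U, ∀ y ∈ U, pullForm n q P x y = 0 := by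
    intro x hx y hy
    obtain ⟨a, b, ha, hb, rfl⟩ := H.decomp hε0 hε x
    obtain ⟨c, d, hc', hd, rfl⟩ := H.decomp hε0 hε y
    have hparts : ∀ a b, IsRatVec F₀ a → IsRatVec F₀ b → a + ε • b ∈ U → a ∈ U ∧ b ∈ U := fun a b ha hb h => by
      have hh : ∀ i, pullForm n q P a (v i) = 0 ∧ pullForm n q P b (v i) = 0 := fun i => by
        have := (mem_perp H.herm v _).mp h i
        rw [H.herm.add_left, H.herm.smul_left] at this
        exact H.split_zero hε0 hε (H.rat _ _ ha (hv i)) (H.rat _ _ hb (hv i)) this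
      exact ⟨(mem_perp H.herm v a).mpr fun i => (hh i).1, (mem_perp H.herm v b).mpr fun i => (hh i).2⟩
    obtain ⟨haU, hbU⟩ := hparts a b ha hb hx
    obtain ⟨hcU, hdU⟩ := hparts c d hc' hd hy
    rw [H.herm.add_left, add_right H.herm, add_right H.herm, H.herm.smul_left, H.herm.smul_left, smul_right H.herm,
      smul_right H.herm, hrr a c ha hc' haU hcU, hrr a d ha hd haU hdU, hrr b c hb hc' hbU hcU, hrr b d hb hd hbU hdU]
    ring
  have h1 := ti_bound H.herm U hTI
  have h2 := finrank_perp H.herm v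
  change Fintype.card (Fin n) ≤ Module.finrank F U + k at h2
  rw [Fintype.card_fin] at h1 h2
  have := H.hn
  omega

/-- A rational hyperbolic pair orthogonal to few rational vectors. -/
theorem OrthRat.exists_pair {k : ℕ} (hk : k ≤ 4) (v : Fin k → Fin n → F) (hv : ∀ i, IsRatVec F₀ (v i)) :
    ∃ z y, IsRatVec F₀ z ∧ IsRatVec F₀ y ∧ (∀ i, pullForm n q P z (v i) = 0) ∧ (∀ i, pullForm n q P y (v i) = 0) ∧
      pullForm n q P z z = 0 ∧ pullForm n q P y y = 0 ∧ pullForm n q P z y = 1 ∧ pullForm n q P y z = 1 := by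
  classical
  obtain ⟨x₁, hx₁, o₁, a₁⟩ := H.exists_aniso (by omega) v hv
  obtain ⟨x₂, hx₂, o₂, a₂⟩ := H.exists_aniso (show k + 1 ≤ 6 by omega) (Fin.cons x₁ v)
    (fun i => Fin.cases hx₁ hv i)
  obtain ⟨x₃, hx₃, o₃, a₃⟩ := H.exists_aniso (show k + 1 + 1 ≤ 6 by omega) (Fin.cons x₂ (Fin.cons x₁ v))
    (fun i => Fin.cases hx₂ (fun j => Fin.cases hx₁ hv j) i)
  have h21 : pullForm n q P x₂ x₁ = 0 := by simpa using o₂ 0
  have h32 : pullForm n q P x₃ x₂ = 0 := by simpa using o₃ 0
  have h31 : pullForm n q P x₃ x₁ = 0 := by simpa using o₃ (Fin.succ 0)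
  have o₂' : ∀ i, pullForm n q P x₂ (v i) = 0 := fun i => by simpa using o₂ i.succ
  have o₃' : ∀ i, pullForm n q P x₃ (v i) = 0 := fun i => by simpa using o₃ i.succ.succ
  haveI := Fintype.ofFinite F₀
  set α : F₀ := ⟨pullForm n q P x₁ x₁, H.rat _ _ hx₁ hx₁⟩
  set β : F₀ := ⟨pullForm n q P x₂ x₂, H.rat _ _ hx₂ hx₂⟩
  set γ : F₀ := ⟨pullForm n q P x₃ x₃, H.rat _ _ hx₃ hx₃⟩
  have hα : α ≠ 0 := fun h => a₁ (congrArg Subtype.val h)
  have hβ : β ≠ 0 := fun h => a₂ (congrArg Subtype.val h)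
  have hodd : Fintype.card F₀ % 2 = 1 := by
    rcases Nat.mod_two_eq_zero_or_one (Fintype.card F₀) with h | h
    · exfalso
      haveI : CharP F₀ 2 := ringChar.of_eq (FiniteField.even_card_iff_char_two.mpr h)
      exact H.two (congrArg Subtype.val (CharTwo.two_eq_zero (R := F₀)))
    · exact h
  obtain ⟨s, t, hst⟩ := FiniteField.exists_root_sum_quadratic
    (f := Polynomial.C α * Polynomial.X ^ 2) (g := Polynomial.C β * Polynomial.X ^ 2 + Polynomial.C γ)
    (Polynomial.degree_C_mul_X_pow 2 hα)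
    (by rw [Polynomial.degree_add_C (by rw [Polynomial.degree_C_mul_X_pow 2 hβ]; decide)]
        exact Polynomial.degree_C_mul_X_pow 2 hβ) hodd
  have hst' : pullForm n q P x₁ x₁ * (s : F) ^ 2 + (pullForm n q P x₂ x₂ * (t : F) ^ 2 + pullForm n q P x₃ x₃) = 0 := by
    have := congrArg Subtype.val hst
    simpa [α, β, γ] using this
  set z := (s : F) • x₁ + (t : F) • x₂ + x₃ with hz
  have hzr : IsRatVec F₀ z := isRat_add (isRat_add (isRat_smul s.2 hx₁) (isRat_smul t.2 hx₂)) hx₃
  have h12 := (eq_zero_comm H.herm).mp h21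
  have h13 := (eq_zero_comm H.herm).mp h31
  have h23 := (eq_zero_comm H.herm).mp h32
  have hzz : pullForm n q P z z = 0 := by
    simp only [hz, H.herm.add_left, add_right H.herm, H.herm.smul_left, smul_right H.herm, (H.fixed _).mpr s.2,
      (H.fixed _).mpr t.2, h21, h31, h32, h12, h13, h23]
    linear_combination hst'
  have hz3 : pullForm n q P z x₃ = pullForm n q P x₃ x₃ := by
    simp only [hz, H.herm.add_left, H.herm.smul_left, h13, h23]; ring
  have oz : ∀ i, pullForm n q P z (v i) = 0 := fun i => by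
    simp only [hz, H.herm.add_left, H.herm.smul_left, o₁ i, o₂' i, o₃' i]; ring
  set c := (pullForm n q P x₃ x₃)⁻¹ with hc
  have hcF : c ∈ F₀ := inv_mem (H.rat _ _ hx₃ hx₃)
  set y' := c • x₃ with hy'
  have hy'r : IsRatVec F₀ y' := isRat_smul hcF hx₃
  have hzy' : pullForm n q P z y' = 1 := by
    rw [hy', smul_right H.herm, (H.fixed _).mpr hcF, hz3, hc, inv_mul_cancel₀ a₃]
  set μ := - pullForm n q P y' y' / 2 with hμ
  have hμF : μ ∈ F₀ := div_mem (neg_mem (H.rat _ _ hy'r hy'r)) H.two_mem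
  have hy'z : pullForm n q P y' z = 1 := by rw [H.symm hzr hy'r]; exact hzy'
  have oy' : ∀ i, pullForm n q P y' (v i) = 0 := fun i => by rw [hy', H.herm.smul_left, o₃' i, mul_zero]
  clear_value y' z
  refine ⟨z, y' + μ • z, hzr, isRat_add hy'r (isRat_smul hμF hzr), oz,
    fun i => by rw [H.herm.add_left, H.herm.smul_left, oy' i, oz i, mul_zero, add_zero], hzz, ?_, ?_, ?_⟩
  · have h2 := H.two
    simp only [H.herm.add_left, add_right H.herm, H.herm.smul_left, smul_right H.herm, (H.fixed _).mpr hμF, hzy',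
      hy'z, hzz]
    rw [hμ]
    field_simp
    ring
  · rw [add_right H.herm, smul_right H.herm, hzz, hzy', mul_zero, add_zero]
  · rw [H.herm.add_left, H.herm.smul_left, hzz, hy'z, mul_zero, add_zero]

/-- A rational Siegel element. -/
theorem OrthRat.eich_rat {x z : Fin n → F} (hx : IsRatVec F₀ x) (hz : IsRatVec F₀ z)
    (hzz : pullForm n q P z z = 0) (hxz : pullForm n q P x z = 0) :
    eich H.herm hzz hxz (- pullForm n q P x x / 2) ∈ subGroupF (Fin n) F₀ ⊓ isoSL (pullForm n q P) := by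
  haveI : Nonempty (Fin n) := ⟨⟨0, by have := H.hn; omega⟩⟩
  have hγF : - pullForm n q P x x / 2 ∈ F₀ := div_mem (neg_mem (H.rat _ _ hx hx)) H.two_mem
  refine ⟨mem_subGroupF.mpr ⟨1, one_ne_zero, fun a b => ?_⟩, fun u v => eich_iso H.herm hzz hxz ?_ u v,
    eich_mem_sl H.herm hzz hxz _⟩
  · have h := congrFun (eich_mulVec H.herm hzz hxz (- pullForm n q P x x / 2) (Pi.single b 1)) a
    rw [Matrix.mulVec_single_one, Matrix.col_apply] at h
    rw [one_mul, h]
    exact isRat_add (isRat_sub (isRat_single b) (isRat_smul (H.rat _ _ (isRat_single b) hx) hz))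
      (isRat_smul (H.rat _ _ (isRat_single b) hz) (isRat_add hx (isRat_smul hγF hz))) a
  · rw [(H.fixed _).mpr hγF]; have := H.two; field_simp; ring

/-- Ordered products of two Siegel elements differ by a transvection. -/
theorem OrthRat.eich_comm {x x' z : Fin n → F} (hz : pullForm n q P z z = 0) (hxz : pullForm n q P x z = 0)
    (hxz' : pullForm n q P x' z = 0) (γ γ' : F) :
    eich H.herm hz hxz γ * eich H.herm hz hxz' γ' =
      uT H.herm hz (pullForm n q P x x' - pullForm n q P x' x) * (eich H.herm hz hxz' γ' * eich H.herm hz hxz γ) := by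
  refine gl_ext fun y => ?_
  simp only [Units.val_mul, ← Matrix.mulVec_mulVec, eich_mulVec, uT_mulVec, sub_left H.herm, H.herm.add_left,
    H.herm.smul_left, hz, hxz, hxz', (eq_zero_comm H.herm).mp hxz, (eq_zero_comm H.herm).mp hxz', mul_zero, add_zero,
    sub_zero]
  module

/-- A rational Siegel pair carrying an isotropic vector to a multiple of its partner. -/
theorem OrthRat.move {u w r : Fin n → F} (huu : pullForm n q P u u = 0) (hww : pullForm n q P w w = 0)
    (hu : IsRatVec F₀ u) (hw : IsRatVec F₀ w) (huw : pullForm n q P u w = 1) (hr : IsRatVec F₀ r)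
    (hru : pullForm n q P r u = 0) (hrw : pullForm n q P r w = 0) (hrr : pullForm n q P r r ≠ 0) :
    ∃ k ∈ subGroupF (Fin n) F₀ ⊓ isoSL (pullForm n q P),
      (k : Mat) *ᵥ u = (- pullForm n q P r r / 2) • w := by
  set γ := - pullForm n q P r r / 2 with hγ
  have hγ0 : γ ≠ 0 := div_ne_zero (neg_ne_zero.mpr hrr) H.two
  have hγF : γ ∈ F₀ := div_mem (neg_mem (H.rat _ _ hr hr)) H.two_mem
  have hr' : pullForm n q P ((-γ⁻¹) • r) u = 0 := by rw [H.herm.smul_left, hru, mul_zero]
  refine ⟨_, Subgroup.mul_mem _ (H.eich_rat (isRat_smul (neg_mem (inv_mem hγF)) hr) hu huu hr')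
    (H.eich_rat hr hw hww hrw), ?_⟩
  have hwu : pullForm n q P w u = 1 := by rw [H.symm hu hw]; exact huw
  have hur : pullForm n q P u r = 0 := (eq_zero_comm H.herm).mp hru
  have hwr : pullForm n q P w r = 0 := (eq_zero_comm H.herm).mp hrw
  have hσ : frobQ hF (-γ⁻¹) = -γ⁻¹ := (H.fixed _).mpr (neg_mem (inv_mem hγF))
  simp only [Units.val_mul, ← Matrix.mulVec_mulVec, eich_mulVec, huw, hur, zero_smul, sub_zero, one_smul, ← hγ,
    H.herm.add_left, H.herm.smul_left, smul_right H.herm, hru, hwu, huu, hwr, hσ, mul_zero, mul_one, add_zero,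
    zero_add]
  have h2 : pullForm n q P r r = -2 * γ := by rw [hγ]; have := H.two; field_simp
  rw [h2]
  have h22 := H.two
  match_scalars <;> field_simp <;> ring

/-- The rational torus element of a hyperbolic pair. -/
theorem OrthRat.torus {z y : Fin n → F} (hzz : pullForm n q P z z = 0) (hyy : pullForm n q P y y = 0)
    (hz : IsRatVec F₀ z) (hy : IsRatVec F₀ y) (hzy : pullForm n q P z y = 1) {l : F} (hl : l ∈ F₀) (hl0 : l ≠ 0) :
    ∃ k ∈ subGroupF (Fin n) F₀ ⊓ isoSL (pullForm n q P), (k : Mat) *ᵥ z = l • z := by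
  haveI : Nonempty (Fin n) := ⟨⟨0, by have := H.hn; omega⟩⟩
  have hyz : pullForm n q P y z = 1 := by rw [H.symm hz hy]; exact hzy
  have hu : ∀ b : F, (b • fl H.herm z) z = 0 := fun b => by rw [LinearMap.smul_apply, fl_apply, hzz, smul_zero]
  have hd : ∀ b : F, (b • fl H.herm y) y = 0 := fun b => by rw [LinearMap.smul_apply, fl_apply, hyy, smul_zero]
  set k := transGL _ z (hu l) * transGL _ y (hd (-l⁻¹)) * transGL _ z (hu l) * transGL _ z (hu (-1)) *
    transGL _ y (hd 1) * transGL _ z (hu (-1)) with hk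
  have hkv : ∀ v, (k : Mat) *ᵥ v =
      v + ((l - 1) * pullForm n q P v y) • z + ((l⁻¹ - 1) * pullForm n q P v z) • y := fun v => by
    simp only [hk, Units.val_mul, ← Matrix.mulVec_mulVec, transGL_mulVec, LinearMap.smul_apply, fl_apply,
      smul_eq_mul, H.herm.add_left, H.herm.smul_left, hzz, hyy, hzy, hyz, mul_zero, mul_one, add_zero]
    match_scalars <;> field_simp <;> ring
  refine ⟨k, ⟨mem_subGroupF.mpr ⟨1, one_ne_zero, fun a b => ?_⟩, fun u v => ?_, ?_⟩, ?_⟩
  · have h := congrFun (hkv (Pi.single b 1)) a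
    rw [Matrix.mulVec_single_one, Matrix.col_apply] at h
    rw [one_mul, h]
    exact isRat_add (isRat_add (isRat_single b) (isRat_smul (mul_mem (sub_mem hl (one_mem _))
      (H.rat _ _ (isRat_single b) hy)) hz)) (isRat_smul (mul_mem (sub_mem (inv_mem hl) (one_mem _))
      (H.rat _ _ (isRat_single b) hz)) hy) a
  · change pullForm n q P ((k : Mat) *ᵥ u) ((k : Mat) *ᵥ v) = _
    simp only [hkv, H.herm.add_left, add_right H.herm, H.herm.smul_left, smul_right H.herm, map_mul, map_sub, map_one,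
      map_inv₀, (H.fixed _).mpr hl, sigma_apply H.herm, hzz, hyy, hzy, hyz]
    field_simp
    ring
  · rw [hk]
    exact Subgroup.mul_mem _ (Subgroup.mul_mem _ (Subgroup.mul_mem _ (Subgroup.mul_mem _ (Subgroup.mul_mem _
      (transGL_mem_sl _ _ _) (transGL_mem_sl _ _ _)) (transGL_mem_sl _ _ _)) (transGL_mem_sl _ _ _))
      (transGL_mem_sl _ _ _)) (transGL_mem_sl _ _ _)
  · rw [hkv, hzy, hzz]; module

variable {M : Subgroup (GL (Fin n) F)} (hle : subGroupF (Fin n) F₀ ⊓ isoSL (pullForm n q P) ≤ M)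
  (hsu : M ≤ isoSL (pullForm n q P))
include hle hsu

/-- A single transvection with rational isotropic centre gives the whole centre. -/
theorem OrthRat.centre_of_one {z y : Fin n → F} (hz : IsRatVec F₀ z) (hzz : pullForm n q P z z = 0)
    (hy : IsRatVec F₀ y) (hyy : pullForm n q P y y = 0) (hzy : pullForm n q P z y = 1)
    {d : F} (hd0 : d ≠ 0) (hd : frobQ hF d = -d) (hmem : uT H.herm hzz d ∈ M) : z ∈ centres H.herm M := by
  have hiso : ∀ k ∈ M, ∀ a b, pullForm n q P ((k : Mat) *ᵥ a) ((k : Mat) *ᵥ b) = pullForm n q P a b :=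
    fun k hk => (mem_isoSL.mp (hsu hk)).1
  have hsq : ∀ r : F, r ∈ F₀ → uT H.herm hzz (r * r * d) ∈ M := by
    intro r hr
    rcases eq_or_ne r 0 with rfl | hr0
    · convert M.one_mem using 1
      exact gl_ext fun v => by simp [uT_mulVec]
    obtain ⟨k, hk, e⟩ := H.torus hzz hyy hz hy hzy hr hr0
    have hkz : pullForm n q P ((k : Mat) *ᵥ z) ((k : Mat) *ᵥ z) = 0 := by rw [hiso k (hle hk)]; exact hzz
    have h1 := M.mul_mem (M.mul_mem (hle hk) hmem) (M.inv_mem (hle hk))
    rw [conj_uT H.herm (hiso k (hle hk)) hzz d hkz] at h1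
    convert h1 using 1
    refine gl_ext fun v => ?_
    rw [uT_mulVec, uT_mulVec, e, smul_right H.herm, (H.fixed _).mpr hr, smul_smul]
    congr 2
    ring
  refine ⟨hzz, fun d' hd' => ?_⟩
  have hF₀ : d' / d ∈ F₀ := (H.fixed _).mp (by rw [map_div₀, hd', hd, neg_div_neg_eq])
  set t := d' / d with ht
  have h2 := H.two
  have h1 := M.mul_mem (hsq ((t + 1) / 2) (div_mem (add_mem hF₀ (one_mem _)) H.two_mem))
    (M.inv_mem (hsq ((t - 1) / 2) (div_mem (sub_mem hF₀ (one_mem _)) H.two_mem)))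
  convert h1 using 1
  rw [eq_mul_inv_iff_mul_eq]
  refine gl_ext fun v => ?_
  have e : d' = t * d := by rw [ht, div_mul_cancel₀ _ hd0]
  simp only [Units.val_mul, ← Matrix.mulVec_mulVec, uT_mulVec, H.herm.add_left, H.herm.smul_left, hzz, mul_zero,
    add_zero, e]
  match_scalars <;> field_simp <;> ring

end

end Cfsg.Agent.H98.Herm
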