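import Cfsg.Agent.H98.MaximalUSubOrth

set_option autoImplicit false
set_option linter.unusedSectionVars false

/-!
Maximality of the orthogonal subfield subgroup of `SU`: a root element with a new parameter yields a transvection
with rational centre, and such a centre yields all centres.
-/

namespace Cfsg.Agent.H98.Herm

open scoped Matrix

variable {F : Type*} [Field F] [Fintype F] {q n : ℕ}

local notation "Mat" => Matrix (Fin n) (Fin n) F

variable {hF : Fintype.card F = q ^ 2} {F₀ : Subfield F} {P : GL (Fin n) F} (H : OrthRat hF F₀ P)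
include H

/-- Rational vectors are spanned over the subfield by rational isotropic vectors. -/
theorem OrthRat.rat_span {p : (Fin n → F) → Prop} (hadd : ∀ a b, p a → p b → p (a + b))
    (hsmul : ∀ (c : F), c ∈ F₀ → ∀ a, p a → p (c • a))
    (hiso : ∀ z, IsRatVec F₀ z → pullForm n q P z z = 0 → p z) {x : Fin n → F} (hx : IsRatVec F₀ x) : p x := by
  obtain ⟨z, y, hz, hy, -, -, hzz, hyy, hzy, hyz⟩ := H.exists_pair (show 0 ≤ 4 by norm_num) Fin.elim0
    (fun i => Fin.elim0 i)
  set s := pullForm n q P x y with hs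
  set t := pullForm n q P x z with ht
  have hsF : s ∈ F₀ := H.rat _ _ hx hy
  have htF : t ∈ F₀ := H.rat _ _ hx hz
  set x' := x - s • z - t • y with hx'
  have hx'r : IsRatVec F₀ x' := isRat_sub (isRat_sub hx (isRat_smul hsF hz)) (isRat_smul htF hy)
  have a1 : pullForm n q P x' z = 0 := by
    rw [hx', sub_left H.herm, sub_left H.herm, H.herm.smul_left, H.herm.smul_left, hzz, hyz, ← ht]; ring
  have a2 : pullForm n q P x' y = 0 := by
    rw [hx', sub_left H.herm, sub_left H.herm, H.herm.smul_left, H.herm.smul_left, hzy, hyy, ← hs]; ring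
  set μ := - pullForm n q P x' x' / 2 with hμ
  have hμF : μ ∈ F₀ := div_mem (neg_mem (H.rat _ _ hx'r hx'r)) H.two_mem
  have hw : pullForm n q P (x' + z + μ • y) (x' + z + μ • y) = 0 := by
    simp only [H.herm.add_left, add_right H.herm, H.herm.smul_left, smul_right H.herm, (H.fixed _).mpr hμF, a1, a2,
      (eq_zero_comm H.herm).mp a1, (eq_zero_comm H.herm).mp a2, hzz, hyy, hzy, hyz]
    rw [hμ]
    have := H.two
    field_simp
    ring
  have e : x = (x' + z + μ • y) + ((s - 1) • z + (t - μ) • y) := by rw [hx']; module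
  rw [e]
  exact hadd _ _ (hiso _ (isRat_add (isRat_add hx'r hz) (isRat_smul hμF hy)) hw)
    (hadd _ _ (hsmul _ (sub_mem hsF (one_mem _)) _ (hiso z hz hzz)) (hsmul _ (sub_mem htF hμF) _ (hiso y hy hyy)))

/-- Partners in a plane. -/
theorem OrthRat.partner {z : Fin n → F} (hz : IsRatVec F₀ z) (hzz : pullForm n q P z z = 0) (hz0 : z ≠ 0) :
    ∃ y, IsRatVec F₀ y ∧ pullForm n q P y y = 0 ∧ pullForm n q P z y = 1 := by
  obtain ⟨y₀, hy₀, h0⟩ := H.exists_nonorth hz0
  set c := (pullForm n q P y₀ z)⁻¹ with hc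
  have hcF : c ∈ F₀ := inv_mem (H.rat _ _ hy₀ hz)
  set y₁ := c • y₀ with hy₁
  have hy₁r : IsRatVec F₀ y₁ := isRat_smul hcF hy₀
  have h1 : pullForm n q P y₁ z = 1 := by rw [hy₁, H.herm.smul_left, hc, inv_mul_cancel₀ h0]
  have h1' : pullForm n q P z y₁ = 1 := by rw [H.symm hy₁r hz]; exact h1
  clear_value y₁
  set μ := - pullForm n q P y₁ y₁ / 2 with hμ
  have hμF : μ ∈ F₀ := div_mem (neg_mem (H.rat _ _ hy₁r hy₁r)) H.two_mem
  refine ⟨y₁ + μ • z, isRat_add hy₁r (isRat_smul hμF hz), ?_, ?_⟩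
  · simp only [H.herm.add_left, add_right H.herm, H.herm.smul_left, smul_right H.herm, (H.fixed _).mpr hμF, h1, h1',
      hzz]
    rw [hμ]
    have := H.two
    field_simp
    ring
  · rw [add_right H.herm, smul_right H.herm, hzz, h1', mul_zero, add_zero]

/-- A vector in the line of its conjugate is a multiple of a rational vector. -/
theorem OrthRat.line_rat {w : Fin n → F} {α : F} (hw0 : w ≠ 0) (h : ∀ x, frobQ hF (w x) = α * w x) :
    ∃ (k : F) (r : Fin n → F), IsRatVec F₀ r ∧ w = k • r := by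
  obtain ⟨p, hp⟩ := Function.ne_iff.mp hw0
  refine ⟨w p, (w p)⁻¹ • w, fun x => (H.fixed _).mp ?_, by rw [smul_smul, mul_inv_cancel₀ hp, one_smul]⟩
  have hα : α ≠ 0 := fun hα => hp (by
    have := h p
    rw [hα, zero_mul] at this
    rw [← H.herm.involutive (w p), this, map_zero]; rfl)
  simp only [Pi.smul_apply, smul_eq_mul, map_mul, map_inv₀, h, mul_inv]
  field_simp

variable {M : Subgroup (GL (Fin n) F)} (hle : subGroupF (Fin n) F₀ ⊓ isoSL (pullForm n q P) ≤ M)
  (hsu : M ≤ isoSL (pullForm n q P))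
include hle hsu

/-- Without rational centres every Siegel element in `M` with rational centre has a rational parameter. -/
theorem OrthRat.siegel_param
    (hno : ∀ z, IsRatVec F₀ z → pullForm n q P z z = 0 → z ≠ 0 → z ∉ centres H.herm M)
    {z : Fin n → F} (hz : IsRatVec F₀ z) (hzz : pullForm n q P z z = 0) (hz0 : z ≠ 0) {x : Fin n → F}
    (hxz : pullForm n q P x z = 0) (γ : F) (hmem : eich H.herm hzz hxz γ ∈ M) {x' : Fin n → F} (hx' : IsRatVec F₀ x')
    (hx'z : pullForm n q P x' z = 0) : pullForm n q P x x' ∈ F₀ := by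
  by_contra hne
  obtain ⟨y, hy, hyy, hzy⟩ := H.partner hz hzz hz0
  have h' := hle (H.eich_rat hx' hz hzz hx'z)
  have h1 := M.mul_mem (M.mul_mem hmem h') (M.inv_mem (M.mul_mem h' hmem))
  rw [H.eich_comm hzz hxz hx'z, mul_inv_cancel_right] at h1
  refine hno z hz hzz hz0 (H.centre_of_one hle hsu hz hzz hy hyy hzy (fun h => hne ?_) ?_ h1)
  · rw [← H.fixed, sigma_apply H.herm]; exact (sub_eq_zero.mp h).symm
  · rw [map_sub, sigma_apply H.herm, sigma_apply H.herm, neg_sub]

/-- Without rational centres an element fixing a rational hyperbolic pair's vectors maps rationals to rationals. -/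
theorem OrthRat.fix_pair_rat
    (hno : ∀ z, IsRatVec F₀ z → pullForm n q P z z = 0 → z ≠ 0 → z ∉ centres H.herm M)
    {s : GL (Fin n) F} (hs : s ∈ M) {z y : Fin n → F} (hz : IsRatVec F₀ z) (hy : IsRatVec F₀ y)
    (hzz : pullForm n q P z z = 0) (hzy : pullForm n q P z y = 1) (hsz : (s : Mat) *ᵥ z = z)
    (hsy : (s : Mat) *ᵥ y = y) {r : Fin n → F} (hr : IsRatVec F₀ r) : IsRatVec F₀ ((s : Mat) *ᵥ r) := by
  obtain ⟨ε, hε0, hε⟩ := exists_skew H.herm
  have hiso := (mem_isoSL.mp (hsu hs)).1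
  have hz0 : z ≠ 0 := fun h => by rw [h, zero_left H.herm] at hzy; exact zero_ne_one hzy
  have hyz : pullForm n q P y z = 1 := by rw [H.symm hz hy]; exact hzy
  have key : ∀ x, IsRatVec F₀ x → pullForm n q P x z = 0 → IsRatVec F₀ ((s : Mat) *ᵥ x) := by
    intro x hx hxz
    have hsxz : pullForm n q P ((s : Mat) *ᵥ x) z = 0 := by
      conv_lhs => rw [← hsz]
      rw [hiso, hxz]
    have hmem : eich H.herm hzz hsxz (- pullForm n q P x x / 2) ∈ M := by
      have h1 := M.mul_mem (M.mul_mem hs (hle (H.eich_rat hx hz hzz hxz))) (M.inv_mem hs)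
      convert h1 using 1
      refine gl_ext fun v => ?_
      set u := ((s⁻¹ : GL (Fin n) F) : Mat) *ᵥ v
      have hv : (s : Mat) *ᵥ u = v := gl_mulVec_inv s v
      have e1 : pullForm n q P v ((s : Mat) *ᵥ x) = pullForm n q P u x := by rw [← hv, hiso]
      have e2 : pullForm n q P v z = pullForm n q P u z := by
        conv_lhs => rw [← hv, ← hsz]
        rw [hiso]
      simp only [Units.val_mul, ← Matrix.mulVec_mulVec, eich_mulVec, Matrix.mulVec_add, Matrix.mulVec_sub,
        Matrix.mulVec_smul, hsz, hv, e1, e2]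
      change _ = _
      rw [show (s : Mat) *ᵥ u = v from hv]
    obtain ⟨a, b, ha, hb, hab⟩ := H.decomp hε0 hε ((s : Mat) *ᵥ x)
    suffices hb0 : b = 0 by rw [hab, hb0, smul_zero, add_zero]; exact ha
    by_contra hne
    obtain ⟨w, hw, hwb⟩ := H.exists_nonorth hne
    set t := pullForm n q P w z with ht
    have htF : t ∈ F₀ := H.rat _ _ hw hz
    set w' := w - t • y with hw'
    have hw'r : IsRatVec F₀ w' := isRat_sub hw (isRat_smul htF hy)
    have hw'z : pullForm n q P w' z = 0 := by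
      rw [hw', sub_left H.herm, H.herm.smul_left, hyz, mul_one, ht, sub_self]
    have h1 := H.siegel_param hle hsu hno hz hzz hz0 hsxz _ hmem hw'r hw'z
    have h2 : pullForm n q P ((s : Mat) *ᵥ x) y ∈ F₀ := by
      conv => enter [2]; rw [← hsy]
      rw [hiso]; exact H.rat _ _ hx hy
    have h3 : pullForm n q P ((s : Mat) *ᵥ x) w ∈ F₀ := by
      have e : w = w' + t • y := by rw [hw', sub_add_cancel]
      rw [e, add_right H.herm, smul_right H.herm, (H.fixed _).mpr htF]
      exact add_mem h1 (mul_mem htF h2)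
    rw [hab, H.herm.add_left, H.herm.smul_left] at h3
    have h4 : (pullForm n q P a w - (pullForm n q P a w + ε * pullForm n q P b w)) + ε * pullForm n q P b w = 0 := by
      ring
    obtain ⟨-, h5⟩ := H.split_zero hε0 hε (sub_mem (H.rat _ _ ha hw) h3) (H.rat _ _ hb hw) h4
    exact hwb ((eq_zero_comm H.herm).mp h5)
  set t := pullForm n q P r z with ht
  have htF : t ∈ F₀ := H.rat _ _ hr hz
  have e : r = (r - t • y) + t • y := (sub_add_cancel _ _).symm
  rw [e, Matrix.mulVec_add, Matrix.mulVec_smul, hsy]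
  refine isRat_add (key _ (isRat_sub hr (isRat_smul htF hy)) ?_) (isRat_smul htF hy)
  rw [sub_left H.herm, H.herm.smul_left, hyz, mul_one, ← ht, sub_self]

/-- Without rational centres every element of `M` is in the subfield subgroup. -/
theorem OrthRat.mem_of_no_centre
    (hno : ∀ z, IsRatVec F₀ z → pullForm n q P z z = 0 → z ≠ 0 → z ∉ centres H.herm M)
    {g : GL (Fin n) F} (hg : g ∈ M) : g ∈ subGroupF (Fin n) F₀ := by
  classical
  haveI : Nonempty (Fin n) := ⟨⟨0, by have := H.hn; omega⟩⟩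
  obtain ⟨ε, hε0, hε⟩ := exists_skew H.herm
  have hiso := (mem_isoSL.mp (hsu hg)).1
  have hgne : ∀ v : Fin n → F, v ≠ 0 → (g : Mat) *ᵥ v ≠ 0 := fun v hv h0 => hv (gl_mulVec_injective g (by
    change (g : Mat) *ᵥ v = (g : Mat) *ᵥ 0
    rw [h0, Matrix.mulVec_zero]))
  -- conjugates of rational Siegel elements send rationals to rationals
  have hconj : ∀ z x : Fin n → F, ∀ hzz : pullForm n q P z z = 0, ∀ hxz : pullForm n q P x z = 0,
      IsRatVec F₀ z → IsRatVec F₀ x → ∀ r, IsRatVec F₀ r → IsRatVec F₀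
        (((g * eich H.herm hzz hxz (- pullForm n q P x x / 2) * g⁻¹ : GL (Fin n) F) : Mat) *ᵥ r) := by
    intro z x hzz hxz hz hx r hr
    obtain ⟨a₁, b₁, ha₁, hb₁, e₁⟩ := H.decomp hε0 hε ((g : Mat) *ᵥ z)
    obtain ⟨a₂, b₂, ha₂, hb₂, e₂⟩ := H.decomp hε0 hε ((g : Mat) *ᵥ x)
    obtain ⟨z₀, y₀, hz₀, hy₀, oz, oy, hz₀z₀, -, hzy₀, -⟩ := H.exists_pair (le_refl 4) ![a₁, b₁, a₂, b₂]
      (fun i => by fin_cases i <;> assumption)
    have horth : ∀ u : Fin n → F, (∀ i, pullForm n q P u (![a₁, b₁, a₂, b₂] i) = 0) →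
        ((g * eich H.herm hzz hxz (- pullForm n q P x x / 2) * g⁻¹ : GL (Fin n) F) : Mat) *ᵥ u = u := by
      intro u hu
      have u0 := hu 0; have u1 := hu 1; have u2 := hu 2; have u3 := hu 3
      simp at u0 u1 u2 u3
      set u' := ((g⁻¹ : GL (Fin n) F) : Mat) *ᵥ u
      have hgu : (g : Mat) *ᵥ u' = u := gl_mulVec_inv g u
      have k1 : pullForm n q P u' z = 0 := by
        rw [← hiso, hgu, e₁, add_right H.herm, smul_right H.herm, u0, u1, mul_zero, add_zero]
      have k2 : pullForm n q P u' x = 0 := by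
        rw [← hiso, hgu, e₂, add_right H.herm, smul_right H.herm, u2, u3, mul_zero, add_zero]
      simp only [Units.val_mul, ← Matrix.mulVec_mulVec, eich_mulVec]
      rw [show ((g⁻¹ : GL (Fin n) F) : Mat) *ᵥ u = u' from rfl, k1, k2, zero_smul, zero_smul, sub_zero, add_zero]
      exact hgu
    exact H.fix_pair_rat hle hsu hno (M.mul_mem (M.mul_mem hg (hle (H.eich_rat hx hz hzz hxz))) (M.inv_mem hg))
      hz₀ hy₀ hz₀z₀ hzy₀ (horth z₀ oz) (horth y₀ oy) hr
  -- rational isotropic lines go to rational lines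
  have hline : ∀ z, IsRatVec F₀ z → pullForm n q P z z = 0 → z ≠ 0 →
      ∃ (k : F) (r : Fin n → F), IsRatVec F₀ r ∧ k ≠ 0 ∧ r ≠ 0 ∧ (g : Mat) *ᵥ z = k • r := by
    intro z hz hzz hz0
    obtain ⟨x, x', hx, hx', oz, oz', hxx, hx'x', hxx', hx'x⟩ := H.exists_pair (show 1 ≤ 4 by norm_num) ![z]
      (fun i => by fin_cases i; exact hz)
    have hxz : pullForm n q P x z = 0 := by simpa using oz 0
    have hx'z : pullForm n q P x' z = 0 := by simpa using oz' 0
    have hspan : ∀ u u' : Fin n → F, IsRatVec F₀ u → pullForm n q P u u = 0 → ∀ huz : pullForm n q P u z = 0,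
        pullForm n q P u' z = 0 → pullForm n q P u' u = 1 →
        ∃ α β : F, (fun i => frobQ hF (((g : Mat) *ᵥ z) i)) = α • (g : Mat) *ᵥ z + β • (g : Mat) *ᵥ u := by
      intro u u' hu huu huz hu'z hu'u
      set s := g * eich H.herm hzz huz (- pullForm n q P u u / 2) * g⁻¹ with hs
      obtain ⟨a, b, ha, hb, hab⟩ := H.decomp hε0 hε ((g : Mat) *ᵥ (-u'))
      have hsa := hconj z u hzz huz hz hu a ha
      have hsb := hconj z u hzz huz hz hu b hb
      rw [← hs] at hsa hsb
      have hsy : ∀ Y, (s : Mat) *ᵥ Y = Y - pullForm n q P (((g⁻¹ : GL (Fin n) F) : Mat) *ᵥ Y) u • (g : Mat) *ᵥ z +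
          pullForm n q P (((g⁻¹ : GL (Fin n) F) : Mat) *ᵥ Y) z • (g : Mat) *ᵥ u := fun Y => by
        rw [hs]
        simp only [Units.val_mul, ← Matrix.mulVec_mulVec, eich_mulVec, Matrix.mulVec_add, Matrix.mulVec_sub,
          Matrix.mulVec_smul, gl_mulVec_inv, huu, neg_zero, zero_div, zero_smul, add_zero]
      have hgz : (g : Mat) *ᵥ z = ((s : Mat) *ᵥ a - a) + ε • ((s : Mat) *ᵥ b - b) := by
        have h1 := hsy ((g : Mat) *ᵥ (-u'))
        rw [gl_inv_mulVec, neg_left H.herm, neg_left H.herm, hu'u, hu'z] at h1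
        rw [hab, Matrix.mulVec_add, Matrix.mulVec_smul] at h1
        linear_combination (norm := module) -h1
      have hconjg : (fun i => frobQ hF (((g : Mat) *ᵥ z) i)) = ((s : Mat) *ᵥ a - a) - ε • ((s : Mat) *ᵥ b - b) :=
        funext fun i => by
          rw [hgz]
          simp only [Pi.add_apply, Pi.sub_apply, Pi.smul_apply, smul_eq_mul, map_add, map_sub, map_mul, hε,
            H.sigma_rat hsa i, H.sigma_rat hsb i, H.sigma_rat ha i, H.sigma_rat hb i]
          ring
      refine ⟨-pullForm n q P (((g⁻¹ : GL (Fin n) F) : Mat) *ᵥ a) u +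
          ε * pullForm n q P (((g⁻¹ : GL (Fin n) F) : Mat) *ᵥ b) u,
        pullForm n q P (((g⁻¹ : GL (Fin n) F) : Mat) *ᵥ a) z -
          ε * pullForm n q P (((g⁻¹ : GL (Fin n) F) : Mat) *ᵥ b) z, ?_⟩
      rw [hconjg, hsy, hsy]
      module
    obtain ⟨α, β, e1⟩ := hspan x x' hx hxx hxz hx'z hx'x
    obtain ⟨α', β', e2⟩ := hspan x' x hx' hx'x' hx'z hxz hxx'
    have hzero : α • z + β • x = α' • z + β' • x' := gl_mulVec_injective g (by
      change (g : Mat) *ᵥ _ = (g : Mat) *ᵥ _
      simp only [Matrix.mulVec_add, Matrix.mulVec_smul]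
      rw [← e1, ← e2])
    have hβ : β = 0 := by
      have := congrArg (fun w => pullForm n q P w x') hzero
      simp only [H.herm.add_left, H.herm.smul_left, hxx', hx'x', (eq_zero_comm H.herm).mp hx'z, mul_zero, mul_one,
        add_zero, zero_add] at this
      exact this
    have he : ∀ i, frobQ hF (((g : Mat) *ᵥ z) i) = α * ((g : Mat) *ᵥ z) i := fun i => by
      have := congrFun e1 i
      rw [hβ, zero_smul, add_zero] at this
      exact this
    obtain ⟨k, r, hr, hkr⟩ := H.line_rat (hgne z hz0) he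
    refine ⟨k, r, hr, fun h => ?_, fun h => ?_, hkr⟩
    · exact hgne z hz0 (by rw [hkr, h, zero_smul])
    · exact hgne z hz0 (by rw [hkr, h, smul_zero])
  -- a common scalar
  obtain ⟨z₁, y₁, hz₁, -, -, -, hzz₁, -, hzy₁, -⟩ := H.exists_pair (show 0 ≤ 4 by norm_num) Fin.elim0
    (fun i => Fin.elim0 i)
  have hz₁0 : z₁ ≠ 0 := fun h => by rw [h, zero_left H.herm] at hzy₁; exact zero_ne_one hzy₁
  obtain ⟨c, r₁, hr₁, hc0, -, hgz₁⟩ := hline z₁ hz₁ hzz₁ hz₁0
  have hsum : ∀ u w k l ru rw', IsRatVec F₀ u → IsRatVec F₀ w → pullForm n q P u u = 0 → pullForm n q P w w = 0 →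
      pullForm n q P u w = 0 → (∀ a b : F, a • u + b • w = 0 → a = 0 ∧ b = 0) →
      IsRatVec F₀ ru → IsRatVec F₀ rw' → k ≠ 0 → l ≠ 0 → (g : Mat) *ᵥ u = k • ru → (g : Mat) *ᵥ w = l • rw' →
      l / k ∈ F₀ := by
    intro u w k l ru rw' hu hw huu hww huw hind hru hrw hk hl eu ew
    have hsumiso : pullForm n q P (u + w) (u + w) = 0 := by
      rw [H.herm.add_left, add_right H.herm, add_right H.herm, huu, hww, huw, (eq_zero_comm H.herm).mp huw]; ring
    have hne : u + w ≠ 0 := fun h => one_ne_zero (hind 1 1 (by rw [one_smul, one_smul]; exact h)).1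
    obtain ⟨m', r', hr', -, -, e'⟩ := hline (u + w) (isRat_add hu hw) hsumiso hne
    rw [Matrix.mulVec_add, eu, ew] at e'
    refine ratio_fixed H.fixed hru hrw hr' (fun a b hab => ?_) (k := l / k) (L := m' / k) ?_
    · have : (g : Mat) *ᵥ ((a / k) • u + (b / l) • w) = (g : Mat) *ᵥ 0 := by
        rw [Matrix.mulVec_add, Matrix.mulVec_smul, Matrix.mulVec_smul, eu, ew, smul_smul, smul_smul,
          div_mul_cancel₀ _ hk, div_mul_cancel₀ _ hl, hab, Matrix.mulVec_zero]
      obtain ⟨h1, h2⟩ := hind _ _ (gl_mulVec_injective g this)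
      exact ⟨(div_eq_zero_iff.mp h1).resolve_right hk, (div_eq_zero_iff.mp h2).resolve_right hl⟩
    · have := congrArg (fun v => k⁻¹ • v) e'
      simp only [smul_add, smul_smul, inv_mul_cancel₀ hk, one_smul] at this
      simpa [div_eq_inv_mul] using this
  have hall : ∀ z, IsRatVec F₀ z → pullForm n q P z z = 0 → IsRatVec F₀ (c⁻¹ • (g : Mat) *ᵥ z) := by
    intro z hz hzz
    rcases eq_or_ne z 0 with rfl | hz0
    · rw [Matrix.mulVec_zero, smul_zero]; exact fun i => zero_mem _
    obtain ⟨u, u', hu, hu', ou, ou', huu, hu'u', huu', hu'u⟩ := H.exists_pair (show 2 ≤ 4 by norm_num) ![z₁, z]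
      (fun i => by fin_cases i <;> assumption)
    have hu0 : u ≠ 0 := fun h => by rw [h, zero_left H.herm] at huu'; exact zero_ne_one huu'
    obtain ⟨cu, ru, hru, hcu, -, eu⟩ := hline u hu huu hu0
    obtain ⟨cz, rz, hrz, hcz, -, ez⟩ := hline z hz hzz hz0
    have hind : ∀ w : Fin n → F, w ≠ 0 → pullForm n q P u' w = 0 →
        ∀ a b : F, a • w + b • u = 0 → a = 0 ∧ b = 0 := fun w hw hu'w a b hab => by
      have := congrArg (fun v => pullForm n q P v u') hab
      simp only [H.herm.add_left, H.herm.smul_left, (eq_zero_comm H.herm).mp hu'w, huu', mul_zero, mul_one, zero_add,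
        zero_left H.herm] at this
      exact ⟨(smul_eq_zero.mp (by rwa [this, zero_smul, add_zero] at hab)).resolve_right hw, this⟩
    have o1 : pullForm n q P u z₁ = 0 := by simpa using ou 0
    have o2 : pullForm n q P u z = 0 := by simpa using ou 1
    have o1' : pullForm n q P u' z₁ = 0 := by simpa using ou' 0
    have o2' : pullForm n q P u' z = 0 := by simpa using ou' 1
    have q1 := hsum z₁ u c cu r₁ ru hz₁ hu hzz₁ huu ((eq_zero_comm H.herm).mp o1) (hind z₁ hz₁0 o1') hr₁ hru hc0 hcu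
      hgz₁ eu
    have q2 := hsum z u cz cu rz ru hz hu hzz huu ((eq_zero_comm H.herm).mp o2) (hind z hz0 o2') hrz hru hcz hcu ez eu
    rw [ez, smul_smul]
    refine isRat_smul ?_ hrz
    have := mul_mem q1 (inv_mem q2)
    rwa [inv_div, div_mul_div_comm, mul_comm c cu, mul_div_mul_left _ _ hcu, div_eq_inv_mul] at this
  refine mem_subGroupF.mpr ⟨c⁻¹, inv_ne_zero hc0, fun a b => ?_⟩
  have := H.rat_span (p := fun x => IsRatVec F₀ (c⁻¹ • (g : Mat) *ᵥ x))
    (fun x y hx hy => by rw [Matrix.mulVec_add, smul_add]; exact isRat_add hx hy)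
    (fun k hk x hx => by rw [Matrix.mulVec_smul, smul_comm]; exact isRat_smul hk hx) hall (isRat_single b) a
  rwa [Pi.smul_apply, Matrix.mulVec_single_one, Matrix.col_apply, smul_eq_mul] at this

end Cfsg.Agent.H98.Herm

namespace Cfsg.Agent.H98.Herm

open scoped Matrix

variable {F : Type*} [Field F] [Fintype F] {q n : ℕ}

local notation "Mat" => Matrix (Fin n) (Fin n) F

variable {hF : Fintype.card F = q ^ 2} {F₀ : Subfield F} {P : GL (Fin n) F} (H : OrthRat hF F₀ P)
include H

/-- A rational vector with prescribed products against two independent rational vectors, made isotropic. -/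
theorem OrthRat.exists_iso_prescribed {a b : Fin n → F} (ha : IsRatVec F₀ a) (hb : IsRatVec F₀ b)
    (hind : ∀ s t : F, s • a + t • b = 0 → s = 0 ∧ t = 0) {A B : F} (hA : A ∈ F₀) (hB : B ∈ F₀) :
    ∃ z, IsRatVec F₀ z ∧ pullForm n q P z z = 0 ∧ pullForm n q P z a = A ∧ pullForm n q P z b = B := by
  have dual : ∀ a b : Fin n → F, IsRatVec F₀ a → IsRatVec F₀ b → (∀ s t : F, s • a + t • b = 0 → s = 0 ∧ t = 0) →
      ∃ p, IsRatVec F₀ p ∧ pullForm n q P p a = 1 ∧ pullForm n q P p b = 0 := by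
    intro a b ha hb hind
    have hb0 : b ≠ 0 := fun h => one_ne_zero (hind 0 1 (by rw [h, smul_zero, zero_smul, add_zero])).2
    obtain ⟨y, hy, hyb⟩ := H.exists_nonorth hb0
    set d := pullForm n q P y a / pullForm n q P y b with hd
    have hdF : d ∈ F₀ := div_mem (H.rat _ _ hy ha) (H.rat _ _ hy hb)
    set a' := a - d • b with ha'
    have ha'0 : a' ≠ 0 := fun h => one_ne_zero (hind 1 (-d) (by rw [one_smul, neg_smul, ← sub_eq_add_neg]; exact h)).1
    obtain ⟨x, hx, hxa⟩ := H.exists_nonorth ha'0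
    set p := x - (pullForm n q P x b / pullForm n q P y b) • y with hp
    have hpr : IsRatVec F₀ p := isRat_sub hx (isRat_smul (div_mem (H.rat _ _ hx hb) (H.rat _ _ hy hb)) hy)
    have hpb : pullForm n q P p b = 0 := by
      rw [hp, sub_left H.herm, H.herm.smul_left, div_mul_cancel₀ _ hyb, sub_self]
    have hpa : pullForm n q P p a = pullForm n q P x a' := by
      rw [hp, ha', sub_left H.herm, H.herm.smul_left, sub_right H.herm, smul_right H.herm, (H.fixed _).mpr hdF, hd]
      field_simp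
    refine ⟨(pullForm n q P p a)⁻¹ • p, isRat_smul (inv_mem (H.rat _ _ hpr ha)) hpr, ?_, ?_⟩
    · rw [H.herm.smul_left, inv_mul_cancel₀ (by rw [hpa]; exact hxa)]
    · rw [H.herm.smul_left, hpb, mul_zero]
  obtain ⟨p, hp, hpa, hpb⟩ := dual a b ha hb hind
  obtain ⟨r, hr, hrb, hra⟩ := dual b a hb ha (fun s t h => (hind t s (by rw [add_comm]; exact h)).symm)
  set x₀ := A • p + B • r with hx₀
  have hx₀r : IsRatVec F₀ x₀ := isRat_add (isRat_smul hA hp) (isRat_smul hB hr)
  have ea : pullForm n q P x₀ a = A := by rw [hx₀, H.herm.add_left, H.herm.smul_left, H.herm.smul_left, hpa, hra]; ring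
  have eb : pullForm n q P x₀ b = B := by rw [hx₀, H.herm.add_left, H.herm.smul_left, H.herm.smul_left, hpb, hrb]; ring
  obtain ⟨e, e', he, he', oe, oe', hee, he'e', hee', he'e⟩ := H.exists_pair (show 3 ≤ 4 by norm_num) ![a, b, x₀]
    (fun i => by fin_cases i <;> assumption)
  clear_value x₀
  set μ := - pullForm n q P x₀ x₀ / 2 with hμ
  have hμF : μ ∈ F₀ := div_mem (neg_mem (H.rat _ _ hx₀r hx₀r)) H.two_mem
  have a0 := oe 0; have a1 := oe 1; have a2 := oe 2
  have b0 := oe' 0; have b1 := oe' 1; have b2 := oe' 2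
  simp at a0 a1 a2 b0 b1 b2
  refine ⟨x₀ + e + μ • e', isRat_add (isRat_add hx₀r he) (isRat_smul hμF he'), ?_, ?_, ?_⟩
  · simp only [H.herm.add_left, add_right H.herm, H.herm.smul_left, smul_right H.herm, (H.fixed _).mpr hμF, a2, b2,
      (eq_zero_comm H.herm).mp a2, (eq_zero_comm H.herm).mp b2, hee, he'e', hee', he'e]
    rw [hμ]
    have := H.two
    field_simp
    ring
  · rw [H.herm.add_left, H.herm.add_left, H.herm.smul_left, ea, a0, b0]; ring
  · rw [H.herm.add_left, H.herm.add_left, H.herm.smul_left, eb, a1, b1]; ring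

/-- The orthogonal subfield subgroup is maximal. -/
theorem OrthRat.maximal :
    Cfsg.Geo.IsMaximalIn (isoSL (pullForm n q P)) (subGroupF (Fin n) F₀ ⊓ isoSL (pullForm n q P)) := by
  classical
  haveI : Nonempty (Fin n) := ⟨⟨0, by have := H.hn; omega⟩⟩
  obtain ⟨ε, hε0, hε⟩ := exists_skew H.herm
  have hεF : ε * ε ∈ F₀ := (H.fixed _).mp (by rw [map_mul, hε, neg_mul_neg])
  refine isMaximalIn_of inf_le_right ?_ fun M h1 h2 g hgM hgH => ?_
  · obtain ⟨z, y, hz, hy, -, -, hzz, hyy, hzy, hyz⟩ := H.exists_pair (show 0 ≤ 4 by norm_num) Fin.elim0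
      (fun i => Fin.elim0 i)
    obtain ⟨w, hw, ow, hww⟩ := H.exists_aniso (show 2 ≤ 6 by norm_num) ![z, y] (fun i => by fin_cases i <;> assumption)
    have w0 := ow 0; have w1 := ow 1
    simp at w0 w1
    set v := z + ε • y with hv
    have hvv : pullForm n q P v v = 0 := by
      simp only [hv, H.herm.add_left, add_right H.herm, H.herm.smul_left, smul_right H.herm, hε, hzz, hyy, hzy, hyz]
      ring
    refine ⟨uT H.herm hvv ε, ⟨fun a b => uT_iso H.herm hvv hε a b, transGL_mem_sl _ _ _⟩, fun hm => ?_⟩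
    have hw0 : w ≠ 0 := fun h => hww (by rw [h, zero_left H.herm])
    have hfixw : (uT H.herm hvv ε : Mat) *ᵥ w = w := by
      rw [uT_mulVec, hv, add_right H.herm, smul_right H.herm, w0, w1, mul_zero, add_zero, mul_zero, zero_smul,
        add_zero]
    have hT := rational_of_fix hm.1 hw hw0 hfixw
    have hr := isRat_sub (mulVec_rat hT hz) hz
    rw [uT_mulVec, add_sub_cancel_left] at hr
    set k := ε * pullForm n q P z v with hk
    have hk' : k = -(ε * ε) := by rw [hk, hv, add_right H.herm, smul_right H.herm, hzz, hzy, hε]; ring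
    have hy0 : y ≠ 0 := fun h => by rw [h, zero_left H.herm] at hyz; exact zero_ne_one hyz
    obtain ⟨p, hp⟩ := Function.ne_iff.mp hy0
    have h3 : k * z p + (k * ε) * y p ∈ F₀ := by
      have := hr p
      rwa [Pi.smul_apply, hv, Pi.add_apply, Pi.smul_apply, smul_eq_mul, smul_eq_mul, mul_add, ← mul_assoc] at this
    have hkF : k ∈ F₀ := hk' ▸ neg_mem hεF
    have h4 : k * ε * y p ∈ F₀ := by
      have := sub_mem h3 (mul_mem hkF (hz p))
      rwa [add_sub_cancel_left] at this
    have h5 : k * y p ≠ 0 := mul_ne_zero (by rw [hk']; exact neg_ne_zero.mpr (mul_ne_zero hε0 hε0)) hp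
    have h6 : ε ∈ F₀ := by
      have := mul_mem h4 (inv_mem (mul_mem hkF (hy p)))
      rwa [show k * ε * y p = ε * (k * y p) by ring, mul_assoc, mul_inv_cancel₀ h5, mul_one] at this
    have := (H.fixed _).mpr h6
    rw [hε] at this
    exact hε0 ((mul_eq_zero.mp (show (2 : F) * ε = 0 by linear_combination -this)).resolve_left H.two)
  have hiso : ∀ k ∈ M, ∀ a b, pullForm n q P ((k : Mat) *ᵥ a) ((k : Mat) *ᵥ b) = pullForm n q P a b :=
    fun k hk => (mem_isoSL.mp (h2 hk)).1
  have hgS : g ∉ subGroupF (Fin n) F₀ := fun h => hgH ⟨h, h2 hgM⟩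
  obtain ⟨z₀, hz₀, hz₀z₀, hz₀0, hz₀C⟩ :
      ∃ z, IsRatVec F₀ z ∧ pullForm n q P z z = 0 ∧ z ≠ 0 ∧ z ∈ centres H.herm M := by
    by_contra hc; push Not at hc
    exact hgS (H.mem_of_no_centre h1 h2 hc hgM)
  -- transitivity on rational isotropic lines
  have hnon : ∀ u w, IsRatVec F₀ u → IsRatVec F₀ w → pullForm n q P u u = 0 → pullForm n q P w w = 0 →
      pullForm n q P u w ≠ 0 → u ∈ centres H.herm M → w ∈ centres H.herm M := by
    intro u w hu hw huu hww hne hC
    set c := (pullForm n q P u w)⁻¹ with hc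
    have hcF : c ∈ F₀ := inv_mem (H.rat _ _ hu hw)
    obtain ⟨r, hr, orr, hrr⟩ := H.exists_aniso (show 2 ≤ 6 by norm_num) ![u, w] (fun i => by fin_cases i <;> assumption)
    have r0 := orr 0; have r1 := orr 1
    simp at r0 r1
    obtain ⟨k, hk, e⟩ := H.move (u := u) (w := c • w) (r := r) huu
      (by rw [H.herm.smul_left, smul_right H.herm, hww, mul_zero, mul_zero]) hu (isRat_smul hcF hw)
      (by rw [smul_right H.herm, (H.fixed _).mpr hcF, hc, inv_mul_cancel₀ hne]) hr r0
      (by rw [smul_right H.herm, r1, mul_zero]) hrr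
    have h3 := centres_conj H.herm hiso (h1 hk) hC
    rw [e, smul_smul] at h3
    have h4 : (- pullForm n q P r r / 2) * c ≠ 0 :=
      mul_ne_zero (div_ne_zero (neg_ne_zero.mpr hrr) H.two) (inv_ne_zero hne)
    have h5 := centres_smul H.herm h3 ((- pullForm n q P r r / 2) * c)⁻¹
    rwa [smul_smul, inv_mul_cancel₀ h4, one_smul] at h5
  have hCr : ∀ w, IsRatVec F₀ w → pullForm n q P w w = 0 → w ∈ centres H.herm M := by
    intro w hw hww
    rcases eq_or_ne w 0 with rfl | hw0
    · have := centres_smul H.herm hz₀C 0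
      rwa [zero_smul] at this
    by_cases hzw : pullForm n q P z₀ w = 0
    swap
    · exact hnon z₀ w hz₀ hw hz₀z₀ hww hzw hz₀C
    obtain ⟨a, ha, haa, hza⟩ := H.partner hz₀ hz₀z₀ hz₀0
    obtain ⟨b, hb, hbb, hwb⟩ := H.partner hw hww hw0
    by_cases h3 : pullForm n q P w a = 0
    swap
    · exact hnon a w ha hw haa hww (fun h => h3 ((eq_zero_comm H.herm).mp h))
        (hnon z₀ a hz₀ ha hz₀z₀ haa (by rw [hza]; exact one_ne_zero) hz₀C)
    by_cases h4 : pullForm n q P z₀ b = 0
    swap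
    · exact hnon b w hb hw hbb hww (fun h => one_ne_zero (hwb.symm.trans ((eq_zero_comm H.herm).mp h)))
        (hnon z₀ b hz₀ hb hz₀z₀ hbb h4 hz₀C)
    set μ := - pullForm n q P a b with hμ
    have hμF : μ ∈ F₀ := neg_mem (H.rat _ _ ha hb)
    set u := a + b + μ • z₀ with hu
    have hur : IsRatVec F₀ u := isRat_add (isRat_add ha hb) (isRat_smul hμF hz₀)
    have e1 : pullForm n q P z₀ u = 1 := by
      rw [hu, add_right H.herm, add_right H.herm, smul_right H.herm, hza, h4, hz₀z₀]; ring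
    have e2 : pullForm n q P w u = 1 := by
      rw [hu, add_right H.herm, add_right H.herm, smul_right H.herm, h3, hwb, (eq_zero_comm H.herm).mp hzw]; ring
    have hba : pullForm n q P b a = pullForm n q P a b := H.symm ha hb
    have haz : pullForm n q P a z₀ = 1 := by rw [H.symm hz₀ ha]; exact hza
    have huu : pullForm n q P u u = 0 := by
      simp only [hu, H.herm.add_left, add_right H.herm, H.herm.smul_left, smul_right H.herm, (H.fixed _).mpr hμF,
        haa, hbb, hba, haz, hza, h4, (eq_zero_comm H.herm).mp h4, hz₀z₀]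
      rw [hμ]; ring
    exact hnon u w hur hw huu hww (fun h => one_ne_zero (e2.symm.trans ((eq_zero_comm H.herm).mp h)))
      (hnon z₀ u hz₀ hur hz₀z₀ huu (by rw [e1]; exact one_ne_zero) hz₀C)
  refine isoSL_le_of_uT hF (by have := H.hn; omega) P fun v hvv d hd => ?_
  suffices hvc : v ∈ centres H.herm M by
    obtain ⟨_, hv'⟩ := hvc
    exact hv' d hd
  obtain ⟨a, b, ha, hb, rfl⟩ := H.decomp hε0 hε v
  have hεε : ε * ε ≠ 0 := mul_ne_zero hε0 hε0
  by_cases hind : ∀ s t : F, s • a + t • b = 0 → s = 0 ∧ t = 0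
  swap
  · push Not at hind
    obtain ⟨s, t, hst, hne⟩ := hind
    -- a multiple of a rational vector
    obtain ⟨k, r, hr, hkr⟩ : ∃ (k : F) (r : Fin n → F), IsRatVec F₀ r ∧ a + ε • b = k • r := by
      by_cases hb0 : b = 0
      · exact ⟨1, a, ha, by rw [hb0, smul_zero, add_zero, one_smul]⟩
      have hs : s ≠ 0 := fun h => by
        rw [h, zero_smul, zero_add, smul_eq_zero] at hst
        exact hne h (hst.resolve_right hb0)
      have : a = (-(t / s)) • b := by
        have := congrArg (fun w => s⁻¹ • w) hst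
        simp only [smul_add, smul_smul, inv_mul_cancel₀ hs, one_smul, smul_zero] at this
        rw [eq_neg_of_add_eq_zero_left this, neg_smul, div_eq_inv_mul]
      exact ⟨-(t / s) + ε, b, hb, by rw [this]; module⟩
    rw [hkr] at hvv ⊢
    rcases eq_or_ne k 0 with rfl | hk
    · rw [zero_smul]
      have := centres_smul H.herm hz₀C 0
      rwa [zero_smul] at this
    rw [H.herm.smul_left, smul_right H.herm] at hvv
    refine centres_smul H.herm (hCr r hr ?_) k
    simpa [hk] using hvv
  -- the invariant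
  have hsym : pullForm n q P b a = pullForm n q P a b := H.symm ha hb
  have hvv' : pullForm n q P a a - ε * ε * pullForm n q P b b = 0 := by
    have := hvv
    simp only [H.herm.add_left, add_right H.herm, H.herm.smul_left, smul_right H.herm, hε, hsym] at this
    linear_combination this
  set c := pullForm n q P a b with hc
  set e := pullForm n q P b b with he
  set W := c + ε * e with hW
  obtain ⟨u, k, hu, hk, huk⟩ : ∃ u k : F, u ≠ 0 ∧ k ≠ 0 ∧ W + u * u = k * k := by
    by_cases hW0 : W = 0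
    · exact ⟨1, 1, one_ne_zero, one_ne_zero, by rw [hW0, zero_add]⟩
    have hq9 : 8 ≤ Fintype.card F := by
      have h3 := Cfsg.Agent.H3.two_le_q hF
      have h4 : q ≠ 2 := fun h => by
        haveI : CharP F 2 := ringChar.of_eq (FiniteField.even_card_iff_char_two.mpr (by rw [hF, h]; norm_num))
        exact H.two CharTwo.two_eq_zero
      have h6 : 3 ≤ q := by omega
      rw [hF]; nlinarith
    obtain ⟨t, ht⟩ : ((Finset.univ : Finset F) \ (insert 0 ((Polynomial.X ^ 2 - Polynomial.C W).roots.toFinset ∪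
        (Polynomial.X ^ 2 - Polynomial.C (-W)).roots.toFinset))).Nonempty := by
      rw [← Finset.card_pos, Finset.card_sdiff_of_subset (Finset.subset_univ _), Finset.card_univ]
      have h5 : ∀ x : F, (Polynomial.X ^ 2 - Polynomial.C x).roots.toFinset.card ≤ 2 := fun x =>
        (Multiset.toFinset_card_le _).trans ((Polynomial.card_roots' _).trans
          (by rw [Polynomial.natDegree_X_pow_sub_C]))
      have := Finset.card_insert_le (0 : F) ((Polynomial.X ^ 2 - Polynomial.C W).roots.toFinset ∪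
        (Polynomial.X ^ 2 - Polynomial.C (-W)).roots.toFinset)
      have := Finset.card_union_le (Polynomial.X ^ 2 - Polynomial.C W).roots.toFinset
        (Polynomial.X ^ 2 - Polynomial.C (-W)).roots.toFinset
      have := h5 W
      have := h5 (-W)
      omega
    simp only [Finset.mem_sdiff, Finset.mem_univ, true_and, Finset.mem_insert, Finset.mem_union, not_or,
      Multiset.mem_toFinset, Polynomial.mem_roots (Polynomial.X_pow_sub_C_ne_zero two_pos _), Polynomial.IsRoot,
      Polynomial.eval_sub, Polynomial.eval_pow, Polynomial.eval_X, Polynomial.eval_C, sub_eq_zero] at ht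
    obtain ⟨ht0, ht1, ht2⟩ := ht
    have h2 := H.two
    refine ⟨(t - W / t) / 2, (t + W / t) / 2, ?_, ?_, by field_simp; ring⟩
    · intro h; refine ht1 ?_
      field_simp at h
      linear_combination h
    · intro h; refine ht2 ?_
      field_simp at h
      linear_combination h
  obtain ⟨A, B, hA, hB, hAB⟩ : ∃ A B : F, A ∈ F₀ ∧ B ∈ F₀ ∧ u = A + ε * B := by
    refine ⟨(u + frobQ hF u) / 2, (u - frobQ hF u) / (2 * ε), (H.fixed _).mp ?_, (H.fixed _).mp ?_, ?_⟩
    · rw [map_div₀, map_add, H.herm.involutive, map_ofNat, add_comm]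
    · rw [map_div₀, map_sub, H.herm.involutive, map_mul, map_ofNat, hε, mul_neg, ← neg_sub u, neg_div_neg_eq]
    · have h2 := H.two
      field_simp
      ring
  obtain ⟨z, hz, hzz, hza, hzb⟩ := H.exists_iso_prescribed ha hb hind hA hB
  have haz : pullForm n q P a z = A := by rw [H.symm hz ha]; exact hza
  have hbz : pullForm n q P b z = B := by rw [H.symm hz hb]; exact hzb
  have hvz : pullForm n q P (a + ε • b) z = u := by rw [H.herm.add_left, H.herm.smul_left, haz, hbz, hAB]
  set κ := ε * u with hκ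
  set v₂ := (a + ε • b) + κ • z with hv₂
  -- rescale to a hyperbolic plane
  obtain ⟨a₃, b₃, ha₃, hb₃, h3⟩ := H.decomp hε0 hε (k⁻¹ • v₂)
  have hσu : frobQ hF u = A - ε * B := by
    rw [hAB, map_add, map_mul, hε, (H.fixed _).mpr hA, (H.fixed _).mpr hB]; ring
  have hσκ : frobQ hF κ = -ε * (A - ε * B) := by rw [hκ, map_mul, hε, hσu]
  have hbar : (fun i => frobQ hF (v₂ i)) = a - ε • b + frobQ hF κ • z := funext fun i => by
    simp only [hv₂, Pi.add_apply, Pi.sub_apply, Pi.smul_apply, smul_eq_mul, map_add, map_mul, hε,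
      H.sigma_rat ha i, H.sigma_rat hb i, H.sigma_rat hz i]
    ring
  clear_value κ
  have hv₂v₂ : pullForm n q P v₂ v₂ = 0 := by
    simp only [hv₂, H.herm.add_left, add_right H.herm, H.herm.smul_left, smul_right H.herm, hε, haz, hbz, hza, hzb,
      hzz, hsym, ← he, hσκ]
    rw [hκ, hAB]
    linear_combination hvv'
  have hbil : pullForm n q P v₂ (fun i => frobQ hF (v₂ i)) = 2 * ε * (k * k) := by
    rw [hbar]
    simp only [hv₂, H.herm.add_left, add_right H.herm, sub_right H.herm, H.herm.smul_left, smul_right H.herm,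
      H.herm.involutive, hε, haz, hbz, hza, hzb, hzz, hsym, ← he]
    rw [hκ, ← huk, hW, hAB]
    linear_combination hvv'
  have hkinv : k⁻¹ ≠ 0 := inv_ne_zero hk
  have h33 : pullForm n q P (a₃ + ε • b₃) (a₃ + ε • b₃) = 0 := by
    rw [← h3, H.herm.smul_left, smul_right H.herm, hv₂v₂, mul_zero, mul_zero]
  have h33' : pullForm n q P (a₃ + ε • b₃) (a₃ - ε • b₃) = 2 * ε := by
    have e : a₃ - ε • b₃ = frobQ hF k⁻¹ • fun i => frobQ hF (v₂ i) := funext fun i => by
      have := congrArg (frobQ hF) (congrFun h3 i)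
      simp only [Pi.smul_apply, Pi.add_apply, smul_eq_mul, map_mul, map_add, hε, H.sigma_rat ha₃ i,
        H.sigma_rat hb₃ i] at this
      simp only [Pi.sub_apply, Pi.smul_apply, smul_eq_mul]
      linear_combination -this
    rw [e, ← h3, H.herm.smul_left, smul_right H.herm, H.herm.involutive, hbil]
    field_simp
  have hsym₃ : pullForm n q P b₃ a₃ = pullForm n q P a₃ b₃ := H.symm ha₃ hb₃
  simp only [H.herm.add_left, add_right H.herm, sub_right H.herm, H.herm.smul_left, smul_right H.herm, hε, hsym₃]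
    at h33 h33'
  have hsplit := H.split_zero hε0 hε
    (c := 2 * pullForm n q P a₃ a₃) (d := 2 * (pullForm n q P a₃ b₃ - 1))
    (mul_mem H.two_mem (H.rat _ _ ha₃ ha₃)) (mul_mem H.two_mem (sub_mem (H.rat _ _ ha₃ hb₃) (one_mem _)))
    (by linear_combination h33 + h33')
  have hQa : pullForm n q P a₃ a₃ = 0 := (mul_eq_zero.mp hsplit.1).resolve_left H.two
  have hc1 : pullForm n q P a₃ b₃ = 1 := sub_eq_zero.mp ((mul_eq_zero.mp hsplit.2).resolve_left H.two)
  have hQb : pullForm n q P b₃ b₃ = 0 := by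
    rw [hQa] at h33
    exact (mul_eq_zero.mp (show (ε * ε) * pullForm n q P b₃ b₃ = 0 by linear_combination -h33)).resolve_left hεε
  have hC3 : a₃ + ε • b₃ ∈ centres H.herm M := by
    have h := centres_pair H.herm hiso (hCr a₃ ha₃ hQa) (hCr b₃ hb₃ hQb) (by rw [hc1]; exact one_ne_zero)
      (k := 1) (l := ε) (by
        simp only [one_smul, H.herm.add_left, add_right H.herm, H.herm.smul_left, smul_right H.herm, hε, hsym₃, hQa,
          hQb]
        ring)
    rwa [one_smul] at h
  rw [← h3] at hC3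
  have hC2 : v₂ ∈ centres H.herm M := by
    have := centres_smul H.herm hC3 k
    rwa [smul_smul, mul_inv_cancel₀ hk, one_smul] at this
  have e5 : (1 : F) • v₂ + (-κ) • z = a + ε • b := by rw [hv₂]; module
  have := centres_pair H.herm hiso hC2 (hCr z hz hzz)
    (by rw [hv₂, H.herm.add_left, H.herm.smul_left, hzz, hvz, mul_zero, add_zero]; exact hu) (k := 1) (l := -κ)
    (by rw [e5]; exact hvv)
  rwa [e5] at this

end Cfsg.Agent.H98.Herm
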