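import Cfsg.Agent.H98.OrthSubLine
import Cfsg.Agent.H98.InvolutionPair

set_option autoImplicit false
set_option linter.unusedSectionVars false

/-!
Without new scalars every element of an overgroup lying in `Ω` is rational up to a scalar.
-/

namespace Cfsg.Agent.H98.OSub

open Cfsg.Agent.H5 QuadraticMap

variable {ι : Type} [Fintype ι] [DecidableEq ι] {F : Type*} [Field F] [Finite F]

local notation "V" => (ι → F)

variable {q : QuadraticForm F (ι → F)} {F₀ : Subfield F} {r : ℕ}

/-- The product of two reflections. -/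
def dRefl (q : QuadraticForm F (ι → F)) (u v : ι → F) : orth q := refl q u * refl q v

theorem finite_orth : Finite (orth q) := by
  haveI : Finite (ι → F) := Pi.finite
  exact Finite.of_injective (fun (g : orth q) (x : ι → F) => (g : (ι → F) ≃ₗ[F] (ι → F)) x) fun g h e =>
    orth_ext fun x => congrFun e x

theorem dRefl_apply {u v : ι → F} (huv : polar q u v = 0) (x : ι → F) :
    (dRefl q u v : (ι → F) ≃ₗ[F] (ι → F)) x =
      x - ((q u)⁻¹ * polar q u x) • u - ((q v)⁻¹ * polar q v x) • v := by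
  rw [dRefl, orth_mul_apply, refl_apply, refl_apply, polar_sub_right, polar_smul_right, huv, smul_zero, sub_zero]
  abel

theorem dRefl_sq {u v : ι → F} (huv : polar q u v = 0) : dRefl q u v * dRefl q u v = 1 := by
  have h : refl q u * refl q v = refl q v * refl q u := by
    have := refl_conj (refl q u) v
    rw [refl_apply_of_ortho huv, refl_inv] at this
    calc refl q u * refl q v = refl q u * refl q v * (refl q u * refl q u) := by rw [refl_mul_self, mul_one]
      _ = refl q u * refl q v * refl q u * refl q u := by rw [mul_assoc _ (refl q u) (refl q u)]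
      _ = refl q v * refl q u := by rw [this]
  rw [dRefl]
  calc refl q u * refl q v * (refl q u * refl q v) = refl q u * refl q v * (refl q v * refl q u) := by rw [← h]
    _ = refl q u * (refl q v * refl q v) * refl q u := by simp only [mul_assoc]
    _ = 1 := by rw [refl_mul_self, mul_one, refl_mul_self]

theorem conj_dRefl (g : orth q) (u v : ι → F) :
    g * dRefl q u v * g⁻¹ = dRefl q ((g : (ι → F) ≃ₗ[F] (ι → F)) u) ((g : (ι → F) ≃ₗ[F] (ι → F)) v) := by
  rw [dRefl, dRefl, ← refl_conj, ← refl_conj]; group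

theorem apply_of_commute {g h : orth q} (hc : g * h = h * g) (x : ι → F) :
    (g : (ι → F) ≃ₗ[F] (ι → F)) ((h : (ι → F) ≃ₗ[F] (ι → F)) x) =
      (h : (ι → F) ≃ₗ[F] (ι → F)) ((g : (ι → F) ≃ₗ[F] (ι → F)) x) := by
  rw [← orth_mul_apply, hc, orth_mul_apply]

theorem pow_apply_fixed {g : orth q} {x : ι → F} (h : (g : (ι → F) ≃ₗ[F] (ι → F)) x = x) (k : ℕ) :
    ((g ^ k : orth q) : (ι → F) ≃ₗ[F] (ι → F)) x = x := by
  induction k with
  | zero => simp
  | succ k ih => rw [pow_succ, orth_mul_apply, h, ih]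

/-- Independent rational vectors spanning the span of given rational vectors. -/
theorem exists_rat_indep {α : Type*} [Finite α] (t : α → ι → F) (ht : ∀ a, IsRatVec F₀ (t a)) :
    ∃ (k : ℕ) (s : Fin k → ι → F), (∀ i, IsRatVec F₀ (s i)) ∧ LinearIndependent F s ∧
      Submodule.span F (Set.range s) = Submodule.span F (Set.range t) := by
  classical
  obtain ⟨b, hb, hspan, hli⟩ := exists_linearIndependent F (Set.range t)
  haveI : Fintype b := ((Set.finite_range t).subset hb).fintype
  refine ⟨Fintype.card b, Subtype.val ∘ (Fintype.equivFin b).symm, fun i => ?_,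
    hli.comp _ (Fintype.equivFin b).symm.injective, ?_⟩
  · obtain ⟨a, ha⟩ := hb ((Fintype.equivFin b).symm i).2
    rw [Function.comp_apply, ← ha]; exact ht a
  · rw [← hspan, Set.range_comp, (Fintype.equivFin b).symm.surjective.range_eq, Set.image_univ, Subtype.range_coe]

/-- Independent rational vectors spanning the residual space of a rational isometry. -/
theorem exists_resid_basis {g : orth q} (hg : RatMap F₀ g) :
    ∃ s : Fin (rk g) → ι → F, (∀ i, IsRatVec F₀ (s i)) ∧ LinearIndependent F s ∧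
      Submodule.span F (Set.range s) = resid g := by
  obtain ⟨k, s, hs, hli, hspan⟩ := exists_rat_indep (F₀ := F₀) (fun l => dLin g (Pi.single l (1 : F)))
    (fun l => by rw [dLin_apply]; exact isRat_sub (hg _ (isRat_single l)) (isRat_single l))
  have e : Submodule.span F (Set.range fun l => dLin g (Pi.single l (1 : F))) = resid g := by
    refine le_antisymm (Submodule.span_le.mpr (by rintro _ ⟨l, rfl⟩; exact ⟨_, rfl⟩)) ?_
    rintro _ ⟨x, rfl⟩
    rw [pi_eq_sum_univ' x, map_sum]
    exact Submodule.sum_mem _ fun l _ => by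
      rw [map_smul]; exact Submodule.smul_mem _ _ (Submodule.subset_span ⟨l, rfl⟩)
  rw [e] at hspan
  have hk : k = rk g := by
    have := finrank_span_eq_card hli
    rw [hspan, Fintype.card_fin] at this
    exact this.symm
  subst hk
  exact ⟨s, hs, hli, hspan⟩

variable (H : OR q F₀ r)
include H

theorem OR.dRefl_mem_comm {u v : V} (hu : q u ≠ 0) (h : q v = q u) : dRefl q u v ∈ commutator (orth q) := by
  haveI : Finite (ι → F) := Pi.finite
  have := (list_prod_mem_commutator_iff H.nondeg (Or.inr (by have := H.finrank_V; omega)) (vs := [u, v])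
    (by simp [hu, h])).mpr ⟨by simp, ⟨q u, by simp [h]⟩⟩
  simpa [dRefl] using this

theorem OR.two_le_rk {g : orth q} (hg : g ∈ commutator (orth q)) (h1 : g ≠ 1) : 2 ≤ rk g := by
  haveI : Finite (ι → F) := Pi.finite
  have hd := ((mem_commutator_iff H.nondeg (Or.inr (by have := H.finrank_V; omega))).mp hg).1
  by_contra hc
  rcases Nat.lt_or_ge (rk g) 1 with h | h
  · exact h1 (eq_one_of_rk_eq_zero (by omega))
  · rw [dick, show rk g = 1 by omega, pow_one] at hd
    exact absurd hd (by decide)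

theorem OR.fixed_of_perp {g : orth q} {k : ℕ} {s : Fin k → V} (hs : Submodule.span F (Set.range s) = resid g)
    {x : V} (hx : ∀ i, polar q (s i) x = 0) : (g : V ≃ₗ[F] V) x = x := by
  rw [← mem_fixer, fixer_eq_perp_resid H.nondeg, ← hs]
  intro w hw
  obtain ⟨c, rfl⟩ := (Submodule.mem_span_range_iff_exists_fun F).mp hw
  change polarBilin q (∑ i, c i • s i) x = 0
  rw [map_sum, LinearMap.sum_apply]
  exact Finset.sum_eq_zero fun i _ => by rw [map_smul, LinearMap.smul_apply, polarBilin_apply_apply, hx, smul_zero]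

theorem OR.resid_le_span {g : orth q} {k : ℕ} {s : Fin k → V}
    (h : ∀ x, (∀ i, polar q (s i) x = 0) → (g : V ≃ₗ[F] V) x = x) :
    resid g ≤ Submodule.span F (Set.range s) := by
  have h1 : perp q (Submodule.span F (Set.range s)) ≤ fixer g := fun x hx =>
    mem_fixer.mpr (h x fun i => hx _ (Submodule.subset_span (Set.mem_range_self i)))
  rw [resid_eq_perp_fixer H.nondeg, ← perp_perp H.nondeg (Submodule.span F (Set.range s))]
  exact perp_anti h1

theorem OR.resid_le {g : orth q} {k : ℕ} {s : Fin k → V}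
    (h : ∀ x, (∀ i, polar q (s i) x = 0) → (g : V ≃ₗ[F] V) x = x) : rk g ≤ k := by
  exact (Submodule.finrank_mono (H.resid_le_span h)).trans ((finrank_range_le_card s).trans (Fintype.card_fin k).le)

/-- A rational singular vector in the span of at least three independent rational vectors. -/
theorem OR.sing_in {k : ℕ} {s : Fin k → V} (hs : ∀ i, IsRatVec F₀ (s i)) (hli : LinearIndependent F s)
    (hk : 3 ≤ k) : ∃ x, IsRatVec F₀ x ∧ q x = 0 ∧ x ≠ 0 ∧ x ∈ Submodule.span F (Set.range s) := by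
  choose a ha using fun i => exists_incl (hs i)
  set L : (Fin k → F₀) →ₗ[F₀] (ι → F₀) := Fintype.linearCombination F₀ a with hL
  obtain ⟨c, hc0, hc⟩ := @H4.exists_singular_of_three_le F₀ (Fin k → F₀) _ _ _ _ _ (H.q₀.comp L)
    (by rw [Module.finrank_pi, Fintype.card_fin]; exact hk)
  have e : incl F₀ (L c) = ∑ i, ((c i : F₀) : F) • s i := by
    rw [hL, Fintype.linearCombination_apply, map_sum]
    exact Finset.sum_congr rfl fun i _ => by rw [map_smul, ha i]; rfl
  refine ⟨incl F₀ (L c), incl_rat _, by rw [← H.coe_q₀]; exact congrArg Subtype.val hc, fun h0 => hc0 ?_, ?_⟩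
  · rw [e] at h0
    exact funext fun i => Subtype.ext (Fintype.linearIndependent_iff.mp hli _ h0 i)
  · rw [e]; exact Submodule.sum_mem _ fun i _ => Submodule.smul_mem _ _ (Submodule.subset_span (Set.mem_range_self i))

variable {M : Subgroup (orth q)} (hM : Over F₀ M) (hns : NoNew F₀ M)
include hM hns

/-- The criterion, with a line found orthogonally to given rational vectors. -/
theorem OR.subF_of_maps (h10 : 10 ≤ Fintype.card ι) {y : orth q} (hy : y ∈ M) {k : ℕ} (hk : k ≤ 5) (s : Fin k → V)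
    (hs : ∀ i, IsRatVec F₀ (s i)) {z : V} (hz : IsRatVec F₀ z) (hz0 : z ≠ 0) (hzz : q z = 0)
    (h : ∀ x, (∀ i, polar q (s i) x = 0) → polar q z ((y : V ≃ₗ[F] V) x) = 0) : SubF F₀ y := by
  obtain ⟨p, p', hp, hp', hpp, hp'p', hpp', hp0, hni, hps, hp's⟩ := H.exists_line s hs (by omega)
  exact H.criterion hM hns hy hp hp' hpp hp'p' hpp' hp0 hni hz hz0 hzz (h p hps) (h p' hp's)

/-- Few extension degrees: a singular kernel vector does it. -/
theorem OR.subF_of_small (hr : 2 * r + 3 ≤ Fintype.card ι) {g : orth q} (hg : g ∈ M) : SubF F₀ g := by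
  obtain ⟨a, b, ha, hb, haa, hbb, hab, ha0, hba, -, -⟩ := H.exists_line (Fin.elim0 : Fin 0 → V) (fun i => i.elim0)
    (by have := H.big; omega)
  let L : (ι → F₀) →ₗ[F₀] F × F :=
    (((polarBilin q).flip ((g : V ≃ₗ[F] V) a)).restrictScalars F₀ |>.comp (incl F₀)).prod
      (((polarBilin q).flip ((g : V ≃ₗ[F] V) b)).restrictScalars F₀ |>.comp (incl F₀))
  have h1 := LinearMap.finrank_range_add_finrank_ker L
  have h2 := Submodule.finrank_le (LinearMap.range L)
  rw [Module.finrank_prod, H.finrank_dim] at h2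
  rw [Module.finrank_pi] at h1
  have h3 : 3 ≤ Module.finrank F₀ (LinearMap.ker L) := by omega
  obtain ⟨c, hc0, hc⟩ := @H4.exists_singular_of_three_le F₀ (LinearMap.ker L) _ _ _ _ _
    (H.q₀.comp (LinearMap.ker L).subtype) h3
  have h4 : L c.1 = 0 := c.2
  exact H.criterion hM hns hg ha hb haa hbb hab ha0 hba (incl_rat c.1)
    (fun h0 => hc0 (Subtype.ext (incl_injective F₀ (h0.trans (map_zero _).symm))))
    (by rw [← H.coe_q₀]; exact congrArg Subtype.val hc) (congrArg Prod.fst h4) (congrArg Prod.snd h4)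

/-- Characteristic two. -/
theorem OR.subF_even (h10 : 10 ≤ Fintype.card ι) (h2 : (2 : F) = 0) (hr : Odd r) {g : orth q} (hg : g ∈ M) : SubF F₀ g := by
  haveI := finite_orth (q := q)
  haveI : CharP F 2 := CharTwo.of_one_ne_zero_of_two_eq_zero one_ne_zero h2
  obtain ⟨e₁, f₁, he₁, hf₁, p₁, -, -⟩ := H.exists_pair (Fin.elim0 : Fin 0 → V) (fun i => i.elim0)
    (by have := H.big; omega)
  obtain ⟨a₁, h₁, ha₁, hh₁, p₂, a₁s, h₁s⟩ := H.exists_pair ![e₁, f₁] (fun i => by fin_cases i <;> assumption)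
    (by have := H.big; omega)
  obtain ⟨e₂, f₂, he₂, hf₂, p₃, e₂s', f₂s'⟩ := H.exists_pair₂ ![e₁, f₁] (fun i => by fin_cases i <;> assumption)
    ha₁ hh₁ p₂ a₁s h₁s (by have := H.big; omega)
  have e₂s : ∀ i, polar q (![e₁, f₁, a₁, h₁] i) e₂ = 0 := fun i => by
    fin_cases i; exacts [e₂s' 2, e₂s' 3, e₂s' 0, e₂s' 1]
  have f₂s : ∀ i, polar q (![e₁, f₁, a₁, h₁] i) f₂ = 0 := fun i => by
    fin_cases i; exacts [f₂s' 2, f₂s' 3, f₂s' 0, f₂s' 1]
  obtain ⟨a₂, ha₂, ha₂₂, -, a₂s, a₂n⟩ := H.exists_sing ![e₁, f₁, a₁, h₁, e₂]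
    (fun i => by fin_cases i <;> assumption) ![e₂] (fun i => by fin_cases i; exact he₂)
    (by have := H.big; omega)
  have q1 : polar q e₁ a₁ = 0 := by simpa using a₁s 0
  have q2 : polar q f₁ a₁ = 0 := by simpa using a₁s 1
  have q3 : polar q e₁ h₁ = 0 := by simpa using h₁s 0
  have q4 : polar q e₁ e₂ = 0 := by simpa using e₂s 0
  have q5 : polar q f₁ e₂ = 0 := by simpa using e₂s 1
  have q6 : polar q a₁ e₂ = 0 := by simpa using e₂s 2
  have q7 : polar q h₁ e₂ = 0 := by simpa using e₂s 3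
  have q8 : polar q e₁ f₂ = 0 := by simpa using f₂s 0
  have q9 : polar q a₁ f₂ = 0 := by simpa using f₂s 2
  have q10 : polar q e₁ a₂ = 0 := by simpa using a₂s 0
  have q11 : polar q f₁ a₂ = 0 := by simpa using a₂s 1
  have q12 : polar q a₁ a₂ = 0 := by simpa using a₂s 2
  have q13 : polar q h₁ a₂ = 0 := by simpa using a₂s 3
  have q14 : polar q e₂ a₂ = 0 := by simpa using a₂s 4
  set A := eich q e₁ a₁ with hA
  set B := eich q e₂ a₂ with hB
  have hAv : ∀ x, (A : V ≃ₗ[F] V) x = x + polar q e₁ x • a₁ - polar q a₁ x • e₁ :=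
    eich_line_apply p₁.left p₂.left q1
  have hBv : ∀ x, (B : V ≃ₗ[F] V) x = x + polar q e₂ x • a₂ - polar q a₂ x • e₂ :=
    eich_line_apply p₃.left ha₂₂ q14
  set i := A * B with hi
  have hiv : ∀ x, (i : V ≃ₗ[F] V) x =
      x + polar q e₂ x • a₂ - polar q a₂ x • e₂ + polar q e₁ x • a₁ - polar q a₁ x • e₁ := fun x => by
    rw [hi, orth_mul_apply A B, hAv, hBv]
    simp only [polar_add_right, polar_sub_right, polar_smul_right, q4, q6, q10, q12]
    module
  have hsq : ∀ e a : V, q e = 0 → polar q e a = 0 → eich q e a * eich q e a = 1 := fun e a he ha => by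
    rw [eich_mul he ha ha, ← two_smul F, h2, zero_smul, eich_zero]
  have hAB : A * B = B * A := orth_ext fun x => by
    rw [orth_mul_apply A B, orth_mul_apply B A, hAv, hBv, hBv, hAv]
    simp only [polar_add_right, polar_sub_right, polar_smul_right, polar_comm q e₂ e₁, polar_comm q e₂ a₁,
      polar_comm q a₂ e₁, polar_comm q a₂ a₁, q4, q6, q10, q12]
    module
  have hii : i * i = 1 := by
    calc A * B * (A * B) = A * B * (B * A) := by rw [← hAB]
      _ = A * (B * B) * A := by simp only [mul_assoc]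
      _ = 1 := by rw [hsq _ _ p₃.left q14, mul_one, hsq _ _ p₁.left q1]
  have hiM : i ∈ M := mul_mem (hM _ (H.eich_comm_mem _ _) (H.ratMap_eich he₁ ha₁))
    (hM _ (H.eich_comm_mem _ _) (H.ratMap_eich he₂ ha₂))
  set Y : V ≃ₗ[F] V := (g : V ≃ₗ[F] V) with hY
  have gee : q (Y e₁) = 0 := by rw [hY, orth_map, p₁.left]
  have gaa : q (Y a₁) = 0 := by rw [hY, orth_map, p₂.left]
  have gea : polar q (Y e₁) (Y a₁) = 0 := by rw [hY, orth_polar, q1]
  set j := eich q (Y e₁) (Y a₁) with hj
  have hjM : j ∈ M := ((H.rootIn_rat hM he₁ ha₁ p₁.left q1).conj hg).2.2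
  have hjj : j * j = 1 := hsq _ _ gee gea
  have hjv : ∀ x, dLin j x = polar q (Y e₁) x • Y a₁ - polar q (Y a₁) x • Y e₁ := fun x => by
    rw [dLin_apply, hj, eich_line_apply gee gaa gea]; module
  have hjmem : ∀ x, dLin j x ∈ Submodule.span F ({Y e₁, Y a₁} : Set V) := fun x => by
    rw [hjv]
    exact Submodule.sub_mem _ (Submodule.smul_mem _ _ (Submodule.subset_span (by simp)))
      (Submodule.smul_mem _ _ (Submodule.subset_span (by simp)))
  have d1 : dLin i (-h₁) = e₁ := by
    rw [map_neg, dLin_apply, hiv, polar_comm q e₂ h₁, q7, polar_comm q a₂ h₁, q13, q3, p₂.pair]; module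
  have d2 : dLin i f₁ = a₁ := by
    rw [dLin_apply, hiv, polar_comm q e₂ f₁, q5, polar_comm q a₂ f₁, q11, p₁.pair, polar_comm q a₁ f₁, q2]; module
  rcases involution_pair hii hjj with hconj | ⟨k, hk1, hksq, hki, hkj⟩
  · exfalso
    obtain ⟨c, hc⟩ := isConj_iff.mp hconj
    set S := Submodule.span F ({Y e₁, Y a₁} : Set V)
    have hS : ∀ x, (c : V ≃ₗ[F] V) (dLin i x) ∈ S := fun x => by
      have hci : c * i = j * c := by rw [← hc]; group
      have := hjmem ((c : V ≃ₗ[F] V) x)
      rw [dLin_apply, ← orth_mul_apply j c, ← hci, orth_mul_apply c i, ← map_sub, ← dLin_apply] at this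
      exact this
    set w := dLin i f₂ with hw
    have hwv : w = a₂ - polar q a₂ f₂ • e₂ := by
      rw [hw, dLin_apply, hiv, p₃.pair, q8, q9]; module
    let vec : Fin 3 → V := fun t => (c : V ≃ₗ[F] V) (![e₁, a₁, w] t)
    have hli : LinearIndependent F vec := by
      rw [Fintype.linearIndependent_iff]
      intro s hs
      have hs0 : s 0 • e₁ + s 1 • a₁ + s 2 • w = 0 := (c : V ≃ₗ[F] V).injective (by
        rw [map_add, map_add, map_smul, map_smul, map_smul, map_zero]
        simpa [vec, Fin.sum_univ_three] using hs)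
      have s0 : s 0 = 0 := by
        have := congrArg (fun v => polar q f₁ v) hs0
        simpa [hwv, polar_add_right, polar_sub_right, polar_smul_right, p₁.symm.pair, q2, q5, q11] using this
      have s1 : s 1 = 0 := by
        have := congrArg (fun v => polar q h₁ v) hs0
        simpa [hwv, polar_add_right, polar_sub_right, polar_smul_right, p₂.symm.pair, polar_comm q h₁ e₁, q3, q7,
          q13] using this
      have s2 : s 2 = 0 := by
        rw [s0, s1, zero_smul, zero_smul, zero_add, zero_add, smul_eq_zero] at hs0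
        refine hs0.resolve_right fun h0 => a₂n ?_
        rw [hwv, sub_eq_zero] at h0
        rw [h0]
        exact Submodule.smul_mem _ _ (Submodule.subset_span ⟨0, rfl⟩)
      intro t; fin_cases t <;> assumption
    have hsub : Submodule.span F (Set.range vec) ≤ S := Submodule.span_le.mpr (by
      rintro _ ⟨t, rfl⟩
      fin_cases t
      · change (c : V ≃ₗ[F] V) e₁ ∈ S
        rw [← d1]; exact hS (-h₁)
      · change (c : V ≃ₗ[F] V) a₁ ∈ S
        rw [← d2]; exact hS f₁
      · exact hS f₂)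
    have h3 := Submodule.finrank_mono hsub
    rw [finrank_span_eq_card hli, Fintype.card_fin] at h3
    classical
    have h4 := finrank_span_finset_le_card (R := F) ({Y e₁, Y a₁} : Finset V)
    rw [Finset.coe_insert, Finset.coe_singleton] at h4
    have h6 : Module.finrank F S ≤ 2 := le_trans h4 (Finset.card_le_two (a := Y e₁) (b := Y a₁))
    omega
  set z := (i * j) ^ k with hzdef
  have hzM : z ∈ M := pow_mem (mul_mem hiM hjM) k
  have hzC : z ∈ commutator (orth q) :=
    pow_mem (mul_mem (mul_mem (H.eich_comm_mem _ _) (H.eich_comm_mem _ _)) (H.eich_comm_mem _ _)) k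
  have he₁i : ∀ x, polar q e₁ (dLin i x) = 0 := fun x => by
    rw [dLin_apply, hiv]
    simp [polar_add_right, polar_sub_right, polar_smul_right, polar_self', p₁.left, q1, q4, q10]
  have hzS : SubF F₀ z := by
    refine H.criterion hM hns hzM he₁ ha₁ p₁.left p₂.left q1 p₁.ne_zero (fun h => ?_) he₁ p₁.ne_zero p₁.left ?_ ?_
    · obtain ⟨t, ht⟩ := Submodule.mem_span_singleton.mp h
      have := p₂.pair
      rw [← ht, polar_smul_left, q3, smul_zero] at this
      exact zero_ne_one this
    · conv_lhs => arg 3; rw [← d1]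
      rw [dLin_apply, map_sub, apply_of_commute hki, ← dLin_apply]; exact he₁i _
    · conv_lhs => arg 3; rw [← d2]
      rw [dLin_apply, map_sub, apply_of_commute hki, ← dLin_apply]; exact he₁i _
  have hzr := H.ratMap_of_invol hr hzS hksq
  have hzsym : ∀ v w : V, polar q ((z : V ≃ₗ[F] V) v) w = polar q v ((z : V ≃ₗ[F] V) w) := fun v w => by
    rw [← orth_polar z ((z : V ≃ₗ[F] V) v) w, ← orth_mul_apply, hksq]; rfl
  have hiso : ∀ v w : V, v ∈ resid z → w ∈ resid z → polar q v w = 0 := by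
    rintro _ _ ⟨v, rfl⟩ ⟨w, rfl⟩
    rw [dLin_apply, dLin_apply, polar_sub_left, polar_sub_right, polar_sub_right, orth_polar, hzsym]
    linear_combination (polar q v w - polar q v ((z : V ≃ₗ[F] V) w)) * h2
  obtain ⟨s, hs, hli, hspan⟩ := exists_resid_basis (F₀ := F₀) hzr
  have hrk := H.two_le_rk hzC hk1
  have hsR : ∀ l, s l ∈ resid z := fun l => hspan ▸ Submodule.subset_span (Set.mem_range_self l)
  have hcomb : ∀ a b : V, IsRatVec F₀ a → IsRatVec F₀ b → a ∈ resid z → b ∈ resid z → q a ≠ 0 →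
      ∃ t : F, t ∈ F₀ ∧ q (b + t • a) = 0 := by
    intro a b ha hb hma hmb hqa
    obtain ⟨t, ht⟩ := H4.exists_sq_eq (F := F₀) (Subtype.ext h2) ⟨-q b / q a, div_mem (neg_mem (H.rat _ hb)) (H.rat _ ha)⟩
    refine ⟨t, t.2, ?_⟩
    rw [map_add_smul, hiso b a hmb hma, ← pow_two, show (t : F) ^ 2 = -q b / q a from congrArg Subtype.val ht,
      div_mul_cancel₀ _ hqa]
    ring
  obtain ⟨u, x, hu, huR, huu, hu0, hx, hxx, hxu, hxR⟩ : ∃ u x : V, IsRatVec F₀ u ∧ u ∈ resid z ∧ q u = 0 ∧ u ≠ 0 ∧
      IsRatVec F₀ x ∧ q x = 0 ∧ x ∉ Submodule.span F {u} ∧ ∀ l, polar q (s l) x = 0 := by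
    have hi0 := Fintype.linearIndependent_iff.mp hli
    have hne : ∀ l m : Fin (rk z), l ≠ m → ∀ t : F, s m + t • s l ≠ 0 := by
      intro l m hlm t h0
      have := hi0 (fun n => if n = m then 1 else if n = l then t else 0) (by
        simp only [ite_smul, one_smul, zero_smul]
        rw [Finset.sum_ite, Finset.filter_eq', if_pos (Finset.mem_univ _), Finset.sum_singleton, Finset.sum_ite_eq',
          if_pos (by simp [hlm])]
        exact h0) m
      simp at this
    obtain ⟨u, hu, huR, huu, hu0⟩ : ∃ u : V, IsRatVec F₀ u ∧ u ∈ resid z ∧ q u = 0 ∧ u ≠ 0 := by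
      by_cases h0 : q (s ⟨0, by omega⟩) = 0
      · exact ⟨_, hs _, hsR _, h0, hli.ne_zero _⟩
      · obtain ⟨t, ht, hq⟩ := hcomb _ _ (hs _) (hs ⟨1, by omega⟩) (hsR _) (hsR _) h0
        exact ⟨_, isRat_add (hs _) (isRat_smul ht (hs _)), add_mem (hsR _) (Submodule.smul_mem _ _ (hsR _)), hq,
          hne _ _ (by simp [Fin.ext_iff]) t⟩
    by_cases h3 : rk z = 2
    · obtain ⟨x, hx, hxx, -, hxs, hxn⟩ := H.exists_sing s hs s hs (by have := H.big; omega)
      refine ⟨u, x, hu, huR, huu, hu0, hx, hxx, fun h => hxn ?_, hxs⟩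
      rw [hspan]
      exact (Submodule.span_singleton_le_iff_mem _ _).mpr huR h
    · obtain ⟨x, hx, hxx, hxu, hxR⟩ : ∃ x : V, IsRatVec F₀ x ∧ q x = 0 ∧ x ∉ Submodule.span F {u} ∧ x ∈ resid z := by
        by_contra hc
        push Not at hc
        have hline : ∀ x : V, IsRatVec F₀ x → x ∈ resid z → q x = 0 → x ∈ Submodule.span F {u} := fun x hx hm hq => by
          by_contra hn; exact hc x hx hq hn hm
        have hall : ∃ a : V, ∀ l, s l ∈ Submodule.span F ({u, a} : Set V) := by
          by_cases h : ∀ l, q (s l) = 0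
          · exact ⟨u, fun l => Submodule.span_mono (by simp) (hline _ (hs l) (hsR l) (h l))⟩
          · push Not at h
            obtain ⟨m, hm⟩ := h
            refine ⟨s m, fun l => ?_⟩
            obtain ⟨t, ht, hq⟩ := hcomb _ _ (hs m) (hs l) (hsR m) (hsR l) hm
            obtain ⟨c, hc'⟩ := Submodule.mem_span_singleton.mp (hline _ (isRat_add (hs l) (isRat_smul ht (hs m)))
              (add_mem (hsR l) (Submodule.smul_mem _ _ (hsR m))) hq)
            exact Submodule.mem_span_pair.mpr ⟨c, -t, by rw [hc']; module⟩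
        obtain ⟨a, ha⟩ := hall
        classical
        have h5 := Submodule.finrank_mono (Submodule.span_le.mpr (Set.range_subset_iff.mpr ha))
        rw [finrank_span_eq_card hli, Fintype.card_fin] at h5
        have h4 := finrank_span_finset_le_card (R := F) ({u, a} : Finset V)
        rw [Finset.coe_insert, Finset.coe_singleton] at h4
        have h6 : Module.finrank F (Submodule.span F ({u, a} : Set V)) ≤ 2 :=
          le_trans h4 (Finset.card_le_two (a := u) (b := a))
        omega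
      exact ⟨u, x, hu, huR, huu, hu0, hx, hxx, hxu, fun l => hiso _ _ (hsR l) hxR⟩
  have hperp : ∀ w : V, (z : V ≃ₗ[F] V) w = w → polar q u w = 0 := fun w hw => by
    have h := mem_fixer.mpr hw
    rw [fixer_eq_perp_resid H.nondeg] at h
    exact h u huR
  have hzx : (z : V ≃ₗ[F] V) x = x := H.fixed_of_perp hspan hxR
  have hjS : SubF F₀ j := by
    refine H.criterion hM hns hjM hu hx huu hxx (hperp x hzx) hu0 hxu hu hu0 huu ?_ (hperp _ ?_)
    · refine hiso _ _ huR ?_
      obtain ⟨v, rfl⟩ := huR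
      exact ⟨(j : V ≃ₗ[F] V) v, by rw [dLin_apply, dLin_apply, map_sub, apply_of_commute hkj]⟩
    · rw [apply_of_commute hkj, hzx]
  have hjr := H.ratMap_of_invol hr hjS hjj
  have hnz : dLin j (Y f₁) = Y a₁ := by
    rw [hjv, hY, orth_polar, orth_polar, p₁.pair, polar_comm q a₁ f₁, q2]; simp
  obtain ⟨t, ht, htli, htspan⟩ := exists_resid_basis (F₀ := F₀) hjr
  have hrk0 : 0 < rk j := Nat.pos_of_ne_zero fun h0 => by
    have hmem : dLin j (Y f₁) ∈ resid j := ⟨_, rfl⟩
    rw [Submodule.finrank_eq_zero.mp h0, Submodule.mem_bot, hnz] at hmem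
    exact p₂.ne_zero (Y.map_eq_zero_iff.mp hmem)
  set l : Fin (rk j) := ⟨0, hrk0⟩
  obtain ⟨v, hv⟩ : t l ∈ resid j := htspan ▸ Submodule.subset_span (Set.mem_range_self l)
  obtain ⟨c, d, hcd⟩ := Submodule.mem_span_pair.mp (hjmem v)
  rw [hv] at hcd
  refine H.criterion hM hns hg he₁ ha₁ p₁.left p₂.left q1 p₁.ne_zero (fun h => ?_) (ht l) (htli.ne_zero l) ?_ ?_ ?_
  · obtain ⟨t', ht'⟩ := Submodule.mem_span_singleton.mp h
    have := p₂.pair
    rw [← ht', polar_smul_left, q3, smul_zero] at this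
    exact zero_ne_one this
  · rw [← hcd, map_smul_add_smul, gee, gaa, gea]; ring
  · rw [← hcd, ← hY, polar_add_left, polar_smul_left, polar_smul_left, polar_self', gee, polar_comm q (Y a₁) (Y e₁),
      gea]
    simp
  · rw [← hcd, ← hY, polar_add_left, polar_smul_left, polar_smul_left, polar_self' q (Y a₁), gaa, gea]
    simp

omit hM hns in
/-- An involution negating the rational plane pairs. -/
theorem OR.exists_quad {k : ℕ} (hk : k + k + 5 ≤ Fintype.card ι) (s : Fin k → V) (hs : ∀ i, IsRatVec F₀ (s i)) :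
    ∃ e₁ f₁ e₂ f₂ : V, IsRatVec F₀ e₁ ∧ IsRatVec F₀ f₁ ∧ IsRatVec F₀ e₂ ∧ IsRatVec F₀ f₂ ∧ HypPair q e₁ f₁ ∧
      HypPair q e₂ f₂ ∧ polar q e₁ e₂ = 0 ∧ polar q e₁ f₂ = 0 ∧ polar q f₁ e₂ = 0 ∧ polar q f₁ f₂ = 0 ∧
      ∀ i, polar q (s i) e₁ = 0 ∧ polar q (s i) f₁ = 0 ∧ polar q (s i) e₂ = 0 ∧ polar q (s i) f₂ = 0 := by
  obtain ⟨e₁, f₁, he₁, hf₁, p₁, e₁s, f₁s⟩ := H.exists_pair s hs (by have := H.big; omega)
  obtain ⟨e₂, f₂, he₂, hf₂, p₂, e₂s, f₂s⟩ := H.exists_pair₂ s hs he₁ hf₁ p₁ e₁s f₁s (by have := H.big; omega)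
  exact ⟨e₁, f₁, e₂, f₂, he₁, hf₁, he₂, hf₂, p₁, p₂, by simpa using e₂s 0, by simpa using f₂s 0,
    by simpa using e₂s (Fin.succ 0), by simpa using f₂s (Fin.succ 0),
    fun i => ⟨e₁s i, f₁s i, by simpa using e₂s i.succ.succ, by simpa using f₂s i.succ.succ⟩⟩

variable (h2 : (2 : F) ≠ 0) (hr : Odd r)
include h2 hr

/-- An involution commuting with a given one, attached to rational pairs. -/
theorem OR.exists_z {e₁ f₁ e₂ f₂ : V} (he₁ : IsRatVec F₀ e₁) (hf₁ : IsRatVec F₀ f₁) (he₂ : IsRatVec F₀ e₂)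
    (hf₂ : IsRatVec F₀ f₂) (p₁ : HypPair q e₁ f₁) (p₂ : HypPair q e₂ f₂) (c1 : polar q e₁ e₂ = 0)
    (c2 : polar q e₁ f₂ = 0) (c3 : polar q f₁ e₂ = 0) (c4 : polar q f₁ f₂ = 0) {u v : V} (hu : q u ≠ 0)
    (hvu : q v = q u) (huv : polar q u v = 0) (hj : dRefl q u v ∈ M) :
    ∃ (z i : orth q) (k : ℕ), RatMap F₀ z ∧ z ∈ commutator (orth q) ∧ z ≠ 1 ∧ z * z = 1 ∧
      z * dRefl q u v = dRefl q u v * z ∧ z = (i * dRefl q u v) ^ k ∧
      (∀ x, polar q e₁ x = 0 → polar q f₁ x = 0 → polar q e₂ x = 0 → polar q f₂ x = 0 →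
        (i : V ≃ₗ[F] V) x = x) ∧ z * i = i * z ∧ (i : V ≃ₗ[F] V) e₁ = -e₁ := by
  classical
  haveI := finite_orth (q := q)
  have u1 : q (e₁ + f₁) = 1 := by rw [QuadraticMap.map_add (⇑q), p₁.left, p₁.right, p₁.pair]; ring
  have u2 : q (e₂ + f₂) = 1 := by rw [QuadraticMap.map_add (⇑q), p₂.left, p₂.right, p₂.pair]; ring
  have v1 : q (e₁ - f₁) = -1 := by rw [Cfsg.Agent.H5.map_sub', p₁.left, p₁.right, p₁.pair]; ring
  have v2 : q (e₂ - f₂) = -1 := by rw [Cfsg.Agent.H5.map_sub', p₂.left, p₂.right, p₂.pair]; ring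
  have o1 : polar q (e₁ + f₁) (e₂ + f₂) = 0 := by
    simp [polar_add_left, polar_add_right, c1, c2, c3, c4]
  have o2 : polar q (e₁ - f₁) (e₂ - f₂) = 0 := by
    simp [polar_sub_left, polar_sub_right, c1, c2, c3, c4]
  set A := dRefl q (e₁ + f₁) (e₂ + f₂) with hA
  set B := dRefl q (e₁ - f₁) (e₂ - f₂) with hB
  set i := A * B with hi
  have hAC : A ∈ commutator (orth q) := H.dRefl_mem_comm (by rw [u1]; exact one_ne_zero) (by rw [u1, u2])
  have hBC : B ∈ commutator (orth q) := H.dRefl_mem_comm (by rw [v1]; simp) (by rw [v1, v2])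
  have hiR : RatMap F₀ i := ((H.ratMap_refl (isRat_add he₁ hf₁)).mul (H.ratMap_refl (isRat_add he₂ hf₂))).mul
    ((H.ratMap_refl (isRat_sub he₁ hf₁)).mul (H.ratMap_refl (isRat_sub he₂ hf₂)))
  have hiM : i ∈ M := hM _ (mul_mem hAC hBC) hiR
  have hiv : ∀ x, (i : V ≃ₗ[F] V) x = x - (2 : F) • (polar q f₁ x • e₁ + polar q e₁ x • f₁ + polar q f₂ x • e₂ +
      polar q e₂ x • f₂) := fun x => by
    rw [hi, orth_mul_apply A B, hA, hB, dRefl_apply o1, dRefl_apply o2, u1, u2, v1, v2]
    simp only [inv_one, one_mul, inv_neg, neg_mul, polar_sub_right, polar_smul_right, polar_add_left, polar_sub_left,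
      polar_add_right, polar_self', p₁.left, p₁.right, p₂.left, p₂.right, p₁.pair, p₂.pair, p₁.symm.pair,
      p₂.symm.pair, c1, c2, c3, c4, polar_comm q e₂ e₁, polar_comm q f₂ e₁, polar_comm q e₂ f₁, polar_comm q f₂ f₁,
      smul_eq_mul]
    module
  have ee1 : (i : V ≃ₗ[F] V) e₁ = -e₁ := by
    rw [hiv, p₁.symm.pair, polar_self', p₁.left, polar_comm q f₂ e₁, c2, polar_comm q e₂ e₁, c1]; module
  have ef1 : (i : V ≃ₗ[F] V) f₁ = -f₁ := by
    rw [hiv, polar_self', p₁.right, p₁.pair, polar_comm q f₂ f₁, c4, polar_comm q e₂ f₁, c3]; module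
  have ee2 : (i : V ≃ₗ[F] V) e₂ = -e₂ := by
    rw [hiv, c3, c1, p₂.symm.pair, polar_self', p₂.left]; module
  have hfix : ∀ x, polar q e₁ x = 0 → polar q f₁ x = 0 → polar q e₂ x = 0 → polar q f₂ x = 0 →
      (i : V ≃ₗ[F] V) x = x := fun x a b c d => by rw [hiv, a, b, c, d]; module
  have hii : i * i = 1 := orth_ext fun x => by
    rw [orth_mul_apply i i, hiv x, map_sub, map_smul, map_add, map_add, map_add, map_smul, map_smul, map_smul,
      map_smul, ee1, ef1, ee2, hiv f₂, c4, c2, polar_self', p₂.right, p₂.pair, hiv x]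
    change _ = x
    module
  set j := dRefl q u v with hjdef
  have hjj : j * j = 1 := dRefl_sq huv
  have hjmem : ∀ x, dLin j x ∈ Submodule.span F ({u, v} : Set V) := fun x => by
    rw [dLin_apply, hjdef, dRefl_apply huv, show ∀ a b : F, x - a • u - b • v - x = (-a) • u + (-b) • v from
      fun a b => by module]
    exact Submodule.add_mem _ (Submodule.smul_mem _ _ (Submodule.subset_span (by simp)))
      (Submodule.smul_mem _ _ (Submodule.subset_span (by simp)))
  rcases involution_pair hii hjj with hconj | ⟨k, hk1, hksq, hki, hkj⟩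
  · exfalso
    obtain ⟨c, hc⟩ := isConj_iff.mp hconj
    set S := Submodule.span F ({u, v} : Set V)
    have hS : ∀ x, (i : V ≃ₗ[F] V) x = -x → (c : V ≃ₗ[F] V) x ∈ S := fun x hx => by
      have hci : c * i = j * c := by rw [← hc]; group
      have := S.smul_mem (-2 : F)⁻¹ (hjmem ((c : V ≃ₗ[F] V) x))
      rw [dLin_apply, ← orth_mul_apply j c, ← hci, orth_mul_apply c i, ← map_sub, ← map_smul, hx,
        show -x - x = (-2 : F) • x by module, smul_smul, inv_mul_cancel₀ (neg_ne_zero.mpr h2), one_smul] at this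
      exact this
    let vec : Fin 3 → V := fun t => (c : V ≃ₗ[F] V) (![e₁, f₁, e₂] t)
    have hli : LinearIndependent F vec := by
      rw [Fintype.linearIndependent_iff]
      intro s hs
      have hs0 : s 0 • e₁ + s 1 • f₁ + s 2 • e₂ = 0 := (c : V ≃ₗ[F] V).injective (by
        rw [map_add, map_add, map_smul, map_smul, map_smul, map_zero]
        simpa [vec, Fin.sum_univ_three] using hs)
      have s0 : s 0 = 0 := by
        have := congrArg (fun v => polar q f₁ v) hs0
        simpa [polar_add_right, polar_smul_right, p₁.symm.pair, polar_self', p₁.right, c3] using this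
      have s1 : s 1 = 0 := by
        have := congrArg (fun v => polar q e₁ v) hs0
        simpa [polar_add_right, polar_smul_right, p₁.pair, polar_self', p₁.left, c1] using this
      have s2 : s 2 = 0 := by
        rw [s0, s1, zero_smul, zero_smul, zero_add, zero_add, smul_eq_zero] at hs0
        exact hs0.resolve_right p₂.ne_zero
      intro t; fin_cases t <;> assumption
    have hsub : Submodule.span F (Set.range vec) ≤ S := Submodule.span_le.mpr (by
      rintro _ ⟨t, rfl⟩
      fin_cases t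
      · exact hS _ ee1
      · exact hS _ ef1
      · exact hS _ ee2)
    have h3 := Submodule.finrank_mono hsub
    rw [finrank_span_eq_card hli, Fintype.card_fin] at h3
    have h4 := finrank_span_finset_le_card (R := F) ({u, v} : Finset V)
    rw [Finset.coe_insert, Finset.coe_singleton] at h4
    have h6 : Module.finrank F S ≤ 2 := le_trans h4 (Finset.card_le_two (a := u) (b := v))
    omega
  set z := (i * j) ^ k with hzdef
  have hzM : z ∈ M := pow_mem (mul_mem hiM hj) k
  have hzC : z ∈ commutator (orth q) := pow_mem (mul_mem (mul_mem hAC hBC) (H.dRefl_mem_comm hu hvu)) k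
  have hzS : SubF F₀ z := by
    obtain ⟨x, hx, hxx, hx0, hxs, -⟩ := H.exists_sing ![e₁, f₁, e₂, f₂] (fun l => by fin_cases l <;> assumption)
      (Fin.elim0 : Fin 0 → V) (fun l => l.elim0) (by have := H.big; omega)
    have hix := hfix x (by simpa using hxs 0) (by simpa using hxs 1) (by simpa using hxs 2) (by simpa using hxs 3)
    have flip : ∀ w, (i : V ≃ₗ[F] V) w = -w → polar q x ((z : V ≃ₗ[F] V) w) = 0 := fun w hw => by
      have h := orth_polar i x ((z : V ≃ₗ[F] V) w)
      rw [hix, ← apply_of_commute hki, hw, map_neg, polar_neg_right] at h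
      exact (mul_eq_zero.mp (show (2 : F) * polar q x ((z : V ≃ₗ[F] V) w) = 0 by linear_combination -h)).resolve_left h2
    refine H.criterion hM hns hzM he₁ he₂ p₁.left p₂.left c1 p₁.ne_zero (fun hm => ?_) hx hx0 hxx
      (flip _ ee1) (flip _ ee2)
    obtain ⟨t, ht⟩ := Submodule.mem_span_singleton.mp hm
    rw [← ht, polar_smul_right, p₁.symm.pair, smul_eq_mul, mul_one] at c3
    exact p₂.ne_zero (by rw [← ht, c3, zero_smul])
  exact ⟨z, i, k, H.ratMap_of_invol hr hzS hksq, hzC, hk1, hksq, hkj, rfl, hfix, hki, ee1⟩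

/-- An element commuting with a rational involution of large residual space is rational. -/
theorem OR.subF_of_commute (h10 : 10 ≤ Fintype.card ι) {z J : orth q} (hJ : J ∈ M) (hzr : RatMap F₀ z) (hzz : z * z = 1)
    (hzj : z * J = J * z) (h5 : 5 ≤ rk z) (h6 : rk z ≤ 6) : SubF F₀ J := by
  obtain ⟨s, hs, -, hspan⟩ := exists_resid_basis (F₀ := F₀) hzr
  obtain ⟨N, t, ht, htli, htspan⟩ := exists_rat_indep (F₀ := F₀)
    (fun l => Pi.single l (1 : F) + (z : V ≃ₗ[F] V) (Pi.single l (1 : F)))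
    (fun l => isRat_add (isRat_single l) (hzr _ (isRat_single l)))
  have hfix : ∀ v : V, (z : V ≃ₗ[F] V) (v + (z : V ≃ₗ[F] V) v) = v + (z : V ≃ₗ[F] V) v := fun v => by
    rw [map_add, ← orth_mul_apply z z, hzz, add_comm]; rfl
  have hN : N + rk z ≤ Fintype.card ι := by
    have h1 : Submodule.span F (Set.range t) ≤ fixer z := by
      rw [htspan, Submodule.span_le]; rintro _ ⟨l, rfl⟩; exact mem_fixer.mpr (hfix _)
    have h2 := Submodule.finrank_mono h1
    rw [finrank_span_eq_card htli, Fintype.card_fin, fixer_eq_perp_resid H.nondeg] at h2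
    have h3 := finrank_perp_add H.nondeg (resid z)
    rw [Module.finrank_pi] at h3
    unfold rk
    omega
  have hin : ∀ p, (∀ i, polar q (t i) p = 0) → p ∈ resid z := by
    intro p hp
    have h1 : Submodule.span F (Set.range t) ≤ LinearMap.ker ((polarBilin q).flip p) :=
      Submodule.span_le.mpr (Set.range_subset_iff.mpr fun i => by
        rw [SetLike.mem_coe, LinearMap.mem_ker, LinearMap.flip_apply, polarBilin_apply_apply, hp])
    rw [htspan, Submodule.span_le, Set.range_subset_iff] at h1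
    have h2c := h2
    have h2 : (z : V ≃ₗ[F] V) p = -p := by
      refine eq_neg_iff_add_eq_zero.mpr (H.eq_zero fun y hy => ?_)
      have h3 : ∀ v : V, polar q (v + (z : V ≃ₗ[F] V) v) p = 0 := fun v => by
        have h4 : Submodule.span F (Set.range fun l => Pi.single l (1 : F)) ≤
            LinearMap.ker ((polarBilin q).flip p ∘ₗ (LinearMap.id + ((z : V ≃ₗ[F] V) : V →ₗ[F] V))) :=
          Submodule.span_le.mpr (Set.range_subset_iff.mpr fun l => h1 l)
        exact LinearMap.mem_ker.mp (h4 (show v ∈ _ by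
          rw [pi_eq_sum_univ' v]
          exact Submodule.sum_mem _ fun l _ => Submodule.smul_mem _ _ (Submodule.subset_span ⟨l, rfl⟩)))
      have := h3 y
      rw [polar_add_left, ← orth_polar z ((z : V ≃ₗ[F] V) y) p, ← orth_mul_apply z z, hzz] at this
      change polar q y p + polar q y ((z : V ≃ₗ[F] V) p) = 0 at this
      rw [polar_add_right, add_comm]; exact this
    refine ⟨(-2 : F)⁻¹ • p, ?_⟩
    rw [map_smul, dLin_apply, h2, show -p - p = (-2 : F) • p by module, smul_smul,
      inv_mul_cancel₀ (neg_ne_zero.mpr h2c), one_smul]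
  obtain ⟨p, p', hp, hp', hpp, hp'p', hpp', hp0, hni, hpt, hp't⟩ := H.exists_line t ht (by omega)
  obtain ⟨x, hx, hxx, hx0, hxs, -⟩ := H.exists_sing s hs (Fin.elim0 : Fin 0 → V) (fun i => i.elim0)
    (by have := H.big; omega)
  have hxR : ∀ w ∈ resid z, polar q x w = 0 := fun w hw => by
    rw [← hspan] at hw
    obtain ⟨c, rfl⟩ := (Submodule.mem_span_range_iff_exists_fun F).mp hw
    rw [← polarBilin_apply_apply, map_sum]
    exact Finset.sum_eq_zero fun l _ => by rw [map_smul, polarBilin_apply_apply, polar_comm, hxs, smul_zero]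
  have hkeep : ∀ w ∈ resid z, (J : V ≃ₗ[F] V) w ∈ resid z := by
    rintro _ ⟨v, rfl⟩
    exact ⟨(J : V ≃ₗ[F] V) v, by rw [dLin_apply, dLin_apply, map_sub, apply_of_commute hzj]⟩
  exact H.criterion hM hns hJ hp hp' hpp hp'p' hpp' hp0 hni hx hx0 hxx (hxR _ (hkeep _ (hin p hpt)))
    (hxR _ (hkeep _ (hin p' hp't)))

/-- Involutions with a two-dimensional negated space in an overgroup are rational. -/
theorem OR.dRefl_rat (h10 : 10 ≤ Fintype.card ι) {u v : V} (hu : q u ≠ 0) (hvu : q v = q u) (huv : polar q u v = 0) (hj : dRefl q u v ∈ M) :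
    RatMap F₀ (dRefl q u v) := by
  refine H.ratMap_of_invol hr ?_ (dRefl_sq huv)
  obtain ⟨e₁, f₁, e₂, f₂, he₁, hf₁, he₂, hf₂, p₁, p₂, c1, c2, c3, c4, -⟩ :=
    H.exists_quad (by have := H.big; omega) (Fin.elim0 : Fin 0 → V) (fun i => i.elim0)
  obtain ⟨z, i, k, hzr, hzC, hz1, hzz, hzj, hzk, hifix, -, -⟩ :=
    H.exists_z hM hns h2 hr he₁ hf₁ he₂ hf₂ p₁ p₂ c1 c2 c3 c4 hu hvu huv hj
  have hjfix : ∀ x, polar q u x = 0 → polar q v x = 0 → (dRefl q u v : V ≃ₗ[F] V) x = x := fun x a b => by
    rw [dRefl_apply huv, a, b]; simp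
  have bound : ∀ {e₁ f₁ e₂ f₂ : V} {z i : orth q} {k : ℕ}, z = (i * dRefl q u v) ^ k →
      (∀ x, polar q e₁ x = 0 → polar q f₁ x = 0 → polar q e₂ x = 0 → polar q f₂ x = 0 →
        (i : V ≃ₗ[F] V) x = x) → rk z ≤ 6 := by
    intro e₁ f₁ e₂ f₂ z i k hzk hifix
    refine H.resid_le (s := ![e₁, f₁, e₂, f₂, u, v]) fun x hx => ?_
    rw [hzk]
    refine pow_apply_fixed ?_ k
    rw [orth_mul_apply i (dRefl q u v), hjfix x (by simpa using hx 4) (by simpa using hx 5),
      hifix x (by simpa using hx 0) (by simpa using hx 1) (by simpa using hx 2) (by simpa using hx 3)]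
  -- fixed vectors go to fixed vectors
  have hkeep : ∀ {z : orth q}, z * dRefl q u v = dRefl q u v * z → ∀ {x w : V}, (z : V ≃ₗ[F] V) x = x →
      w ∈ resid z → polar q w ((dRefl q u v : V ≃ₗ[F] V) x) = 0 := by
    intro z hzj x w hx hw
    have h : (dRefl q u v : V ≃ₗ[F] V) x ∈ fixer z := mem_fixer.mpr (by rw [apply_of_commute hzj, hx])
    rw [fixer_eq_perp_resid H.nondeg] at h
    exact h w hw
  obtain ⟨s, hs, hsli, hspan⟩ := exists_resid_basis (F₀ := F₀) hzr
  have hk6 := bound hzk hifix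
  rcases Nat.lt_or_ge (rk z) 3 with hlt | hge
  swap
  · by_cases h5 : 5 ≤ rk z
    · exact H.subF_of_commute hM hns h2 hr h10 hj hzr hzz hzj h5 hk6
    obtain ⟨w, hw, hww, hw0, hwm⟩ := H.sing_in hs hsli hge
    exact H.subF_of_maps hM hns h10 hj (by omega) s hs hw hw0 hww fun x hx =>
      hkeep hzj (H.fixed_of_perp hspan hx) (hspan ▸ hwm)
  obtain ⟨g₁, g₂, g₃, g₄, hg₁, hg₂, hg₃, hg₄, r₁, r₂, d1, d2, d3, d4, hperp⟩ :=
    H.exists_quad (by omega) s hs
  obtain ⟨y, i', m, hyr, hyC, hy1, hyy, hyj, hym, hi'fix, -, -⟩ :=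
    H.exists_z hM hns h2 hr hg₁ hg₂ hg₃ hg₄ r₁ r₂ d1 d2 d3 d4 hu hvu huv hj
  obtain ⟨t, ht, htli, htspan⟩ := exists_resid_basis (F₀ := F₀) hyr
  have hy6 := bound hym hi'fix
  rcases Nat.lt_or_ge (rk y) 3 with hylt | hyge
  swap
  · by_cases h5 : 5 ≤ rk y
    · exact H.subF_of_commute hM hns h2 hr h10 hj hyr hyy hyj h5 hy6
    obtain ⟨w, hw, hww, hw0, hwm⟩ := H.sing_in ht htli hyge
    exact H.subF_of_maps hM hns h10 hj (by omega) t ht hw hw0 hww fun x hx =>
      hkeep hyj (H.fixed_of_perp htspan hx) (htspan ▸ hwm)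
  obtain ⟨N, w, hw, hwli, hwspan⟩ := exists_rat_indep (F₀ := F₀) (Sum.elim s t)
    (fun a => by rcases a with a | a; exacts [hs a, ht a])
  rw [Set.Sum.elim_range, Submodule.span_union, hspan, htspan] at hwspan
  have hN : N = Module.finrank F (resid z ⊔ resid y : Submodule F V) := by
    rw [← hwspan, finrank_span_eq_card hwli, Fintype.card_fin]
  have hN8 : N ≤ 5 := by
    have := Submodule.finrank_add_le_finrank_add_finrank (resid z) (resid y)
    unfold rk at *
    omega
  rcases Nat.lt_or_ge N 3 with hN3 | hN3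
  swap
  · obtain ⟨o, ho, hoo, ho0, hom⟩ := H.sing_in hw hwli hN3
    refine H.subF_of_maps hM hns h10 hj hN8 w hw ho ho0 hoo fun x hx => ?_
    have hfx : ∀ g : orth q, resid g ≤ Submodule.span F (Set.range w) → (g : V ≃ₗ[F] V) x = x := fun g hg => by
      rw [← mem_fixer, fixer_eq_perp_resid H.nondeg]
      intro a ha
      obtain ⟨c, rfl⟩ := (Submodule.mem_span_range_iff_exists_fun F).mp (hg ha)
      change polarBilin q (∑ l, c l • w l) x = 0
      rw [map_sum, LinearMap.sum_apply]
      exact Finset.sum_eq_zero fun l _ => by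
        rw [map_smul, LinearMap.smul_apply, polarBilin_apply_apply, hx, smul_zero]
    rw [hwspan] at hom
    obtain ⟨a, ha, b, hb, rfl⟩ := Submodule.mem_sup.mp hom
    rw [polar_add_left, hkeep hzj (hfx z (by rw [hwspan]; exact le_sup_left)) ha,
      hkeep hyj (hfx y (by rw [hwspan]; exact le_sup_right)) hb, add_zero]
  -- both residual spaces are one plane
  have hrk := H.two_le_rk hzC hz1
  have hrky := H.two_le_rk hyC hy1
  have hzy : resid z = resid y := by
    have e1 : resid z = resid z ⊔ resid y :=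
      Submodule.eq_of_le_of_finrank_le le_sup_left (by unfold rk at *; omega)
    have e2 : resid y = resid z ⊔ resid y :=
      Submodule.eq_of_le_of_finrank_le le_sup_right (by unfold rk at *; omega)
    exact e1.trans e2.symm
  set J := dRefl q u v with hJ
  have hJpi : ∀ x ∈ resid z, (J : V ≃ₗ[F] V) x ∈ resid z := by
    rintro _ ⟨x, rfl⟩
    exact ⟨(J : V ≃ₗ[F] V) x, by rw [dLin_apply, dLin_apply, map_sub, apply_of_commute hzj]⟩
  have hi'pi : ∀ x ∈ resid z, (i' : V ≃ₗ[F] V) x = x := fun x hx => by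
    rw [← hspan] at hx
    obtain ⟨c, rfl⟩ := (Submodule.mem_span_range_iff_exists_fun F).mp hx
    rw [map_sum]
    refine Finset.sum_congr rfl fun l _ => ?_
    rw [map_smul, hi'fix (s l) (by rw [polar_comm]; exact (hperp l).1) (by rw [polar_comm]; exact (hperp l).2.1)
      (by rw [polar_comm]; exact (hperp l).2.2.1) (by rw [polar_comm]; exact (hperp l).2.2.2)]
  have hpow : ∀ (n : ℕ) (x : V), x ∈ resid z →
      (((i' * J) ^ n : orth q) : V ≃ₗ[F] V) x = ((J ^ n : orth q) : V ≃ₗ[F] V) x ∧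
        ((J ^ n : orth q) : V ≃ₗ[F] V) x ∈ resid z := by
    intro n
    induction n with
    | zero => intro x hx; simpa using hx
    | succ n ih =>
      intro x hx
      rw [pow_succ, pow_succ, orth_mul_apply _ (i' * J), orth_mul_apply i' J, hi'pi _ (hJpi x hx),
        orth_mul_apply _ J]
      exact ih _ (hJpi x hx)
  have hneg : ∀ x ∈ resid z, (J : V ≃ₗ[F] V) x = -x := by
    intro x hx
    have h1 : (y : V ≃ₗ[F] V) x = -x := by
      rw [hzy] at hx
      obtain ⟨a, rfl⟩ := hx
      rw [dLin_apply, map_sub, ← orth_mul_apply y y, hyy]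
      change a - _ = _
      abel
    rw [hym, (hpow m x hx).1] at h1
    rcases Nat.even_or_odd' m with ⟨l, rfl | rfl⟩
    · rw [pow_mul, pow_two, dRefl_sq huv, one_pow] at h1
      have h3 : (2 : F) • x = 0 := by
        rw [two_smul]
        exact eq_neg_iff_add_eq_zero.mp h1
      rw [(smul_eq_zero.mp h3).resolve_left h2]; simp
    · rw [pow_succ, pow_mul, pow_two, dRefl_sq huv, one_pow, one_mul] at h1
      exact h1
  classical
  have hJmem : ∀ x, dLin J x ∈ Submodule.span F ({u, v} : Set V) := fun x => by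
    rw [dLin_apply, hJ, dRefl_apply huv, show ∀ a b : F, x - a • u - b • v - x = (-a) • u + (-b) • v from
      fun a b => by module]
    exact Submodule.add_mem _ (Submodule.smul_mem _ _ (Submodule.subset_span (by simp)))
      (Submodule.smul_mem _ _ (Submodule.subset_span (by simp)))
  have hP : resid z = Submodule.span F ({u, v} : Set V) := by
    refine Submodule.eq_of_le_of_finrank_le (fun x hx => ?_) ?_
    · have h := Submodule.smul_mem _ (-2 : F)⁻¹ (hJmem x)
      rwa [dLin_apply, hneg x hx, show -x - x = (-2 : F) • x by module, smul_smul,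
        inv_mul_cancel₀ (neg_ne_zero.mpr h2), one_smul] at h
    · have h4 := finrank_span_finset_le_card (R := F) ({u, v} : Finset V)
      rw [Finset.coe_insert, Finset.coe_singleton] at h4
      have h6 : Module.finrank F (Submodule.span F ({u, v} : Set V)) ≤ 2 :=
        le_trans h4 (Finset.card_le_two (a := u) (b := v))
      exact h6.trans hrk
  obtain ⟨p, p', hp, hp', hpp, hp'p', hpp', hp0, hni, hps, hp's⟩ := H.exists_line s hs (by have := H.big; omega)
  have hfixJ : ∀ x, (∀ l, polar q (s l) x = 0) → (J : V ≃ₗ[F] V) x = x := fun x hx => by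
    refine hjfix x ?_ ?_ <;>
    · have hm : x ∈ perp q (Submodule.span F (Set.range s)) := by
        intro w hw
        obtain ⟨c, rfl⟩ := (Submodule.mem_span_range_iff_exists_fun F).mp hw
        change polarBilin q (∑ l, c l • s l) x = 0
        rw [map_sum, LinearMap.sum_apply]
        exact Finset.sum_eq_zero fun l _ => by
          rw [map_smul, LinearMap.smul_apply, polarBilin_apply_apply, hx, smul_zero]
      rw [hspan, hP] at hm
      exact hm _ (Submodule.subset_span (by simp))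
  exact H.criterion hM hns hj hp hp' hpp hp'p' hpp' hp0 hni hp hp0 hpp
    (by rw [hfixJ p hps, polar_self', hpp, mul_zero]) (by rw [hfixJ p' hp's, hpp'])

/-- Odd characteristic. -/
theorem OR.subF_odd (h10 : 10 ≤ Fintype.card ι) {g : orth q} (hg : g ∈ M) : SubF F₀ g := by
  classical
  obtain ⟨e₁, f₁, e₂, f₂, he₁, hf₁, he₂, hf₂, p₁, p₂, c1, c2, c3, c4, -⟩ :=
    H.exists_quad (by have := H.big; omega) (Fin.elim0 : Fin 0 → V) (fun i => i.elim0)
  set Y : V ≃ₗ[F] V := (g : V ≃ₗ[F] V) with hY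
  have key : ∀ a b : V, IsRatVec F₀ a → IsRatVec F₀ b → q a ≠ 0 → q b = q a → polar q a b = 0 →
      RatMap F₀ (dRefl q (Y a) (Y b)) := by
    intro a b ha hb hqa hqb hab
    refine H.dRefl_rat hM hns h2 hr h10 (by rwa [hY, orth_map]) (by rw [hY, orth_map, orth_map, hqb])
      (by rw [hY, orth_polar, hab]) ?_
    rw [hY, ← conj_dRefl]
    exact mul_mem (mul_mem hg (hM _ (H.dRefl_mem_comm hqa hqb) ((H.ratMap_refl ha).mul (H.ratMap_refl hb))))
      (inv_mem hg)
  have u1 : q (e₁ + f₁) = 1 := by rw [QuadraticMap.map_add (⇑q), p₁.left, p₁.right, p₁.pair]; ring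
  have u2 : q (e₂ + f₂) = 1 := by rw [QuadraticMap.map_add (⇑q), p₂.left, p₂.right, p₂.pair]; ring
  have v1 : q (e₁ - f₁) = -1 := by rw [Cfsg.Agent.H5.map_sub', p₁.left, p₁.right, p₁.pair]; ring
  have v2 : q (e₂ - f₂) = -1 := by rw [Cfsg.Agent.H5.map_sub', p₂.left, p₂.right, p₂.pair]; ring
  have o1 : polar q (e₁ + f₁) (e₂ + f₂) = 0 := by simp [polar_add_left, polar_add_right, c1, c2, c3, c4]
  have o2 : polar q (e₁ - f₁) (e₂ - f₂) = 0 := by simp [polar_sub_left, polar_sub_right, c1, c2, c3, c4]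
  have o3 : polar q (e₁ + f₁) (e₁ - f₁) = 0 := by
    simp [polar_add_left, polar_sub_right, polar_self', p₁.left, p₁.right, p₁.pair, p₁.symm.pair]
  have o4 : polar q (e₂ + f₂) (e₁ - f₁) = 0 := by
    simp [polar_add_left, polar_sub_right, polar_comm q e₂ e₁, polar_comm q f₂ e₁, polar_comm q e₂ f₁,
      polar_comm q f₂ f₁, c1, c2, c3, c4]
  have j1 := key _ _ (isRat_add he₁ hf₁) (isRat_add he₂ hf₂) (by rw [u1]; exact one_ne_zero) (by rw [u1, u2]) o1
  have j2 := key _ _ (isRat_sub he₁ hf₁) (isRat_sub he₂ hf₂) (by rw [v1]; simp) (by rw [v1, v2]) o2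
  obtain ⟨s, hs, -, hsspan⟩ := exists_resid_basis (F₀ := F₀) j1
  obtain ⟨t, ht, -, htspan⟩ := exists_resid_basis (F₀ := F₀) j2
  obtain ⟨N, w, hw, hwli, hwspan⟩ := exists_rat_indep (F₀ := F₀) (Sum.elim s t)
    (fun a => by rcases a with a | a; exacts [hs a, ht a])
  rw [Set.Sum.elim_range, Submodule.span_union, hsspan, htspan] at hwspan
  set T : Submodule F V := Submodule.span F (({Y (e₁ + f₁), Y (e₂ + f₂)} : Set V) ∪ {Y (e₁ - f₁), Y (e₂ - f₂)})
  have hle : ∀ a b : V, polar q a b = 0 → resid (dRefl q (Y a) (Y b)) ≤ Submodule.span F ({Y a, Y b} : Set V) := by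
    intro a b hab
    rintro _ ⟨x, rfl⟩
    rw [dLin_apply, dRefl_apply (by rw [hY, orth_polar, hab]),
      show ∀ α β : F, x - α • Y a - β • Y b - x = (-α) • Y a + (-β) • Y b from fun α β => by module]
    exact Submodule.add_mem _ (Submodule.smul_mem _ _ (Submodule.subset_span (by simp)))
      (Submodule.smul_mem _ _ (Submodule.subset_span (by simp)))
  have hself : ∀ a b : V, q a ≠ 0 → polar q a b = 0 → Y a ∈ resid (dRefl q (Y a) (Y b)) := by
    intro a b hqa hab
    refine ⟨(-2 : F)⁻¹ • Y a, ?_⟩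
    have hb : polar q (Y b) (Y a) = 0 := by rw [hY, orth_polar, polar_comm, hab]
    rw [map_smul, dLin_apply, dRefl_apply (by rw [hY, orth_polar, hab]), hb, polar_self',
      show (q (Y a))⁻¹ * (2 * q (Y a)) = 2 by field_simp [show q (Y a) ≠ 0 by rwa [hY, orth_map]]]
    simp only [mul_zero, zero_smul, sub_zero]
    match_scalars
    field_simp
    ring
  have hN3 : 3 ≤ N := by
    have hmem : ∀ l : Fin 3, ![Y (e₁ + f₁), Y (e₂ + f₂), Y (e₁ - f₁)] l ∈ Submodule.span F (Set.range w) := by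
      rw [hwspan]
      intro l; fin_cases l
      · exact Submodule.mem_sup_left (hself _ _ (by rw [u1]; exact one_ne_zero) o1)
      · change Y (e₂ + f₂) ∈ _
        refine Submodule.mem_sup_left ?_
        have := hself (e₂ + f₂) (e₁ + f₁) (by rw [u2]; exact one_ne_zero) (by rw [polar_comm, o1])
        convert this using 2
        refine orth_ext fun x => ?_
        rw [dRefl_apply (by rw [hY, orth_polar, o1]), dRefl_apply (by rw [hY, orth_polar, polar_comm, o1])]
        abel
      · exact Submodule.mem_sup_right (hself _ _ (by rw [v1]; simp) o2)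
    have hli : LinearIndependent F ![Y (e₁ + f₁), Y (e₂ + f₂), Y (e₁ - f₁)] := by
      rw [Fintype.linearIndependent_iff]
      intro c hc
      have hc' : c 0 • (e₁ + f₁) + c 1 • (e₂ + f₂) + c 2 • (e₁ - f₁) = 0 := Y.injective (by
        rw [map_add, map_add, map_smul, map_smul, map_smul, map_zero]
        simpa [Fin.sum_univ_three] using hc)
      have k1 := congrArg (fun a => polar q (e₁ + f₁) a) hc'
      have k2 := congrArg (fun a => polar q (e₂ + f₂) a) hc'
      have k3 := congrArg (fun a => polar q (e₁ - f₁) a) hc'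
      have o1' : polar q (e₂ + f₂) (e₁ + f₁) = 0 := by rw [polar_comm, o1]
      have o3' : polar q (e₁ - f₁) (e₁ + f₁) = 0 := by rw [polar_comm, o3]
      have o4' : polar q (e₁ - f₁) (e₂ + f₂) = 0 := by rw [polar_comm, o4]
      rw [polar_add_right, polar_add_right] at k1 k2 k3
      simp only [polar_smul_right, polar_self', u1, u2, v1, o1, o1', o3, o3', o4, o4', polar_zero_right, smul_eq_mul,
        mul_zero, add_zero, zero_add, mul_one, mul_neg, neg_eq_zero, mul_eq_zero, h2, or_false] at k1 k2 k3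
      intro l; fin_cases l <;> assumption
    have h5 := Submodule.finrank_mono (Submodule.span_le.mpr (Set.range_subset_iff.mpr hmem))
    rw [finrank_span_eq_card hli, Fintype.card_fin, finrank_span_eq_card hwli, Fintype.card_fin] at h5
    exact h5
  obtain ⟨o, ho, hoo, ho0, hom⟩ := H.sing_in hw hwli hN3
  rw [hwspan] at hom
  have homT : o ∈ T := (sup_le ((hle _ _ o1).trans (Submodule.span_mono Set.subset_union_left))
    ((hle _ _ o2).trans (Submodule.span_mono Set.subset_union_right))) hom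
  refine H.subF_of_maps hM hns h10 hg (show 4 ≤ 5 by norm_num) ![e₁, f₁, e₂, f₂]
    (fun l => by fin_cases l <;> assumption) ho ho0 hoo fun x hx => ?_
  have hT : T ≤ LinearMap.ker ((polarBilin q).flip (Y x)) := Submodule.span_le.mpr (by
    have x0 : polar q e₁ x = 0 := by simpa using hx 0
    have x1 : polar q f₁ x = 0 := by simpa using hx 1
    have x2 : polar q e₂ x = 0 := by simpa using hx 2
    have x3 : polar q f₂ x = 0 := by simpa using hx 3
    rintro w ((rfl | rfl) | (rfl | rfl)) <;>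
      rw [SetLike.mem_coe, LinearMap.mem_ker, LinearMap.flip_apply, polarBilin_apply_apply, hY, orth_polar] <;>
      simp [polar_add_left, polar_sub_left, x0, x1, x2, x3])
  exact hT homT

omit h2 hr in
/-- Without new scalars every element is rational up to a scalar. -/
theorem OR.subF_of_noNew (h10 : 10 ≤ Fintype.card ι) {g : orth q} (hg : g ∈ M) : SubF F₀ g := by
  by_cases hsmall : 2 * r + 3 ≤ Fintype.card ι
  · exact H.subF_of_small hM hns hsmall hg
  have hr : Odd r := H.prime.odd_of_ne_two (by have := H.big; omega)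
  by_cases h2 : (2 : F) = 0
  · exact H.subF_even hM hns h10 h2 hr hg
  · exact H.subF_odd hM hns h2 hr h10 hg

end Cfsg.Agent.H98.OSub
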