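import Cfsg.Agent.H98.OrthSubSeven

set_option autoImplicit false
set_option linter.unusedSectionVars false

/-!
Dimension at least nine, odd characteristic: without new scalars every element of an overgroup lying in `Ω` is
rational up to a scalar.
-/

namespace Cfsg.Agent.H98.OSub

open Cfsg.Agent.H5 QuadraticMap

variable {ι : Type} [Fintype ι] [DecidableEq ι] {F : Type*} [Field F] [Finite F]

local notation "V" => (ι → F)

variable {q : QuadraticForm F (ι → F)} {F₀ : Subfield F} {r : ℕ}
variable (H : OR q F₀ r) {M : Subgroup (orth q)} (hM : Over F₀ M) (hns : NoNew F₀ M) (h2 : (2 : F) ≠ 0) (hr : Odd r)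
include H hM hns h2 hr

/-- The rational involution attached to two pairs, or the given involution is rational. -/
theorem OR.exists_z_large (hn : 9 ≤ Fintype.card ι) {e₁ f₁ e₂ f₂ : V} (he₁ : IsRatVec F₀ e₁) (hf₁ : IsRatVec F₀ f₁)
    (he₂ : IsRatVec F₀ e₂) (hf₂ : IsRatVec F₀ f₂) (p₁ : HypPair q e₁ f₁) (p₂ : HypPair q e₂ f₂)
    (c1 : polar q e₁ e₂ = 0) (c2 : polar q e₁ f₂ = 0) (c3 : polar q f₁ e₂ = 0) (c4 : polar q f₁ f₂ = 0) {u v : V}
    (hu : q u ≠ 0) (hvu : q v = q u) (huv : polar q u v = 0) (hj : dRefl q u v ∈ M) :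
    ∃ (z i : orth q) (k : ℕ) (s : Fin (rk z) → V), z * z = 1 ∧ z * dRefl q u v = dRefl q u v * z ∧
      z = (i * dRefl q u v) ^ k ∧
      (∀ x, polar q e₁ x = 0 → polar q f₁ x = 0 → polar q e₂ x = 0 → polar q f₂ x = 0 →
        (i : V ≃ₗ[F] V) x = x) ∧
      (∀ i, IsRatVec F₀ (s i)) ∧ Submodule.span F (Set.range s) = resid z ∧
      (rk z = 2 ∨ SubF F₀ (dRefl q u v)) := by
  classical
  obtain ⟨z, i, k, hzr, hzC, hz1, hzz, hzj, hzk, hifix, -, -⟩ :=
    H.exists_z hM hns h2 hr he₁ hf₁ he₂ hf₂ p₁ p₂ c1 c2 c3 c4 hu hvu huv hj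
  obtain ⟨s, hs, hsli, hspan⟩ := exists_resid_basis (F₀ := F₀) hzr
  refine ⟨z, i, k, s, hzz, hzj, hzk, hifix, hs, hspan, ?_⟩
  have h6 : rk z ≤ 6 := by
    refine H.resid_le (s := ![e₁, f₁, e₂, f₂, u, v]) fun x hx => ?_
    rw [hzk]
    refine pow_apply_fixed ?_ k
    rw [orth_mul_apply i (dRefl q u v), dRefl_apply huv, show polar q u x = 0 by simpa using hx 4,
      show polar q v x = 0 by simpa using hx 5]
    simp only [mul_zero, zero_smul, sub_zero]
    exact hifix x (by simpa using hx 0) (by simpa using hx 1) (by simpa using hx 2) (by simpa using hx 3)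
  have h2le := H.two_le_rk hzC hz1
  rcases Nat.lt_or_ge (rk z) 3 with hlt | hge
  · exact Or.inl (by omega)
  refine Or.inr (H.subF_of_invariant hM hns h2 hr hj hge (by omega) hs hsli ?_)
  rw [hspan]; exact fun x hx => resid_invariant hzj hx

/-- An involution of the overgroup with a two-dimensional negated space is rational. -/
theorem OR.dRefl_rat_large (hn : 9 ≤ Fintype.card ι) {u v : V} (hu : q u ≠ 0) (hvu : q v = q u)
    (huv : polar q u v = 0) (hj : dRefl q u v ∈ M) : RatMap F₀ (dRefl q u v) := by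
  classical
  refine H.ratMap_of_invol hr ?_ (dRefl_sq huv)
  obtain ⟨e₁, f₁, e₂, f₂, he₁, hf₁, he₂, hf₂, p₁, p₂, c1, c2, c3, c4, -⟩ :=
    H.exists_quad (by omega) (Fin.elim0 : Fin 0 → V) (fun l => l.elim0)
  obtain ⟨z, i, k, s, hzz, hzj, hzk, -, hs, hspan, hcase⟩ :=
    H.exists_z_large hM hns h2 hr hn he₁ hf₁ he₂ hf₂ p₁ p₂ c1 c2 c3 c4 hu hvu huv hj
  rcases hcase with hk2 | hsub
  rotate_left
  · exact hsub
  obtain ⟨g₁, g₂, g₃, g₄, hg₁, hg₂, hg₃, hg₄, r₁, r₂, d1, d2, d3, d4, hperp⟩ :=
    H.exists_quad (by omega) s hs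
  obtain ⟨y, i', m, t, hyy, hyj, hym, hi'fix, ht, htspan, hycase⟩ :=
    H.exists_z_large hM hns h2 hr hn hg₁ hg₂ hg₃ hg₄ r₁ r₂ d1 d2 d3 d4 hu hvu huv hj
  rcases hycase with hy2 | hysub
  rotate_left
  · exact hysub
  set J := dRefl q u v with hJ
  unfold rk at hk2 hy2
  by_cases hzy : resid z = resid y
  swap
  · refine H.subF_of_join hM hns h2 hr hj hs ht (by rw [hspan]; exact fun x hx => resid_invariant hzj hx)
      (by rw [htspan]; exact fun x hx => resid_invariant hyj hx) ?_ ?_ <;> rw [hspan, htspan]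
    · by_contra hc
      refine hzy ?_
      have e1 : resid z = resid z ⊔ resid y := Submodule.eq_of_le_of_finrank_le le_sup_left (by omega)
      have e2 : resid y = resid z ⊔ resid y := Submodule.eq_of_le_of_finrank_le le_sup_right (by omega)
      exact e1.trans e2.symm
    · have := Submodule.finrank_add_le_finrank_add_finrank (resid z) (resid y)
      omega
  have hi'pi : ∀ x ∈ resid z, (i' : V ≃ₗ[F] V) x = x := fun x hx => by
    rw [← hspan] at hx
    refine hi'fix x ?_ ?_ ?_ ?_ <;> rw [polar_comm]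
    exacts [perp_apply_span (fun l => (hperp l).1) hx, perp_apply_span (fun l => (hperp l).2.1) hx,
      perp_apply_span (fun l => (hperp l).2.2.1) hx, perp_apply_span (fun l => (hperp l).2.2.2) hx]
  have hpow : ∀ (n : ℕ) (x : V), x ∈ resid z →
      (((i' * J) ^ n : orth q) : V ≃ₗ[F] V) x = ((J ^ n : orth q) : V ≃ₗ[F] V) x := by
    intro n
    induction n with
    | zero => intro x _; simp
    | succ n ih =>
      intro x hx
      rw [pow_succ, pow_succ, orth_mul_apply _ (i' * J), orth_mul_apply i' J,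
        hi'pi _ (resid_invariant hzj hx), orth_mul_apply _ J]
      exact ih _ (resid_invariant hzj hx)
  have hneg : ∀ x ∈ resid z, (J : V ≃ₗ[F] V) x = -x := by
    intro x hx
    have h1 : (y : V ≃ₗ[F] V) x = -x := neg_of_mem_resid hyy (hzy ▸ hx)
    rw [hym, hpow m x hx] at h1
    rcases Nat.even_or_odd' m with ⟨l, rfl | rfl⟩
    · rw [pow_mul, pow_two, dRefl_sq huv, one_pow] at h1
      have h3 : (2 : F) • x = 0 := by
        rw [two_smul]
        exact eq_neg_iff_add_eq_zero.mp h1
      rw [(smul_eq_zero.mp h3).resolve_left h2]; simp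
    · rw [pow_succ, pow_mul, pow_two, dRefl_sq huv, one_pow, one_mul] at h1
      exact h1
  have hJmem : ∀ x, dLin J x ∈ Submodule.span F (Set.range ![u, v]) := fun x => by
    rw [dLin_apply, hJ, dRefl_apply huv, show ∀ a b : F, x - a • u - b • v - x = (-a) • u + (-b) • v from
      fun a b => by module]
    exact add_mem (Submodule.smul_mem _ _ (Submodule.subset_span ⟨0, rfl⟩))
      (Submodule.smul_mem _ _ (Submodule.subset_span ⟨1, rfl⟩))
  have hP : resid z = Submodule.span F (Set.range ![u, v]) := by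
    refine Submodule.eq_of_le_of_finrank_le (fun x hx => ?_) ?_
    · have h := Submodule.smul_mem _ (-2 : F)⁻¹ (hJmem x)
      rwa [dLin_apply, hneg x hx, show -x - x = (-2 : F) • x by module, smul_smul,
        inv_mul_cancel₀ (neg_ne_zero.mpr h2), one_smul] at h
    · have := finrank_range_le_card (R := F) ![u, v]
      rw [Fintype.card_fin] at this
      exact le_trans this hk2.ge
  refine (H.ratMap_of_fix hM hns hj hg₁ r₁.ne_zero r₁.left ?_).subF
  have hg : ∀ w ∈ Submodule.span F (Set.range ![u, v]), polar q w g₁ = 0 := by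
    rw [← hP, ← hspan]; exact fun w hw => perp_apply_span (fun l => (hperp l).1) hw
  rw [hJ, dRefl_apply huv, hg u (Submodule.subset_span ⟨0, rfl⟩), hg v (Submodule.subset_span ⟨1, rfl⟩)]
  simp

/-- Dimension at least nine, odd degree. -/
theorem OR.subF_odd_large (hn : 9 ≤ Fintype.card ι) {g : orth q} (hg : g ∈ M) : SubF F₀ g := by
  classical
  obtain ⟨e₁, f₁, e₂, f₂, he₁, hf₁, he₂, hf₂, p₁, p₂, c1, c2, c3, c4, -⟩ :=
    H.exists_quad (by omega) (Fin.elim0 : Fin 0 → V) (fun l => l.elim0)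
  set Y : V ≃ₗ[F] V := (g : V ≃ₗ[F] V) with hY
  -- rational involutions with negated planes inside the image of the pairs
  have key : ∀ a b : V, IsRatVec F₀ a → IsRatVec F₀ b → q a ≠ 0 → q b = q a → polar q a b = 0 →
      ∃ s : Fin (rk (dRefl q (Y a) (Y b))) → V, (∀ l, IsRatVec F₀ (s l)) ∧
        rk (dRefl q (Y a) (Y b)) ≤ 2 ∧ Y a ∈ Submodule.span F (Set.range s) ∧
        Y b ∈ Submodule.span F (Set.range s) ∧
        ∀ w ∈ Submodule.span F (Set.range s), w ∈ Submodule.span F (Set.range ![Y a, Y b]) := by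
    intro a b ha hb hqa hqb hab
    have hab' : polar q (Y a) (Y b) = 0 := by rw [hY, orth_polar, hab]
    have hj := H.dRefl_rat_large hM hns h2 hr hn (u := Y a) (v := Y b) (by rwa [hY, orth_map])
      (by rw [hY, orth_map, orth_map, hqb]) hab' (by
        rw [hY, ← conj_dRefl]
        exact mul_mem (mul_mem hg (hM _ (H.dRefl_mem_comm hqa hqb) ((H.ratMap_refl ha).mul (H.ratMap_refl hb))))
          (inv_mem hg))
    obtain ⟨s, hs, -, hspan⟩ := exists_resid_basis (F₀ := F₀) hj
    have hle : resid (dRefl q (Y a) (Y b)) ≤ Submodule.span F (Set.range ![Y a, Y b]) :=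
      H.resid_le_span fun x hx => by
        rw [dRefl_apply hab', show polar q (Y a) x = 0 from hx 0, show polar q (Y b) x = 0 from hx 1]
        simp
    have hqY : ∀ c, q (Y c) = q c := fun c => by rw [hY, orth_map]
    have hself : Y a ∈ resid (dRefl q (Y a) (Y b)) ∧ Y b ∈ resid (dRefl q (Y a) (Y b)) := by
      constructor
      · refine ⟨(-2 : F)⁻¹ • Y a, ?_⟩
        rw [map_smul, dLin_apply, dRefl_apply hab', polar_comm q (Y b) (Y a), hab', polar_self', hqY,
          show (q a)⁻¹ * (2 * q a) = 2 by field_simp]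
        simp only [mul_zero, zero_smul, sub_zero]
        match_scalars
        field_simp
        ring
      · refine ⟨(-2 : F)⁻¹ • Y b, ?_⟩
        rw [map_smul, dLin_apply, dRefl_apply hab', hab', polar_self', hqY, hqY, hqb,
          show (q a)⁻¹ * (2 * q a) = 2 by field_simp]
        simp only [mul_zero, zero_smul, sub_zero]
        match_scalars
        field_simp
        ring
    refine ⟨s, hs, ?_, hspan ▸ hself.1, hspan ▸ hself.2, fun w hw => hle (hspan ▸ hw)⟩
    exact (Submodule.finrank_mono hle).trans ((finrank_range_le_card _).trans (Fintype.card_fin 2).le)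
  have u1 : q (e₁ + f₁) = 1 := by rw [QuadraticMap.map_add (⇑q), p₁.left, p₁.right, p₁.pair]; ring
  have u2 : q (e₂ + f₂) = 1 := by rw [QuadraticMap.map_add (⇑q), p₂.left, p₂.right, p₂.pair]; ring
  have v1 : q (e₁ - f₁) = -1 := by rw [Cfsg.Agent.H5.map_sub', p₁.left, p₁.right, p₁.pair]; ring
  have v2 : q (e₂ - f₂) = -1 := by rw [Cfsg.Agent.H5.map_sub', p₂.left, p₂.right, p₂.pair]; ring
  have o1 : polar q (e₁ + f₁) (e₂ + f₂) = 0 := by simp [polar_add_left, polar_add_right, c1, c2, c3, c4]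
  have o2 : polar q (e₁ - f₁) (e₂ - f₂) = 0 := by simp [polar_sub_left, polar_sub_right, c1, c2, c3, c4]
  obtain ⟨s, hs, hsk, a1, b1, -⟩ :=
    key _ _ (isRat_add he₁ hf₁) (isRat_add he₂ hf₂) (by rw [u1]; exact one_ne_zero) (by rw [u1, u2]) o1
  obtain ⟨t, ht, htk, a2, b2, -⟩ :=
    key _ _ (isRat_sub he₁ hf₁) (isRat_sub he₂ hf₂) (by rw [v1]; simp) (by rw [v1, v2]) o2
  obtain ⟨x, hx, hxx, hx0, hxs, -⟩ := H.exists_sing (Fin.append s t)
    (fun l => Fin.addCases (fun l => by simpa using hs l) (fun l => by simpa using ht l) l)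
    (Fin.elim0 : Fin 0 → V) (fun l => l.elim0) (by omega)
  have hS : ∀ w ∈ Submodule.span F (Set.range s), polar q x w = 0 := fun w hw => by
    rw [polar_comm]
    exact perp_apply_span (fun l => by simpa using hxs (Fin.castAdd _ l)) hw
  have hT : ∀ w ∈ Submodule.span F (Set.range t), polar q x w = 0 := fun w hw => by
    rw [polar_comm]
    exact perp_apply_span (fun l => by simpa using hxs (Fin.natAdd _ l)) hw
  have half : ∀ c d : V, Y c = (2 : F)⁻¹ • (Y (c + d) + Y (c - d)) := fun c d => by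
    rw [← map_add, show c + d + (c - d) = (2 : F) • c by module, map_smul, smul_smul, inv_mul_cancel₀ h2, one_smul]
  refine H.criterion hM hns hg he₁ he₂ p₁.left p₂.left c1 p₁.ne_zero (fun hm => ?_) hx hx0 hxx ?_ ?_
  · obtain ⟨l, hl⟩ := Submodule.mem_span_singleton.mp hm
    rw [← hl, polar_smul_right, p₁.symm.pair, smul_eq_mul, mul_one] at c3
    exact p₂.ne_zero (by rw [← hl, c3, zero_smul])
  all_goals rw [← hY]
  · rw [half e₁ f₁, polar_smul_right, polar_add_right, hS _ a1, hT _ a2]; simp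
  · rw [half e₂ f₂, polar_smul_right, polar_add_right, hS _ b1, hT _ b2]; simp

omit hr in
/-- Dimension at least nine, odd characteristic: without new scalars every element is rational up to a scalar. -/
theorem OR.subF_of_noNew_large (hn : 9 ≤ Fintype.card ι) {g : orth q} (hg : g ∈ M) : SubF F₀ g := by
  by_cases hsmall : 2 * r + 3 ≤ Fintype.card ι
  · exact H.subF_of_small hM hns hsmall hg
  exact H.subF_odd_large hM hns h2 (H.prime.odd_of_ne_two (by omega)) hn hg

end Cfsg.Agent.H98.OSub
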