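import Cfsg.Agent.H98.OrthSubInvol

set_option autoImplicit false
set_option linter.unusedSectionVars false

/-!
Dimension seven, odd characteristic: without new scalars every element of an overgroup lying in `Ω` is rational
up to a scalar.

The engine: an element of the overgroup fixing a rational singular point is rational, and so is an element
preserving a rational subspace of dimension three or four. Involutions with a two-dimensional negated space are
brought to one of the two cases by commuting rational involutions.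
-/

namespace Cfsg.Agent.H98.OSub

open Cfsg.Agent.H5 QuadraticMap

variable {ι : Type} [Fintype ι] [DecidableEq ι] {F : Type*} [Field F] [Finite F]

local notation "V" => (ι → F)

variable {q : QuadraticForm F (ι → F)} {F₀ : Subfield F} {r : ℕ}

/-- The coordinatewise image of a vector under a functional over the subfield. -/
def part (φ : F →ₗ[F₀] F₀) : (ι → F) →+ (ι → F) where
  toFun x i := ((φ (x i) : F₀) : F)
  map_zero' := funext fun i => by simp
  map_add' x y := funext fun i => by simp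

theorem part_rat (φ : F →ₗ[F₀] F₀) (x : V) : IsRatVec F₀ (part φ x) := fun i => (φ (x i)).2

theorem part_smul_rat (φ : F →ₗ[F₀] F₀) (c : F) {s : V} (hs : IsRatVec F₀ s) :
    part φ (c • s) = ((φ c : F₀) : F) • s := funext fun i => by
  have e : (c • s) i = (⟨s i, hs i⟩ : F₀) • c := by
    change c * s i = s i * c
    ring
  change ((φ ((c • s) i) : F₀) : F) = ((φ c : F₀) : F) * s i
  rw [e, map_smul, smul_eq_mul, Subfield.coe_mul, mul_comm]

theorem part_mem_span (φ : F →ₗ[F₀] F₀) {k : ℕ} {s : Fin k → V} (hs : ∀ i, IsRatVec F₀ (s i)) {x : V}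
    (hx : x ∈ Submodule.span F (Set.range s)) : part φ x ∈ Submodule.span F (Set.range s) := by
  obtain ⟨c, rfl⟩ := (Submodule.mem_span_range_iff_exists_fun F).mp hx
  rw [map_sum]
  exact Submodule.sum_mem _ fun i _ => by
    rw [part_smul_rat φ _ (hs i)]; exact Submodule.smul_mem _ _ (Submodule.subset_span (Set.mem_range_self i))

theorem exists_part_notMem {W : Submodule F V} {x : V} (hx : x ∉ W) : ∃ φ : F →ₗ[F₀] F₀, part φ x ∉ W := by
  by_contra hc
  push Not at hc
  let b := Module.finBasis F₀ F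
  refine hx ?_
  have e : x = ∑ k, b k • part (b.coord k) x := funext fun i => by
    rw [Finset.sum_apply]
    conv_lhs => rw [← b.sum_repr (x i)]
    exact Finset.sum_congr rfl fun k _ => by
      change ((b.repr (x i) k : F₀) : F) * b k = b k * ((b.repr (x i) k : F₀) : F)
      ring
  rw [e]
  exact Submodule.sum_mem _ fun k _ => Submodule.smul_mem _ _ (hc _)

theorem exists_unit_functional (F₀ : Subfield F) : ∃ φ : F →ₗ[F₀] F₀, φ 1 = 1 := by
  obtain ⟨φ, h1, -⟩ := Submodule.exists_dual_map_eq_bot_of_notMem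
    (show (1 : F) ∉ (⊥ : Submodule F₀ F) from fun h => one_ne_zero ((Submodule.mem_bot F₀).mp h)) inferInstance
  exact ⟨(φ 1)⁻¹ • φ, by rw [LinearMap.smul_apply, smul_eq_mul, inv_mul_cancel₀ h1]⟩

/-- The span of a family meets its orthogonal trivially. -/
def ND (q : QuadraticForm F (ι → F)) {k : ℕ} (s : Fin k → ι → F) : Prop :=
  ∀ x ∈ Submodule.span F (Set.range s), (∀ i, polar q (s i) x = 0) → x = 0

theorem mem_perp_range {k : ℕ} {s : Fin k → V} {x : V} :
    x ∈ perp q (Submodule.span F (Set.range s)) ↔ ∀ i, polar q (s i) x = 0 := by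
  refine ⟨fun h i => h _ (Submodule.subset_span (Set.mem_range_self i)), fun h w hw => ?_⟩
  obtain ⟨c, rfl⟩ := (Submodule.mem_span_range_iff_exists_fun F).mp hw
  change polarBilin q (∑ i, c i • s i) x = 0
  rw [map_sum, LinearMap.sum_apply]
  exact Finset.sum_eq_zero fun i _ => by
    rw [map_smul, LinearMap.smul_apply, polarBilin_apply_apply, h, smul_zero]

theorem perp_apply_span {k : ℕ} {s : Fin k → V} {x w : V} (h : ∀ i, polar q (s i) x = 0)
    (hw : w ∈ Submodule.span F (Set.range s)) : polar q w x = 0 :=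
  mem_perp_range.mpr h w hw

theorem ND.cons_pair {k : ℕ} {s : Fin k → V} (hnd : ND q s) {e f : V} (p : HypPair q e f)
    (hes : ∀ i, polar q (s i) e = 0) (hfs : ∀ i, polar q (s i) f = 0) :
    ND q (Fin.cons e (Fin.cons f s) : Fin (k + 2) → V) := by
  intro x hx h
  rw [Fin.range_cons, Fin.range_cons, Submodule.mem_span_insert] at hx
  obtain ⟨α, y, hy, rfl⟩ := hx
  obtain ⟨β, w, hw, rfl⟩ := Submodule.mem_span_insert.mp hy
  have e0 : polar q e w = 0 := by rw [polar_comm]; exact perp_apply_span hes hw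
  have f0 : polar q f w = 0 := by rw [polar_comm]; exact perp_apply_span hfs hw
  have h0 := h 0
  have h1 := h 1
  simp [polar_add_right, polar_smul_right, polar_self', p.left, p.right, p.pair, p.symm.pair, e0, f0] at h0 h1
  rw [h0, h1, zero_smul, zero_smul, zero_add, zero_add]
  refine hnd w hw fun i => ?_
  have := h i.succ.succ
  simpa [polar_add_right, polar_smul_right, hes i, hfs i] using this

theorem resid_invariant {z J : orth q} (h : z * J = J * z) {x : V} (hx : x ∈ resid z) :
    (J : V ≃ₗ[F] V) x ∈ resid z := by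
  obtain ⟨v, rfl⟩ := hx
  exact ⟨(J : V ≃ₗ[F] V) v, by rw [dLin_apply, dLin_apply, map_sub, apply_of_commute h]⟩

theorem neg_of_mem_resid {z : orth q} (hzz : z * z = 1) {x : V} (hx : x ∈ resid z) :
    (z : V ≃ₗ[F] V) x = -x := by
  obtain ⟨v, rfl⟩ := hx
  rw [dLin_apply, map_sub, ← orth_mul_apply z z, hzz]
  change v - _ = _
  abel

variable (H : OR q F₀ r)
include H

theorem OR.part_polar (φ : F →ₗ[F₀] F₀) {s : V} (hs : IsRatVec F₀ s) (x : V) :
    polar q s (part φ x) = ((φ (polar q s x) : F₀) : F) := by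
  have e : ∀ x : V, polar q s x =
      ∑ i, (⟨polar q s (Pi.single i 1), H.polar_rat hs (isRat_single i)⟩ : F₀) • x i := fun x => by
    conv_lhs => rw [pi_eq_sum_univ' x, ← polarBilin_apply_apply, map_sum]
    exact Finset.sum_congr rfl fun i _ => by
      rw [map_smul, polarBilin_apply_apply, smul_eq_mul, mul_comm]; rfl
  rw [e x, e (part φ x), map_sum, AddSubmonoidClass.coe_finset_sum]
  refine Finset.sum_congr rfl fun i _ => ?_
  rw [map_smul, smul_eq_mul, Subfield.coe_mul]
  rfl

theorem OR.part_perp (φ : F →ₗ[F₀] F₀) {k : ℕ} {s : Fin k → V} (hs : ∀ i, IsRatVec F₀ (s i)) {x : V}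
    (hx : ∀ i, polar q (s i) x = 0) (i : Fin k) : polar q (s i) (part φ x) = 0 := by
  rw [H.part_polar φ (hs i), hx i, map_zero]; rfl

/-- An anisotropic rational vector orthogonal to a non-degenerate family. -/
theorem OR.exists_aniso {k : ℕ} {s : Fin k → V} (hs : ∀ i, IsRatVec F₀ (s i)) (hk : k < Fintype.card ι)
    (hnd : ND q s) : ∃ g, IsRatVec F₀ g ∧ (∀ i, polar q (s i) g = 0) ∧ q g ≠ 0 := by
  choose a ha using fun i => exists_incl (hs i)
  let L : (ι → F₀) →ₗ[F₀] (Fin k → F₀) := LinearMap.pi fun i => polarBilin H.q₀ (a i)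
  have h1 := L.finrank_range_add_finrank_ker
  have h2 := Submodule.finrank_le (LinearMap.range L)
  rw [Module.finrank_pi, Fintype.card_fin] at h2
  rw [Module.finrank_pi] at h1
  obtain ⟨c, hc, hc0⟩ := Submodule.exists_mem_ne_zero_of_ne_bot (p := LinearMap.ker L) fun h => by
    rw [h, finrank_bot] at h1; omega
  set x := incl F₀ c with hx
  have hxs : ∀ i, polar q (s i) x = 0 := fun i => by
    rw [← ha i, hx, ← H.coe_polar₀, show polar H.q₀ (a i) c = 0 from congrFun hc i]; rfl
  by_cases hq : q x = 0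
  swap
  · exact ⟨x, incl_rat c, hxs, hq⟩
  have hx0 : x ≠ 0 := fun h => hc0 (incl_injective F₀ (h.trans (map_zero _).symm))
  obtain ⟨φ, h1', h2'⟩ := exists_functional_rat H hs (incl_rat c) fun hm => hx0 (hnd x hm hxs)
  obtain ⟨p, hp, hpv⟩ := H.exists_rep φ
  have hps : ∀ i, polar q (s i) p = 0 := fun i => by rw [polar_comm, hpv, h2']
  by_cases hqp : q p = 0
  swap
  · exact ⟨p, hp, hps, hqp⟩
  refine ⟨x + p, isRat_add (incl_rat c) hp, fun i => by rw [polar_add_right, hxs, hps, add_zero], ?_⟩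
  rw [QuadraticMap.map_add (⇑q), hq, hqp, polar_comm, hpv, h1']
  simp

/-- A rational basis of the orthogonal of a non-degenerate rational family. -/
theorem OR.perp_basis {k : ℕ} {s : Fin k → V} (hs : ∀ i, IsRatVec F₀ (s i)) (hli : LinearIndependent F s)
    (hnd : ND q s) : ∃ (l : ℕ) (u : Fin l → V), (∀ i, IsRatVec F₀ (u i)) ∧ LinearIndependent F u ∧
      (∀ x, x ∈ Submodule.span F (Set.range u) ↔ ∀ i, polar q (s i) x = 0) ∧ l + k = Fintype.card ι ∧ ND q u := by
  classical
  haveI : Finite (ι → F₀) := Pi.finite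
  obtain ⟨l, u, hu, huli, huspan⟩ := exists_rat_indep (F₀ := F₀)
    (fun a : {a : ι → F₀ // ∀ i, polar q (s i) (incl F₀ a) = 0} => incl F₀ a.1) (fun a => incl_rat a.1)
  have heq : Submodule.span F (Set.range u) = perp q (Submodule.span F (Set.range s)) := by
    rw [huspan]
    refine le_antisymm (Submodule.span_le.mpr ?_) fun x hx => ?_
    · rintro _ ⟨a, rfl⟩; exact mem_perp_range.mpr a.2
    · by_contra hm
      obtain ⟨φ, hφ⟩ := exists_part_notMem hm
      obtain ⟨a, ha⟩ := exists_incl (part_rat φ x)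
      refine hφ (Submodule.subset_span ⟨⟨a, fun i => ?_⟩, ha⟩)
      rw [ha]; exact H.part_perp φ hs (mem_perp_range.mp hx) i
  refine ⟨l, u, hu, huli, fun x => by rw [heq, mem_perp_range], ?_, fun x hx h => ?_⟩
  · have h1 := finrank_perp_add H.nondeg (Submodule.span F (Set.range s))
    rw [← heq, finrank_span_eq_card huli, finrank_span_eq_card hli, Fintype.card_fin, Fintype.card_fin,
      Module.finrank_pi] at h1
    exact h1
  · have h1 : x ∈ perp q (Submodule.span F (Set.range u)) := mem_perp_range.mpr h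
    rw [heq, perp_perp H.nondeg] at h1
    exact hnd x h1 (mem_perp_range.mp (heq ▸ hx))

/-- Two rational hyperbolic pairs orthogonal to a non-degenerate family of at most two vectors. -/
theorem OR.exists_quad_nd (hn : Fintype.card ι = 7) {k : ℕ} (hk : k ≤ 2) {s : Fin k → V}
    (hs : ∀ i, IsRatVec F₀ (s i)) (hnd : ND q s) :
    ∃ e₁ f₁ e₂ f₂ : V, IsRatVec F₀ e₁ ∧ IsRatVec F₀ f₁ ∧ IsRatVec F₀ e₂ ∧ IsRatVec F₀ f₂ ∧ HypPair q e₁ f₁ ∧
      HypPair q e₂ f₂ ∧ polar q e₁ e₂ = 0 ∧ polar q e₁ f₂ = 0 ∧ polar q f₁ e₂ = 0 ∧ polar q f₁ f₂ = 0 ∧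
      ∀ i, polar q (s i) e₁ = 0 ∧ polar q (s i) f₁ = 0 ∧ polar q (s i) e₂ = 0 ∧ polar q (s i) f₂ = 0 := by
  have pick : ∀ {m : ℕ} {t : Fin m → V}, m ≤ 4 → (∀ i, IsRatVec F₀ (t i)) → ND q t →
      ∃ e f, IsRatVec F₀ e ∧ IsRatVec F₀ f ∧ HypPair q e f ∧ (∀ i, polar q (t i) e = 0) ∧
        ∀ i, polar q (t i) f = 0 := fun {m t} hm ht htn => by
    obtain ⟨e, he, hee, he0, hes, -⟩ := H.exists_sing t ht (Fin.elim0 : Fin 0 → V) (fun i => i.elim0) (by omega)
    obtain ⟨f, hf, hff, hef, hfs⟩ := H.partner ht he hee hes fun h => he0 (htn e h hes)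
    exact ⟨e, f, he, hf, ⟨hee, hff, hef⟩, hes, hfs⟩
  obtain ⟨e₁, f₁, he₁, hf₁, p₁, e₁s, f₁s⟩ := pick (by omega) hs hnd
  obtain ⟨e₂, f₂, he₂, hf₂, p₂, e₂s, f₂s⟩ := pick (m := k + 2) (t := Fin.cons e₁ (Fin.cons f₁ s)) (by omega)
    (Fin.cases (by simpa using he₁) (Fin.cases (by simpa using hf₁) fun i => by simpa using hs i))
    (hnd.cons_pair p₁ e₁s f₁s)
  exact ⟨e₁, f₁, e₂, f₂, he₁, hf₁, he₂, hf₂, p₁, p₂, by simpa using e₂s 0, by simpa using f₂s 0,
    by simpa using e₂s (Fin.succ 0), by simpa using f₂s (Fin.succ 0),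
    fun i => ⟨e₁s i, f₁s i, by simpa using e₂s i.succ.succ, by simpa using f₂s i.succ.succ⟩⟩

variable {M : Subgroup (orth q)} (hM : Over F₀ M) (hns : NoNew F₀ M)
include hM hns

/-- An element of the overgroup with a rational singular eigenvector is rational up to a scalar. -/
theorem OR.subF_of_eigen {j : orth q} (hj : j ∈ M) {b : V} (hb : IsRatVec F₀ b) (hb0 : b ≠ 0) (hbb : q b = 0)
    {t : F} (h : (j : V ≃ₗ[F] V) b = t • b) : SubF F₀ j := by
  obtain ⟨a, ha, haa, -, has, han⟩ := H.exists_sing ![b] (fun i => by fin_cases i; exact hb) ![b]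
    (fun i => by fin_cases i; exact hb) (by have := H.big; omega)
  have hba : polar q b a = 0 := by simpa using has 0
  have ht : t ≠ 0 := fun h0 => hb0 ((j : V ≃ₗ[F] V).map_eq_zero_iff.mp (by rw [h, h0, zero_smul]))
  refine H.criterion hM hns hj hb ha hbb haa hba hb0 (by simpa using han) hb hb0 hbb ?_ ?_
  · rw [h, polar_smul_right, polar_self', hbb]; simp
  · have e := orth_polar j b a
    rw [h, polar_smul_left, hba, smul_eq_mul] at e
    exact (mul_eq_zero.mp e).resolve_left ht

/-- An element of the overgroup fixing a rational singular vector is rational. -/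
theorem OR.ratMap_of_fix {j : orth q} (hj : j ∈ M) {b : V} (hb : IsRatVec F₀ b) (hb0 : b ≠ 0) (hbb : q b = 0)
    (h : (j : V ≃ₗ[F] V) b = b) : RatMap F₀ j := by
  obtain ⟨c, hc, hr⟩ := H.subF_of_eigen hM hns hj hb hb0 hbb (t := 1) (by rw [one_smul, h])
  have h1 := hr b hb
  rw [h] at h1
  have hcF := scalar_mem hb hb0 h1
  intro x hx
  have := isRat_smul (inv_mem hcF) (hr x hx)
  rwa [smul_smul, inv_mul_cancel₀ hc, one_smul] at this

variable (h2 : (2 : F) ≠ 0) (hr : Odd r)
include h2 hr

/-- One half: rationality on the orthogonal of a family spanning a singular rational point. -/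
theorem OR.key_half {J : orth q} (hJ : J ∈ M) {N : ℕ} (hN : N + 3 ≤ Fintype.card ι) {s : Fin N → V}
    (hs : ∀ i, IsRatVec F₀ (s i))
    (hJs : ∀ x, (∀ i, polar q (s i) x = 0) → ∀ i, polar q (s i) ((J : V ≃ₗ[F] V) x) = 0) (hnd : ND q s)
    {σ : V} (hσ : IsRatVec F₀ σ) (hσ0 : σ ≠ 0) (hσσ : q σ = 0) (hσs : σ ∈ Submodule.span F (Set.range s)) :
    ∀ x, IsRatVec F₀ x → (∀ i, polar q (s i) x = 0) → IsRatVec F₀ ((J : V ≃ₗ[F] V) x) := by
  set Y : V ≃ₗ[F] V := (J : V ≃ₗ[F] V) with hY
  have hfix : ∀ b g : V, IsRatVec F₀ b → IsRatVec F₀ g → q b = 0 → polar q b g = 0 → (∀ i, polar q (s i) b = 0) →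
      (∀ i, polar q (s i) g = 0) → RatMap F₀ (eich q (Y b) (Y g)) := by
    intro b g hb hg hbb hbg hbs hgs
    have hroot := (H.rootIn_rat hM hb hg hbb hbg).conj hJ
    refine H.ratMap_of_fix hM hns hroot.2.2 hσ hσ0 hσσ ?_
    have z1 : polar q (Y b) σ = 0 := by rw [polar_comm]; exact perp_apply_span (hJs b hbs) hσs
    have z2 : polar q (Y g) σ = 0 := by rw [polar_comm]; exact perp_apply_span (hJs g hgs) hσs
    rw [eich_apply hroot.1 hroot.2.1, z1, z2]
    simp
  have hpartner : ∀ b : V, IsRatVec F₀ b → q b = 0 → b ≠ 0 → (∀ i, polar q (s i) b = 0) →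
      ∃ f g : V, IsRatVec F₀ f ∧ IsRatVec F₀ g ∧ HypPair q b f ∧ (∀ i, polar q (s i) f = 0) ∧
        (∀ i, polar q (s i) g = 0) ∧ polar q b g = 0 ∧ polar q f g = 0 ∧ q g ≠ 0 := by
    intro b hb hbb hb0 hbs
    obtain ⟨f, hf, hff, hbf, hfs⟩ := H.partner hs hb hbb hbs fun h => hb0 (hnd b h hbs)
    obtain ⟨g, hg, hgs, hgg⟩ := H.exists_aniso (s := (Fin.cons b (Fin.cons f s) : Fin (N + 2) → V))
      (Fin.cases (by simpa using hb) (Fin.cases (by simpa using hf) fun i => by simpa using hs i)) (by omega)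
      (hnd.cons_pair ⟨hbb, hff, hbf⟩ hbs hfs)
    exact ⟨f, g, hf, hg, ⟨hbb, hff, hbf⟩, hfs, fun i => by simpa using hgs i.succ.succ, by simpa using hgs 0,
      by simpa using hgs (Fin.succ 0), hgg⟩
  have hline : ∀ b : V, IsRatVec F₀ b → q b = 0 → b ≠ 0 → (∀ i, polar q (s i) b = 0) →
      ∃ (κ : F) (B : V), IsRatVec F₀ B ∧ Y b = κ • B ∧ κ ≠ 0 := by
    intro b hb hbb hb0 hbs
    obtain ⟨f, g, -, hg, -, -, hgs, hbg, -, hgg⟩ := hpartner b hb hbb hb0 hbs
    have hYb0 : Y b ≠ 0 := Y.map_ne_zero_iff.mpr hb0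
    obtain ⟨v, hv, hvb⟩ : ∃ v, IsRatVec F₀ v ∧ polar q v (Y b) ≠ 0 := by
      by_contra hc; push Not at hc; exact hYb0 (H.eq_zero hc)
    have r1 := hfix b g hb hg hbb hbg hbs hgs v hv
    have r2 := hfix b (-g) hb (by simpa using isRat_smul (neg_mem (one_mem F₀)) hg) hbb
      (by rw [polar_neg_right, hbg, neg_zero]) hbs (fun i => by rw [polar_neg_right, hgs, neg_zero]) v hv
    have a1 : q (Y b) = 0 := by rw [hY, orth_map, hbb]
    have a2 : polar q (Y b) (Y g) = 0 := by rw [hY, orth_polar, hbg]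
    rw [eich_apply a1 a2] at r1
    rw [eich_apply a1 (by rw [map_neg, polar_neg_right, a2, neg_zero]), map_neg, polar_neg_left,
      QuadraticMap.map_neg] at r2
    have hd := isRat_sub (isRat_add r1 r2) (isRat_add hv hv)
    have hqY : q (Y g) = q g := by rw [hY, orth_map]
    have hne : -(2 * (q g * polar q (Y b) v)) ≠ 0 := by
      rw [polar_comm]; exact neg_ne_zero.mpr (mul_ne_zero h2 (mul_ne_zero hgg hvb))
    refine ⟨(-(2 * (q g * polar q (Y b) v)))⁻¹, (-(2 * (q g * polar q (Y b) v))) • Y b, ?_,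
      by rw [smul_smul, inv_mul_cancel₀ hne, one_smul], inv_ne_zero hne⟩
    convert hd using 1
    rw [hqY]
    module
  have hb : ∀ b : V, IsRatVec F₀ b → q b = 0 → b ≠ 0 → (∀ i, polar q (s i) b = 0) → IsRatVec F₀ (Y b) := by
    intro b hb hbb hb0 hbs
    obtain ⟨f, g, hf, hg, p, hfs, hgs, hbg, hfg, hgg⟩ := hpartner b hb hbb hb0 hbs
    set c := b + (-q g) • f + g with hc
    have hcr : IsRatVec F₀ c := isRat_add (isRat_add hb (isRat_smul (neg_mem (H.rat _ hg)) hf)) hg
    have hcs : ∀ i, polar q (s i) c = 0 := fun i => by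
      rw [hc, polar_add_right, polar_add_right, polar_smul_right, hbs, hfs, hgs]; simp
    have hbc : polar q b c = -q g := by
      rw [hc, polar_add_right, polar_add_right, polar_smul_right, polar_self', hbb, p.pair, hbg]; simp
    have hfc : polar q f c = 1 := by
      rw [hc, polar_add_right, polar_add_right, polar_smul_right, p.symm.pair, polar_self', p.right, hfg]; simp
    have hcc : q c = 0 := by
      rw [hc, QuadraticMap.map_add (⇑q), QuadraticMap.map_add (⇑q), QuadraticMap.map_smul, hbb, p.right,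
        polar_smul_right, p.pair, polar_add_left, polar_smul_left, hbg, hfg]
      simp
    have hc0 : c ≠ 0 := fun h => by rw [h, polar_zero_right] at hfc; exact zero_ne_one hfc
    obtain ⟨l, B, hB, eB, hl⟩ := hline b hb hbb hb0 hbs
    obtain ⟨m, G, hG, eG, hm⟩ := hline f hf p.right p.symm.ne_zero hfs
    obtain ⟨n, C, hC, eC, hn'⟩ := hline c hcr hcc hc0 hcs
    have prodF : ∀ {x y X Z : V} {α β : F}, IsRatVec F₀ X → IsRatVec F₀ Z → Y x = α • X → Y y = β • Z →
        polar q x y ≠ 0 → polar q x y ∈ F₀ → α * β ∈ F₀ := by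
      intro x y X Z α β hX hZ ex ey hne hxy
      have e : α * β * polar q X Z = polar q x y := by
        rw [← orth_polar J x y, ← hY, ex, ey, polar_smul_left, polar_smul_right, smul_eq_mul, smul_eq_mul]; ring
      have hXZ : polar q X Z ≠ 0 := fun h0 => hne (by rw [← e, h0, mul_zero])
      have := mul_mem hxy (inv_mem (H.polar_rat hX hZ))
      rwa [← e, mul_assoc, mul_inv_cancel₀ hXZ, mul_one] at this
    have k1 := prodF hB hG eB eG (by rw [p.pair]; exact one_ne_zero) (by rw [p.pair]; exact one_mem _)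
    have k2 := prodF hB hC eB eC (by rw [hbc]; exact neg_ne_zero.mpr hgg)
      (by rw [hbc]; exact neg_mem (H.rat _ hg))
    have k3 := prodF hG hC eG eC (by rw [hfc]; exact one_ne_zero) (by rw [hfc]; exact one_mem _)
    have hl2 : l * l ∈ F₀ := by
      have := mul_mem (mul_mem k1 k2) (inv_mem k3)
      convert this using 1
      field_simp
    rw [eB]
    exact isRat_smul (H.mem_of_sq hr hl2) hB
  obtain ⟨b, hbr, hbb, hb0, hbs, -⟩ := H.exists_sing s hs (Fin.elim0 : Fin 0 → V) (fun i => i.elim0) (by omega)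
  obtain ⟨f, g, hf, hg, p, hfs, -, -, -, -⟩ := hpartner b hbr hbb hb0 hbs
  intro x hx hxs
  set w := x - polar q f x • b - polar q b x • f with hw
  have hwr : IsRatVec F₀ w :=
    isRat_sub (isRat_sub hx (isRat_smul (H.polar_rat hf hx) hbr)) (isRat_smul (H.polar_rat hbr hx) hf)
  have hws : ∀ i, polar q (s i) w = 0 := fun i => by
    rw [hw, polar_sub_right, polar_sub_right, polar_smul_right, polar_smul_right, hxs, hbs, hfs]; simp
  have hwp : w ∈ pperp q b f := p.decomp x
  have hbY := hb b hbr hbb hb0 hbs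
  have hfY := hb f hf p.right p.symm.ne_zero hfs
  have hwY : IsRatVec F₀ (Y w) := by
    by_cases hww : q w = 0
    · rcases eq_or_ne w 0 with h0 | h0
      · rw [h0, map_zero]; exact isRat_zero
      · exact hb w hwr hww h0 hws
    · have hl := p.singular_lift hwp
      have hc := hb (b + (-q w) • f + w) (isRat_add (isRat_add hbr (isRat_smul (neg_mem (H.rat _ hwr)) hf)) hwr)
        hl.1 (fun h0 => ?_) (fun i => by
          rw [polar_add_right, polar_add_right, polar_smul_right, hbs, hfs, hws]; simp)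
      · rw [map_add, map_add, map_smul] at hc
        have := isRat_sub hc (isRat_add hbY (isRat_smul (neg_mem (H.rat _ hwr)) hfY))
        rwa [add_sub_cancel_left] at this
      · have h1 := hl.2.2
        rw [h0, polar_zero_right] at h1
        exact zero_ne_one h1
  have e : Y x = Y w + polar q f x • Y b + polar q b x • Y f := by
    rw [← map_smul, ← map_smul, ← map_add, ← map_add, hw]; congr 1; abel
  rw [e]
  exact isRat_add (isRat_add hwY (isRat_smul (H.polar_rat hf hx) hbY)) (isRat_smul (H.polar_rat hbr hx) hfY)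

/-- An element of the overgroup preserving a non-degenerate rational subspace with both parts of dimension at
least three. -/
theorem OR.ratMap_of_decomp {J : orth q} (hJ : J ∈ M) {N : ℕ} (h3 : 3 ≤ N) (h4 : N + 3 ≤ Fintype.card ι)
    {s : Fin N → V} (hs : ∀ i, IsRatVec F₀ (s i)) (hli : LinearIndependent F s) (hnd : ND q s)
    (hJs : ∀ x ∈ Submodule.span F (Set.range s), (J : V ≃ₗ[F] V) x ∈ Submodule.span F (Set.range s)) :
    RatMap F₀ J := by
  set S := Submodule.span F (Set.range s) with hS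
  have hsur : ∀ w ∈ S, ∃ w' ∈ S, (J : V ≃ₗ[F] V) w' = w := by
    have he : S.map ((J : V ≃ₗ[F] V) : V →ₗ[F] V) = S := Submodule.eq_of_le_of_finrank_eq
      (by rintro _ ⟨x, hx, rfl⟩; exact hJs x hx) (LinearEquiv.finrank_map_eq _ _)
    intro w hw
    rw [← he] at hw
    obtain ⟨w', h1, h2'⟩ := hw
    exact ⟨w', h1, h2'⟩
  have hperp : ∀ x, (∀ i, polar q (s i) x = 0) → ∀ i, polar q (s i) ((J : V ≃ₗ[F] V) x) = 0 := fun x hx i => by
    obtain ⟨w, hw, hw'⟩ := hsur (s i) (Submodule.subset_span (Set.mem_range_self i))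
    rw [← hw', orth_polar]
    exact perp_apply_span hx hw
  obtain ⟨l, u, hu, huli, humem, hlk, hund⟩ := H.perp_basis hs hli hnd
  have hself : ∀ x, (∀ i, polar q (u i) x = 0) → x ∈ S := fun x hx => by
    rw [← perp_perp H.nondeg S]
    intro w hw
    exact perp_apply_span hx ((humem w).mpr (mem_perp_range.mp hw))
  obtain ⟨σ, hσ, hσσ, hσ0, hσm⟩ := H.sing_in hs hli h3
  obtain ⟨τ, hτ, hττ, hτ0, hτm⟩ := H.sing_in hu huli (by omega)
  have r1 := H.key_half hM hns h2 hr hJ (by omega) hs hperp hnd hσ hσ0 hσσ hσm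
  have r2 := H.key_half hM hns h2 hr hJ (by omega) hu
    (fun x hx i => by
      rw [polar_comm]
      exact perp_apply_span ((humem _).mp (Submodule.subset_span (Set.mem_range_self i))) (hJs x (hself x hx)))
    hund hτ hτ0 hττ hτm
  intro x hx
  have hsum : Submodule.span F (Set.range s) ⊔ Submodule.span F (Set.range u) = ⊤ := by
    have hdis : Submodule.span F (Set.range s) ⊓ Submodule.span F (Set.range u) = ⊥ :=
      (Submodule.eq_bot_iff _).mpr fun y hy => hnd y hy.1 ((humem y).mp hy.2)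
    apply Submodule.eq_top_of_finrank_eq
    have := Submodule.finrank_sup_add_finrank_inf_eq (Submodule.span F (Set.range s))
      (Submodule.span F (Set.range u))
    rw [hdis, finrank_bot, finrank_span_eq_card hli, finrank_span_eq_card huli, Fintype.card_fin,
      Fintype.card_fin] at this
    rw [Module.finrank_pi]
    omega
  obtain ⟨a, ha, b, hb, hab⟩ := Submodule.mem_sup.mp (hsum ▸ (Submodule.mem_top : x ∈ _))
  obtain ⟨φ, hφ⟩ := exists_unit_functional F₀
  have hxp : part φ x = x := by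
    have := part_smul_rat φ (1 : F) hx
    rwa [one_smul, hφ, Subfield.coe_one, one_smul] at this
  rw [← hxp, ← hab, map_add, map_add]
  refine isRat_add (r2 _ (part_rat φ a) fun i => H.part_perp φ hu (fun i => ?_) i)
    (r1 _ (part_rat φ b) fun i => H.part_perp φ hs ((humem b).mp hb) i)
  rw [polar_comm]
  exact perp_apply_span ((humem _).mp (Submodule.subset_span (Set.mem_range_self i))) ha

/-- An element of the overgroup preserving a rational subspace of dimension and codimension at least three. -/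
theorem OR.subF_of_invariant {J : orth q} (hJ : J ∈ M) {N : ℕ} (h3 : 3 ≤ N) (h4 : N + 3 ≤ Fintype.card ι)
    {s : Fin N → V} (hs : ∀ i, IsRatVec F₀ (s i)) (hli : LinearIndependent F s)
    (hJs : ∀ x ∈ Submodule.span F (Set.range s), (J : V ≃ₗ[F] V) x ∈ Submodule.span F (Set.range s)) :
    SubF F₀ J := by
  by_cases hnd : ND q s
  · exact (H.ratMap_of_decomp hM hns h2 hr hJ h3 h4 hs hli hnd hJs).subF
  set S := Submodule.span F (Set.range s) with hS
  obtain ⟨x, hxS, hxs, hx0⟩ : ∃ x ∈ S, (∀ i, polar q (s i) x = 0) ∧ x ≠ 0 := by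
    simpa [ND, hS] using hnd
  have sing : ∀ a ∈ S, (∀ i, polar q (s i) a = 0) → q a = 0 := fun a ha has => by
    have h := perp_apply_span has ha
    rw [polar_self'] at h
    exact (mul_eq_zero.mp h).resolve_left h2
  obtain ⟨φ, hφ⟩ := exists_part_notMem (F₀ := F₀) (W := (⊥ : Submodule F V)) (x := x)
    (fun h => hx0 ((Submodule.mem_bot F).mp h))
  set a := part φ x with ha
  have ha0 : a ≠ 0 := fun h => hφ (by rw [h]; exact zero_mem _)
  have haS : a ∈ S := part_mem_span φ hs hxS
  have has : ∀ i, polar q (s i) a = 0 := H.part_perp φ hs hxs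
  have haa := sing a haS has
  have hJperp : ∀ i, polar q (s i) ((J : V ≃ₗ[F] V) a) = 0 := fun i => by
    have he : S.map ((J : V ≃ₗ[F] V) : V →ₗ[F] V) = S := Submodule.eq_of_le_of_finrank_eq
      (by rintro _ ⟨x, hx, rfl⟩; exact hJs x hx) (LinearEquiv.finrank_map_eq _ _)
    have hm : s i ∈ S := Submodule.subset_span (Set.mem_range_self i)
    rw [← he] at hm
    obtain ⟨w, hw, hw'⟩ := hm
    rw [← hw']
    change polar q ((J : V ≃ₗ[F] V) w) _ = 0
    rw [orth_polar]
    exact perp_apply_span has hw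
  by_cases hJa : (J : V ≃ₗ[F] V) a ∈ Submodule.span F {a}
  · obtain ⟨t, ht⟩ := Submodule.mem_span_singleton.mp hJa
    exact H.subF_of_eigen hM hns hJ (part_rat φ x) ha0 haa ht.symm
  obtain ⟨ψ, hψ⟩ := exists_part_notMem (F₀ := F₀) hJa
  set b := part ψ ((J : V ≃ₗ[F] V) a) with hb
  have hbS : b ∈ S := part_mem_span ψ hs (hJs a haS)
  have hbs : ∀ i, polar q (s i) b = 0 := H.part_perp ψ hs hJperp
  refine H.criterion hM hns hJ (part_rat φ x) (part_rat ψ _) haa (sing b hbS hbs) (perp_apply_span hbs haS) ha0 hψ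
    (part_rat φ x) ha0 haa ?_ ?_
  · exact perp_apply_span hJperp haS
  · rw [polar_comm]; exact perp_apply_span has (hJs b hbS)

/-- An element preserving two rational subspaces spanning a dimension and codimension at least three. -/
theorem OR.subF_of_join {J : orth q} (hJ : J ∈ M) {k l : ℕ} {s : Fin k → V}
    {t : Fin l → V} (hs : ∀ i, IsRatVec F₀ (s i)) (ht : ∀ i, IsRatVec F₀ (t i))
    (hJs : ∀ x ∈ Submodule.span F (Set.range s), (J : V ≃ₗ[F] V) x ∈ Submodule.span F (Set.range s))
    (hJt : ∀ x ∈ Submodule.span F (Set.range t), (J : V ≃ₗ[F] V) x ∈ Submodule.span F (Set.range t))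
    (h3 : 3 ≤ Module.finrank F (Submodule.span F (Set.range s) ⊔ Submodule.span F (Set.range t) : Submodule F V))
    (h4 : Module.finrank F (Submodule.span F (Set.range s) ⊔ Submodule.span F (Set.range t) : Submodule F V) + 3 ≤
      Fintype.card ι) :
    SubF F₀ J := by
  obtain ⟨N, w, hw, hwli, hwspan⟩ := exists_rat_indep (F₀ := F₀) (Sum.elim s t)
    (fun a => by rcases a with a | a; exacts [hs a, ht a])
  rw [Set.Sum.elim_range, Submodule.span_union] at hwspan
  have hN := finrank_span_eq_card hwli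
  rw [hwspan, Fintype.card_fin] at hN
  refine H.subF_of_invariant hM hns h2 hr hJ (by omega) (by omega) hw hwli fun x hx => ?_
  rw [hwspan] at hx ⊢
  obtain ⟨a, ha, b, hb, rfl⟩ := Submodule.mem_sup.mp hx
  rw [map_add]
  exact add_mem (Submodule.mem_sup_left (hJs a ha)) (Submodule.mem_sup_right (hJt b hb))

/-- The rational involution attached to two pairs and an involution of the overgroup. -/
theorem OR.exists_z_seven (hn : Fintype.card ι = 7) {e₁ f₁ e₂ f₂ : V} (he₁ : IsRatVec F₀ e₁) (hf₁ : IsRatVec F₀ f₁)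
    (he₂ : IsRatVec F₀ e₂) (hf₂ : IsRatVec F₀ f₂) (p₁ : HypPair q e₁ f₁) (p₂ : HypPair q e₂ f₂)
    (c1 : polar q e₁ e₂ = 0) (c2 : polar q e₁ f₂ = 0) (c3 : polar q f₁ e₂ = 0) (c4 : polar q f₁ f₂ = 0) {u v : V}
    (hu : q u ≠ 0) (hvu : q v = q u) (huv : polar q u v = 0) (hj : dRefl q u v ∈ M) :
    ∃ (z i : orth q) (k : ℕ) (s : Fin (rk z) → V), z * z = 1 ∧ z * dRefl q u v = dRefl q u v * z ∧
      z = (i * dRefl q u v) ^ k ∧ z * i = i * z ∧ (i : V ≃ₗ[F] V) e₁ = -e₁ ∧
      (∀ x, polar q e₁ x = 0 → polar q f₁ x = 0 → polar q e₂ x = 0 → polar q f₂ x = 0 →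
        (i : V ≃ₗ[F] V) x = x) ∧
      (∀ i, IsRatVec F₀ (s i)) ∧ LinearIndependent F s ∧ Submodule.span F (Set.range s) = resid z ∧ ND q s ∧
      (rk z = 4 → SubF F₀ (dRefl q u v)) ∧
      (rk z = 2 ∨ rk z = 4 ∨ (rk z = 6 ∧ ∃ w, IsRatVec F₀ w ∧ q w ≠ 0 ∧ (dRefl q u v : V ≃ₗ[F] V) w = w ∧
        polar q e₁ w = 0 ∧ polar q f₁ w = 0 ∧ polar q e₂ w = 0 ∧ polar q f₂ w = 0)) := by
  classical
  obtain ⟨z, i, k, hzr, hzC, hz1, hzz, hzj, hzk, hifix, hzi, hie⟩ :=
    H.exists_z hM hns h2 hr he₁ hf₁ he₂ hf₂ p₁ p₂ c1 c2 c3 c4 hu hvu huv hj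
  obtain ⟨s, hs, hsli, hspan⟩ := exists_resid_basis (F₀ := F₀) hzr
  set J := dRefl q u v with hJdef
  have hnd : ND q s := fun x hx h => by
    have h1 := neg_of_mem_resid hzz (hspan ▸ hx)
    have h3 := H.fixed_of_perp hspan h
    rw [h1] at h3
    refine (smul_eq_zero.mp (show (2 : F) • x = 0 from ?_)).resolve_left h2
    rw [two_smul]
    exact eq_neg_iff_add_eq_zero.mp h3.symm
  have hspan6 : resid z ≤ Submodule.span F (Set.range ![e₁, f₁, e₂, f₂, u, v]) := by
    refine H.resid_le_span fun x hx => ?_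
    rw [hzk]
    refine pow_apply_fixed ?_ k
    rw [orth_mul_apply i J, hJdef, dRefl_apply huv, show polar q u x = 0 by simpa using hx 4,
      show polar q v x = 0 by simpa using hx 5]
    simp only [mul_zero, zero_smul, sub_zero]
    exact hifix x (by simpa using hx 0) (by simpa using hx 1) (by simpa using hx 2) (by simpa using hx 3)
  have h6 : rk z ≤ 6 := by
    have := (Submodule.finrank_mono hspan6).trans (finrank_range_le_card _)
    rwa [Fintype.card_fin] at this
  have h2le := H.two_le_rk hzC hz1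
  have heven : Even (rk z) := by
    haveI : Finite (ι → F) := Pi.finite
    have hd := ((mem_commutator_iff H.nondeg (Or.inr (by have := H.finrank_V; omega))).mp hzC).1
    rcases Nat.even_or_odd (rk z) with h | h
    · exact h
    · rw [dick, h.neg_one_pow] at hd
      exact absurd hd (by decide)
  have hJinv : ∀ x ∈ Submodule.span F (Set.range s), (J : V ≃ₗ[F] V) x ∈ Submodule.span F (Set.range s) := by
    rw [hspan]; exact fun x hx => resid_invariant hzj hx
  refine ⟨z, i, k, s, hzz, hzj, hzk, hzi, hie, hifix, hs, hsli, hspan, hnd, fun h4 => ?_, ?_⟩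
  · exact H.subF_of_invariant hM hns h2 hr hj (by omega) (by omega) hs hsli hJinv
  obtain ⟨t, ht⟩ := heven
  by_cases h : rk z = 6
  swap
  · omega
  refine Or.inr (Or.inr ⟨h, ?_⟩)
  obtain ⟨l, w, hw, hwli, hwmem, hlk, hwnd⟩ := H.perp_basis hs hsli hnd
  have hl : 0 < l := by omega
  set w₀ := w ⟨0, hl⟩
  have hw6 : ∀ m, polar q (![e₁, f₁, e₂, f₂, u, v] m) w₀ = 0 := by
    have heq : resid z = Submodule.span F (Set.range ![e₁, f₁, e₂, f₂, u, v]) := by
      refine Submodule.eq_of_le_of_finrank_le hspan6 ?_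
      have := finrank_range_le_card (R := F) ![e₁, f₁, e₂, f₂, u, v]
      rw [Fintype.card_fin] at this
      exact le_trans this h.ge
    intro m
    refine perp_apply_span ((hwmem w₀).mp (Submodule.subset_span (Set.mem_range_self _))) ?_
    rw [hspan, heq]
    exact Submodule.subset_span (Set.mem_range_self m)
  refine ⟨w₀, hw _, fun hq0 => hwli.ne_zero ⟨0, hl⟩ ?_, ?_, hw6 0, hw6 1, hw6 2, hw6 3⟩
  · refine hwnd w₀ (Submodule.subset_span (Set.mem_range_self _)) fun m => ?_
    have hm : m = ⟨0, hl⟩ := Fin.ext (show (m : ℕ) = 0 by have := m.2; omega)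
    rw [hm, polar_self', hq0, mul_zero]
  · rw [hJdef, dRefl_apply huv, show polar q u w₀ = 0 from hw6 4, show polar q v w₀ = 0 from hw6 5]
    simp

/-- An involution of the overgroup fixing an anisotropic rational vector. -/
theorem OR.subF_of_fixed (hn : Fintype.card ι = 7) {u v : V} (hu : q u ≠ 0) (hvu : q v = q u)
    (huv : polar q u v = 0) (hj : dRefl q u v ∈ M) {w : V} (hw : IsRatVec F₀ w) (hw0 : q w ≠ 0)
    (hJw : (dRefl q u v : V ≃ₗ[F] V) w = w) : SubF F₀ (dRefl q u v) := by
  classical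
  set J := dRefl q u v with hJdef
  have hndw : ND q ![w] := fun x hx h => by
    simp only [Matrix.range_cons, Matrix.range_empty, Set.union_empty] at hx
    obtain ⟨t, rfl⟩ := Submodule.mem_span_singleton.mp hx
    have h1 : polar q w (t • w) = 0 := h 0
    rw [polar_smul_right, polar_self', smul_eq_mul, mul_eq_zero, mul_eq_zero] at h1
    rw [h1.resolve_right (by simp [h2, hw0]), zero_smul]
  obtain ⟨e₁, f', e₂, f₂, he₁, hf', he₂, hf₂, p', p₂, c1, c2, c3', c4', hperp⟩ :=
    H.exists_quad_nd hn (k := 1) (by norm_num) (s := ![w]) (fun l => by fin_cases l; exact hw) hndw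
  obtain ⟨we1, wf', we2, wf2⟩ : polar q w e₁ = 0 ∧ polar q w f' = 0 ∧ polar q w e₂ = 0 ∧ polar q w f₂ = 0 := by
    simpa using hperp 0
  -- tilt the first pair towards the fixed vector
  set d := (2 * q w)⁻¹ with hd
  set f₁ := f' + d • w + (-(d * d * q w)) • e₁ with hf₁def
  have hdF : d ∈ F₀ := inv_mem (mul_mem (ofNat_mem F₀ 2) (H.rat _ hw))
  have hf₁ : IsRatVec F₀ f₁ := isRat_add (isRat_add hf' (isRat_smul hdF hw))
    (isRat_smul (neg_mem (mul_mem (mul_mem hdF hdF) (H.rat _ hw))) he₁)
  have p₁ : HypPair q e₁ f₁ := by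
    refine ⟨p'.left, ?_, ?_⟩
    · rw [hf₁def, QuadraticMap.map_add (⇑q), QuadraticMap.map_add (⇑q), QuadraticMap.map_smul,
        QuadraticMap.map_smul, p'.right, p'.left, polar_smul_right, polar_smul_right, polar_comm q f' w, wf',
        polar_add_left, polar_smul_left, p'.symm.pair, we1]
      simp only [smul_eq_mul]
      ring
    · rw [hf₁def, polar_add_right, polar_add_right, polar_smul_right, polar_smul_right, p'.pair, polar_comm q e₁ w,
        we1, polar_self', p'.left]
      simp
  have c3 : polar q f₁ e₂ = 0 := by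
    rw [hf₁def, polar_add_left, polar_add_left, polar_smul_left, polar_smul_left, c3', we2, c1]; simp
  have c4 : polar q f₁ f₂ = 0 := by
    rw [hf₁def, polar_add_left, polar_add_left, polar_smul_left, polar_smul_left, c4', wf2, c2]; simp
  have hwf : polar q f₁ w = 1 := by
    rw [hf₁def, polar_add_left, polar_add_left, polar_smul_left, polar_smul_left, polar_comm q f' w, wf',
      polar_self', polar_comm q e₁ w, we1, hd]
    simp only [smul_eq_mul, mul_zero, add_zero, zero_add]
    rw [inv_mul_cancel₀ (mul_ne_zero h2 hw0)]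
  obtain ⟨z, i, k, s, hzz, hzj, hzk, hzi, hie, hifix, hs, hsli, hspan, hnd, h4, hcase⟩ :=
    H.exists_z_seven hM hns h2 hr hn he₁ hf₁ he₂ hf₂ p₁ p₂ c1 c2 c3 c4 hu hvu huv hj
  have hew : polar q e₁ w = 0 := by rw [polar_comm, we1]
  rcases hcase with hk2 | hk4 | ⟨hk6, w', hw', hw'0, hJw', -, w'f, -, -⟩
  · -- the line of the fixed vector and the plane
    have hin : w ∉ resid z := fun hmem => by
      have hzw := neg_of_mem_resid hzz hmem
      have him : (i : V ≃ₗ[F] V) (w - e₁) = w - e₁ := hifix _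
        (by rw [polar_sub_right, hew, polar_self', p₁.left]; simp)
        (by rw [polar_sub_right, hwf, p₁.symm.pair, sub_self])
        (by rw [polar_sub_right, polar_comm q e₂ w, we2, polar_comm q e₂ e₁, c1, sub_zero])
        (by rw [polar_sub_right, polar_comm q f₂ w, wf2, polar_comm q f₂ e₁, c2, sub_zero])
      have hiw : (i : V ≃ₗ[F] V) w = w - (2 : F) • e₁ := by
        rw [map_sub, hie, sub_neg_eq_add] at him
        rw [eq_sub_of_add_eq him]
        module
      have he_mem : e₁ ∈ resid z := by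
        have h3 := sub_mem hmem (resid_invariant hzi hmem)
        rw [hiw, show w - (w - (2 : F) • e₁) = (2 : F) • e₁ by abel] at h3
        simpa [smul_smul, inv_mul_cancel₀ h2] using (resid z).smul_mem (2 : F)⁻¹ h3
      have hpair : resid z = Submodule.span F (Set.range ![e₁, w]) := by
        refine (Submodule.eq_of_le_of_finrank_le (Submodule.span_le.mpr ?_) ?_).symm
        · rintro _ ⟨l, rfl⟩; fin_cases l; exacts [he_mem, hmem]
        · have hli2 : LinearIndependent F ![e₁, w] := by
            rw [LinearIndependent.pair_iff]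
            intro a b hab
            have hb : b = 0 := by
              have := congrArg (fun x => polar q w x) hab
              simpa [polar_add_right, polar_smul_right, we1, polar_self', h2, hw0] using this
            rw [hb, zero_smul, add_zero] at hab
            exact ⟨(smul_eq_zero.mp hab).resolve_right p₁.ne_zero, hb⟩
          rw [finrank_span_eq_card hli2, Fintype.card_fin]
          exact hk2.le
      refine p₁.ne_zero (hnd e₁ (hspan ▸ he_mem) fun l => ?_)
      have hl : s l ∈ Submodule.span F (Set.range s) := Submodule.subset_span (Set.mem_range_self l)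
      rw [hspan, hpair] at hl
      refine perp_apply_span (s := ![e₁, w]) (fun m => ?_) hl
      fin_cases m
      · change polar q e₁ e₁ = 0
        rw [polar_self', p₁.left, mul_zero]
      · exact we1
    refine H.subF_of_join hM hns h2 hr hj (s := ![w]) (t := s) (fun l => by fin_cases l; exact hw) hs ?_ ?_ ?_ ?_
    · intro x hx
      simp only [Matrix.range_cons, Matrix.range_empty, Set.union_empty] at hx ⊢
      obtain ⟨t, rfl⟩ := Submodule.mem_span_singleton.mp hx
      rw [map_smul, hJw]; exact Submodule.smul_mem _ _ (Submodule.subset_span rfl)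
    · rw [hspan]; exact fun x hx => resid_invariant hzj hx
    all_goals
      rw [hspan, show Set.range ![w] = {w} by simp]
      have hdis : Submodule.span F {w} ⊓ resid z = ⊥ := (Submodule.eq_bot_iff _).mpr fun y hy => by
        obtain ⟨t, rfl⟩ := Submodule.mem_span_singleton.mp hy.1
        by_contra h0
        have ht : t ≠ 0 := fun h => h0 (by rw [h, zero_smul])
        exact hin (by simpa [smul_smul, inv_mul_cancel₀ ht] using (resid z).smul_mem t⁻¹ hy.2)
      have h5 := Submodule.finrank_sup_add_finrank_inf_eq (Submodule.span F {w}) (resid z)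
      rw [hdis, finrank_bot, finrank_span_singleton (fun h0 => hw0 (by rw [h0, map_zero]))] at h5
      unfold rk at hk2
      omega
  · exact h4 hk4
  -- a second fixed vector
  set P : Fin 2 → V := ![w, w'] with hP
  have hPr : ∀ l, IsRatVec F₀ (P l) := fun l => by fin_cases l <;> assumption
  have hJP : ∀ x ∈ Submodule.span F (Set.range P), (J : V ≃ₗ[F] V) x = x := fun x hx => by
    obtain ⟨c, rfl⟩ := (Submodule.mem_span_range_iff_exists_fun F).mp hx
    rw [map_sum]
    refine Finset.sum_congr rfl fun l _ => ?_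
    rw [map_smul]
    congr 1
    fin_cases l
    exacts [hJw, hJw']
  by_cases hPnd : ND q P
  swap
  · obtain ⟨x, hxS, hxs, hx0⟩ : ∃ x ∈ Submodule.span F (Set.range P), (∀ l, polar q (P l) x = 0) ∧ x ≠ 0 := by
      simp only [ND] at hPnd; push Not at hPnd; exact hPnd
    obtain ⟨φ, hφ⟩ := exists_part_notMem (F₀ := F₀) (W := (⊥ : Submodule F V)) (x := x)
      (fun h => hx0 ((Submodule.mem_bot F).mp h))
    have haS := part_mem_span φ hPr hxS
    have haa : q (part φ x) = 0 := by
      have h := perp_apply_span (H.part_perp φ hPr hxs) haS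
      rw [polar_self'] at h
      exact (mul_eq_zero.mp h).resolve_left h2
    exact (H.ratMap_of_fix hM hns hj (part_rat φ x) (fun h => hφ (by rw [h]; exact zero_mem _)) haa
      (hJP _ haS)).subF
  obtain ⟨a₁, b₁, a₂, b₂, ha₁, hb₁, ha₂, hb₂, r₁, r₂, d1, d2, d3, d4, hPperp⟩ :=
    H.exists_quad_nd hn le_rfl hPr hPnd
  obtain ⟨y, i', m, t, hyy, hyj, hym, -, -, hi'fix, ht, htli, htspan, -, hy4, hycase⟩ :=
    H.exists_z_seven hM hns h2 hr hn ha₁ hb₁ ha₂ hb₂ r₁ r₂ d1 d2 d3 d4 hu hvu huv hj
  have hyP : ∀ x ∈ Submodule.span F (Set.range P), (y : V ≃ₗ[F] V) x = x := fun x hx => by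
    rw [hym]
    refine pow_apply_fixed ?_ m
    rw [orth_mul_apply i' J, hJP x hx]
    refine hi'fix x ?_ ?_ ?_ ?_ <;> rw [polar_comm]
    exacts [perp_apply_span (fun l => (hPperp l).1) hx, perp_apply_span (fun l => (hPperp l).2.1) hx,
      perp_apply_span (fun l => (hPperp l).2.2.1) hx, perp_apply_span (fun l => (hPperp l).2.2.2) hx]
  have hPli : LinearIndependent F P := by
    rw [hP, LinearIndependent.pair_iff]
    intro a b hab
    have ha : a = 0 := by
      have := congrArg (fun x => polar q f₁ x) hab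
      simpa [polar_add_right, polar_smul_right, hwf, w'f] using this
    rw [ha, zero_smul, zero_add] at hab
    exact ⟨ha, (smul_eq_zero.mp hab).resolve_right fun h0 => hw'0 (by rw [h0, map_zero])⟩
  have hPy : Submodule.span F (Set.range P) ⊓ resid y = ⊥ := (Submodule.eq_bot_iff _).mpr fun x hx => by
    have h1 := neg_of_mem_resid hyy hx.2
    rw [hyP x hx.1] at h1
    refine (smul_eq_zero.mp (show (2 : F) • x = 0 from ?_)).resolve_left h2
    rw [two_smul]
    exact eq_neg_iff_add_eq_zero.mp h1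
  have h5 := Submodule.finrank_sup_add_finrank_inf_eq (Submodule.span F (Set.range P)) (resid y)
  rw [hPy, finrank_bot, finrank_span_eq_card hPli, Fintype.card_fin] at h5
  have h7 := Submodule.finrank_le (Submodule.span F (Set.range P) ⊔ resid y)
  rw [Module.finrank_pi, hn] at h7
  unfold rk at hycase
  rcases hycase with hy2 | hy4' | ⟨hy6, -⟩
  · refine H.subF_of_join hM hns h2 hr hj hPr ht (fun x hx => by rw [hJP x hx]; exact hx)
      (by rw [htspan]; exact fun x hx => resid_invariant hyj hx) ?_ ?_ <;> rw [htspan] <;> omega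
  · exact hy4 hy4'
  · omega

/-- An involution of the overgroup with a two-dimensional negated space is rational. -/
theorem OR.dRefl_rat_seven (hn : Fintype.card ι = 7) {u v : V} (hu : q u ≠ 0) (hvu : q v = q u)
    (huv : polar q u v = 0) (hj : dRefl q u v ∈ M) : RatMap F₀ (dRefl q u v) := by
  classical
  refine H.ratMap_of_invol hr ?_ (dRefl_sq huv)
  obtain ⟨e₁, f₁, e₂, f₂, he₁, hf₁, he₂, hf₂, p₁, p₂, c1, c2, c3, c4, -⟩ :=
    H.exists_quad_nd hn (Nat.zero_le 2) (s := (Fin.elim0 : Fin 0 → V)) (fun l => l.elim0)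
      (fun x hx _ => by simpa [Set.range_eq_empty] using hx)
  obtain ⟨z, i, k, s, hzz, hzj, hzk, -, -, -, hs, hsli, hspan, hnd, h4, hcase⟩ :=
    H.exists_z_seven hM hns h2 hr hn he₁ hf₁ he₂ hf₂ p₁ p₂ c1 c2 c3 c4 hu hvu huv hj
  rcases hcase with hk2 | hk4 | ⟨-, w, hw, hw0, hJw, -⟩
  rotate_left
  · exact h4 hk4
  · exact H.subF_of_fixed hM hns h2 hr hn hu hvu huv hj hw hw0 hJw
  obtain ⟨g₁, g₂, g₃, g₄, hg₁, hg₂, hg₃, hg₄, r₁, r₂, d1, d2, d3, d4, hperp⟩ :=
    H.exists_quad_nd hn hk2.le hs hnd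
  obtain ⟨y, i', m, t, hyy, hyj, hym, -, -, hi'fix, ht, htli, htspan, -, hy4, hycase⟩ :=
    H.exists_z_seven hM hns h2 hr hn hg₁ hg₂ hg₃ hg₄ r₁ r₂ d1 d2 d3 d4 hu hvu huv hj
  rcases hycase with hy2 | hy4' | ⟨-, w, hw, hw0, hJw, -⟩
  rotate_left
  · exact hy4 hy4'
  · exact H.subF_of_fixed hM hns h2 hr hn hu hvu huv hj hw hw0 hJw
  set J := dRefl q u v with hJ
  unfold rk at hk2 hy2
  by_cases hzy : resid z = resid y
  swap
  · refine H.subF_of_join hM hns h2 hr hj hs ht (by rw [hspan]; exact fun x hx => resid_invariant hzj hx)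
      (by rw [htspan]; exact fun x hx => resid_invariant hyj hx) ?_ ?_ <;> rw [hspan, htspan]
    · by_contra hc
      refine hzy ?_
      have e1 : resid z = resid z ⊔ resid y := Submodule.eq_of_le_of_finrank_le le_sup_left (by omega)
      have e2 : resid y = resid z ⊔ resid y := Submodule.eq_of_le_of_finrank_le le_sup_right (by omega)
      exact e1.trans e2.symm
    · have := Submodule.finrank_add_le_finrank_add_finrank (resid z) (resid y)
      omega
  have hi'pi : ∀ x ∈ resid z, (i' : V ≃ₗ[F] V) x = x := fun x hx => by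
    rw [← hspan] at hx
    refine hi'fix x ?_ ?_ ?_ ?_ <;> rw [polar_comm]
    exacts [perp_apply_span (fun l => (hperp l).1) hx, perp_apply_span (fun l => (hperp l).2.1) hx,
      perp_apply_span (fun l => (hperp l).2.2.1) hx, perp_apply_span (fun l => (hperp l).2.2.2) hx]
  have hpow : ∀ (n : ℕ) (x : V), x ∈ resid z →
      (((i' * J) ^ n : orth q) : V ≃ₗ[F] V) x = ((J ^ n : orth q) : V ≃ₗ[F] V) x := by
    intro n
    induction n with
    | zero => intro x _; simp
    | succ n ih =>
      intro x hx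
      rw [pow_succ, pow_succ, orth_mul_apply _ (i' * J), orth_mul_apply i' J,
        hi'pi _ (resid_invariant hzj hx), orth_mul_apply _ J]
      exact ih _ (resid_invariant hzj hx)
  have hneg : ∀ x ∈ resid z, (J : V ≃ₗ[F] V) x = -x := by
    intro x hx
    have h1 : (y : V ≃ₗ[F] V) x = -x := neg_of_mem_resid hyy (hzy ▸ hx)
    rw [hym, hpow m x hx] at h1
    rcases Nat.even_or_odd' m with ⟨l, rfl | rfl⟩
    · rw [pow_mul, pow_two, dRefl_sq huv, one_pow] at h1
      have h3 : (2 : F) • x = 0 := by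
        rw [two_smul]
        exact eq_neg_iff_add_eq_zero.mp h1
      rw [(smul_eq_zero.mp h3).resolve_left h2]; simp
    · rw [pow_succ, pow_mul, pow_two, dRefl_sq huv, one_pow, one_mul] at h1
      exact h1
  have hJmem : ∀ x, dLin J x ∈ Submodule.span F (Set.range ![u, v]) := fun x => by
    rw [dLin_apply, hJ, dRefl_apply huv, show ∀ a b : F, x - a • u - b • v - x = (-a) • u + (-b) • v from
      fun a b => by module]
    exact add_mem (Submodule.smul_mem _ _ (Submodule.subset_span ⟨0, rfl⟩))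
      (Submodule.smul_mem _ _ (Submodule.subset_span ⟨1, rfl⟩))
  have hP : resid z = Submodule.span F (Set.range ![u, v]) := by
    refine Submodule.eq_of_le_of_finrank_le (fun x hx => ?_) ?_
    · have h := Submodule.smul_mem _ (-2 : F)⁻¹ (hJmem x)
      rwa [dLin_apply, hneg x hx, show -x - x = (-2 : F) • x by module, smul_smul,
        inv_mul_cancel₀ (neg_ne_zero.mpr h2), one_smul] at h
    · have := finrank_range_le_card (R := F) ![u, v]
      rw [Fintype.card_fin] at this
      exact le_trans this hk2.ge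
  refine (H.ratMap_of_fix hM hns hj hg₁ r₁.ne_zero r₁.left ?_).subF
  have hg : ∀ w ∈ Submodule.span F (Set.range ![u, v]), polar q w g₁ = 0 := by
    rw [← hP, ← hspan]; exact fun w hw => perp_apply_span (fun l => (hperp l).1) hw
  rw [hJ, dRefl_apply huv, hg u (Submodule.subset_span ⟨0, rfl⟩), hg v (Submodule.subset_span ⟨1, rfl⟩)]
  simp

/-- Dimension seven, odd degree. -/
theorem OR.subF_odd_seven (hn : Fintype.card ι = 7) {g : orth q} (hg : g ∈ M) : SubF F₀ g := by
  classical
  obtain ⟨e₁, f₁, e₂, f₂, he₁, hf₁, he₂, hf₂, p₁, p₂, c1, c2, c3, c4, -⟩ :=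
    H.exists_quad (by omega) (Fin.elim0 : Fin 0 → V) (fun l => l.elim0)
  set Y : V ≃ₗ[F] V := (g : V ≃ₗ[F] V) with hY
  -- rational involutions with negated planes inside the image of the pairs
  have key : ∀ a b : V, IsRatVec F₀ a → IsRatVec F₀ b → q a ≠ 0 → q b = q a → polar q a b = 0 →
      ∃ s : Fin (rk (dRefl q (Y a) (Y b))) → V, (∀ l, IsRatVec F₀ (s l)) ∧
        rk (dRefl q (Y a) (Y b)) ≤ 2 ∧ Y a ∈ Submodule.span F (Set.range s) ∧
        Y b ∈ Submodule.span F (Set.range s) ∧
        ∀ w ∈ Submodule.span F (Set.range s), w ∈ Submodule.span F (Set.range ![Y a, Y b]) := by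
    intro a b ha hb hqa hqb hab
    have hab' : polar q (Y a) (Y b) = 0 := by rw [hY, orth_polar, hab]
    have hj := H.dRefl_rat_seven hM hns h2 hr hn (u := Y a) (v := Y b) (by rwa [hY, orth_map])
      (by rw [hY, orth_map, orth_map, hqb]) hab' (by
        rw [hY, ← conj_dRefl]
        exact mul_mem (mul_mem hg (hM _ (H.dRefl_mem_comm hqa hqb) ((H.ratMap_refl ha).mul (H.ratMap_refl hb))))
          (inv_mem hg))
    obtain ⟨s, hs, -, hspan⟩ := exists_resid_basis (F₀ := F₀) hj
    have hle : resid (dRefl q (Y a) (Y b)) ≤ Submodule.span F (Set.range ![Y a, Y b]) :=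
      H.resid_le_span fun x hx => by
        rw [dRefl_apply hab', show polar q (Y a) x = 0 from hx 0, show polar q (Y b) x = 0 from hx 1]
        simp
    have hqY : ∀ c, q (Y c) = q c := fun c => by rw [hY, orth_map]
    have hself : Y a ∈ resid (dRefl q (Y a) (Y b)) ∧ Y b ∈ resid (dRefl q (Y a) (Y b)) := by
      constructor
      · refine ⟨(-2 : F)⁻¹ • Y a, ?_⟩
        rw [map_smul, dLin_apply, dRefl_apply hab', polar_comm q (Y b) (Y a), hab', polar_self', hqY,
          show (q a)⁻¹ * (2 * q a) = 2 by field_simp]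
        simp only [mul_zero, zero_smul, sub_zero]
        match_scalars
        field_simp
        ring
      · refine ⟨(-2 : F)⁻¹ • Y b, ?_⟩
        rw [map_smul, dLin_apply, dRefl_apply hab', hab', polar_self', hqY, hqY, hqb,
          show (q a)⁻¹ * (2 * q a) = 2 by field_simp]
        simp only [mul_zero, zero_smul, sub_zero]
        match_scalars
        field_simp
        ring
    refine ⟨s, hs, ?_, hspan ▸ hself.1, hspan ▸ hself.2, fun w hw => hle (hspan ▸ hw)⟩
    exact (Submodule.finrank_mono hle).trans ((finrank_range_le_card _).trans (Fintype.card_fin 2).le)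
  have u1 : q (e₁ + f₁) = 1 := by rw [QuadraticMap.map_add (⇑q), p₁.left, p₁.right, p₁.pair]; ring
  have u2 : q (e₂ + f₂) = 1 := by rw [QuadraticMap.map_add (⇑q), p₂.left, p₂.right, p₂.pair]; ring
  have v1 : q (e₁ - f₁) = -1 := by rw [Cfsg.Agent.H5.map_sub', p₁.left, p₁.right, p₁.pair]; ring
  have v2 : q (e₂ - f₂) = -1 := by rw [Cfsg.Agent.H5.map_sub', p₂.left, p₂.right, p₂.pair]; ring
  have o1 : polar q (e₁ + f₁) (e₂ + f₂) = 0 := by simp [polar_add_left, polar_add_right, c1, c2, c3, c4]
  have o2 : polar q (e₁ - f₁) (e₂ - f₂) = 0 := by simp [polar_sub_left, polar_sub_right, c1, c2, c3, c4]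
  obtain ⟨s, hs, hsk, a1, b1, -⟩ :=
    key _ _ (isRat_add he₁ hf₁) (isRat_add he₂ hf₂) (by rw [u1]; exact one_ne_zero) (by rw [u1, u2]) o1
  obtain ⟨t, ht, htk, a2, b2, -⟩ :=
    key _ _ (isRat_sub he₁ hf₁) (isRat_sub he₂ hf₂) (by rw [v1]; simp) (by rw [v1, v2]) o2
  obtain ⟨x, hx, hxx, hx0, hxs, -⟩ := H.exists_sing (Fin.append s t)
    (fun l => Fin.addCases (fun l => by simpa using hs l) (fun l => by simpa using ht l) l)
    (Fin.elim0 : Fin 0 → V) (fun l => l.elim0) (by omega)
  have hS : ∀ w ∈ Submodule.span F (Set.range s), polar q x w = 0 := fun w hw => by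
    rw [polar_comm]
    exact perp_apply_span (fun l => by simpa using hxs (Fin.castAdd _ l)) hw
  have hT : ∀ w ∈ Submodule.span F (Set.range t), polar q x w = 0 := fun w hw => by
    rw [polar_comm]
    exact perp_apply_span (fun l => by simpa using hxs (Fin.natAdd _ l)) hw
  have half : ∀ c d : V, Y c = (2 : F)⁻¹ • (Y (c + d) + Y (c - d)) := fun c d => by
    rw [← map_add, show c + d + (c - d) = (2 : F) • c by module, map_smul, smul_smul, inv_mul_cancel₀ h2, one_smul]
  refine H.criterion hM hns hg he₁ he₂ p₁.left p₂.left c1 p₁.ne_zero (fun hm => ?_) hx hx0 hxx ?_ ?_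
  · obtain ⟨l, hl⟩ := Submodule.mem_span_singleton.mp hm
    rw [← hl, polar_smul_right, p₁.symm.pair, smul_eq_mul, mul_one] at c3
    exact p₂.ne_zero (by rw [← hl, c3, zero_smul])
  all_goals rw [← hY]
  · rw [half e₁ f₁, polar_smul_right, polar_add_right, hS _ a1, hT _ a2]; simp
  · rw [half e₂ f₂, polar_smul_right, polar_add_right, hS _ b1, hT _ b2]; simp

omit hr in
/-- Dimension seven: without new scalars every element is rational up to a scalar. -/
theorem OR.subF_of_noNew_seven (hn : Fintype.card ι = 7) {g : orth q} (hg : g ∈ M) : SubF F₀ g := by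
  by_cases hsmall : 2 * r + 3 ≤ Fintype.card ι
  · exact H.subF_of_small hM hns hsmall hg
  exact H.subF_odd_seven hM hns h2 (H.prime.odd_of_ne_two (by omega)) hn hg

end Cfsg.Agent.H98.OSub
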