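import Cfsg.Agent.H5.OmegaGL
import Cfsg.Agent.H98.SingPair
import Cfsg.Agent.H98.QuadFun

set_option autoImplicit false
set_option linter.unusedSectionVars false

/-!
A quadratic field structure on an orthogonal space (unitary groups inside orthogonal ones): the normaliser is maximal.
-/

namespace Cfsg.Agent.H98.OU

open Cfsg.Agent.H5 QuadraticMap

variable {F V : Type*} [Field F] [AddCommGroup V] [Module F V] [FiniteDimensional F V] [Finite F] [Finite V]

/-- A linear map generating a quadratic field whose elements rescale the form. -/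
structure US (q : QuadraticForm F V) (J : V →ₗ[F] V) (c d : F) : Prop where
  nondeg : (polarBilin q).Nondegenerate
  big : 10 ≤ Module.finrank F V
  scale : ∀ v, q (J v) = c * q v
  self : ∀ v, polar q v (J v) = d * q v
  free : ∀ (a : F) (v : V), J v = a • v → v = 0

variable {q : QuadraticForm F V} {J : V →ₗ[F] V} {c d : F}

/-- An isometry normalises the field. -/
def Norm (J : V →ₗ[F] V) (g : orth q) : Prop :=
  ∃ a b : F, ∀ v, (g : V ≃ₗ[F] V) (J v) = a • (g : V ≃ₗ[F] V) v + b • J ((g : V ≃ₗ[F] V) v)

/-- The line over the field of a vector. -/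
abbrev kspan (J : V →ₗ[F] V) (u : V) : Submodule F V := Submodule.span F ({u, J u} : Set V)

theorem mem_kspan_self (u : V) : u ∈ kspan J u := Submodule.subset_span (by simp)

theorem mem_kspan_apply (u : V) : J u ∈ kspan J u := Submodule.subset_span (by simp)

variable (H : US q J c d)
include H

theorem US.adj (v w : V) : polar q (J v) w + polar q v (J w) = d * polar q v w := by
  have e := H.self (v + w)
  simp only [map_add, polar_add_left, polar_add_right, QuadraticMap.map_add (⇑q) v w, H.self] at e
  linear_combination e + polar_comm q (J v) w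

theorem US.polar_scale (v w : V) : polar q (J v) (J w) = c * polar q v w := by
  simp only [polar, ← map_add, H.scale]; ring

theorem US.sq (v : V) : J (J v) = d • J v - c • v := by
  rw [← sub_eq_zero]
  refine H.nondeg.2 _ fun w => ?_
  change polar q w _ = 0
  rw [polar_sub_right, polar_sub_right, polar_smul_right, polar_smul_right]
  linear_combination H.adj w (J v) - H.polar_scale w v

theorem US.n_ne (k : F) : k * k - d * k + c ≠ 0 := by
  intro h0
  haveI : Nontrivial V := Module.nontrivial_of_finrank_pos (R := F) (by have := H.big; omega)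
  obtain ⟨v, hv⟩ := exists_ne (0 : V)
  refine hv (H.free k v ?_)
  rw [← sub_eq_zero]
  refine H.free (d - k) _ ?_
  rw [map_sub, map_smul, H.sq]
  match_scalars
  · ring
  · linear_combination -h0

theorem US.c_ne : c ≠ 0 := by simpa using H.n_ne 0

theorem US.norm_sing {w : V} (hw : q w = 0) : q (J w) = 0 ∧ polar q w (J w) = 0 :=
  ⟨by rw [H.scale, hw, mul_zero], by rw [H.self, hw, mul_zero]⟩

/-- Independence over the field from a stable subspace. -/
theorem US.closure {W : Submodule F V} (hW : ∀ w ∈ W, J w ∈ W) {x : V} (hx : x ∉ W) {α β : F}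
    (h : α • x + β • J x ∈ W) : α = 0 ∧ β = 0 := by
  rcases eq_or_ne β 0 with rfl | hβ
  · rw [zero_smul, add_zero] at h
    exact ⟨by_contra fun hα => hx ((W.smul_mem_iff hα).mp h), rfl⟩
  exfalso
  set k : F := -(α / β) with hk
  have h1 : J x - k • x ∈ W := by
    have := W.smul_mem β⁻¹ h
    rw [smul_add, smul_smul, smul_smul, inv_mul_cancel₀ hβ, one_smul] at this
    convert this using 1
    rw [hk, div_eq_inv_mul]; module
  have h2 := W.sub_mem (W.smul_mem (d - k) h1) (hW _ h1)
  have e : (d - k) • (J x - k • x) - J (J x - k • x) = (k * k - d * k + c) • x := by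
    rw [map_sub, map_smul, H.sq]; module
  rw [e] at h2
  exact hx ((W.smul_mem_iff (H.n_ne k)).mp h2)

theorem US.kspan_stable (u : V) : ∀ w ∈ kspan J u, J w ∈ kspan J u := by
  intro w hw
  obtain ⟨a, b, rfl⟩ := Submodule.mem_span_pair.mp hw
  rw [map_add, map_smul, map_smul, H.sq]
  exact add_mem (Submodule.smul_mem _ _ (mem_kspan_apply u)) (Submodule.smul_mem _ _
    (sub_mem (Submodule.smul_mem _ _ (mem_kspan_apply u)) (Submodule.smul_mem _ _ (mem_kspan_self u))))

theorem US.sup_stable (u v : V) : ∀ w ∈ kspan J u ⊔ kspan J v, J w ∈ kspan J u ⊔ kspan J v := by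
  intro w hw
  obtain ⟨a, ha, b, hb, rfl⟩ := Submodule.mem_sup.mp hw
  rw [map_add]
  exact add_mem (Submodule.mem_sup_left (H.kspan_stable u a ha)) (Submodule.mem_sup_right (H.kspan_stable v b hb))

theorem US.not_symm {u z : V} (hu0 : u ≠ 0) (h : z ∉ kspan J u) : u ∉ kspan J z := by
  intro hu
  obtain ⟨a, b, e⟩ := Submodule.mem_span_pair.mp hu
  obtain ⟨rfl, rfl⟩ := H.closure (H.kspan_stable u) h (by rw [e]; exact mem_kspan_self u)
  exact hu0 (by rw [← e]; simp)

omit H in
theorem finrank_kspan_le (u : V) : Module.finrank F (kspan J u) ≤ 2 := by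
  classical
  have h4 := finrank_span_finset_le_card (R := F) ({u, J u} : Finset V)
  rw [Finset.coe_insert, Finset.coe_singleton] at h4
  exact le_trans h4 (Finset.card_le_two (a := u) (b := J u))

omit H in
theorem finrank_sup_kspan_le (u v : V) : Module.finrank F (kspan J u ⊔ kspan J v : Submodule F V) ≤ 4 := by
  have := Submodule.finrank_add_le_finrank_add_finrank (kspan J u) (kspan J v)
  have := finrank_kspan_le (J := J) u
  have := finrank_kspan_le (J := J) v
  omega

/-- A singular vector orthogonal to and outside a small subspace. -/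
theorem US.exists_sing' (S : Submodule F V)
    (hS : Module.finrank F S + Module.finrank F (S ⊓ perp q S : Submodule F V) + 3 ≤ Module.finrank F V) :
    ∃ x, q x = 0 ∧ x ∈ perp q S ∧ x ∉ S := by
  set U := perp q S
  have h1 := finrank_perp_add H.nondeg S
  obtain ⟨C, hC⟩ := Submodule.exists_isCompl ((S ⊓ U).comap U.subtype)
  have h2 := Submodule.finrank_add_eq_of_isCompl hC
  rw [(Submodule.comapSubtypeEquivOfLe (inf_le_right : S ⊓ U ≤ U)).finrank_eq] at h2
  change _ + Module.finrank F (S ⊓ U : Submodule F V) + 3 ≤ _ at hS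
  have h4 : 3 ≤ Module.finrank F C := by
    change Module.finrank F U + _ = _ at h1
    omega
  set Q₁ : QuadraticForm F C := q.comp (U.subtype.comp C.subtype)
  obtain ⟨x, hx0, hx⟩ := H4.exists_singular_of_three_le Q₁ h4
  exact ⟨((x : U) : V), hx, (x : U).2, fun hm => hx0 (Subtype.ext
    (Submodule.disjoint_def.mp hC.disjoint (x : U) ⟨hm, (x : U).2⟩ x.2))⟩

/-- A singular vector orthogonal to and outside a small subspace. -/
theorem US.exists_sing (S : Submodule F V) (hS : 2 * Module.finrank F S + 3 ≤ Module.finrank F V) :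
    ∃ x, q x = 0 ∧ x ∈ perp q S ∧ x ∉ S :=
  H.exists_sing' S (by have := Submodule.finrank_mono (inf_le_left : S ⊓ perp q S ≤ S); omega)

/-- A vector with product one with a vector and zero with a subspace. -/
theorem US.exists_dual {S : Submodule F V} {x : V} (hx : x ∉ S) :
    ∃ y, polar q y x = 1 ∧ ∀ s ∈ S, polar q y s = 0 := by
  obtain ⟨φ, h1, h2⟩ := Submodule.exists_dual_map_eq_bot_of_notMem hx inferInstance
  have hinj : Function.Injective (polarBilin q) :=
    LinearMap.ker_eq_bot.mp (LinearMap.separatingLeft_iff_ker_eq_bot.mp H.nondeg.1)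
  obtain ⟨y, hy⟩ :=
    (LinearMap.injective_iff_surjective_of_finrank_eq_finrank Subspace.dual_finrank_eq.symm).mp hinj ((φ x)⁻¹ • φ)
  refine ⟨y, ?_, fun s hs => ?_⟩
  · rw [← polarBilin_apply_apply, hy, LinearMap.smul_apply, smul_eq_mul, inv_mul_cancel₀ h1]
  · have h3 : φ s = 0 := (Submodule.mem_bot F).mp (h2 ▸ Submodule.mem_map_of_mem hs)
    rw [← polarBilin_apply_apply, hy, LinearMap.smul_apply, h3, smul_zero]

/-- A singular vector with the same products with a small subspace as a given one, outside that subspace. -/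
theorem US.exists_shift' (S : Submodule F V)
    (hS : Module.finrank F S + Module.finrank F (S ⊓ perp q S : Submodule F V) + 3 ≤ Module.finrank F V) (z₀ : V) :
    ∃ z, q z = 0 ∧ z ∉ S ∧ ∀ s ∈ S, polar q z s = polar q z₀ s := by
  obtain ⟨e, hee, heS, hen⟩ := H.exists_sing' S hS
  obtain ⟨y, hy1, hyS⟩ := H.exists_dual hen
  have hpair := hypPair_of_polar hee (show polar q e y = 1 by rw [polar_comm]; exact hy1)
  set f := y + (-q y) • e
  have hfS : ∀ s ∈ S, polar q f s = 0 := fun s hs => by
    rw [polar_add_left, polar_smul_left, hyS s hs, polar_comm q e s, show polar q s e = 0 from heS s hs, smul_zero, add_zero]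
  set w := z₀ - polar q f z₀ • e - polar q e z₀ • f
  have hw : w ∈ pperp q e f := hpair.decomp z₀
  obtain ⟨hz, -, hfz⟩ := hpair.singular_lift hw
  refine ⟨_, hz, fun hm => ?_, fun s hs => ?_⟩
  · exact zero_ne_one ((hfS _ hm).symm.trans hfz)
  · simp only [w, polar_add_left, polar_sub_left, polar_smul_left, hfS s hs,
      show polar q e s = 0 by rw [polar_comm]; exact heS s hs]
    simp

/-- A singular vector with the same products with a small subspace as a given one, outside that subspace. -/
theorem US.exists_shift (S : Submodule F V) (hS : 2 * Module.finrank F S + 3 ≤ Module.finrank F V) (z₀ : V) :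
    ∃ z, q z = 0 ∧ z ∉ S ∧ ∀ s ∈ S, polar q z s = polar q z₀ s :=
  H.exists_shift' S (by have := Submodule.finrank_mono (inf_le_left : S ⊓ perp q S ≤ S); omega) z₀

/-- Two lines over the field with a large radical are totally isotropic. -/
theorem US.four_cases (S : Submodule F V) (h4 : Module.finrank F S ≤ 4) :
    Module.finrank F S + Module.finrank F (S ⊓ perp q S : Submodule F V) + 3 ≤ Module.finrank F V ∨
      (Module.finrank F S = 4 ∧ S ≤ perp q S) := by
  have hn := H.big
  have h1 := Submodule.finrank_mono (inf_le_left : S ⊓ perp q S ≤ S)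
  rcases Nat.lt_or_ge (Module.finrank F (S ⊓ perp q S : Submodule F V)) 4 with h | h
  · exact Or.inl (by omega)
  · exact Or.inr ⟨by omega, inf_eq_left.mp (Submodule.eq_of_le_of_finrank_le inf_le_left (by omega))⟩

/-- A vector orthogonal to itself and its image is singular. -/
theorem US.sing_of_ortho {a : V} (h1 : polar q a a = 0) (h2 : polar q a (J a) = 0) : q a = 0 := by
  rw [polar_self'] at h1
  rw [H.self] at h2
  by_contra hq
  have hd : d = 0 := (mul_eq_zero.mp h2).resolve_right hq
  have h20 : (2 : F) = 0 := (mul_eq_zero.mp h1).resolve_right hq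
  obtain ⟨k, hk⟩ := H4.exists_sq_eq (F := F) h20 c
  exact H.n_ne k (by rw [hd]; linear_combination hk + c * h20)

/-- Two lines over the field of singular vectors have a common orthogonal singular vector off both. -/
theorem US.exists_common {u z : V} (hu : q u = 0) (hu0 : u ≠ 0) (hz : q z = 0) :
    ∃ x, q x = 0 ∧ x ∈ perp q (kspan J u ⊔ kspan J z) ∧ x ∉ kspan J u ∧ x ∉ kspan J z := by
  rcases H.four_cases _ (finrank_sup_kspan_le (J := J) u z) with h | ⟨h, hts⟩
  · obtain ⟨x, hxx, hx, hxn⟩ := H.exists_sing' _ h
    exact ⟨x, hxx, hx, fun h => hxn (Submodule.mem_sup_left h), fun h => hxn (Submodule.mem_sup_right h)⟩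
  · have huS : u ∈ kspan J u ⊔ kspan J z := Submodule.mem_sup_left (mem_kspan_self u)
    have hzS : z ∈ kspan J u ⊔ kspan J z := Submodule.mem_sup_right (mem_kspan_self z)
    have hzn : z ∉ kspan J u := fun hm => by
      have hle : kspan J z ≤ kspan J u := Submodule.span_le.mpr (by
        rintro w (rfl | rfl)
        exacts [hm, H.kspan_stable u z hm])
      have := finrank_kspan_le (J := J) u
      rw [sup_eq_left.mpr hle] at h
      omega
    refine ⟨u + z, ?_, add_mem (hts huS) (hts hzS), fun hm => ?_, fun hm => ?_⟩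
    · rw [QuadraticMap.map_add (⇑q), hu, hz, show polar q u z = 0 from hts hzS u huS, add_zero, add_zero]
    · have := (kspan J u).sub_mem hm (mem_kspan_self u)
      rw [add_sub_cancel_left] at this
      exact hzn this
    · have := (kspan J z).sub_mem hm (mem_kspan_self z)
      rw [add_sub_cancel_right] at this
      exact H.not_symm hu0 hzn this

/-- A singular vector with given products with two lines over the field. -/
theorem US.exists_shift_four {u a z₀ : V} (za : polar q z₀ a = 1) :
    ∃ z, q z = 0 ∧ z ∉ kspan J u ⊔ kspan J a ∧ ∀ s ∈ kspan J u ⊔ kspan J a, polar q z s = polar q z₀ s := by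
  rcases H.four_cases _ (finrank_sup_kspan_le (J := J) u a) with h | ⟨-, hts⟩
  · exact H.exists_shift' _ h z₀
  · have haS : a ∈ kspan J u ⊔ kspan J a := Submodule.mem_sup_right (mem_kspan_self a)
    have hqa : q a = 0 := H.sing_of_ortho (hts haS a haS)
      (hts (Submodule.mem_sup_right (mem_kspan_apply a)) a haS)
    have hs : ∀ s ∈ kspan J u ⊔ kspan J a, polar q (z₀ + (-q z₀) • a) s = polar q z₀ s := fun s hs => by
      rw [polar_add_left, polar_smul_left, show polar q a s = 0 from hts hs a haS, smul_zero, add_zero]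
    refine ⟨z₀ + (-q z₀) • a, ?_, fun hm => ?_, hs⟩
    · rw [map_add_smul, za, hqa]; ring
    · have := hs a haS
      rw [za, show polar q (z₀ + (-q z₀) • a) a = 0 from hts haS _ hm] at this
      exact zero_ne_one this

/-- Singular vectors of a coset span it affinely, along a singular vector with product one. -/
theorem US.affine {W : Submodule F V} {z₀ e x : V} (he : q e = 0) (heW : e ∈ perp q W) (hz : polar q z₀ e = 1)
    (hnot : ¬ perp q (W ⊔ Submodule.span F {e}) ≤ W ⊔ Submodule.span F {e})
    (hall : ∀ z, q z = 0 → (∀ s ∈ W, polar q z s = polar q z₀ s) → polar q z x = 0) :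
    polar q e x = 0 ∧ ∀ v ∈ perp q (W ⊔ Submodule.span F {e}), polar q v x = 0 := by
  set P := perp q (W ⊔ Submodule.span F {e}) with hP
  have hPW : ∀ v ∈ P, (∀ s ∈ W, polar q v s = 0) ∧ polar q v e = 0 := fun v hv => by
    rw [hP, perp_sup, Submodule.mem_inf, mem_perp_span] at hv
    exact ⟨fun s hs => by rw [polar_comm]; exact hv.1 s hs, by rw [polar_comm]; exact hv.2⟩
  have g : ∀ v ∈ P, polar q z₀ x + polar q v x + -q (z₀ + v) * polar q e x = 0 := fun v hv => by
    have h := hall (z₀ + v + (-q (z₀ + v)) • e)
      (by rw [map_add_smul, he, polar_add_left, hz, (hPW v hv).2]; ring)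
      (fun s hs => by
        rw [polar_add_left, polar_add_left, polar_smul_left, (hPW v hv).1 s hs,
          show polar q e s = 0 by rw [polar_comm]; exact heW s hs, smul_zero, add_zero, add_zero])
    rwa [polar_add_left, polar_add_left, polar_smul_left, smul_eq_mul] at h
  have hex : polar q e x = 0 := by
    by_contra hne
    refine hnot fun v hv => ?_
    rw [← perp_perp H.nondeg (W ⊔ Submodule.span F {e})]
    intro v' hv'
    change polar q v' v = 0
    have h0 := g 0 P.zero_mem
    have h1 := g v hv
    have h2 := g v' hv'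
    have h3 := g (v' + v) (P.add_mem hv' hv)
    rw [add_zero, polar_zero_left] at h0
    simp only [← add_assoc, polar_add_left, QuadraticMap.map_add (⇑q)] at h0 h1 h2 h3
    refine (mul_eq_zero.mp (show polar q v' v * polar q e x = 0 from ?_)).resolve_right hne
    linear_combination h1 + h2 - h3 - h0
  refine ⟨hex, fun v hv => ?_⟩
  have h0 := g 0 P.zero_mem
  have h1 := g v hv
  rw [hex, mul_zero, add_zero] at h0 h1
  rw [polar_zero_left, add_zero] at h0
  linear_combination h1 - h0

/-- A singular vector with given products with two lines over the field and non-zero product with a further vector. -/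
theorem US.exists_shift_ne {u a z₀ x : V} (za : polar q z₀ a = 1) (hx : x ∉ kspan J u ⊔ kspan J a) :
    ∃ z, q z = 0 ∧ (∀ s ∈ kspan J u ⊔ kspan J a, polar q z s = polar q z₀ s) ∧ polar q z x ≠ 0 := by
  set W := kspan J u ⊔ kspan J a with hW
  have hW4 : Module.finrank F W ≤ 4 := finrank_sup_kspan_le (J := J) u a
  have hn := H.big
  by_contra hc
  push Not at hc
  obtain ⟨y, hy1, hyW⟩ := H.exists_dual hx
  have hyP : y ∈ perp q W := fun s hs => by
    change polar q s y = 0
    rw [polar_comm]; exact hyW s hs
  suffices hkey : ∀ v ∈ perp q W, polar q v x = 0 from one_ne_zero (hy1.symm.trans (hkey y hyP))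
  have hP : ∀ (e : V), 5 ≤ Module.finrank F (perp q (W ⊔ Submodule.span F {e})) := fun e => by
    have h1 := finrank_perp_add H.nondeg (W ⊔ Submodule.span F {e})
    have h2 := Submodule.finrank_add_le_finrank_add_finrank W (Submodule.span F {e})
    have h3 := finrank_span_le_card (R := F) ({e} : Set V)
    rw [Set.toFinset_singleton, Finset.card_singleton] at h3
    omega
  rcases H.four_cases W hW4 with h | ⟨-, hts⟩
  · obtain ⟨e, hee, heS, hen⟩ := H.exists_sing' W h
    obtain ⟨y', hy'1, hy'S⟩ := H.exists_dual hen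
    have hpair := hypPair_of_polar hee (show polar q e y' = 1 by rw [polar_comm]; exact hy'1)
    set f := y' + (-q y') • e
    have hfS : f ∈ perp q W := fun s hs => by
      change polar q s f = 0
      rw [polar_comm, polar_add_left, polar_smul_left, hy'S s hs, polar_comm q e s,
        show polar q s e = 0 from heS s hs, smul_zero, add_zero]
    have hone : ∀ e f : V, HypPair q e f → e ∈ perp q W → f ∈ perp q W →
        polar q e x = 0 ∧ ∀ v ∈ perp q (W ⊔ Submodule.span F {e}), polar q v x = 0 := by
      intro e f hp heW hfW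
      refine H.affine (z₀ := z₀ + (1 - polar q z₀ e) • f) hp.left heW
        (by rw [polar_add_left, polar_smul_left, hp.symm.pair, smul_eq_mul]; ring) (fun hle => ?_)
        (fun z hz hzp => hc z hz fun s hs => by
          rw [hzp s hs, polar_add_left, polar_smul_left, polar_comm q f s,
            show polar q s f = 0 from hfW s hs, smul_zero, add_zero])
      have h2 := Submodule.finrank_add_le_finrank_add_finrank W (Submodule.span F {e})
      have h3 := finrank_span_le_card (R := F) ({e} : Set V)
      rw [Set.toFinset_singleton, Finset.card_singleton] at h3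
      have h4 := hP e
      have h8 := finrank_perp_add H.nondeg (W ⊔ Submodule.span F {e})
      have h7 := Submodule.finrank_mono hle
      have heq := Submodule.eq_of_le_of_finrank_le hle (by omega)
      have h5 : W ≤ W ⊓ perp q W :=
        le_inf le_rfl ((le_sup_left.trans heq.ge).trans (perp_anti le_sup_left))
      have h6 := Submodule.finrank_mono h5
      omega
    obtain ⟨hex, he'⟩ := hone e f hpair heS hfS
    obtain ⟨hfx, hf'⟩ := hone f e hpair.symm hfS heS
    intro v hv
    have h1 := he' (v - polar q e v • f) (by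
      rw [perp_sup, Submodule.mem_inf, mem_perp_span]
      refine ⟨sub_mem hv (Submodule.smul_mem _ _ hfS), ?_⟩
      rw [polar_sub_right, polar_smul_right, hpair.pair, smul_eq_mul, mul_one, sub_self])
    rwa [polar_sub_left, polar_smul_left, hfx, smul_zero, sub_zero] at h1
  · have haS : a ∈ W := Submodule.mem_sup_right (mem_kspan_self a)
    have hqa : q a = 0 := H.sing_of_ortho (hts haS a haS)
      (hts (Submodule.mem_sup_right (mem_kspan_apply a)) a haS)
    have hsup : W ⊔ Submodule.span F {a} = W := sup_eq_left.mpr ((Submodule.span_singleton_le_iff_mem _ _).mpr haS)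
    have := (H.affine (z₀ := z₀) hqa (hts haS) za (fun hle => by
      have := hP a
      have h7 := Submodule.finrank_mono hle
      rw [hsup] at this h7
      omega) hc).2
    rwa [hsup] at this

variable {M : Subgroup (orth q)} (hM : ∀ g ∈ commutator (orth q), Norm J g → g ∈ M)
include hM

/-- The transvections of the unitary structure. -/
theorem US.rootIn_self {z : V} (hz : q z = 0) (t : F) : RootIn M z (t • J z) := by
  have hp : polar q z (t • J z) = 0 := by rw [polar_smul_right, (H.norm_sing hz).2, smul_zero]
  refine ⟨hz, hp, hM _ (eich_mem_commutator H.nondeg (by have := H.big; omega) _ _) ⟨0, 1, fun v => ?_⟩⟩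
  rw [eich_apply hz hp, eich_apply hz hp, QuadraticMap.map_smul, (H.norm_sing hz).1]
  simp only [smul_zero, zero_mul, zero_smul, sub_zero, zero_add, one_smul, polar_smul_left, H.polar_scale, map_sub,
    map_add, map_smul, H.sq]
  rw [show polar q z (J v) = d * polar q z v - polar q (J z) v by linear_combination H.adj z v]
  simp only [smul_eq_mul]
  module

/-- Moving a root element by a transvection. -/
theorem US.phi {u v z : V} (huv : RootIn M u v) (hz : q z = 0) (h1 : polar q z u = 0) (h2 : polar q (J z) u = 0)
    (t : F) : RootIn M u (t • (polar q z v • J z - polar q (J z) v • z)) := by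
  obtain ⟨-, hp, hm⟩ := H.rootIn_self hM hz t
  have h := (huv.conj hm).sub (by
    convert huv using 1
    rw [eich_apply hz hp, h1, polar_smul_left, h2]; simp)
  rw [eich_apply hz hp, eich_apply hz hp, h1, polar_smul_left, polar_smul_left, h2, QuadraticMap.map_smul,
    (H.norm_sing hz).1] at h
  convert h using 1
  · simp
  · simp only [smul_zero, zero_smul, zero_mul, mul_zero, sub_zero, add_zero, smul_eq_mul]
    module

/-- A root element off the field line of its centre gives all those orthogonal to that line. -/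
theorem US.spread {u v : V} (huv : RootIn M u v) (hv : v ∉ kspan J u) :
    ∀ a ∈ perp q (kspan J u), RootIn M u a := by
  have huu := huv.1
  have hK := H.kspan_stable u
  have hn := H.big
  let Y : Submodule F V :=
    { carrier := {a | ∀ t : F, RootIn M u (t • a)}
      add_mem' := fun ha hb t => by rw [smul_add]; exact (ha t).add (hb t)
      zero_mem' := fun t => by rw [smul_zero]; exact ⟨huu, polar_zero_right q u, by rw [eich_zero]; exact M.one_mem⟩
      smul_mem' := fun k a ha t => by rw [smul_smul]; exact ha _ }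
  have hperp : ∀ z : V, polar q z u = 0 → polar q z (J u) = 0 →
      polar q (J z) u = 0 ∧ polar q (J z) (J u) = 0 := fun z h1 h2 =>
    ⟨by linear_combination H.adj z u + d * h1 - h2, by rw [H.polar_scale, h1, mul_zero]⟩
  -- a first vector
  obtain ⟨a₁, ha₁Y, ha₁n, ha₁u, ha₁J⟩ :
      ∃ a₁, a₁ ∈ Y ∧ a₁ ∉ kspan J u ∧ polar q a₁ u = 0 ∧ polar q a₁ (J u) = 0 := by
    obtain ⟨y, hy1, hyS⟩ := H.exists_dual hv
    have hS3 : Module.finrank F (kspan J u ⊔ Submodule.span F {v} : Submodule F V) ≤ 3 := by
      have h1 := Submodule.finrank_add_le_finrank_add_finrank (kspan J u) (Submodule.span F {v})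
      have h2 := finrank_kspan_le (J := J) u
      have h3 : Module.finrank F (Submodule.span F {v}) ≤ 1 := by
        rw [finrank_span_singleton (show v ≠ 0 from fun h => hv (h ▸ Submodule.zero_mem _))]
      omega
    obtain ⟨z, hz, hzS, hzp⟩ := H.exists_shift (kspan J u ⊔ Submodule.span F {v}) (by omega) y
    have zu : polar q z u = 0 := by rw [hzp _ (Submodule.mem_sup_left (mem_kspan_self u)), hyS _ (mem_kspan_self u)]
    have zJ : polar q z (J u) = 0 := by
      rw [hzp _ (Submodule.mem_sup_left (mem_kspan_apply u)), hyS _ (mem_kspan_apply u)]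
    have zv : polar q z v = 1 := by
      rw [hzp _ (Submodule.mem_sup_right (Submodule.mem_span_singleton_self v)), hy1]
    refine ⟨J z - polar q (J z) v • z, fun t => ?_, fun hm => ?_, ?_, ?_⟩
    · have := H.phi hM huv hz zu (hperp z zu zJ).1 t
      rwa [zv, one_smul] at this
    · refine one_ne_zero (H.closure hK (fun h => hzS (Submodule.mem_sup_left h))
        (α := -polar q (J z) v) (β := 1) ?_).2
      convert hm using 1; module
    · rw [polar_sub_left, polar_smul_left, (hperp z zu zJ).1, zu, smul_zero, sub_zero]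
    · rw [polar_sub_left, polar_smul_left, (hperp z zu zJ).2, zJ, smul_zero, sub_zero]
  have hz0 : ∀ a, a ∉ kspan J u →
      ∃ z₀, (∀ x ∈ kspan J u, polar q z₀ x = 0) ∧ polar q z₀ a = 1 ∧ polar q z₀ (J a) = d := by
    intro a han
    have hni : a ∉ kspan J u ⊔ Submodule.span F {J a} := fun hm => by
      obtain ⟨p, hp, s, hs, e⟩ := Submodule.mem_sup.mp hm
      obtain ⟨t, rfl⟩ := Submodule.mem_span_singleton.mp hs
      exact one_ne_zero (H.closure hK han (α := 1) (β := -t) (by
        rw [show (1 : F) • a + -t • J a = p by rw [← eq_sub_iff_add_eq] at e; rw [e]; module]; exact hp)).1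
    have hni' : J a ∉ kspan J u ⊔ Submodule.span F {a} := fun hm => by
      obtain ⟨p, hp, s, hs, e⟩ := Submodule.mem_sup.mp hm
      obtain ⟨t, rfl⟩ := Submodule.mem_span_singleton.mp hs
      exact one_ne_zero (H.closure hK han (α := -t) (β := 1) (by
        rw [show -t • a + (1 : F) • J a = p by rw [← eq_sub_iff_add_eq] at e; rw [e]; module]; exact hp)).2
    obtain ⟨y₁, y1a, y1S⟩ := H.exists_dual hni
    obtain ⟨y₂, y2a, y2S⟩ := H.exists_dual hni'
    set z₀ := y₁ + d • y₂ with hz₀
    have z0u : ∀ x ∈ kspan J u, polar q z₀ x = 0 := fun x hx => by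
      rw [hz₀, polar_add_left, polar_smul_left, y1S x (Submodule.mem_sup_left hx),
        y2S x (Submodule.mem_sup_left hx), smul_zero, add_zero]
    have z0a : polar q z₀ a = 1 := by
      rw [hz₀, polar_add_left, polar_smul_left, y1a, y2S a (Submodule.mem_sup_right
        (Submodule.mem_span_singleton_self a)), smul_zero, add_zero]
    have z0Ja : polar q z₀ (J a) = d := by
      rw [hz₀, polar_add_left, polar_smul_left, y2a, y1S _ (Submodule.mem_sup_right
        (Submodule.mem_span_singleton_self _)), zero_add, smul_eq_mul, mul_one]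
    exact ⟨z₀, z0u, z0a, z0Ja⟩
  -- a vector orthogonal to all of them
  have key : ∀ a, a ∈ Y → a ∉ kspan J u → polar q a u = 0 → polar q a (J u) = 0 →
      ∀ b : V, b ∈ perp q Y → b ∈ kspan J u ⊔ Submodule.span F {a} := by
    intro a haY han hau haJ b hb
    have hW := H.sup_stable u a
    have hphi : ∀ z, q z = 0 → polar q z u = 0 → polar q z (J u) = 0 →
        polar q z a * polar q (J z) b - polar q (J z) a * polar q z b = 0 := by
      intro z hz h1 h2
      have hm : polar q z a • J z - polar q (J z) a • z ∈ Y := fun t =>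
        H.phi hM (by simpa using haY 1) hz h1 (hperp z h1 h2).1 t
      have := hb _ hm
      change polar q _ b = 0 at this
      rwa [polar_sub_left, polar_smul_left, polar_smul_left, smul_eq_mul, smul_eq_mul] at this
    obtain ⟨z₀, z0u, z0a, z0Ja⟩ := hz0 a han
    by_cases hbW : b ∈ kspan J u ⊔ kspan J a
    · obtain ⟨p, hp, s, hs, rfl⟩ := Submodule.mem_sup.mp hbW
      obtain ⟨α, β, rfl⟩ := Submodule.mem_span_pair.mp hs
      rcases eq_or_ne β 0 with rfl | hβ
      · refine Submodule.add_mem_sup hp ?_
        rw [zero_smul, add_zero]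
        exact Submodule.smul_mem _ _ (Submodule.mem_span_singleton_self a)
      exfalso
      obtain ⟨z, hz, -, hzp⟩ := H.exists_shift_four (u := u) z0a
      have zu : ∀ x ∈ kspan J u, polar q z x = 0 := fun x hx => by
        rw [hzp x (Submodule.mem_sup_left hx), z0u x hx]
      have za : polar q z a = 1 := by rw [hzp a (Submodule.mem_sup_right (mem_kspan_self a)), z0a]
      have zJa : polar q z (J a) = d := by rw [hzp _ (Submodule.mem_sup_right (mem_kspan_apply a)), z0Ja]
      have hJza : polar q (J z) a = 0 := by linear_combination H.adj z a + d * za - zJa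
      have hJzp : polar q (J z) p = 0 := by
        linear_combination H.adj z p + d * zu p hp - zu (J p) (hK p hp)
      have h := hphi z hz (zu u (mem_kspan_self u)) (zu _ (mem_kspan_apply u))
      rw [za, hJza, polar_add_right, polar_add_right, polar_smul_right, polar_smul_right, hJza, hJzp,
        H.polar_scale, za] at h
      simp [hβ, H.c_ne] at h
    · exfalso
      set x := d • b - J b with hx
      have hxW : x ∉ kspan J u ⊔ kspan J a := fun hm => one_ne_zero
        (neg_eq_zero.mp (H.closure hW hbW (α := d) (β := -1) (by convert hm using 1; rw [hx]; module)).2)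
      obtain ⟨z, hz, hz', zx⟩ := H.exists_shift_ne z0a hxW
      have za : polar q z a = 1 := by rw [hz' a (Submodule.mem_sup_right (mem_kspan_self a)), z0a]
      have zJa : polar q z (J a) = d := by rw [hz' _ (Submodule.mem_sup_right (mem_kspan_apply a)), z0Ja]
      rw [hx, polar_sub_right, polar_smul_right, smul_eq_mul] at zx
      have hJza : polar q (J z) a = 0 := by linear_combination H.adj z a + d * za - zJa
      have h := hphi z hz (by rw [hz' u (Submodule.mem_sup_left (mem_kspan_self u)), z0u u (mem_kspan_self u)])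
        (by rw [hz' _ (Submodule.mem_sup_left (mem_kspan_apply u)), z0u _ (mem_kspan_apply u)])
      rw [za, hJza, one_mul, zero_mul, sub_zero] at h
      exact zx (by linear_combination h - H.adj z b)
  have hY : perp q (kspan J u) ≤ Y := by
    rw [← perp_perp H.nondeg Y]
    refine perp_anti fun b hb => ?_
    obtain ⟨p, hp, s, hs, rfl⟩ := Submodule.mem_sup.mp (key a₁ ha₁Y ha₁n ha₁u ha₁J b hb)
    obtain ⟨t, rfl⟩ := Submodule.mem_span_singleton.mp hs
    refine (kspan J u).add_mem hp ?_
    obtain ⟨z₀, z0u, z0a, z0Ja⟩ := hz0 a₁ ha₁n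
    obtain ⟨z, hz, hzn, hzp⟩ := H.exists_shift_four (u := u) z0a
    have zu : ∀ x ∈ kspan J u, polar q z x = 0 := fun x hx => by
      rw [hzp x (Submodule.mem_sup_left hx), z0u x hx]
    have za : polar q z a₁ = 1 := by rw [hzp _ (Submodule.mem_sup_right (mem_kspan_self a₁)), z0a]
    have zJa : polar q z (J a₁) = d := by rw [hzp _ (Submodule.mem_sup_right (mem_kspan_apply a₁)), z0Ja]
    have hJza : polar q (J z) a₁ = 0 := by linear_combination H.adj z a₁ + d * za - zJa
    have hzu := zu u (mem_kspan_self u)
    have hzJu := zu _ (mem_kspan_apply u)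
    have hJY : J z ∈ Y := fun r => by
      have := H.phi hM (by simpa using ha₁Y 1) hz hzu (hperp z hzu hzJu).1 r
      rwa [za, hJza, one_smul, zero_smul, sub_zero] at this
    have hstab := H.sup_stable u a₁
    have hJzn : J z ∉ kspan J u ⊔ kspan J a₁ := fun hm => one_ne_zero
      (H.closure hstab hzn (α := 0) (β := 1) (by rwa [zero_smul, one_smul, zero_add])).2
    obtain ⟨p', hp', s', hs', e⟩ := Submodule.mem_sup.mp (key (J z) hJY (fun h => hJzn (Submodule.mem_sup_left h))
      (hperp z hzu hzJu).1 (hperp z hzu hzJu).2 _ hb)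
    obtain ⟨t', rfl⟩ := Submodule.mem_span_singleton.mp hs'
    rcases eq_or_ne t' 0 with rfl | ht'
    · rw [zero_smul, add_zero] at e
      have h := (kspan J u).sub_mem hp' hp
      rwa [e, add_sub_cancel_left] at h
    · refine absurd ?_ hJzn
      have : t' • J z = p + t • a₁ - p' := eq_sub_of_add_eq' e
      rw [← inv_smul_smul₀ ht' (J z), this]
      exact Submodule.smul_mem _ _ (sub_mem (Submodule.add_mem_sup hp (Submodule.smul_mem _ _ (mem_kspan_self a₁)))
        (Submodule.mem_sup_left hp'))
  intro a ha
  have := hY ha 1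
  rwa [one_smul] at this

omit hM in
/-- Singular vectors span. -/
theorem US.sing_span {p : V → Prop} (hadd : ∀ a b, p a → p b → p (a + b)) (hsmul : ∀ (k : F) a, p a → p (k • a))
    (hsing : ∀ z, q z = 0 → p z) (x : V) : p x := by
  obtain ⟨e, hee, -, hen⟩ := H.exists_sing ⊥ (by rw [finrank_bot]; have := H.big; omega)
  obtain ⟨f, hp⟩ := exists_hypPair H.nondeg (show e ≠ 0 by simpa using hen) hee
  set w := x - polar q f x • e - polar q e x • f with hw
  have e1 : x = (e + (-q w) • f + w) + ((polar q f x - 1) • e + (polar q e x + q w) • f) := by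
    rw [hw]; module
  rw [e1]
  exact hadd _ _ (hsing _ (hp.singular_lift (hp.decomp x)).1)
    (hadd _ _ (hsmul _ _ (hsing e hp.left)) (hsmul _ _ (hsing f hp.right)))

omit hM in
/-- An element outside the normaliser maps some singular line of the field off one, for linear equivalences. -/
theorem US.exists_bad_equiv {G : V ≃ₗ[F] V} (hg : ¬ ∃ a b : F, ∀ v, G (J v) = a • G v + b • J (G v)) :
    ∃ w, q w = 0 ∧ w ≠ 0 ∧ G (J w) ∉ kspan J (G w) := by
  by_contra hc
  push Not at hc
  let T : V →ₗ[F] V := G.symm.toLinearMap.comp (J.comp G.toLinearMap)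
  have hT : ∀ w, G (T w) = J (G w) := fun w => G.apply_symm_apply _
  have hline : ∀ w, q w = 0 → w ≠ 0 → ∃ α β : F, β ≠ 0 ∧ T w = α • w + β • J w := by
    intro w hw hw0
    obtain ⟨a, b, e⟩ := Submodule.mem_span_pair.mp (hc w hw hw0)
    have hb : b ≠ 0 := fun h => hw0 (H.free a w (G.injective (by
      rw [map_smul, ← e, h, zero_smul, add_zero])))
    refine ⟨-(b⁻¹ * a), b⁻¹, inv_ne_zero hb, G.injective ?_⟩
    rw [hT, map_add, map_smul, map_smul, ← e, smul_add, smul_smul, smul_smul, inv_mul_cancel₀ hb, one_smul]
    module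
  have hsum : ∀ (w z : V) (α β α' β' : F), q w = 0 → w ≠ 0 → q z = 0 → z ∉ kspan J w → polar q w z = 0 →
      T w = α • w + β • J w → T z = α' • z + β' • J z → α' = α ∧ β' = β := by
    intro w z α β α' β' hw hw0 hz hn hwz e1 e2
    have hwz0 : w + z ≠ 0 := fun h => hn (by
      rw [eq_neg_of_add_eq_zero_right h]; exact neg_mem (mem_kspan_self w))
    obtain ⟨a, b, -, e3⟩ := hline (w + z) (by rw [QuadraticMap.map_add (⇑q), hw, hz, hwz, add_zero, add_zero]) hwz0
    rw [map_add T, e1, e2, map_add J] at e3
    have h1 := H.closure (H.kspan_stable w) hn (α := α' - a) (β := β' - b) (by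
      refine Submodule.mem_span_pair.mpr ⟨a - α, b - β, ?_⟩
      linear_combination (norm := module) -e3)
    have hα := sub_eq_zero.mp h1.1
    have hβ := sub_eq_zero.mp h1.2
    subst hα hβ
    have h2 : (α - α') • w + (β - β') • J w ∈ (⊥ : Submodule F V) := by
      rw [Submodule.mem_bot]
      linear_combination (norm := module) e3
    obtain ⟨h3, h4⟩ := H.closure (W := ⊥) (fun y hy => by rw [Submodule.mem_bot] at hy ⊢; rw [hy, map_zero]) (by simpa using hw0) h2
    exact ⟨(sub_eq_zero.mp h3).symm, (sub_eq_zero.mp h4).symm⟩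
  obtain ⟨w₀, hw₀, -, hw₀n⟩ := H.exists_sing ⊥ (by rw [finrank_bot]; have := H.big; omega)
  have hw₀0 : w₀ ≠ 0 := by simpa using hw₀n
  obtain ⟨α, β, hβ, e₀⟩ := hline w₀ hw₀ hw₀0
  have hall : ∀ z, q z = 0 → T z = α • z + β • J z := by
    intro z hz
    rcases eq_or_ne z 0 with rfl | hz0
    · simp
    obtain ⟨x, hxx, hx, hxl, hxr⟩ := H.exists_common hw₀ hw₀0 hz
    have hx0 : x ≠ 0 := fun h => hxl (h ▸ Submodule.zero_mem _)
    obtain ⟨a, b, -, ex⟩ := hline x hxx hx0
    obtain ⟨a', b', -, ez⟩ := hline z hz hz0
    obtain ⟨r1, r2⟩ := hsum w₀ x α β a b hw₀ hw₀0 hxx hxl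
      (hx _ (Submodule.mem_sup_left (mem_kspan_self w₀))) e₀ ex
    obtain ⟨r3, r4⟩ := hsum z x a' b' a b hz hz0 hxx hxr
      (hx _ (Submodule.mem_sup_right (mem_kspan_self z))) ez ex
    rw [ez, ← r3, ← r4, r1, r2]
  have hTall : ∀ v, T v = α • v + β • J v :=
    H.sing_span (p := fun v => T v = α • v + β • J v)
      (fun a b ha hb => by rw [map_add, ha, hb, map_add]; module)
      (fun k a ha => by rw [map_smul, ha, map_smul]; module) hall
  refine hg ⟨-(β⁻¹ * α), β⁻¹, fun v => ?_⟩
  change G (J v) = _
  rw [← hT v, hTall v, map_add, map_smul, map_smul, smul_add, smul_smul, smul_smul, inv_mul_cancel₀ hβ, one_smul]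
  module

omit hM in
/-- An element outside the normaliser maps some singular line of the field off one. -/
theorem US.exists_bad {g : orth q} (hg : ¬ Norm J g) :
    ∃ w, q w = 0 ∧ w ≠ 0 ∧ (g : V ≃ₗ[F] V) (J w) ∉ kspan J ((g : V ≃ₗ[F] V) w) :=
  H.exists_bad_equiv hg

/-- An element outside the normaliser generates everything. -/
theorem US.commutator_le {g : orth q} (hg : g ∈ M) (hgn : ¬ Norm J g) : commutator (orth q) ≤ M := by
  have hn := H.big
  obtain ⟨w, hw, hw0, hwn⟩ := H.exists_bad hgn
  set u := (g : V ≃ₗ[F] V) w with hu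
  have hu0 : u ≠ 0 := fun h => hw0 ((g : V ≃ₗ[F] V).map_eq_zero_iff.mp h)
  have hroot : RootIn M u ((g : V ≃ₗ[F] V) (J w)) := by
    have := (H.rootIn_self hM hw 1).conj hg
    rwa [one_smul] at this
  have hgood₀ := H.spread hM hroot hwn
  have hperp : ∀ u z : V, polar q u z = 0 → polar q (J u) z = 0 → z ∈ perp q (kspan J u) := fun u z h1 h2 => by
    intro y hy
    obtain ⟨a, b, rfl⟩ := Submodule.mem_span_pair.mp hy
    change polar q _ z = 0
    rw [polar_add_left, polar_smul_left, polar_smul_left, h1, h2]; simp
  have hstep : ∀ u z : V, u ≠ 0 → q z = 0 → z ∈ perp q (kspan J u) → z ∉ kspan J u →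
      (∀ a ∈ perp q (kspan J u), RootIn M u a) → ∀ a ∈ perp q (kspan J z), RootIn M z a := by
    intro u z hu0 hz hzp hzn hgood
    refine H.spread hM (SingPair.rootIn_symm (hgood z hzp) hz) fun h => H.not_symm hu0 hzn ?_
    simpa using (kspan J z).neg_mem h
  have hgood : ∀ z : V, q z = 0 → z ≠ 0 → ∀ a ∈ perp q (kspan J z), RootIn M z a := by
    intro z hz hz0
    obtain ⟨x, hxx, hx, hxl, hxr⟩ := H.exists_common (show q u = 0 from hroot.1) hu0 hz
    have hx0 : x ≠ 0 := fun h => hxl (h ▸ Submodule.zero_mem _)
    have hxgood := hstep u x hu0 hxx (perp_anti le_sup_left hx) hxl hgood₀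
    refine hstep x z hx0 hz (hperp x z ?_ ?_)
      (H.not_symm hz0 hxr) hxgood
    · rw [polar_comm]; exact hx _ (Submodule.mem_sup_right (mem_kspan_self z))
    · have h1 : polar q z x = 0 := hx _ (Submodule.mem_sup_right (mem_kspan_self z))
      have h2 : polar q (J z) x = 0 := hx _ (Submodule.mem_sup_right (mem_kspan_apply z))
      linear_combination polar_comm q (J x) z + H.adj z x + d * h1 - h2
  have hfull : ∀ z : V, q z = 0 → z ≠ 0 → FullRoot M z := by
    intro z hz hz0
    refine ⟨hz, fun a hza => ?_⟩
    obtain ⟨p, hp, hpp, hpn⟩ : ∃ p, q p = 0 ∧ p ∈ perp q (kspan J z ⊔ kspan J a) ∧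
        p ∉ kspan J z ⊔ Submodule.span F {a} := by
      rcases H.four_cases _ (finrank_sup_kspan_le (J := J) z a) with h | ⟨h, hts⟩
      · obtain ⟨p, hp, hpp, hpn⟩ := H.exists_sing' _ h
        exact ⟨p, hp, hpp, fun hm => hpn ((sup_le_sup le_rfl
          ((Submodule.span_singleton_le_iff_mem a (kspan J a)).mpr (mem_kspan_self a)) :
            kspan J z ⊔ Submodule.span F {a} ≤ kspan J z ⊔ kspan J a) hm)⟩
      · have haS : a ∈ kspan J z ⊔ kspan J a := Submodule.mem_sup_right (mem_kspan_self a)
        have hJS : J a ∈ kspan J z ⊔ kspan J a := Submodule.mem_sup_right (mem_kspan_apply a)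
        refine ⟨J a, by rw [H.scale, H.sing_of_ortho (hts haS a haS) (hts hJS a haS), mul_zero],
          hts hJS, fun hm => ?_⟩
        have han : a ∉ kspan J z := fun hm' => by
          have hle : kspan J a ≤ kspan J z := Submodule.span_le.mpr (by
            rintro w (rfl | rfl)
            exacts [hm', H.kspan_stable z a hm'])
          have := finrank_kspan_le (J := J) z
          rw [sup_eq_left.mpr hle] at h
          omega
        obtain ⟨p, hp', s, hs, e⟩ := Submodule.mem_sup.mp hm
        obtain ⟨t, rfl⟩ := Submodule.mem_span_singleton.mp hs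
        exact one_ne_zero (H.closure (H.kspan_stable z) han (α := -t) (β := 1) (by
          rw [show -t • a + (1 : F) • J a = p by rw [← e]; module]; exact hp')).2
    have hp0 : p ≠ 0 := fun h => hpn (h ▸ Submodule.zero_mem _)
    obtain ⟨x, hx1, hxS⟩ := H.exists_dual hpn
    have hpz : polar q p z = 0 := by rw [polar_comm]; exact hpp _ (Submodule.mem_sup_left (mem_kspan_self z))
    have hpa : polar q p a = 0 := by rw [polar_comm]; exact hpp _ (Submodule.mem_sup_right (mem_kspan_self a))
    have hJpa : polar q (J p) a = 0 := by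
      have h1 : polar q (J a) p = 0 := hpp _ (Submodule.mem_sup_right (mem_kspan_apply a))
      linear_combination H.adj p a + d * hpa - polar_comm q p (J a) - h1
    have hza' : polar q a z = 0 := by rw [polar_comm]; exact hza
    have hxz : RootIn M z x := hgood z hz hz0 x (hperp z x
      (by rw [polar_comm]; exact hxS _ (Submodule.mem_sup_left (mem_kspan_self z)))
      (by rw [polar_comm]; exact hxS _ (Submodule.mem_sup_left (mem_kspan_apply z))))
    have hpM := hgood p hp hp0 a (hperp p a hpa hJpa)
    have hax : polar q a x = 0 := by rw [polar_comm]; exact hxS _ (Submodule.mem_sup_right (Submodule.mem_span_singleton_self a))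
    have hpx : polar q p x = 1 := by rw [polar_comm]; exact hx1
    have h := (hxz.conj hpM.2.2).sub (by
      convert hxz using 1
      rw [eich_apply hp hpa, hpz, hza']; simp)
    rw [eich_apply hp hpa, eich_apply hp hpa, hpz, hza', hpx, hax] at h
    have hroot' : RootIn M z (a - q a • p) := by
      convert h using 1
      · simp
      · module
    have hpz' : RootIn M z (q a • p) := hgood z hz hz0 _ (Submodule.smul_mem _ _ (perp_anti le_sup_left hpp))
    have := (hroot'.add hpz').2.2
    rwa [sub_add_cancel] at this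
  obtain ⟨f, hp⟩ := exists_hypPair H.nondeg hw0 hw
  exact commutator_le_of_fullRoot H.nondeg (by omega) (hfull w hw hw0) (hfull f hp.right hp.symm.ne_zero)
    (by rw [hp.pair]; exact one_ne_zero)

omit hM in
/-- Some element of `Ω` does not normalise the field. -/
theorem US.exists_not_norm : ∃ g ∈ commutator (orth q), ¬ Norm J g := by
  have hn := H.big
  obtain ⟨w, hw, -, hwn⟩ := H.exists_sing ⊥ (by rw [finrank_bot]; omega)
  have hw0 : w ≠ 0 := by simpa using hwn
  obtain ⟨a, -, ha, han⟩ := H.exists_sing (kspan J w) (by have := finrank_kspan_le (J := J) w; omega)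
  have hwa : polar q w a = 0 := ha w (mem_kspan_self w)
  have hJwa : polar q (J w) a = 0 := ha _ (mem_kspan_apply w)
  refine ⟨eich q w a, eich_mem_commutator H.nondeg (by omega) _ _, fun ⟨p, r, h⟩ => ?_⟩
  have h1 := h w
  rw [eich_apply_self hw hwa, eich_apply hw hwa, (H.norm_sing hw).2, polar_comm q a (J w), hJwa] at h1
  have h2 : (-p) • w + (1 - r) • J w ∈ (⊥ : Submodule F V) := by
    rw [Submodule.mem_bot]
    linear_combination (norm := module) h1
  obtain ⟨hp, hr⟩ := H.closure (W := ⊥) (fun y hy => by rw [Submodule.mem_bot] at hy ⊢; rw [hy, map_zero]) hwn h2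
  rw [neg_eq_zero] at hp
  rw [sub_eq_zero] at hr
  subst hp hr
  obtain ⟨x, hx1, hxS⟩ := H.exists_dual (show w ∉ Submodule.span F {a} from fun hm => by
    obtain ⟨t, e⟩ := Submodule.mem_span_singleton.mp hm
    rcases eq_or_ne t 0 with rfl | ht
    · exact hw0 (by rw [← e, zero_smul])
    · exact han (by rw [← inv_smul_smul₀ ht a, e]; exact Submodule.smul_mem _ _ (mem_kspan_self w)))
  have h3 := h x
  rw [zero_smul, zero_add, one_smul, eich_apply hw hwa, eich_apply hw hwa, polar_comm q w x, hx1,
    polar_comm q a x, hxS a (Submodule.mem_span_singleton_self a), map_sub, map_sub, map_add, map_smul,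
    map_smul, map_smul] at h3
  refine one_ne_zero (H.closure (H.kspan_stable w) han (α := -polar q w (J x)) (β := 1) ?_).2
  refine Submodule.mem_span_pair.mpr ⟨-(polar q a (J x) + q a * polar q w (J x)), q a, ?_⟩
  linear_combination (norm := module) h3

end Cfsg.Agent.H98.OU
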