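import Cfsg.Agent.H98.OrthUnitary
import Cfsg.Agent.H98.MaximalSpPair

set_option autoImplicit false
set_option linter.unusedSectionVars false

/-!
Unitary groups over the quadratic extension inside the symplectic group: the normaliser is maximal.
-/

namespace Cfsg.Agent.H98.SU2

open QuadraticMap
open scoped Matrix

variable {m : ℕ} {F : Type*} [Field F] [Finite F]

local notation "V" => (Fin m ⊕ Fin m → F)
local notation "Mat" => Matrix (Fin m ⊕ Fin m) (Fin m ⊕ Fin m) F
local notation "β" => Cfsg.Agent.H2.sympBilin m F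

/-- A skew-adjoint generator of a quadratic field. -/
structure SJ (j : (Fin m ⊕ Fin m → F) →ₗ[F] (Fin m ⊕ Fin m → F)) (ν : F) : Prop where
  hm : 7 ≤ m
  two : (2 : F) ≠ 0
  anti : ∀ x y, Cfsg.Agent.H2.sympBilin m F (j x) y = - Cfsg.Agent.H2.sympBilin m F x (j y)
  sq : ∀ v, j (j v) = ν • v
  free : ∀ (a : F) v, j v = a • v → v = 0

attribute [-simp] Cfsg.Agent.H2.sympBilin_apply

variable {j : (Fin m ⊕ Fin m → F) →ₗ[F] (Fin m ⊕ Fin m → F)} {ν : F}

/-- Normalising the field. -/
def NormM (j : (Fin m ⊕ Fin m → F) →ₗ[F] (Fin m ⊕ Fin m → F)) (g : GL (Fin m ⊕ Fin m) F) : Prop :=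
  ∃ a b : F, ∀ v : Fin m ⊕ Fin m → F, (g : Mat) *ᵥ (j v) = a • (g : Mat) *ᵥ v + b • j ((g : Mat) *ᵥ v)

/-- The quadratic form `v ↦ f(v, j v)`. -/
noncomputable def qf (j : (Fin m ⊕ Fin m → F) →ₗ[F] (Fin m ⊕ Fin m → F)) : QuadraticForm F (Fin m ⊕ Fin m → F) :=
  LinearMap.BilinMap.toQuadraticMap ((Cfsg.Agent.H2.sympBilin m F).compl₂ j)

/-- The transvection of the unitary group at an isotropic point. -/
def tau (j : (Fin m ⊕ Fin m → F) →ₗ[F] (Fin m ⊕ Fin m → F)) (ν : F) (w : Fin m ⊕ Fin m → F) (b : F) :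
    GL (Fin m ⊕ Fin m) F :=
  spTrans w (-(ν * b)) * spTrans (j w) b

variable (H : SJ j ν)
include H

theorem SJ.polar_qf (x y : V) : polar (qf j) x y = 2 * β x (j y) := by
  rw [qf, LinearMap.BilinMap.polar_toQuadraticMap, LinearMap.compl₂_apply, LinearMap.compl₂_apply,
    beta_swap (j x) y, H.anti x y]
  ring

omit H in
theorem qf_apply (x : V) : qf j x = β x (j x) := rfl

theorem SJ.nu_ne : ν ≠ 0 := fun h0 => by
  obtain ⟨v, hv⟩ : ∃ v : V, v ≠ 0 := by
    refine ⟨Pi.single (Sum.inl ⟨0, by have := H.hm; omega⟩) 1, fun h => ?_⟩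
    simpa using congrFun h (Sum.inl ⟨0, by have := H.hm; omega⟩)
  exact hv (H.free 0 v (by rw [zero_smul]; exact H.free 0 (j v) (by rw [H.sq, h0, zero_smul, zero_smul])))

theorem SJ.us : OU.US (qf j) j (-ν) 0 := by
  refine ⟨⟨fun x hx => ?_, fun y hy => ?_⟩, ?_, fun v => ?_, fun v => ?_, H.free⟩
  · refine (H2.sympBilin_nondegenerate m F).1 x fun y => ?_
    have := hx (j y)
    rw [polarBilin_apply_apply, H.polar_qf, H.sq, map_smul, smul_eq_mul] at this
    simpa [H.two, H.nu_ne] using this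
  · refine (H2.sympBilin_nondegenerate m F).1 y fun x => ?_
    have := hy (j x)
    rw [polarBilin_apply_apply, polar_comm, H.polar_qf, H.sq, map_smul, smul_eq_mul] at this
    simpa [H.two, H.nu_ne] using this
  · rw [Module.finrank_fintype_fun_eq_card, Fintype.card_sum, Fintype.card_fin]
    have := H.hm; omega
  · rw [qf_apply, qf_apply, H.sq, map_smul, smul_eq_mul, beta_swap v (j v)]; ring
  · rw [H.polar_qf, H.sq, map_smul, beta_self, smul_zero, mul_zero, zero_mul]

theorem SJ.iso {w : V} (hw : qf j w = 0) : β w (j w) = 0 ∧ β (j w) w = 0 := by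
  rw [qf_apply] at hw
  exact ⟨hw, by rw [beta_swap w (j w), hw, neg_zero]⟩

theorem SJ.tau_mulVec {w : V} (hw : qf j w = 0) (b : F) (y : V) :
    (tau j ν w b : Mat) *ᵥ y = y + (-(ν * b) * β y w) • w + (b * β y (j w)) • j w := by
  simp only [tau, Units.val_mul, ← Matrix.mulVec_mulVec, spTrans_mulVec, map_add, map_smul, LinearMap.add_apply,
    LinearMap.smul_apply, smul_eq_mul, (H.iso hw).2, mul_zero, add_zero]
  module

omit H in
theorem tau_mem (w : V) (b : F) : tau j ν w b ∈ Cfsg.spGL m F :=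
  Subgroup.mul_mem _ (spTrans_mem _ _) (spTrans_mem _ _)

theorem SJ.tau_norm {w : V} (hw : qf j w = 0) (b : F) : NormM j (tau j ν w b) := ⟨0, 1, fun v => by
  simp only [H.tau_mulVec hw, H.anti v, H.sq, map_add, map_smul, map_neg, smul_eq_mul]
  module⟩

/-- Some element of the symplectic group does not normalise the field. -/
theorem SJ.exists_not_norm : ∃ g ∈ Cfsg.spGL m F, ¬ NormM j g := by
  have hU := H.us
  obtain ⟨w, hw, -, hwn⟩ := hU.exists_sing ⊥ (by rw [finrank_bot]; have := hU.big; omega)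
  have hw0 : w ≠ 0 := by simpa using hwn
  refine ⟨spTrans w 1, spTrans_mem _ _, fun ⟨a, b, h⟩ => ?_⟩
  have h1 := h w
  rw [spTrans_mulVec, spTrans_mulVec, (H.iso hw).2, beta_self] at h1
  have h2 : (-a) • w + (1 - b) • j w ∈ (⊥ : Submodule F V) := by
    rw [Submodule.mem_bot]
    linear_combination (norm := (simp; try module)) h1
  obtain ⟨ha, hb⟩ := hU.closure (W := ⊥) (fun y hy => by rw [Submodule.mem_bot] at hy ⊢; rw [hy, map_zero]) hwn h2
  rw [neg_eq_zero] at ha
  rw [sub_eq_zero] at hb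
  subst ha hb
  obtain ⟨x, hx⟩ : ∃ x, β x w ≠ 0 := by
    by_contra hc
    push Not at hc
    exact hw0 ((H2.sympBilin_nondegenerate m F).1 w fun y => by rw [beta_swap y w, hc y, neg_zero])
  have h3 := h x
  rw [spTrans_mulVec, spTrans_mulVec, map_add, map_smul] at h3
  refine hx ?_
  have h4 : (β (j x) w) • w + (-β x w) • j w ∈ (⊥ : Submodule F V) := by
    rw [Submodule.mem_bot]
    linear_combination (norm := (simp; try module)) h3
  exact neg_eq_zero.mp (hU.closure (W := ⊥) (fun y hy => by rw [Submodule.mem_bot] at hy ⊢; rw [hy, map_zero]) hwn h4).2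

variable {M : Subgroup (GL (Fin m ⊕ Fin m) F)} (hsp : M ≤ Cfsg.spGL m F)
  (hM : ∀ g ∈ Cfsg.spGL m F, NormM j g → g ∈ M)
include hsp hM

/-- An element outside the normaliser puts a whole transvection group in the subgroup. -/
theorem SJ.exists_root {g : GL (Fin m ⊕ Fin m) F} (hg : g ∈ M) (hgn : ¬ NormM j g) :
    ∃ z : V, z ≠ 0 ∧ qf j z = 0 ∧ ∀ c : F, spTrans z c ∈ M := by
  have hU := H.us
  have hν := H.nu_ne
  let G : V ≃ₗ[F] V := Matrix.toLinearEquiv' (g : Mat) g.isUnit.invertible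
  have hG : ∀ v, G v = (g : Mat) *ᵥ v := fun v => rfl
  obtain ⟨w, hw, hw0, hwn⟩ := hU.exists_bad_equiv (G := G) hgn
  rw [hG, hG] at hwn
  set u := (g : Mat) *ᵥ w with hu
  set u' := (g : Mat) *ᵥ j w with hu'
  clear_value u u'
  have hu0 : u ≠ 0 := fun h => hw0 (gl_mulVec_injective g ((hu.symm.trans h).trans (Matrix.mulVec_zero _).symm))
  have huu' : β u u' = 0 := by rw [hu, hu', mem_spGL.mp (hsp hg)]; exact (H.iso hw).1
  have hconj : ∀ b : F, spTrans u (-(ν * b)) * spTrans u' b ∈ M := fun b => by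
    have h := M.mul_mem (M.mul_mem hg (hM _ (tau_mem w b) (H.tau_norm hw b))) (M.inv_mem hg)
    rw [tau] at h
    rw [hu, hu', ← conj_spTrans (hsp hg), ← conj_spTrans (hsp hg)]
    convert h using 1
    group
  have hun : u ∉ OU.kspan j u' := hU.not_symm hu0 hwn
  have hju : j u ∉ OU.kspan j u' ⊔ Submodule.span F {u} := fun hm => by
    obtain ⟨p, hp, s, hs, e⟩ := Submodule.mem_sup.mp hm
    obtain ⟨t, rfl⟩ := Submodule.mem_span_singleton.mp hs
    refine one_ne_zero (hU.closure (hU.kspan_stable u') hun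
      (show (-t) • u + (1 : F) • j u ∈ OU.kspan j u' from ?_)).2
    rw [show -t • u + (1 : F) • j u = p by rw [← eq_sub_iff_add_eq] at e; rw [e]; module]
    exact hp
  obtain ⟨y₀, hy1, hyS⟩ := hU.exists_dual hju
  have hbig : 14 ≤ Module.finrank F V := by
    rw [Module.finrank_fintype_fun_eq_card, Fintype.card_sum, Fintype.card_fin]
    have := H.hm; omega
  obtain ⟨y, hy, -, hyp⟩ := hU.exists_shift (OU.kspan j u' ⊔ OU.kspan j u)
    (by have := OU.finrank_sup_kspan_le (J := j) u' u; omega) ((-(2 * ν)) • y₀)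
  have hpol : ∀ a b : V, β a b = (2 * ν)⁻¹ * polar (qf j) a (j b) := fun a b => by
    rw [H.polar_qf, H.sq, map_smul, smul_eq_mul, ← mul_assoc 2 ν, inv_mul_cancel_left₀ (mul_ne_zero H.two hν)]
  have hyu : polar (qf j) y u = 0 := by
    rw [hyp u (Submodule.mem_sup_right (OU.mem_kspan_self u)), polar_smul_left,
      hyS u (Submodule.mem_sup_right (Submodule.mem_span_singleton_self u)), smul_zero]
  have hyju : polar (qf j) y (j u) = -(2 * ν) := by
    rw [hyp _ (Submodule.mem_sup_right (OU.mem_kspan_apply u)), polar_smul_left, hy1, smul_eq_mul, mul_one]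
  have hyu' : ∀ p ∈ OU.kspan j u', polar (qf j) y p = 0 := fun p hp => by
    rw [hyp p (Submodule.mem_sup_left hp), polar_smul_left, hyS p (Submodule.mem_sup_left hp), smul_zero]
  -- translate to the alternating form
  have hsw : ∀ a b : V, β a (j b) = (2 : F)⁻¹ * polar (qf j) a b := fun a b => by
    rw [H.polar_qf, inv_mul_cancel_left₀ H.two]
  have buy : β u y = 1 := by
    rw [beta_swap y u, hpol, hyju]; field_simp [H.two, hν]
  have bujy : β u (j y) = 0 := by rw [hsw, polar_comm, hyu, mul_zero]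
  have bu'y : β u' y = 0 := by rw [beta_swap y u', hpol, hyu' _ (OU.mem_kspan_apply u'), mul_zero, neg_zero]
  have bu'jy : β u' (j y) = 0 := by rw [hsw, polar_comm, hyu' _ (OU.mem_kspan_self u'), mul_zero]
  obtain ⟨z, hz0, hz, hzS⟩ : ∃ z : V, z ≠ 0 ∧ qf j z = 0 ∧
      z ∈ H5.perp (qf j) (OU.kspan j u' ⊔ OU.kspan j u ⊔ OU.kspan j y) := by
    set U := H5.perp (qf j) (OU.kspan j u' ⊔ OU.kspan j u ⊔ OU.kspan j y) with hUdef
    have h1 := H5.finrank_perp_add hU.nondeg (OU.kspan j u' ⊔ OU.kspan j u ⊔ OU.kspan j y)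
    have h2 := Submodule.finrank_add_le_finrank_add_finrank (OU.kspan j u' ⊔ OU.kspan j u) (OU.kspan j y)
    have h3 := OU.finrank_sup_kspan_le (J := j) u' u
    have h4 := OU.finrank_kspan_le (J := j) y
    have h5 : 3 ≤ Module.finrank F U := by
      change Module.finrank F U + _ = _ at h1
      omega
    obtain ⟨x, hx0, hx⟩ := H4.exists_singular_of_three_le ((qf j).comp U.subtype) h5
    exact ⟨(x : V), fun h => hx0 (Subtype.ext h), hx, x.2⟩
  have hzz : ∀ p ∈ OU.kspan j u' ⊔ OU.kspan j u ⊔ OU.kspan j y, β p z = 0 ∧ β p (j z) = 0 := by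
    intro p hp
    have hst : j p ∈ OU.kspan j u' ⊔ OU.kspan j u ⊔ OU.kspan j y := by
      obtain ⟨a, ha, b, hb, rfl⟩ := Submodule.mem_sup.mp hp
      rw [map_add]
      exact add_mem (Submodule.mem_sup_left (hU.sup_stable u' u a ha)) (Submodule.mem_sup_right (hU.kspan_stable y b hb))
    refine ⟨?_, by rw [hsw, show polar (qf j) p z = 0 from hzS p hp, mul_zero]⟩
    rw [beta_swap z p, hpol, polar_comm, show polar (qf j) (j p) z = 0 from hzS _ hst, mul_zero, neg_zero]
  obtain ⟨zu, zju⟩ := hzz u (Submodule.mem_sup_left (Submodule.mem_sup_right (OU.mem_kspan_self u)))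
  obtain ⟨zu', zju'⟩ := hzz u' (Submodule.mem_sup_left (Submodule.mem_sup_left (OU.mem_kspan_self u')))
  obtain ⟨zy, zjy⟩ := hzz y (Submodule.mem_sup_right (OU.mem_kspan_self y))
  -- the moved root element
  have hmove : ∀ t b : F, spTrans (u + t • z) b * spTrans u (-b) ∈ M := by
    intro t b
    set z' := (-(t * ν⁻¹)) • z with hz'def
    have hz' : qf j z' = 0 := by rw [hz'def, QuadraticMap.map_smul, hz, smul_zero]
    have hyz : qf j (y + z') = 0 := by
      rw [QuadraticMap.map_add (⇑(qf j)), hy, hz', H.polar_qf, hz'def, map_smul, map_smul, zjy]; simp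
    set E := tau j ν (y + z') 1 * tau j ν y (-1) * tau j ν z' (-1) with hE
    have hEs : E ∈ Cfsg.spGL m F :=
      Subgroup.mul_mem _ (Subgroup.mul_mem _ (tau_mem _ _) (tau_mem _ _)) (tau_mem _ _)
    have hEM : E ∈ M := M.mul_mem (M.mul_mem (hM _ (tau_mem _ _) (H.tau_norm hyz 1))
      (hM _ (tau_mem _ _) (H.tau_norm hy (-1)))) (hM _ (tau_mem _ _) (H.tau_norm hz' (-1)))
    have e1 : (E : Mat) *ᵥ u = u + t • z := by
      rw [hE]
      simp only [Units.val_mul, ← Matrix.mulVec_mulVec, H.tau_mulVec hyz, H.tau_mulVec hy, H.tau_mulVec hz']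
      simp only [hz'def,
        map_add, map_smul, LinearMap.add_apply, LinearMap.smul_apply, smul_eq_mul, zu, zju, buy, bujy, zy, zjy,
        beta_self, (H.iso hy).1, mul_zero, zero_smul, add_zero]
      match_scalars <;> field_simp <;> ring
    have e2 : (E : Mat) *ᵥ u' = u' := by
      rw [hE]
      simp only [Units.val_mul, ← Matrix.mulVec_mulVec, H.tau_mulVec hyz, H.tau_mulVec hy, H.tau_mulVec hz']
      simp only [hz'def,
        map_add, map_smul, LinearMap.add_apply, smul_eq_mul, zu', zju', bu'y, bu'jy, mul_zero, zero_smul, add_zero]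
    clear_value E
    set b' := -(b * ν⁻¹) with hb'
    have h1 := M.mul_mem (M.mul_mem (M.mul_mem hEM (hconj b')) (M.inv_mem hEM)) (M.inv_mem (hconj b'))
    have key : E * (spTrans u (-(ν * b')) * spTrans u' b') * E⁻¹ * (spTrans u (-(ν * b')) * spTrans u' b')⁻¹ =
        spTrans (u + t • z) b * spTrans u (-b) := by
      have k1 : -(ν * b') = b := by rw [hb']; field_simp
      have k2 : spTrans u (-b) = (spTrans u b)⁻¹ := by
        refine (inv_eq_of_mul_eq_one_right (gl_ext fun x => ?_)).symm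
        simp only [Units.val_mul, ← Matrix.mulVec_mulVec, spTrans_mulVec, map_add, map_smul, LinearMap.add_apply,
          LinearMap.smul_apply, smul_eq_mul, beta_self, mul_zero, add_zero, Units.val_one, Matrix.one_mulVec]
        module
      rw [k1, k2, mul_inv_rev,
        show E * (spTrans u b * spTrans u' b') * E⁻¹ = (E * spTrans u b * E⁻¹) * (E * spTrans u' b' * E⁻¹) by group,
        conj_spTrans hEs, conj_spTrans hEs, e1, e2]
      group
    rwa [key] at h1
  refine ⟨z, hz0, hz, fun c => ?_⟩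
  have h := M.mul_mem (hmove 1 (c / 2)) (hmove (-1) (c / 2))
  convert h using 1
  refine gl_ext fun x => ?_
  have zu2 : β z u = 0 := by rw [beta_swap u z, zu, neg_zero]
  simp only [Units.val_mul, ← Matrix.mulVec_mulVec, spTrans_mulVec, map_add, map_smul, LinearMap.add_apply,
    LinearMap.smul_apply, smul_eq_mul, beta_self, zu, zu2, mul_zero, zero_smul, add_zero]
  match_scalars <;> field_simp [H.two] <;> ring

/-- An element outside the normaliser generates the symplectic group. -/
theorem SJ.spGL_le {g : GL (Fin m ⊕ Fin m) F} (hg : g ∈ M) (hgn : ¬ NormM j g) : Cfsg.spGL m F ≤ M := by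
  classical
  have hU := H.us
  have hν := H.nu_ne
  obtain ⟨z₀, hz₀0, hz₀, hroot⟩ := H.exists_root hsp hM hg hgn
  let C : Set V := {v | ∀ d, spTrans v d ∈ M}
  have hsmul : ∀ (k : F), ∀ v ∈ C, k • v ∈ C := fun k v hv d => by rw [spTrans_smul]; exact hv _
  have hconj : ∀ g ∈ M, ∀ v ∈ C, (g : Mat) *ᵥ v ∈ C := fun g hg v hv d => by
    rw [← conj_spTrans (hsp hg)]; exact M.mul_mem (M.mul_mem hg (hv d)) (M.inv_mem hg)
  have hadd : ∀ u ∈ C, ∀ v ∈ C, β u v ≠ 0 → u + v ∈ C := fun u hu v hv huv => by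
    have := hconj _ (hv (β u v)⁻¹) u hu
    rwa [spTrans_mulVec, inv_mul_cancel₀ huv, one_smul] at this
  -- partners of isotropic centres
  have hpartner : ∀ z ∈ C, qf j z = 0 → ∀ w, qf j w = 0 → β z (j w) = 0 → β z w ≠ 0 → w ∈ C := by
    intro z hzC hz w hw h1 h2
    have h3 := hconj _ (hM _ (tau_mem w 1) (H.tau_norm hw 1)) z hzC
    rw [H.tau_mulVec hw, h1] at h3
    simp only [mul_zero, zero_smul, add_zero, mul_one] at h3
    have h4 := hadd _ h3 _ (hsmul (-1) z hzC) (by simp [hν, h2, beta_self, beta_swap z w])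
    have h5 := hsmul (-(ν * β z w))⁻¹ _ h4
    convert h5 using 1
    match_scalars <;> field_simp
    ring
  -- first partner
  have hprod : ∀ a b : V, β a b = (2 * ν)⁻¹ * polar (qf j) a (j b) := fun a b => by
    rw [H.polar_qf, H.sq, map_smul, smul_eq_mul, ← mul_assoc 2 ν, inv_mul_cancel_left₀ (mul_ne_zero H.two hν)]
  have hadj : ∀ a b : V, polar (qf j) a (j b) = - polar (qf j) (j a) b := fun a b => by
    linear_combination hU.adj a b
  have hkz : ∀ z b : V, z ≠ 0 → b ∉ OU.kspan j z →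
      ∃ w, qf j w = 0 ∧ β z (j w) = 0 ∧ β z w = 1 ∧ β b w = 1 := by
    intro z b hz0 hb
    have hz0' : z ∉ (⊥ : Submodule F V) := by simpa using hz0
    have hbot : ∀ y ∈ (⊥ : Submodule F V), j y ∈ (⊥ : Submodule F V) := fun y hy => by
      rw [Submodule.mem_bot] at hy ⊢; rw [hy, map_zero]
    have hjb : j b ∉ OU.kspan j z := fun hm => one_ne_zero (hU.closure (hU.kspan_stable z) hb
      (show (0 : F) • b + (1 : F) • j b ∈ OU.kspan j z by rwa [zero_smul, one_smul, zero_add])).2
    have hjz : j z ∉ Submodule.span F ({z, j b} : Set V) := fun hm => by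
      obtain ⟨a, c, e⟩ := Submodule.mem_span_pair.mp hm
      rcases eq_or_ne c 0 with rfl | hc
      · refine one_ne_zero (hU.closure hbot hz0' (show (-a) • z + (1 : F) • j z ∈ (⊥ : Submodule F V) by
          rw [Submodule.mem_bot, ← e, zero_smul]; module)).2
      · refine hjb ?_
        have : j b = c⁻¹ • (j z - a • z) := by
          rw [← e, add_sub_cancel_left, smul_smul, inv_mul_cancel₀ hc, one_smul]
        rw [this]
        exact Submodule.smul_mem _ _ (sub_mem (OU.mem_kspan_apply z) (Submodule.smul_mem _ _ (OU.mem_kspan_self z)))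
    obtain ⟨y₁, y1b, y1S⟩ := hU.exists_dual hjb
    obtain ⟨y₂, y2z, y2S⟩ := hU.exists_dual hjz
    obtain ⟨w, hw, -, hwp⟩ := hU.exists_shift (OU.kspan j z ⊔ Submodule.span F {j b})
      (by rw [Submodule.finrank_sup_span_singleton hjb]
          have := OU.finrank_kspan_le (J := j) z; have := hU.big; omega) ((-(2 * ν)) • (y₁ + y₂))
    have v1 : polar (qf j) w z = 0 := by
      rw [hwp z (Submodule.mem_sup_left (OU.mem_kspan_self z)), polar_smul_left, polar_add_left,
        y1S z (OU.mem_kspan_self z), y2S z (Submodule.subset_span (by simp)), add_zero, smul_zero]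
    have v2 : polar (qf j) w (j z) = -(2 * ν) := by
      rw [hwp _ (Submodule.mem_sup_left (OU.mem_kspan_apply z)), polar_smul_left, polar_add_left,
        y1S _ (OU.mem_kspan_apply z), y2z, zero_add, smul_eq_mul, mul_one]
    have v3 : polar (qf j) w (j b) = -(2 * ν) := by
      rw [hwp _ (Submodule.mem_sup_right (Submodule.mem_span_singleton_self _)), polar_smul_left, polar_add_left,
        y1b, y2S _ (Submodule.subset_span (by simp)), add_zero, smul_eq_mul, mul_one]
    refine ⟨w, hw, ?_, ?_, ?_⟩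
    · have := H.polar_qf z w
      rw [polar_comm, v1] at this
      exact (mul_eq_zero.mp this.symm).resolve_left H.two
    · rw [hprod, hadj, polar_comm, v2]; field_simp [H.two, hν]
    · rw [hprod, hadj, polar_comm, v3]; field_simp [H.two, hν]
  obtain ⟨b₀, hb₀⟩ : ∃ b₀, b₀ ∉ OU.kspan j z₀ := by
    by_contra hc
    push Not at hc
    have h1 := Submodule.finrank_mono (show (⊤ : Submodule F V) ≤ OU.kspan j z₀ from fun x _ => hc x)
    rw [finrank_top] at h1
    have := OU.finrank_kspan_le (J := j) z₀; have := hU.big; omega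
  obtain ⟨w₁, hw₁, hw₁j, hw₁z, -⟩ := hkz z₀ b₀ hz₀0 hb₀
  have hw₁C : w₁ ∈ C := hpartner z₀ hroot hz₀ w₁ hw₁ hw₁j (by rw [hw₁z]; exact one_ne_zero)
  -- a maximal saturated subspace
  let Good : Submodule F V → Prop := fun S => ∀ y ∈ S, (∃ s ∈ S, β s y ≠ 0) → y ∈ C
  have hgrow : ∀ S : Submodule F V, Good S → (∃ p ∈ S, ∃ p' ∈ S, β p' p ≠ 0) → ∀ v ∈ C,
      (∃ s ∈ S, β s v ≠ 0) → Good (S ⊔ Submodule.span F {v}) := by
    intro S hS hp v hv hsv
    have reach : ∀ (y a : V) (k : F), a ∈ C → β y a ≠ 0 → y + k • a ∈ C → y ∈ C := by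
      intro y a k ha hne hm
      rcases eq_or_ne k 0 with rfl | hk
      · simpa using hm
      have := hadd _ hm _ (hsmul (-k) a ha) (by simp [hk, hne, beta_self])
      rwa [neg_smul, ← sub_eq_add_neg, add_sub_cancel_right] at this
    obtain ⟨a, ha, hav, c, hc, hca⟩ : ∃ a ∈ S, β a v ≠ 0 ∧ ∃ c ∈ S, β c a ≠ 0 := by
      obtain ⟨a, ha, hav⟩ := hsv
      obtain ⟨p, hpS, p', hp', hpp⟩ := hp
      by_cases hra : ∃ c ∈ S, β c a ≠ 0
      · exact ⟨a, ha, hav, hra⟩
      push Not at hra
      by_cases hpv : β p v = 0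
      · exact ⟨a + p, S.add_mem ha hpS, by simpa [hpv] using hav, p', hp', by simpa [hra p' hp'] using hpp⟩
      · exact ⟨p, hpS, hpv, p', hp', hpp⟩
    have haC : a ∈ C := hS a ha ⟨c, hc, hca⟩
    -- vectors meeting the new one
    have case1 : ∀ x ∈ S, ∀ t : F, β x v ≠ 0 → x + t • v ∈ C := by
      have sub : ∀ x ∈ S, ∀ t : F, β x v ≠ 0 → (∃ s ∈ S, β s x ≠ 0) → x + t • v ∈ C := fun x hx t hxv hrad =>
        reach _ v (-t) hv (by simpa [beta_self] using hxv)
          (by rw [add_assoc, ← add_smul, add_neg_cancel, zero_smul, add_zero]; exact hS x hx hrad)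
      intro x hx
      by_cases hrad : ∃ s ∈ S, β s x ≠ 0
      · exact fun t hxv => sub x hx t hxv hrad
      push Not at hrad
      have main : ∀ t : F, t ≠ 0 → β x v ≠ 0 → x + t • v ∈ C := by
        intro t ht hxv
        obtain ⟨k, hk, hkv⟩ : ∃ k : F, k ≠ 0 ∧ β x v + k * β a v ≠ 0 := by
          by_cases h : β x v + 1 * β a v = 0
          · refine ⟨-1, by simp, fun h' => hxv ?_⟩
            exact (mul_eq_zero.mp (show (2 : F) * β x v = 0 by linear_combination h + h')).resolve_left H.two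
          · exact ⟨1, one_ne_zero, h⟩
        refine reach _ a k haC ?_ ?_
        · have hxa : β x a = 0 := by rw [beta_swap a x, hrad a ha, neg_zero]
          simpa [hxa, ht, beta_swap a v] using hav
        · rw [show x + t • v + k • a = (x + k • a) + t • v by abel]
          exact sub _ (S.add_mem hx (S.smul_mem k ha)) t (by simpa using hkv)
            ⟨c, hc, by simpa [hrad c hc, hk] using hca⟩
      intro t hxv
      rcases eq_or_ne t 0 with rfl | ht
      · rw [zero_smul, add_zero]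
        exact reach _ v 1 hv hxv (main 1 one_ne_zero hxv)
      · exact main t ht hxv
    intro y hy hy'
    obtain ⟨x, hx, s, hs, rfl⟩ := Submodule.mem_sup.mp hy
    obtain ⟨t, rfl⟩ := Submodule.mem_span_singleton.mp hs
    by_cases hxv : β x v = 0
    swap
    · exact case1 x hx t hxv
    obtain ⟨q, hq, hqy⟩ := hy'
    obtain ⟨s, hsS, q', hq', rfl⟩ := Submodule.mem_sup.mp hq
    obtain ⟨t', rfl⟩ := Submodule.mem_span_singleton.mp hq'
    have hvy : β v (x + t • v) = 0 := by simp [beta_swap x v, hxv, beta_self]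
    have hsy : β s (x + t • v) ≠ 0 := by
      simp only [map_add, map_smul, LinearMap.add_apply, LinearMap.smul_apply, smul_eq_mul, beta_self] at hqy hvy ⊢
      intro h; refine hqy ?_; linear_combination h + t' * hvy
    -- a good vector pairing with `y`
    obtain ⟨s', hs', hs'y, hs'v, hs'r⟩ : ∃ s' ∈ S, β s' (x + t • v) ≠ 0 ∧ β s' v ≠ 0 ∧ ∃ c ∈ S, β c s' ≠ 0 := by
      by_cases hay : β a (x + t • v) = 0
      swap
      · exact ⟨a, ha, hay, hav, c, hc, hca⟩
      suffices ∃ k : F, β s v + k * β a v ≠ 0 ∧ β c s + k * β c a ≠ 0 by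
        obtain ⟨k, k1, k2⟩ := this
        refine ⟨s + k • a, S.add_mem hsS (S.smul_mem k ha), ?_, by simpa using k1, c, hc, by simpa using k2⟩
        simp only [map_add, map_smul, LinearMap.add_apply, LinearMap.smul_apply, smul_eq_mul] at hay hsy ⊢
        intro h; refine hsy ?_; linear_combination h - k * hay
      by_contra hcon
      push Not at hcon
      have three : ∀ k k' : F, k ≠ k' → β s v + k * β a v = 0 → β s v + k' * β a v ≠ 0 := fun k k' hkk h1 h2 =>
        hav ((mul_eq_zero.mp (show (k - k') * β a v = 0 by linear_combination h1 - h2)).resolve_left (sub_ne_zero.mpr hkk))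
      have three' : ∀ k k' : F, k ≠ k' → β c s + k * β c a = 0 → β c s + k' * β c a ≠ 0 := fun k k' hkk h1 h2 =>
        hca ((mul_eq_zero.mp (show (k - k') * β c a = 0 by linear_combination h1 - h2)).resolve_left (sub_ne_zero.mpr hkk))
      have n01 : (0 : F) ≠ 1 := zero_ne_one
      have n02 : (0 : F) ≠ -1 := fun h => n01 (by linear_combination -h)
      have n12 : (1 : F) ≠ -1 := fun h => H.two (by linear_combination h)
      by_cases a0 : β s v + 0 * β a v = 0
      · exact three' 1 (-1) n12 (hcon 1 (three 0 1 n01 a0)) (hcon (-1) (three 0 (-1) n02 a0))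
      by_cases a1 : β s v + 1 * β a v = 0
      · exact three' 0 (-1) n02 (hcon 0 a0) (hcon (-1) (three 1 (-1) n12 a1))
      · exact three' 0 1 n01 (hcon 0 a0) (hcon 1 a1)
    refine reach _ s' 1 (hS s' hs' hs'r) (fun h => hs'y (by rw [beta_swap (x + t • v) s', h, neg_zero])) ?_
    rw [one_smul, show x + t • v + s' = (x + s') + t • v by abel]
    exact case1 _ (S.add_mem hx hs') t (by simpa [hxv] using hs'v)
  obtain ⟨S, ⟨hS, hzS, hwS⟩, hmax⟩ :=
    (wellFounded_gt : WellFounded ((· > ·) : Submodule F V → Submodule F V → Prop)).has_min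
      {S | Good S ∧ z₀ ∈ S ∧ w₁ ∈ S} ⟨Submodule.span F {z₀, w₁}, fun y hy _ => by
        obtain ⟨a, b, rfl⟩ := Submodule.mem_span_pair.mp hy
        rcases eq_or_ne a 0 with rfl | ha
        · rw [zero_smul, zero_add]; exact hsmul b _ hw₁C
        rcases eq_or_ne b 0 with rfl | hb
        · rw [zero_smul, add_zero]; exact hsmul a _ hroot
        exact hadd _ (hsmul a _ hroot) _ (hsmul b _ hw₁C) (by simp [hw₁z, ha, hb]),
        Submodule.subset_span (by simp), Submodule.subset_span (by simp)⟩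
  have hsat : ∀ v ∈ C, (∃ s ∈ S, β s v ≠ 0) → v ∈ S := fun v hv h => by
    by_contra hn
    refine hmax (S ⊔ Submodule.span F {v}) ⟨hgrow S hS ⟨w₁, hwS, z₀, hzS, by rw [hw₁z]; exact one_ne_zero⟩ v hv h,
      Submodule.mem_sup_left hzS, Submodule.mem_sup_left hwS⟩ ?_
    refine lt_of_le_of_ne le_sup_left fun e => hn ?_
    rw [e]; exact Submodule.mem_sup_right (Submodule.mem_span_singleton_self v)
  have hperp : ∀ b : V, (∀ s ∈ S, β b s = 0) → b = 0 := by
    intro b hb
    have key : ∀ z, z ∈ C → z ∈ S → z ≠ 0 → qf j z = 0 → b ∈ OU.kspan j z := fun z hzC hzS' hz0 hz => by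
      by_contra hn
      obtain ⟨w, hw, hwj, hwz, hbw⟩ := hkz z b hz0 hn
      have hwC := hpartner z hzC hz w hw hwj (by rw [hwz]; exact one_ne_zero)
      rw [hb w (hsat w hwC ⟨z, hzS', by rw [hwz]; exact one_ne_zero⟩)] at hbw
      exact zero_ne_one hbw
    have hw₁0 : w₁ ≠ 0 := fun h => by rw [h, map_zero] at hw₁z; exact zero_ne_one hw₁z
    have hn : w₁ ∉ OU.kspan j z₀ := fun hm => by
      obtain ⟨p, r, e⟩ := Submodule.mem_span_pair.mp hm
      rw [← e, map_add, map_smul, map_smul, beta_self, (H.iso hz₀).1] at hw₁z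
      simp at hw₁z
    obtain ⟨p, r, e⟩ := Submodule.mem_span_pair.mp (key w₁ hw₁C hwS hw₁0 hw₁)
    have hmem := key z₀ hroot hzS hz₀0 hz₀
    rw [← e] at hmem
    obtain ⟨rfl, rfl⟩ := hU.closure (hU.kspan_stable z₀) hn hmem
    rw [← e]; simp
  have htop : ∀ x : V, x ∈ S := by
    by_contra hc
    push Not at hc
    obtain ⟨x, hx⟩ := hc
    obtain ⟨y, hy1, hyS⟩ := hU.exists_dual hx
    have := hperp (j y) fun s hs => by
      have h1 := H.polar_qf y s
      rw [hyS s hs] at h1
      rw [H.anti, (mul_eq_zero.mp h1.symm).resolve_left H.two, neg_zero]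
    rw [H.free 0 y (by rw [zero_smul]; exact this), polar_zero_left] at hy1
    exact zero_ne_one hy1
  refine spGL_le_of_spTrans M fun v d => ?_
  rcases eq_or_ne v 0 with rfl | hv
  · rw [spTrans_zero_vec]; exact M.one_mem
  refine hS v (htop v) ?_ d
  by_contra hc
  push Not at hc
  exact hv ((H2.sympBilin_nondegenerate m F).1 v fun y => by rw [beta_swap y v, hc y (htop y), neg_zero])

end Cfsg.Agent.H98.SU2
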