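import Cfsg.Agent.H98.SubfieldBase
import Cfsg.Agent.H98.Decomp

set_option autoImplicit false

/-!
Overgroups of the subfield subgroup in `SL`: an element of a proper overgroup stabilising a rational subspace
already lies in the subfield subgroup.
-/

namespace Cfsg.Agent.H98

open scoped Matrix

variable {ι : Type} [Fintype ι] [DecidableEq ι] {F : Type*} [Field F] [Fintype F] [Nonempty ι]

/-- Overgroups of the subfield subgroup inside `SL` that are proper. -/
structure IsProperOver (F₀ : Subfield F) (M : Subgroup (GL ι F)) : Prop where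
  le : subGroupF ι F₀ ⊓ Cfsg.Geo.specialLinear ι F ≤ M
  le_sl : M ≤ Cfsg.Geo.specialLinear ι F
  proper : ¬ Cfsg.Geo.specialLinear ι F ≤ M

theorem sl_conj_mem (G g : GL ι F) (hg : g ∈ Cfsg.Geo.specialLinear ι F) :
    G * g * G⁻¹ ∈ Cfsg.Geo.specialLinear ι F := by
  rw [Cfsg.Geo.specialLinear, MonoidHom.mem_ker] at hg ⊢
  simp [hg]

theorem isProperOver_conj {F₀ : Subfield F} {M : Subgroup (GL ι F)} (hM : IsProperOver F₀ M) {G : GL ι F}
    (hG : G ∈ subGroupF ι F₀) : IsProperOver F₀ (M.comap (MulAut.conj G).toMonoidHom) := by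
  refine ⟨fun g hg => hM.le ⟨Subgroup.mul_mem _ (Subgroup.mul_mem _ hG hg.1) (Subgroup.inv_mem _ hG), sl_conj_mem G g hg.2⟩, fun g hg => ?_,
    fun h => hM.proper fun g hg => ?_⟩
  · have h1 := sl_conj_mem G⁻¹ _ (hM.le_sl hg)
    simpa [MulAut.conj, mul_assoc] using h1
  · have h1 := h (sl_conj_mem G⁻¹ g hg)
    simpa [MulAut.conj, mul_assoc] using h1

variable {F₀ : Subfield F} {r : ℕ}

/-- One elementary transvection with a scalar outside the subfield generates everything. -/
theorem sl_le_of_new_scalar (hn : 3 ≤ Fintype.card ι) (hr : r.Prime) (hcard : Fintype.card F = Nat.card F₀ ^ r)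
    {M : Subgroup (GL ι F)} (hM : subGroupF ι F₀ ⊓ Cfsg.Geo.specialLinear ι F ≤ M) {l m : ι} (hlm : l ≠ m)
    {c : F} (hc : c ∉ F₀) (hmem : elm hlm c ∈ M) : Cfsg.Geo.specialLinear ι F ≤ M := by
  classical
  have hone : ∀ (x y : ι) (h : x ≠ y), elm h (1 : F) ∈ M := fun x y h => hM (elm_mem_subGroupF h (one_mem _))
  have hcomm : ∀ (x y z : ι) (hxy : x ≠ y) (hyz : y ≠ z) (hxz : x ≠ z) (a b : F), elm hxy a ∈ M → elm hyz b ∈ M →
      elm hxz (a * b) ∈ M := fun x y z hxy hyz hxz a b ha hb => by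
    rw [← elm_comm hxy hyz hxz]
    exact M.mul_mem (M.mul_mem (M.mul_mem ha hb) (M.inv_mem ha)) (M.inv_mem hb)
  have hthird : ∀ x y : ι, ∃ z, z ≠ x ∧ z ≠ y := fun x y => by
    have : ((Finset.univ : Finset ι) \ {x, y}).Nonempty := by
      rw [← Finset.card_pos, Finset.card_sdiff_of_subset (Finset.subset_univ _), Finset.card_univ]
      have : ({x, y} : Finset ι).card ≤ 2 := Finset.card_le_two
      omega
    obtain ⟨z, hz⟩ := this
    simp only [Finset.mem_sdiff, Finset.mem_univ, true_and, Finset.mem_insert, Finset.mem_singleton, not_or] at hz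
    exact ⟨z, hz⟩
  have hall : ∀ (x y : ι) (h : x ≠ y), elm h c ∈ M := by
    have hrow : ∀ (x y z : ι) (h : x ≠ y) (h' : z ≠ y), elm h c ∈ M → elm h' c ∈ M := by
      intro x y z h h' hm
      by_cases hzx : z = x
      · subst hzx; exact hm
      · simpa using hcomm z x y hzx h h' 1 c (hone _ _ _) hm
    have hcol : ∀ (x y z : ι) (h : x ≠ y) (h' : x ≠ z), elm h c ∈ M → elm h' c ∈ M := by
      intro x y z h h' hm
      by_cases hzy : y = z
      · subst hzy; exact hm
      · simpa using hcomm x y z h hzy h' c 1 hm (hone _ _ _)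
    intro x y h
    obtain ⟨z, hzm, hzy⟩ := hthird m y
    exact hrow z y x hzy h (hcol z m y hzm hzy (hrow l m z hlm hzm hmem))
  let Lam : Subalgebra F₀ F :=
    { carrier := {a | ∀ (x y : ι) (h : x ≠ y), elm h a ∈ M}
      mul_mem' := fun {a b} ha hb x y h => by
        obtain ⟨z, hzx, hzy⟩ := hthird x y
        exact hcomm x z y hzx.symm hzy h a b (ha _ _ _) (hb _ _ _)
      add_mem' := fun {a b} ha hb x y h => by rw [← elm_mul]; exact M.mul_mem (ha _ _ _) (hb _ _ _)
      algebraMap_mem' := fun a x y h => hM (elm_mem_subGroupF h a.2) }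
  have htop : Lam = ⊤ := by
    let K : IntermediateField F₀ F := Lam.toIntermediateField' (Subalgebra.isField_of_algebraic Lam)
    have hdim : (Module.finrank F₀ F).Prime := by
      haveI := Fintype.ofFinite F₀
      have h1 := Module.card_eq_pow_finrank (K := F₀) (V := F)
      rw [hcard, Nat.card_eq_fintype_card] at h1
      rwa [← Nat.pow_right_injective (Fintype.one_lt_card (α := F₀)) h1]
    haveI := IntermediateField.isSimpleOrder_of_finrank_prime F₀ F hdim
    rcases eq_bot_or_eq_top K with hK | hK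
    · exfalso
      have hcK : c ∈ K := (show ∀ (x y : ι) (h : x ≠ y), elm h c ∈ M from hall)
      rw [hK, IntermediateField.mem_bot] at hcK
      obtain ⟨a, ha⟩ := hcK
      exact hc (ha ▸ a.2)
    · refine eq_top_iff.mpr fun a _ => ?_
      exact (show a ∈ K from hK ▸ IntermediateField.mem_top)
  exact sl_le_of_elm M fun x y h a => (show a ∈ Lam from htop ▸ Algebra.mem_top) x y h

section
variable (hn : 3 ≤ Fintype.card ι) (hr : r.Prime) (hcard : Fintype.card F = Nat.card F₀ ^ r)
include hn hr hcard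

/-- Transvections of a proper overgroup with a rational centre are rational. -/
theorem functional_rational {M : Subgroup (GL ι F)} (hM : IsProperOver F₀ M) (φ : (ι → F) →ₗ[F] F) (a : ι → F)
    (ha : φ a = 0) (har : ∀ l, a l ∈ F₀) (ha0 : a ≠ 0) (hmem : transGL φ a ha ∈ M) (l : ι) :
    φ (Pi.single l 1) ∈ F₀ := by
  classical
  obtain ⟨p, hp⟩ : ∃ p, a p ≠ 0 := Function.ne_iff.mp ha0
  -- a rational change of basis sending `e_p` to `a`
  let L : (ι → F) →ₗ[F] (ι → F) := LinearMap.id + (LinearMap.proj p).smulRight (a - Pi.single p 1)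
  have hL : ∀ v, L v = v + v p • (a - Pi.single p 1) := fun v => rfl
  have hinj : Function.Injective L := by
    rw [injective_iff_map_eq_zero]
    intro v hv
    rw [hL] at hv
    have h1 := congrFun hv p
    simp only [Pi.add_apply, Pi.smul_apply, Pi.sub_apply, Pi.single_eq_same, smul_eq_mul, Pi.zero_apply] at h1
    have h2 : v p = 0 := (mul_eq_zero.mp (show v p * a p = 0 by linear_combination h1)).resolve_right hp
    rwa [h2, zero_smul, add_zero] at hv
  let G := glOfEquiv (LinearEquiv.ofInjectiveEndo L hinj)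
  have hG : ∀ v, (G : Matrix ι ι F) *ᵥ v = v + v p • (a - Pi.single p 1) := fun v => by simp [G, hL]
  have hGS : G ∈ subGroupF ι F₀ := mem_subGroupF.mpr ⟨1, one_ne_zero, fun x y => by
    rw [one_mul]
    have := congrFun (hG (Pi.single y 1)) x
    rw [Matrix.mulVec_single_one, Matrix.col_apply] at this
    rw [this, Pi.add_apply, Pi.smul_apply, Pi.sub_apply, smul_eq_mul]
    have hs : ∀ u w : ι, (Pi.single u (1 : F) : ι → F) w ∈ F₀ := fun u w => by
      rw [Pi.single_apply]; split_ifs <;> first | exact one_mem _ | exact zero_mem _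
    exact add_mem (hs _ _) (mul_mem (hs _ _) (sub_mem (har x) (hs _ _)))⟩
  have hGp : (G : Matrix ι ι F) *ᵥ Pi.single p 1 = a := by
    rw [hG, Pi.single_eq_same, one_smul, add_sub_cancel]
  have hGl : ∀ q, q ≠ p → (G : Matrix ι ι F) *ᵥ Pi.single q 1 = Pi.single q 1 := fun q hq => by
    rw [hG, Pi.single_eq_of_ne hq.symm, zero_smul, add_zero]
  have hM' := isProperOver_conj hM hGS
  set ψ : (ι → F) →ₗ[F] F := φ.comp (Matrix.mulVecLin (G : Matrix ι ι F))
  have hψp : ψ (Pi.single p 1) = 0 := by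
    simp only [ψ, LinearMap.comp_apply, Matrix.mulVecLin_apply, hGp, ha]
  have hmem' : transGL ψ (Pi.single p 1) hψp ∈ M.comap (MulAut.conj G).toMonoidHom := by
    change G * _ * G⁻¹ ∈ M
    rw [conj_transGL]
    convert hmem using 1
    refine gl_ext fun v => ?_
    rw [transGL_mulVec, transGL_mulVec]
    simp only [ψ, LinearMap.comp_apply, Matrix.mulVecLin_apply, gl_mulVec_inv, hGp]
  have hoff : ∀ q, q ≠ p → ψ (Pi.single q 1) ∈ F₀ := by
    intro q hq
    obtain ⟨z, hz⟩ : ((Finset.univ : Finset ι) \ {q, p}).Nonempty := by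
      rw [← Finset.card_pos, Finset.card_sdiff_of_subset (Finset.subset_univ _), Finset.card_univ]
      have : ({q, p} : Finset ι).card ≤ 2 := Finset.card_le_two
      omega
    simp only [Finset.mem_sdiff, Finset.mem_univ, true_and, Finset.mem_insert, Finset.mem_singleton, not_or] at hz
    by_contra hcon
    have hw : elm (Ne.symm hz.1) (1 : F) ∈ M.comap (MulAut.conj G).toMonoidHom :=
      hM'.le (elm_mem_subGroupF _ (one_mem _))
    have hkey := (M.comap (MulAut.conj G).toMonoidHom).mul_mem (Subgroup.mul_mem _ (Subgroup.mul_mem _ hw hmem')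
      (Subgroup.inv_mem _ hw)) (Subgroup.inv_mem _ hmem')
    have e : elm (Ne.symm hz.1) (1 : F) * transGL ψ (Pi.single p 1) hψp * (elm (Ne.symm hz.1) (1 : F))⁻¹ *
        (transGL ψ (Pi.single p 1) hψp)⁻¹ = elm (Ne.symm hz.2) (-ψ (Pi.single q 1)) := by
      rw [mul_inv_eq_iff_eq_mul, mul_inv_eq_iff_eq_mul]
      refine gl_ext fun v => ?_
      simp only [Units.val_mul, ← Matrix.mulVec_mulVec, elm_mulVec, transGL_mulVec, map_add, map_smul,
        Pi.add_apply, Pi.smul_apply, Pi.single_eq_of_ne (Ne.symm hz.1).symm, Pi.single_eq_of_ne (Ne.symm hz.2).symm,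
        smul_eq_mul, mul_zero, add_zero, one_mul]
      module
    rw [e] at hkey
    exact hM'.proper (sl_le_of_new_scalar hn hr hcard hM'.le _
      (fun h => hcon (by simpa using neg_mem h)) hkey)
  by_cases hlp : l = p
  · subst hlp
    -- `φ a = 0` expresses the last value
    have h1 : ∑ q, a q * φ (Pi.single q 1) = 0 := by
      rw [← ha]
      conv_rhs => rw [pi_eq_sum_univ' a]
      simp [map_sum]
    rw [← Finset.add_sum_erase _ _ (Finset.mem_univ l)] at h1
    have h2 : φ (Pi.single l 1) = -(∑ q ∈ Finset.univ.erase l, a q * φ (Pi.single q 1)) / a l := by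
      rw [eq_div_iff hp]; linear_combination h1
    rw [h2]
    refine div_mem (neg_mem (sum_mem fun q hq => mul_mem (har q) ?_)) (har l)
    have := hoff q (Finset.ne_of_mem_erase hq)
    simpa only [ψ, LinearMap.comp_apply, Matrix.mulVecLin_apply, hGl q (Finset.ne_of_mem_erase hq)] using this
  · have := hoff l hlp
    simpa only [ψ, LinearMap.comp_apply, Matrix.mulVecLin_apply, hGl l hlp] using this

/-- Elements `1 + N` with `N` supported on rows in `S` and columns outside `S` are rational. -/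
theorem translation_rational {M : Subgroup (GL ι F)} (hM : IsProperOver F₀ M) (S : Finset ι) (u : GL ι F)
    (hu : u ∈ M) (hrow : ∀ (v : ι → F) (x : ι), x ∉ S → ((u : Matrix ι ι F) *ᵥ v) x = v x)
    (hcol : ∀ v : ι → F, (∀ x ∉ S, v x = 0) → (u : Matrix ι ι F) *ᵥ v = v) (s : ι) (hs : s ∈ S) (l : ι) :
    ((u : Matrix ι ι F) *ᵥ Pi.single l 1) s - (Pi.single l 1 : ι → F) s ∈ F₀ := by
  classical
  let φ : (ι → F) →ₗ[F] F := (LinearMap.proj s).comp (Matrix.mulVecLin (u : Matrix ι ι F) - LinearMap.id)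
  have hφ : ∀ v, φ v = ((u : Matrix ι ι F) *ᵥ v) s - v s := fun v => rfl
  have hφS : ∀ v : ι → F, (∀ x ∉ S, v x = 0) → φ v = 0 := fun v hv => by rw [hφ, hcol v hv, sub_self]
  have hsupp : ∀ (x : ι), x ∈ S → ∀ y ∉ S, (Pi.single x (1 : F) : ι → F) y = 0 := fun x hx y hy =>
    Pi.single_eq_of_ne (by rintro rfl; exact hy hx) _
  suffices h : ∃ a, ∃ ha : φ a = 0, (∀ q, a q ∈ F₀) ∧ a ≠ 0 ∧ transGL φ a ha ∈ M by
    obtain ⟨a, ha, har, ha0, hmem⟩ := h
    exact functional_rational hn hr hcard hM φ a ha har ha0 hmem l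
  by_cases hS : ∃ s' ∈ S, s' ≠ s
  · obtain ⟨s', hs', hne⟩ := hS
    refine ⟨Pi.single s' 1, hφS _ (hsupp s' hs'), fun q => ?_, by simp, ?_⟩
    · rw [Pi.single_apply]; split_ifs <;> first | exact one_mem _ | exact zero_mem _
    have hw : elm hne (1 : F) ∈ M := hM.le (elm_mem_subGroupF _ (one_mem _))
    have := M.mul_mem (M.mul_mem (M.mul_mem hw hu) (M.inv_mem hw)) (M.inv_mem hu)
    convert this using 1
    rw [eq_mul_inv_iff_mul_eq, eq_mul_inv_iff_mul_eq]
    refine gl_ext fun v => ?_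
    have h1 : (u : Matrix ι ι F) *ᵥ (v + v s • Pi.single s' 1) =
        (u : Matrix ι ι F) *ᵥ v + v s • Pi.single s' 1 := by
      rw [Matrix.mulVec_add, Matrix.mulVec_smul, hcol _ (hsupp s' hs')]
    have h2 : φ ((u : Matrix ι ι F) *ᵥ v + v s • Pi.single s' 1) = φ v := by
      rw [map_add, map_smul, hφS _ (hsupp s' hs'), smul_zero, add_zero]
      have h3 : φ ((u : Matrix ι ι F) *ᵥ v - v) = 0 := hφS _ fun x hx => by
        rw [Pi.sub_apply, hrow v x hx, sub_self]
      rw [map_sub, sub_eq_zero] at h3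
      exact h3
    simp only [Units.val_mul, ← Matrix.mulVec_mulVec, elm_mulVec, transGL_mulVec, h1, h2, one_mul]
    rw [hφ]
    module
  · push Not at hS
    refine ⟨Pi.single s 1, hφS _ (hsupp s hs), fun q => ?_, by simp, ?_⟩
    · rw [Pi.single_apply]; split_ifs <;> first | exact one_mem _ | exact zero_mem _
    convert hu using 1
    refine gl_ext fun v => funext fun x => ?_
    rw [transGL_mulVec, Pi.add_apply, Pi.smul_apply, hφ]
    by_cases hx : x = s
    · subst hx; simp
    · rw [Pi.single_eq_of_ne hx, smul_zero, add_zero, hrow v x (fun h => hx (hS x h))]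

/-- Elements stabilising a coordinate subspace lie in the subfield subgroup. -/
theorem coord_stab_mem {M : Subgroup (GL ι F)} (hM : IsProperOver F₀ M) (S : Finset ι) (hS : S.Nonempty)
    (hS2 : S.card + 2 ≤ Fintype.card ι) {y : GL ι F} (hy : y ∈ M)
    (hmap : ∀ v : ι → F, (∀ x ∉ S, v x = 0) → ∀ x ∉ S, ((y : Matrix ι ι F) *ᵥ v) x = 0) :
    y ∈ subGroupF ι F₀ := by
  classical
  let W : Submodule F (ι → F) :=
    { carrier := {v | ∀ x ∉ S, v x = 0}
      add_mem' := fun {a b} ha hb x hx => by rw [Pi.add_apply, ha x hx, hb x hx, add_zero]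
      zero_mem' := fun x _ => rfl
      smul_mem' := fun c a ha x hx => by rw [Pi.smul_apply, ha x hx, smul_zero] }
  have hstab : y ∈ Cfsg.Geo.subspaceStabilizer W := stab_of_maps_into fun v hv => hmap v hv
  set h := y⁻¹ with hh
  have hmap' : ∀ v : ι → F, (∀ x ∉ S, v x = 0) → ∀ x ∉ S, ((h : Matrix ι ι F) *ᵥ v) x = 0 := fun v hv =>
    ((mem_subspaceStabilizer.mp (Subgroup.inv_mem _ hstab)) v).mp (show v ∈ W from hv)
  have hsupp : ∀ (x : ι), x ∈ S → ∀ y ∉ S, (Pi.single x (1 : F) : ι → F) y = 0 := fun x hx y hy =>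
    Pi.single_eq_of_ne (by rintro rfl; exact hy hx) _
  have hcol : ∀ g : GL ι F, ∀ x a, ((g : Matrix ι ι F) *ᵥ Pi.single a 1) x = (g : Matrix ι ι F) x a := fun g x a => by
    rw [Matrix.mulVec_single_one, Matrix.col_apply]
  -- products of a column of `y` and a row of `y⁻¹`
  have hprod : ∀ a ∈ S, ∀ l ∉ S, ∀ x ∈ S, ∀ b,
      (y : Matrix ι ι F) x a * (h : Matrix ι ι F) l b ∈ F₀ := by
    intro a ha l hl x hx b
    have hal : a ≠ l := fun e => hl (e ▸ ha)
    set u := y * elm hal (1 : F) * y⁻¹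
    have hu : u ∈ M := M.mul_mem (M.mul_mem hy (hM.le (elm_mem_subGroupF _ (one_mem _)))) (M.inv_mem hy)
    have happ : ∀ v, (u : Matrix ι ι F) *ᵥ v = v + ((h : Matrix ι ι F) *ᵥ v) l • ((y : Matrix ι ι F) *ᵥ Pi.single a 1) :=
      fun v => by
        simp only [u, hh, Units.val_mul, ← Matrix.mulVec_mulVec, elm_mulVec, Matrix.mulVec_add,
          Matrix.mulVec_smul, gl_mulVec_inv, one_mul]
    have h1 := translation_rational hn hr hcard hM S u hu (fun v q hq => by
      rw [happ, Pi.add_apply, Pi.smul_apply, hmap _ (hsupp a ha) q hq, smul_zero, add_zero]) (fun v hv => by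
      rw [happ, hmap' v hv l hl, zero_smul, add_zero]) x hx b
    rw [happ, Pi.add_apply, Pi.smul_apply, add_sub_cancel_left, smul_eq_mul, hcol, hcol, mul_comm] at h1
    exact h1
  obtain ⟨a₀, ha₀⟩ := hS
  obtain ⟨x₀, hx₀S, hx₀⟩ : ∃ x ∈ S, (y : Matrix ι ι F) x a₀ ≠ 0 := by
    by_contra hc
    push Not at hc
    have h0 : (y : Matrix ι ι F) *ᵥ Pi.single a₀ 1 = (y : Matrix ι ι F) *ᵥ 0 := by
      rw [Matrix.mulVec_zero]
      funext x
      by_cases hx : x ∈ S
      · rw [hcol]; exact hc x hx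
      · exact hmap _ (hsupp a₀ ha₀) x hx
    have := congrFun (gl_mulVec_injective y h0) a₀
    simp at this
  set c₁ := (y : Matrix ι ι F) x₀ a₀
  have hrows : ∀ l ∉ S, ∀ b, c₁ * (h : Matrix ι ι F) l b ∈ F₀ := fun l hl b => hprod a₀ ha₀ l hl x₀ hx₀S b
  -- rational normalisation of the complementary block
  let Zm : Matrix ι ι F := fun a b => if a ∈ S then (1 : Matrix ι ι F) a b else c₁ * (h : Matrix ι ι F) a b
  have hZrat : ∀ a b, Zm a b ∈ F₀ := fun a b => by
    simp only [Zm]
    split_ifs with ha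
    · rw [Matrix.one_apply]; split_ifs <;> first | exact one_mem _ | exact zero_mem _
    · exact hrows a ha b
  have hZapp : ∀ v a, (Zm *ᵥ v) a = if a ∈ S then v a else c₁ * ((h : Matrix ι ι F) *ᵥ v) a := fun v a => by
    simp only [Zm, Matrix.mulVec, dotProduct]
    split_ifs with ha
    · simp [Matrix.one_apply]
    · simp [Finset.mul_sum, mul_assoc]
  have hZinj : Function.Injective (Matrix.mulVecLin Zm) := by
    rw [injective_iff_map_eq_zero]
    intro v hv
    have hS0 : ∀ a ∈ S, v a = 0 := fun a ha => by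
      have := congrFun hv a; rwa [Matrix.mulVecLin_apply, hZapp, if_pos ha] at this
    have hS1 : ∀ a ∉ S, ((h : Matrix ι ι F) *ᵥ v) a = 0 := fun a ha => by
      have := congrFun hv a
      rw [Matrix.mulVecLin_apply, hZapp, if_neg ha] at this
      exact (mul_eq_zero.mp this).resolve_left hx₀
    have := hmap _ hS1
    rw [hh, gl_mulVec_inv] at this
    exact funext fun a => if ha : a ∈ S then hS0 a ha else this a ha
  let Z := glOfEquiv (LinearEquiv.ofInjectiveEndo (Matrix.mulVecLin Zm) hZinj)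
  have hZ : ∀ v, (Z : Matrix ι ι F) *ᵥ v = Zm *ᵥ v := fun v => by simp [Z]
  have hZS : Z ∈ subGroupF ι F₀ := mem_subGroupF.mpr ⟨1, one_ne_zero, fun a b => by
    rw [one_mul, ← hcol, hZ, Matrix.mulVec_single_one, Matrix.col_apply]; exact hZrat a b⟩
  set R := Z * y with hR
  have hRapp : ∀ v a, ((R : Matrix ι ι F) *ᵥ v) a = if a ∈ S then ((y : Matrix ι ι F) *ᵥ v) a else c₁ * v a :=
    fun v a => by
      rw [hR, Units.val_mul, ← Matrix.mulVec_mulVec, hZ, hZapp, hh, gl_inv_mulVec]
  have hSblock : ∀ s ∈ S, ∀ a ∈ S, c₁⁻¹ * (y : Matrix ι ι F) s a ∈ F₀ := by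
    intro s hs a ha
    obtain ⟨l, hl⟩ : ∃ l, l ∉ S := by
      by_contra hc; push Not at hc
      have : S = Finset.univ := Finset.eq_univ_of_forall hc
      rw [this, Finset.card_univ] at hS2; omega
    obtain ⟨b, hb⟩ : ∃ b, (h : Matrix ι ι F) l b ≠ 0 := by
      by_contra hc; push Not at hc
      exact Matrix.GeneralLinearGroup.det_ne_zero h (Matrix.det_eq_zero_of_row_eq_zero l hc)
    have := div_mem (hprod a ha l hl s hs b) (hrows l hl b)
    rwa [mul_div_mul_right _ _ hb, div_eq_inv_mul] at this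
  have hBblock : ∀ s ∈ S, ∀ l ∉ S, c₁⁻¹ * (y : Matrix ι ι F) s l ∈ F₀ := by
    intro s hs l hl
    obtain ⟨m, hm⟩ : ((Finset.univ : Finset ι) \ (insert l S)).Nonempty := by
      rw [← Finset.card_pos, Finset.card_sdiff_of_subset (Finset.subset_univ _), Finset.card_univ,
        Finset.card_insert_of_notMem hl]
      omega
    simp only [Finset.mem_sdiff, Finset.mem_univ, true_and, Finset.mem_insert, not_or] at hm
    have hlm : l ≠ m := Ne.symm hm.1
    have hM' := isProperOver_conj hM (Subgroup.inv_mem _ hZS)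
    set u := R * elm hlm (1 : F) * R⁻¹ * (elm hlm (1 : F))⁻¹
    have hu : u ∈ M.comap (MulAut.conj Z⁻¹).toMonoidHom := by
      refine Subgroup.mul_mem _ ?_ (Subgroup.inv_mem _ (hM'.le (elm_mem_subGroupF _ (one_mem _))))
      change Z⁻¹ * (R * elm hlm (1 : F) * R⁻¹) * (Z⁻¹)⁻¹ ∈ M
      have e : Z⁻¹ * (R * elm hlm (1 : F) * R⁻¹) * (Z⁻¹)⁻¹ = y * elm hlm (1 : F) * y⁻¹ := by rw [hR]; group
      rw [e]
      exact M.mul_mem (M.mul_mem hy (hM.le (elm_mem_subGroupF _ (one_mem _)))) (M.inv_mem hy)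
    have hRinv : ∀ v, c₁ * (((R⁻¹ : GL ι F) : Matrix ι ι F) *ᵥ v) m = v m := fun v => by
      have := hRapp (((R⁻¹ : GL ι F) : Matrix ι ι F) *ᵥ v) m
      rwa [gl_mulVec_inv, if_neg hm.2, eq_comm] at this
    have happ : ∀ v x, ((u : Matrix ι ι F) *ᵥ v) x =
        v x + if x ∈ S then c₁⁻¹ * v m * (y : Matrix ι ι F) x l else 0 := by
      intro v x
      have hm' : (((R⁻¹ : GL ι F) : Matrix ι ι F) *ᵥ (v + (-1 * v m) • Pi.single l 1)) m = c₁⁻¹ * v m := by
        rw [eq_inv_mul_iff_mul_eq₀ hx₀, hRinv, Pi.add_apply, Pi.smul_apply, Pi.single_eq_of_ne hlm.symm, smul_zero,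
          add_zero]
      simp only [u, elm_inv, Units.val_mul, ← Matrix.mulVec_mulVec, elm_mulVec]
      rw [Matrix.mulVec_add (R : Matrix ι ι F), Matrix.mulVec_smul, gl_mulVec_inv, one_mul, hm']
      simp only [Pi.add_apply, Pi.smul_apply, smul_eq_mul, hRapp, Pi.single_apply]
      by_cases hx : x ∈ S
      · rw [if_pos hx, if_pos hx, if_neg (show x ≠ l by rintro rfl; exact hl hx), hcol]
        ring
      · rw [if_neg hx, if_neg hx]
        split_ifs <;> field_simp <;> ring
    have h1 := translation_rational hn hr hcard hM' S u hu (fun v q hq => by rw [happ, if_neg hq, add_zero])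
      (fun v hv => funext fun q => by rw [happ, hv m hm.2]; simp) s hs m
    rw [happ, if_pos hs, add_sub_cancel_left, Pi.single_eq_same, mul_one] at h1
    exact h1
  have hRS : R ∈ subGroupF ι F₀ := mem_subGroupF.mpr ⟨c₁⁻¹, inv_ne_zero hx₀, fun a b => by
    rw [← hcol, hRapp]
    split_ifs with ha
    · rw [hcol]
      by_cases hb : b ∈ S
      · exact hSblock a ha b hb
      · exact hBblock a ha b hb
    · rw [← mul_assoc, inv_mul_cancel₀ hx₀, one_mul, Pi.single_apply]
      split_ifs <;> first | exact one_mem _ | exact zero_mem _⟩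
  have : y = Z⁻¹ * R := by rw [hR, inv_mul_cancel_left]
  rw [this]
  exact Subgroup.mul_mem _ (Subgroup.inv_mem _ hZS) hRS

/-- Elements stabilising the image of a rational matrix lie in the subfield subgroup. -/
theorem rat_stab_mem {M : Subgroup (GL ι F)} (hM : IsProperOver F₀ M) (A : Matrix ι ι F)
    (hA : ∀ a b, A a b ∈ F₀) (hA0 : A ≠ 0)
    (hA2 : Module.finrank F (LinearMap.range (Matrix.mulVecLin A)) + 2 ≤ Fintype.card ι) {y : GL ι F} (hy : y ∈ M)
    (hmap : ∀ v ∈ LinearMap.range (Matrix.mulVecLin A), (y : Matrix ι ι F) *ᵥ v ∈ LinearMap.range (Matrix.mulVecLin A)) :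
    y ∈ subGroupF ι F₀ := by
  classical
  set W := LinearMap.range (Matrix.mulVecLin A)
  let C : Set (ι → F) := Set.range fun b => A *ᵥ Pi.single b 1
  let E : Set (ι → F) := Set.range fun b => (Pi.single b 1 : ι → F)
  obtain ⟨s, hsC, -, hCs, hsI⟩ := exists_linearIndepOn_extension (K := F) (v := id)
    (linearIndepOn_empty F id) (Set.empty_subset C)
  obtain ⟨t, htCE, hst, hEt, htI⟩ := exists_linearIndepOn_extension (K := F) (v := id) hsI
    (hsC.trans (Set.subset_union_left : C ⊆ C ∪ E))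
  simp only [Set.image_id] at hCs hEt
  have htop : ⊤ ≤ Submodule.span F (Set.range ((↑) : t → (ι → F))) := by
    rw [Subtype.range_coe_subtype, Set.setOf_mem_eq]
    intro v _
    rw [pi_eq_sum_univ' v]
    exact Submodule.sum_mem _ fun b _ => Submodule.smul_mem _ _ (hEt (Or.inr ⟨b, rfl⟩))
  let bas : Module.Basis t F (ι → F) := Module.Basis.mk htI.linearIndependent htop
  haveI : Fintype t := Fintype.ofFinite t
  have hct : Fintype.card t = Fintype.card ι := by
    rw [← Module.finrank_eq_card_basis bas, Module.finrank_pi]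
  let e : ι ≃ t := Fintype.equivOfCardEq hct.symm
  let bas' := bas.reindex e.symm
  have hbas' : ∀ b, bas' b = ((e b : t) : ι → F) := fun b => by simp [bas', bas]
  let G := glOfEquiv ((Pi.basisFun F ι).equiv bas' (Equiv.refl ι))
  have hG : ∀ b, (G : Matrix ι ι F) *ᵥ Pi.single b 1 = ((e b : t) : ι → F) := fun b => by
    rw [glOfEquiv_mulVec, ← Pi.basisFun_apply, Module.Basis.equiv_apply, Equiv.refl_apply, hbas']
  have hGS : G ∈ subGroupF ι F₀ := mem_subGroupF.mpr ⟨1, one_ne_zero, fun a b => by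
    rw [one_mul]
    have := congrFun (hG b) a
    rw [Matrix.mulVec_single_one, Matrix.col_apply] at this
    rw [this]
    rcases htCE (e b).2 with ⟨c, hc⟩ | ⟨c, hc⟩
    · simp only at hc
      rw [← hc, Matrix.mulVec_single_one]; exact hA a c
    · simp only at hc
      rw [← hc]; simp only [Pi.single_apply]; split_ifs <;> first | exact one_mem _ | exact zero_mem _⟩
  let S : Finset ι := Finset.univ.filter fun b => ((e b : t) : ι → F) ∈ s
  have hsW : Submodule.span F s = W := by
    apply le_antisymm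
    · rw [Submodule.span_le]
      intro v hv
      obtain ⟨b, rfl⟩ := hsC hv
      exact ⟨_, rfl⟩
    · rintro _ ⟨v, rfl⟩
      rw [Matrix.mulVecLin_apply, pi_eq_sum_univ' v, Matrix.mulVec_sum]
      refine Submodule.sum_mem _ fun b _ => ?_
      rw [Matrix.mulVec_smul]
      exact Submodule.smul_mem _ _ (hCs ⟨b, rfl⟩)
  have hGW : ∀ v : ι → F, (∀ x ∉ S, v x = 0) ↔ (G : Matrix ι ι F) *ᵥ v ∈ W := by
    intro v
    have hexp : (G : Matrix ι ι F) *ᵥ v = ∑ b, v b • bas' b := by
      conv_lhs => rw [pi_eq_sum_univ' v]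
      simp only [Matrix.mulVec_sum, Matrix.mulVec_smul, hG, hbas']
    have himg : bas' '' (S : Set ι) = s := by
      ext w
      simp only [Set.mem_image, Finset.mem_coe, S, Finset.mem_filter, Finset.mem_univ, true_and, hbas']
      exact ⟨fun ⟨b, hb, he⟩ => he ▸ hb, fun hw => ⟨e.symm ⟨w, hst hw⟩, by simpa using hw, by simp⟩⟩
    rw [hexp, ← hsW, ← himg]
    constructor
    · intro hv
      refine Submodule.sum_mem _ fun b _ => ?_
      by_cases hb : b ∈ S
      · exact Submodule.smul_mem _ _ (Submodule.subset_span ⟨b, hb, rfl⟩)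
      · rw [hv b hb, zero_smul]; exact zero_mem _
    · intro hv x hx
      rw [Module.Basis.mem_span_image] at hv
      by_contra h
      refine hx (Finset.mem_coe.mp (hv ?_))
      rw [Finset.mem_coe, Finsupp.mem_support_iff, Module.Basis.repr_sum_self]
      exact h
  have hScard : S.card = Module.finrank F W := by
    rw [← hsW]
    haveI : Fintype s := Fintype.ofFinite s
    have hli : LinearIndependent F ((↑) : s → (ι → F)) := hsI.linearIndependent
    have := finrank_span_eq_card hli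
    rw [Subtype.range_coe_subtype, Set.setOf_mem_eq] at this
    rw [this, ← Fintype.card_coe]
    exact Fintype.card_congr
      { toFun := fun b => ⟨((e b.1 : t) : ι → F), (Finset.mem_filter.mp b.2).2⟩
        invFun := fun w => ⟨e.symm ⟨w.1, hst w.2⟩, Finset.mem_filter.mpr ⟨Finset.mem_univ _, by simp⟩⟩
        left_inv := fun b => by simp
        right_inv := fun w => by simp }
  have hW0 : W ≠ ⊥ := by
    intro h
    refine hA0 (Matrix.ext_of_mulVec_single fun b => ?_)
    rw [Matrix.zero_mulVec]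
    exact (Submodule.mem_bot F).mp (h ▸ ⟨Pi.single b 1, rfl⟩ : A *ᵥ Pi.single b 1 ∈ (⊥ : Submodule F (ι → F)))
  have hSne : S.Nonempty := by
    rw [← Finset.card_pos, hScard]
    exact Nat.pos_of_ne_zero fun h => hW0 (Submodule.finrank_eq_zero.mp h)
  have hy' : G⁻¹ * y * G ∈ M.comap (MulAut.conj G).toMonoidHom := by
    change G * (G⁻¹ * y * G) * G⁻¹ ∈ M
    have e : G * (G⁻¹ * y * G) * G⁻¹ = y := by group
    rwa [e]
  have hmem := coord_stab_mem hn hr hcard (isProperOver_conj hM hGS) S hSne (by rw [hScard]; exact hA2) hy'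
    (fun v hv x hx => (hGW _).mpr (by
      simp only [Units.val_mul, ← Matrix.mulVec_mulVec, gl_mulVec_inv]
      exact hmap _ ((hGW v).mp hv)) x hx)
  have := Subgroup.mul_mem _ (Subgroup.mul_mem _ hGS hmem) (Subgroup.inv_mem _ hGS)
  have e' : G * (G⁻¹ * y * G) * G⁻¹ = y := by group
  rwa [e'] at this

end

end Cfsg.Agent.H98
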