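import Cfsg.Agent.H98.USubOddLine
import Cfsg.Agent.H98.InvolutionPair

set_option autoImplicit false
set_option linter.unusedSectionVars false

/-!
Odd degree subfield subgroups of `SU` are maximal: an involution commuting with a rational one and a conjugate
one forces the conjugating element into the subfield subgroup.
-/

namespace Cfsg.Agent.H98.Herm

open scoped Matrix

variable {F : Type*} [Field F] [Fintype F] {q n : ℕ}

local notation "Mat" => Matrix (Fin n) (Fin n) F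

variable {hF : Fintype.card F = q ^ 2} {F₀ : Subfield F} {r : ℕ} {P : GL (Fin n) F} (H : OddRat hF F₀ r P)
include H

theorem OddRat.sq_mem {c : F} (hc : c * c ∈ F₀) : c ∈ F₀ := by
  haveI := Fintype.ofFinite F₀
  rcases Nat.even_or_odd (Nat.card F₀) with h | h
  · haveI : CharP F 2 := by
      haveI : CharP F₀ 2 := ringChar.of_eq (FiniteField.even_card_iff_char_two.mpr
        (by rw [← Nat.card_eq_fintype_card]; exact Nat.even_iff.mp h))
      exact CharTwo.of_one_ne_zero_of_two_eq_zero one_ne_zero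
        (congrArg Subtype.val (CharTwo.two_eq_zero (R := F₀)))
    haveI : Fact (Nat.Prime 2) := ⟨Nat.prime_two⟩
    exact mem_subfield_of_pow_char 2 F₀ (by rwa [pow_two])
  · exact mem_subfield_of_sq F₀ H.odd h H.card hc

/-- An involution in the subfield subgroup is rational. -/
theorem OddRat.rat_of_invol {z : GL (Fin n) F} (hz : z ∈ subGroupF (Fin n) F₀) (hzz : z * z = 1) (a b : Fin n) :
    (z : Mat) a b ∈ F₀ := by
  haveI : Nonempty (Fin n) := ⟨a⟩
  obtain ⟨c, hc, h⟩ := mem_subGroupF.mp hz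
  have h1 : c * c ∈ F₀ := by
    have e : ∑ y, c * (z : Mat) a y * (c * (z : Mat) y a) = c * c := by
      calc _ = c * c * ∑ y, (z : Mat) a y * (z : Mat) y a := by
            rw [Finset.mul_sum]; exact Finset.sum_congr rfl fun _ _ => by ring
        _ = c * c * ((z : Mat) * (z : Mat)) a a := by rw [Matrix.mul_apply]
        _ = c * c := by rw [← Units.val_mul, hzz, Units.val_one, Matrix.one_apply_eq, mul_one]
    exact e ▸ sum_mem fun y _ => mul_mem (h a y) (h y a)
  have := mul_mem (inv_mem (H.sq_mem h1)) (h a b)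
  rwa [← mul_assoc, inv_mul_cancel₀ hc, one_mul] at this

/-- A rational eigenspace of an involution of dimension at least two has a rational isotropic vector. -/
theorem OddRat.fixed_iso (h2 : (2 : F) ≠ 0) {z : GL (Fin n) F} (hz : ∀ a b, (z : Mat) a b ∈ F₀) (hzz : z * z = 1)
    {s : F} (hs : s ∈ F₀) (hss : s * s = 1)
    (hline : ∀ w : Fin n → F, ∃ v, (z : Mat) *ᵥ v = s • v ∧ ∀ a : F, v ≠ a • w) :
    ∃ u, IsRatVec F₀ u ∧ u ≠ 0 ∧ pullForm n q P u u = 0 ∧ (z : Mat) *ᵥ u = s • u := by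
  classical
  let L : (Fin n → F) →ₗ[F] (Fin n → F) := LinearMap.id + s • Matrix.mulVecLin (z : Mat)
  have hL : ∀ v, L v = v + s • (z : Mat) *ᵥ v := fun v => rfl
  let y : Fin n → (Fin n → F) := fun b => L (Pi.single b 1)
  have hy : ∀ b, IsRatVec F₀ (y b) ∧ (z : Mat) *ᵥ y b = s • y b := fun b => by
    refine ⟨isRat_add (isRat_single b) (isRat_smul hs (mulVec_rat hz (isRat_single b))), ?_⟩
    change (z : Mat) *ᵥ L _ = s • L _
    rw [hL, Matrix.mulVec_add, Matrix.mulVec_smul, Matrix.mulVec_mulVec, ← Units.val_mul, hzz, Units.val_one,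
      Matrix.one_mulVec, smul_add, smul_smul, hss, one_smul, add_comm]
  have hspan : ∀ w, (∀ b, ∃ a : F, y b = a • w) → ∀ v, (z : Mat) *ᵥ v = s • v → ∃ a : F, v = a • w := by
    intro w hw v hv
    choose a ha using hw
    refine ⟨(2 : F)⁻¹ * ∑ b, v b * a b, ?_⟩
    have e : L v = (2 : F) • v := by rw [hL, hv, smul_smul, hss, one_smul, two_smul]
    have e' : L v = (∑ b, v b * a b) • w := by
      conv_lhs => rw [pi_eq_sum_univ' v, map_sum]
      rw [Finset.sum_smul]
      exact Finset.sum_congr rfl fun b _ => by rw [map_smul, show L (Pi.single b 1) = a b • w from ha b, smul_smul]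
    rw [← smul_smul, ← e', e, smul_smul, inv_mul_cancel₀ h2, one_smul]
  obtain ⟨b, hb⟩ : ∃ b, y b ≠ 0 := by
    by_contra hc; push Not at hc
    obtain ⟨v, hv, hne⟩ := hline 0
    obtain ⟨a, ha⟩ := hspan 0 (fun b => ⟨0, by rw [hc b, zero_smul]⟩) v hv
    exact hne a ha
  obtain ⟨c, hc⟩ : ∃ c, ∀ a : F, y c ≠ a • y b := by
    by_contra hc; push Not at hc
    obtain ⟨v, hv, hne⟩ := hline (y b)
    obtain ⟨a, ha⟩ := hspan _ hc v hv
    exact hne a ha
  let U : Submodule F (Fin n → F) :=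
    { carrier := {v | (z : Mat) *ᵥ v = s • v}
      add_mem' := fun {x w} hx hw => by
        change _ = s • (x + w)
        rw [Matrix.mulVec_add, hx, hw, smul_add]
      zero_mem' := by simp
      smul_mem' := fun k x hx => by
        change _ = s • (k • x)
        rw [Matrix.mulVec_smul, hx, smul_comm] }
  obtain ⟨u, huU, hu, hu0, huu⟩ := H.iso_of_two (U := U) (hy b).1 (hy c).1 (hy b).2 (hy c).2 fun k t h => by
    rcases eq_or_ne t 0 with rfl | ht
    · rw [zero_smul, add_zero, smul_eq_zero] at h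
      exact ⟨h.resolve_right hb, rfl⟩
    · refine absurd ?_ (hc (-(k / t)))
      have := congrArg (fun w => t⁻¹ • w) h
      simp only [smul_add, smul_smul, inv_mul_cancel₀ ht, one_smul, smul_zero] at this
      rw [eq_neg_of_add_eq_zero_right this, neg_smul, div_eq_inv_mul]
  exact ⟨u, hu, hu0, huu, huU⟩

/-- Common kernels of few functionals are not in a line. -/
theorem OddRat.perp_not_line {k : ℕ} (hk : k ≤ 6) (v : Fin k → Fin n → F) (w : Fin n → F) :
    ∃ x, (∀ i, pullForm n q P x (v i) = 0) ∧ ∀ a : F, x ≠ a • w := by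
  by_contra hc
  push Not at hc
  have hU : LinearMap.ker (LinearMap.pi fun i => fl H.herm (v i)) ≤ Submodule.span F {w} := fun x hx => by
    obtain ⟨a, rfl⟩ := hc x ((mem_perp H.herm v x).mp hx)
    exact Submodule.smul_mem _ _ (Submodule.mem_span_singleton_self w)
  have h1 := Submodule.finrank_mono hU
  have h2 := finrank_perp H.herm v
  have h3 := finrank_span_le_card (R := F) ({w} : Set (Fin n → F))
  rw [Set.toFinset_singleton, Finset.card_singleton] at h3
  rw [Fintype.card_fin] at h2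
  have := H.hn
  omega

/-- The involution negating a rational hyperbolic pair. -/
theorem OddRat.neg_plane {e e' : Fin n → F} (he : IsRatVec F₀ e) (he' : IsRatVec F₀ e')
    (hee : pullForm n q P e e = 0) (he'e' : pullForm n q P e' e' = 0) (h1 : pullForm n q P e e' = 1)
    (h2 : pullForm n q P e' e = 1) :
    ∃ D ∈ subGroupF (Fin n) F₀ ⊓ isoSL (pullForm n q P), ∀ y, (D : Mat) *ᵥ y =
      y - (2 * pullForm n q P y e') • e - (2 * pullForm n q P y e) • e' := by
  obtain ⟨ζ, hζF, hζ0, hζ⟩ := H.exists_skew₀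
  have hb : frobQ hF (-ζ⁻¹) = - -ζ⁻¹ := by rw [map_neg, map_inv₀, hζ, inv_neg]
  set w := uT H.herm hee ζ * uT H.herm he'e' (-ζ⁻¹) * uT H.herm hee ζ with hw
  have hwm : w ∈ subGroupF (Fin n) F₀ ⊓ isoSL (pullForm n q P) :=
    Subgroup.mul_mem _ (Subgroup.mul_mem _ (H.uT_rat he hee hζF hζ) (H.uT_rat he' he'e' (neg_mem (inv_mem hζF)) hb))
      (H.uT_rat he hee hζF hζ)
  have hwy : ∀ y, (w : Mat) *ᵥ y = y + (ζ * pullForm n q P y e - pullForm n q P y e') • e +
      ((-ζ⁻¹) * pullForm n q P y e' - pullForm n q P y e) • e' := fun y => by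
    simp only [hw, Units.val_mul, ← Matrix.mulVec_mulVec, uT_mulVec, H.herm.add_left, H.herm.smul_left, hee, he'e',
      h1, h2, mul_zero, mul_one, add_zero]
    match_scalars <;> field_simp <;> ring
  refine ⟨w * w, Subgroup.mul_mem _ hwm hwm, fun y => ?_⟩
  simp only [Units.val_mul, ← Matrix.mulVec_mulVec, hwy, H.herm.add_left, H.herm.smul_left, hee, he'e', h1, h2,
    mul_zero, mul_one, add_zero, zero_add]
  match_scalars <;> field_simp <;> ring

variable {M : Subgroup (GL (Fin n) F)} (hle : subGroupF (Fin n) F₀ ⊓ isoSL (pullForm n q P) ≤ M)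
  (hsu : M ≤ isoSL (pullForm n q P))
  (hns : ∀ u, IsRatVec F₀ u → u ≠ 0 → ∀ h : pullForm n q P u u = 0, ∀ d, frobQ hF d = -d →
    uT H.herm h d ∈ M → d ∈ F₀)
include hle hsu hns

/-- Without new scalars, characteristic two. -/
theorem OddRat.mem_of_even (h2 : (2 : F) = 0) {g : GL (Fin n) F} (hg : g ∈ M) :
    g ∈ subGroupF (Fin n) F₀ := by
  classical
  haveI : Nonempty (Fin n) := ⟨⟨0, by have := H.hn; omega⟩⟩
  obtain ⟨ζ, hζF, hζ0, hζ⟩ := H.exists_skew₀
  have hgiso := (mem_isoSL.mp (hsu hg)).1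
  obtain ⟨e₁, f₁, he₁, hf₁, -, -, he₁e₁, hf₁f₁, he₁f₁, hf₁e₁⟩ := H.exists_pair (show 0 ≤ 5 by norm_num) Fin.elim0
    (fun i => Fin.elim0 i)
  obtain ⟨e₂, f₂, he₂, hf₂, oe, of', he₂e₂, -, he₂f₂, hf₂e₂⟩ := H.exists_pair (show 2 ≤ 5 by norm_num) ![e₁, f₁]
    (fun i => by fin_cases i <;> assumption)
  have e21 : pullForm n q P e₂ e₁ = 0 := by simpa using oe 0
  have e2f1 : pullForm n q P e₂ f₁ = 0 := by simpa using oe 1
  have e12 := (eq_zero_comm H.herm).mp e21
  have f1e2 := (eq_zero_comm H.herm).mp e2f1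
  have he₁0 : e₁ ≠ 0 := fun h => by rw [h, zero_left H.herm] at he₁f₁; exact zero_ne_one he₁f₁
  have he₂0 : e₂ ≠ 0 := fun h => by rw [h, zero_left H.herm] at he₂f₂; exact zero_ne_one he₂f₂
  have hTT : ∀ {v : Fin n → F} (hv : pullForm n q P v v = 0), uT H.herm hv ζ * uT H.herm hv ζ = 1 := by
    intro v hv
    refine gl_ext fun y => ?_
    simp only [Units.val_mul, ← Matrix.mulVec_mulVec, uT_mulVec, H.herm.add_left, H.herm.smul_left, hv, mul_zero,
      add_zero, Units.val_one, Matrix.one_mulVec]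
    rw [add_assoc, ← add_smul, ← two_mul, h2, zero_mul, zero_smul, add_zero]
  set i := uT H.herm he₁e₁ ζ * uT H.herm he₂e₂ ζ with hidef
  have hiv : ∀ y, (i : Mat) *ᵥ y = y + (ζ * pullForm n q P y e₁) • e₁ + (ζ * pullForm n q P y e₂) • e₂ := fun y => by
    simp only [hidef, Units.val_mul, ← Matrix.mulVec_mulVec, uT_mulVec, H.herm.add_left, H.herm.smul_left, e21,
      mul_zero, add_zero]
    module
  have hiM : i ∈ M := hle (Subgroup.mul_mem _ (H.uT_rat he₁ he₁e₁ hζF hζ) (H.uT_rat he₂ he₂e₂ hζF hζ))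
  have hii : i * i = 1 := gl_ext fun y => by
    simp only [Units.val_mul, ← Matrix.mulVec_mulVec, hiv, H.herm.add_left, H.herm.smul_left, he₁e₁, he₂e₂, e12, e21,
      mul_zero, add_zero, Units.val_one, Matrix.one_mulVec]
    calc _ = y + ((2 : F) * (ζ * pullForm n q P y e₁)) • e₁ + ((2 : F) * (ζ * pullForm n q P y e₂)) • e₂ := by module
      _ = y := by rw [h2, zero_mul, zero_mul, zero_smul, zero_smul, add_zero, add_zero]
  set v := (g : Mat) *ᵥ e₁ with hv
  have hvv : pullForm n q P v v = 0 := by rw [hv, hgiso, he₁e₁]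
  have hv0 : v ≠ 0 := fun h => he₁0 (gl_mulVec_injective g (by
    change (g : Mat) *ᵥ e₁ = (g : Mat) *ᵥ 0
    rw [Matrix.mulVec_zero, ← hv, h]))
  set j := uT H.herm hvv ζ with hjdef
  have hjM : j ∈ M := by
    have := M.mul_mem (M.mul_mem hg (hle (H.uT_rat he₁ he₁e₁ hζF hζ))) (M.inv_mem hg)
    rwa [conj_uT H.herm hgiso he₁e₁ ζ hvv] at this
  rcases involution_pair hii (hTT hvv) with hconj | ⟨k, hk1, hksq, hki, hkj⟩
  · -- not conjugate
    exfalso
    obtain ⟨c, hc⟩ := isConj_iff.mp hconj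
    have hline : ∀ x, ∃ a : F, (c : Mat) *ᵥ ((i : Mat) *ᵥ x - x) = a • v := fun x => by
      refine ⟨ζ * pullForm n q P ((c : Mat) *ᵥ x) v, ?_⟩
      have := congrArg (fun G : GL (Fin n) F => (G : Mat) *ᵥ ((c : Mat) *ᵥ x)) hc
      simp only [Units.val_mul, ← Matrix.mulVec_mulVec, gl_inv_mulVec] at this
      rw [Matrix.mulVec_sub, this, uT_mulVec, add_sub_cancel_left]
    obtain ⟨a, ha⟩ := hline f₁
    obtain ⟨b, hb⟩ := hline f₂
    have f2e1 : pullForm n q P f₂ e₁ = 0 := by simpa using of' 0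
    rw [hiv, hf₁e₁, f1e2, mul_zero, zero_smul, add_zero, mul_one, add_sub_cancel_left] at ha
    rw [hiv, f2e1, hf₂e₂, mul_zero, zero_smul, add_zero, mul_one, add_sub_cancel_left] at hb
    have : (c : Mat) *ᵥ (b • (ζ • e₁) - a • (ζ • e₂)) = (c : Mat) *ᵥ 0 := by
      rw [Matrix.mulVec_sub, Matrix.mulVec_smul, Matrix.mulVec_smul _ a, ha, hb, Matrix.mulVec_zero]; module
    have h0 := congrArg (fun w => pullForm n q P w f₁) (gl_mulVec_injective c this)
    simp only [sub_left H.herm, H.herm.smul_left, he₁f₁, e2f1, zero_left H.herm, mul_zero, mul_one, sub_zero,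
      mul_eq_zero, hζ0, or_false] at h0
    refine smul_ne_zero hζ0 he₂0 (gl_mulVec_injective c (?_ : (c : Mat) *ᵥ (ζ • e₂) = (c : Mat) *ᵥ 0))
    rw [hb, h0, zero_smul, Matrix.mulVec_zero]
  set z := (i * j) ^ k with hzdef
  have hzM : z ∈ M := pow_mem (M.mul_mem hiM hjM) k
  have hziso := (mem_isoSL.mp (hsu hzM)).1
  have happ : ∀ a b : GL (Fin n) F, ∀ w : Fin n → F, ((a * b : GL (Fin n) F) : Mat) *ᵥ w = (a : Mat) *ᵥ ((b : Mat) *ᵥ w) :=
    fun a b w => by rw [Units.val_mul, Matrix.mulVec_mulVec]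
  have hzS : z ∈ subGroupF (Fin n) F₀ := by
    refine H.orth_mem hle hsu hns hzM he₁ he₁0 he₁e₁ he₁ he₁0 he₁e₁ ?_
    have e1 : ζ • e₁ = (i : Mat) *ᵥ f₁ - f₁ := by
      rw [hiv, hf₁e₁, f1e2, mul_zero, zero_smul, add_zero, mul_one, add_sub_cancel_left]
    have e2 : ζ • (z : Mat) *ᵥ e₁ = (i : Mat) *ᵥ ((z : Mat) *ᵥ f₁) - (z : Mat) *ᵥ f₁ := by
      rw [← Matrix.mulVec_smul, e1, Matrix.mulVec_sub, ← happ, hki, happ]
    have e3 := congrArg (pullForm n q P e₁) e2
    rw [hiv, smul_right H.herm, sub_right H.herm, add_right H.herm, add_right H.herm, smul_right H.herm,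
      smul_right H.herm, he₁e₁, e12, mul_zero, mul_zero, add_zero, add_zero, sub_self] at e3
    exact (mul_eq_zero.mp e3).resolve_left (by simpa using hζ0)
  have hzr := H.rat_of_invol hzS hksq
  obtain ⟨b, hb⟩ : ∃ b, (z : Mat) *ᵥ Pi.single b 1 + Pi.single b 1 ≠ 0 := by
    by_contra hc; push Not at hc
    refine hk1 (Units.ext (Matrix.ext_of_mulVec_single fun b => ?_))
    rw [Units.val_one, Matrix.one_mulVec, eq_neg_of_add_eq_zero_left (hc b)]
    refine funext fun x => ?_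
    haveI : CharP F 2 := CharTwo.of_one_ne_zero_of_two_eq_zero one_ne_zero h2
    exact CharTwo.neg_eq _
  set x : Fin n → F := Pi.single b 1
  set u := (z : Mat) *ᵥ x + x with hu
  have hzsq : ∀ w : Fin n → F, (z : Mat) *ᵥ ((z : Mat) *ᵥ w) = w := fun w => by
    rw [← happ, hksq, Units.val_one, Matrix.one_mulVec]
  have hfz : ∀ w w' : Fin n → F, pullForm n q P ((z : Mat) *ᵥ w) w' = pullForm n q P w ((z : Mat) *ᵥ w') :=
    fun w w' => by rw [← hziso ((z : Mat) *ᵥ w), hzsq]
  have hcancel : ∀ w w' : Fin n → F,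
      pullForm n q P ((z : Mat) *ᵥ w + w) ((z : Mat) *ᵥ w' + w') = 0 := fun w w' => by
    rw [H.herm.add_left, add_right H.herm, add_right H.herm, hziso, hfz]
    linear_combination (pullForm n q P w w' + pullForm n q P w ((z : Mat) *ᵥ w')) * h2
  have hur : IsRatVec F₀ u := isRat_add (mulVec_rat hzr (isRat_single b)) (isRat_single b)
  have hjS : j ∈ subGroupF (Fin n) F₀ := by
    refine H.orth_mem hle hsu hns hjM hur hb (hcancel x x) hur hb (hcancel x x) ?_
    rw [hu, Matrix.mulVec_add, ← happ, ← hkj, happ]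
    exact hcancel x _
  have hjr := H.rat_of_invol hjS (hTT hvv)
  obtain ⟨w, hw, hwv⟩ := H.exists_nonorth hv0
  set κ := ζ * pullForm n q P w v with hκ
  have hκ0 : κ ≠ 0 := mul_ne_zero hζ0 hwv
  have hr : IsRatVec F₀ (κ • v) := by
    have := isRat_sub (mulVec_rat hjr hw) hw
    rwa [hjdef, uT_mulVec, add_sub_cancel_left, ← hκ] at this
  exact H.orth_mem hle hsu hns hg he₁ he₁0 he₁e₁ hr (smul_ne_zero hκ0 hv0)
    (by rw [H.herm.smul_left, smul_right H.herm, hvv, mul_zero, mul_zero])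
    (by rw [← hv, H.herm.smul_left, hvv, mul_zero])

/-- Without new scalars, odd characteristic. -/
theorem OddRat.mem_of_odd (h2 : (2 : F) ≠ 0) {g : GL (Fin n) F} (hg : g ∈ M) :
    g ∈ subGroupF (Fin n) F₀ := by
  classical
  haveI : Nonempty (Fin n) := ⟨⟨0, by have := H.hn; omega⟩⟩
  have hgiso := (mem_isoSL.mp (hsu hg)).1
  have happ : ∀ a b : GL (Fin n) F, ∀ w : Fin n → F, ((a * b : GL (Fin n) F) : Mat) *ᵥ w = (a : Mat) *ᵥ ((b : Mat) *ᵥ w) :=
    fun a b w => by rw [Units.val_mul, Matrix.mulVec_mulVec]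
  obtain ⟨e₁, f₁, he₁, hf₁, -, -, he₁e₁, hf₁f₁, he₁f₁, hf₁e₁⟩ := H.exists_pair (show 0 ≤ 5 by norm_num) Fin.elim0
    (fun i => Fin.elim0 i)
  obtain ⟨e₂, f₂, he₂, hf₂, oe, of', he₂e₂, hf₂f₂, he₂f₂, hf₂e₂⟩ := H.exists_pair (show 2 ≤ 5 by norm_num) ![e₁, f₁]
    (fun i => by fin_cases i <;> assumption)
  have e21 : pullForm n q P e₂ e₁ = 0 := by simpa using oe 0
  have e2f1 : pullForm n q P e₂ f₁ = 0 := by simpa using oe 1
  have f2e1 : pullForm n q P f₂ e₁ = 0 := by simpa using of' 0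
  have f2f1 : pullForm n q P f₂ f₁ = 0 := by simpa using of' 1
  have e12 := (eq_zero_comm H.herm).mp e21
  have f1e2 := (eq_zero_comm H.herm).mp e2f1
  have e1f2 := (eq_zero_comm H.herm).mp f2e1
  have f12 := (eq_zero_comm H.herm).mp f2f1
  have he₁0 : e₁ ≠ 0 := fun h => by rw [h, zero_left H.herm] at he₁f₁; exact zero_ne_one he₁f₁
  obtain ⟨D₁, hD₁, hD₁v⟩ := H.neg_plane he₁ hf₁ he₁e₁ hf₁f₁ he₁f₁ hf₁e₁
  obtain ⟨D₂, hD₂, hD₂v⟩ := H.neg_plane he₂ hf₂ he₂e₂ hf₂f₂ he₂f₂ hf₂e₂
  set i := D₁ * D₂ with hidef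
  have hiM : i ∈ M := hle (Subgroup.mul_mem _ hD₁ hD₂)
  have hiv : ∀ y, (i : Mat) *ᵥ y = y - (2 * pullForm n q P y f₁) • e₁ - (2 * pullForm n q P y e₁) • f₁ -
      (2 * pullForm n q P y f₂) • e₂ - (2 * pullForm n q P y e₂) • f₂ := fun y => by
    simp only [hidef, happ, hD₁v, hD₂v, sub_left H.herm, H.herm.smul_left, e21, e2f1, f2e1, f2f1, mul_zero, sub_zero]
    module
  have hii : i * i = 1 := gl_ext fun y => by
    simp only [happ, hiv, sub_left H.herm, H.herm.smul_left, he₁e₁, hf₁f₁, he₁f₁, hf₁e₁, he₂e₂, hf₂f₂, he₂f₂, hf₂e₂,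
      e21, e2f1, f2e1, f2f1, e12, f1e2, e1f2, f12, mul_zero, mul_one, sub_zero, Units.val_one, Matrix.one_mulVec]
    module
  set a := (g : Mat) *ᵥ e₁ with hadef
  set b := (g : Mat) *ᵥ f₁ with hbdef
  set j := g * D₁ * g⁻¹ with hjdef
  have hjM : j ∈ M := M.mul_mem (M.mul_mem hg (hle hD₁)) (M.inv_mem hg)
  have hjv : ∀ y, (j : Mat) *ᵥ y = y - (2 * pullForm n q P y b) • a - (2 * pullForm n q P y a) • b := fun y => by
    simp only [hjdef, happ, hD₁v, Matrix.mulVec_sub, Matrix.mulVec_smul, gl_mulVec_inv, hadef, hbdef]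
    rw [← hgiso (((g⁻¹ : GL (Fin n) F) : Mat) *ᵥ y) f₁, ← hgiso (((g⁻¹ : GL (Fin n) F) : Mat) *ᵥ y) e₁,
      gl_mulVec_inv]
  have haa : pullForm n q P a a = 0 := by rw [hadef, hgiso, he₁e₁]
  have hbb : pullForm n q P b b = 0 := by rw [hbdef, hgiso, hf₁f₁]
  have hab : pullForm n q P a b = 1 := by rw [hadef, hbdef, hgiso, he₁f₁]
  have hba : pullForm n q P b a = 1 := by rw [hadef, hbdef, hgiso, hf₁e₁]
  have hjj : j * j = 1 := gl_ext fun y => by
    simp only [happ, hjv, sub_left H.herm, H.herm.smul_left, haa, hbb, hab, hba, mul_zero, mul_one, sub_zero,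
      Units.val_one, Matrix.one_mulVec]
    module
  rcases involution_pair hii hjj with hconj | ⟨k, hk1, hksq, hki, hkj⟩
  · exfalso
    obtain ⟨c, hc⟩ := isConj_iff.mp hconj
    set S := Submodule.span F ({a, b} : Set (Fin n → F))
    have hS : ∀ x, (c : Mat) *ᵥ ((i : Mat) *ᵥ x - x) ∈ S := fun x => by
      have := congrArg (fun G : GL (Fin n) F => (G : Mat) *ᵥ ((c : Mat) *ᵥ x)) hc
      simp only [happ, gl_inv_mulVec] at this
      rw [Matrix.mulVec_sub, this, hjv]
      rw [show ∀ X : Fin n → F, ∀ p p' : F, X - p • a - p' • b - X = (-p) • a + (-p') • b from fun X p p' => by module]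
      exact S.add_mem (S.smul_mem _ (Submodule.subset_span (by simp))) (S.smul_mem _ (Submodule.subset_span (by simp)))
    have hmem : ∀ x y : Fin n → F, (i : Mat) *ᵥ x - x = (-2 : F) • y → (c : Mat) *ᵥ y ∈ S := fun x y h => by
      have := S.smul_mem (-2 : F)⁻¹ (hS x)
      rwa [h, Matrix.mulVec_smul, smul_smul, inv_mul_cancel₀ (neg_ne_zero.mpr h2), one_smul] at this
    let vec : Fin 3 → Fin n → F := fun t => (c : Mat) *ᵥ (![e₁, f₁, e₂] t)
    have hli : LinearIndependent F vec := by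
      rw [Fintype.linearIndependent_iff]
      intro s hs
      have hs0 : s 0 • e₁ + s 1 • f₁ + s 2 • e₂ = 0 := by
        refine gl_mulVec_injective c (?_ : (c : Mat) *ᵥ _ = (c : Mat) *ᵥ 0)
        rw [Matrix.mulVec_zero, Matrix.mulVec_add, Matrix.mulVec_add, Matrix.mulVec_smul, Matrix.mulVec_smul,
          Matrix.mulVec_smul]
        simpa [vec, Fin.sum_univ_three] using hs
      have q0 := congrArg (fun w => pullForm n q P w f₁) hs0
      have q1 := congrArg (fun w => pullForm n q P w e₁) hs0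
      have q2 := congrArg (fun w => pullForm n q P w f₂) hs0
      simp only [H.herm.add_left, H.herm.smul_left, he₁f₁, hf₁f₁, e2f1, he₁e₁, hf₁e₁, e21, e1f2, f12, he₂f₂,
        zero_left H.herm, mul_zero, mul_one, add_zero, zero_add] at q0 q1 q2
      intro t
      fin_cases t <;> assumption
    have hsub : Submodule.span F (Set.range vec) ≤ S := Submodule.span_le.mpr (by
      rintro _ ⟨t, rfl⟩
      fin_cases t
      · refine hmem e₁ e₁ ?_
        rw [hiv, he₁f₁, he₁e₁, e1f2, e12]; module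
      · refine hmem f₁ f₁ ?_
        rw [hiv, hf₁f₁, hf₁e₁, f12, f1e2]; module
      · refine hmem e₂ e₂ ?_
        rw [hiv, e2f1, e21, he₂f₂, he₂e₂]; module)
    have h3 := Submodule.finrank_mono hsub
    rw [finrank_span_eq_card hli, Fintype.card_fin] at h3
    have h4 := finrank_span_finset_le_card (R := F) ({a, b} : Finset (Fin n → F))
    rw [Finset.coe_insert, Finset.coe_singleton] at h4
    have h5 := Finset.card_le_two (a := a) (b := b)
    have h6 : Module.finrank F S ≤ 2 := le_trans h4 h5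
    omega
  set z := (i * j) ^ k with hzdef
  have hzM : z ∈ M := pow_mem (M.mul_mem hiM hjM) k
  have hziso := (mem_isoSL.mp (hsu hzM)).1
  have hflip : ∀ (t : GL (Fin n) F), t ∈ M → ∀ x y : Fin n → F, (t : Mat) *ᵥ x = x → (t : Mat) *ᵥ y = (-1 : F) • y →
      pullForm n q P x y = 0 := fun t ht x y hx hy => by
    have := (mem_isoSL.mp (hsu ht)).1 x y
    rw [hx, hy, smul_right H.herm, map_neg, map_one, neg_one_mul] at this
    exact (mul_eq_zero.mp (show (2 : F) * pullForm n q P x y = 0 by linear_combination -this)).resolve_left h2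
  have hzS : z ∈ subGroupF (Fin n) F₀ := by
    obtain ⟨u', w', hu', -, ou', -, hu'u', -, hu'w', -⟩ := H.exists_pair (show 4 ≤ 5 by norm_num) ![e₁, f₁, e₂, f₂]
      (fun i => by fin_cases i <;> assumption)
    have p0 := ou' 0; have p1 := ou' 1; have p2 := ou' 2; have p3 := ou' 3
    simp at p0 p1 p2 p3
    refine H.orth_mem hle hsu hns hzM he₁ he₁0 he₁e₁ hu'
      (fun h => by rw [h, zero_left H.herm] at hu'w'; exact zero_ne_one hu'w') hu'u' (hflip i hiM _ _ ?_ ?_)
    · rw [hiv, p0, p1, p2, p3]; module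
    · rw [← happ, ← hki, happ, hiv, he₁f₁, he₁e₁, e1f2, e12]
      simp only [Matrix.mulVec_sub, Matrix.mulVec_smul]
      module
  have hzr := H.rat_of_invol hzS hksq
  have hfix : ∀ x : Fin n → F, (i : Mat) *ᵥ x = x → (j : Mat) *ᵥ x = x → (z : Mat) *ᵥ x = x := by
    intro x hxi hxj
    have key : ∀ l : ℕ, (((i * j) ^ l : GL (Fin n) F) : Mat) *ᵥ x = x := fun l => by
      induction l with
      | zero => simp
      | succ l ih => rw [pow_succ, happ, happ, hxj, hxi, ih]
    exact key k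
  obtain ⟨u', hu', hu'0, hu'u', hzu'⟩ := H.fixed_iso h2 hzr hksq (one_mem F₀) (one_mul 1) fun w => by
    obtain ⟨x, hx, hne⟩ := H.perp_not_line (le_refl 6) ![e₁, f₁, e₂, f₂, a, b] w
    have p0 := hx 0; have p1 := hx 1; have p2 := hx 2; have p3 := hx 3; have p4 := hx 4; have p5 := hx 5
    simp at p0 p1 p2 p3 p4 p5
    refine ⟨x, ?_, hne⟩
    rw [one_smul]
    exact hfix x (by rw [hiv, p0, p1, p2, p3]; module) (by rw [hjv, p4, p5]; module)
  obtain ⟨u, hu, hu0, huu, hzu⟩ := H.fixed_iso h2 hzr hksq (neg_mem (one_mem F₀)) (neg_mul_neg 1 1 |>.trans (one_mul 1))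
    fun w => by
    by_contra hc
    push Not at hc
    -- the negated space is a line
    have hL : ∀ b' : Fin n, ∃ s : F, Pi.single b' 1 - (z : Mat) *ᵥ Pi.single b' 1 = s • w := fun b' => hc _ (by
      rw [Matrix.mulVec_sub, ← happ, hksq, Units.val_one, Matrix.one_mulVec, neg_one_smul, neg_sub])
    choose s hs using hL
    have hne : ∃ b', Pi.single b' 1 - (z : Mat) *ᵥ Pi.single b' 1 ≠ 0 := by
      by_contra hc'; push Not at hc'
      exact hk1 (Units.ext (Matrix.ext_of_mulVec_single fun b' => by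
        rw [Units.val_one, Matrix.one_mulVec, ← sub_eq_zero.mp (hc' b')]))
    obtain ⟨b', hb'⟩ := hne
    have hs' : s b' ≠ 0 := fun h => hb' (by rw [hs, h, zero_smul])
    have hzw : (z : Mat) *ᵥ w = -w := by
      have e : w = (s b')⁻¹ • (Pi.single b' 1 - (z : Mat) *ᵥ Pi.single b' 1) := by
        rw [hs, smul_smul, inv_mul_cancel₀ hs', one_smul]
      conv_lhs => rw [e]
      conv_rhs => rw [e]
      rw [Matrix.mulVec_smul, Matrix.mulVec_sub, ← happ, hksq, Units.val_one, Matrix.one_mulVec, ← smul_neg, neg_sub]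
    have hz1 : (z : Mat) = 1 + Matrix.vecMulVec w (fun t => -s t) := Matrix.ext_of_mulVec_single fun t => by
      rw [Matrix.add_mulVec, Matrix.one_mulVec, Matrix.vecMulVec_mulVec, dotProduct_single_one, op_smul_eq_smul,
        neg_smul, ← hs t]
      abel
    have hdet : (z : Mat).det = 1 := congrArg Units.val (MonoidHom.mem_ker.mp (mem_isoSL.mp (hsu hzM)).2)
    rw [hz1, Matrix.vecMulVec_eq Unit, Matrix.det_one_add_replicateCol_mul_replicateRow, add_eq_left] at hdet
    rw [hz1, Matrix.add_mulVec, Matrix.one_mulVec, Matrix.vecMulVec_mulVec, hdet] at hzw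
    have hw0 : w ≠ 0 := fun h => hb' (by rw [hs, h, smul_zero])
    obtain ⟨p, hp⟩ := Function.ne_iff.mp hw0
    have := congrFun hzw p
    simp at this
    exact hp ((mul_eq_zero.mp (show (2 : F) * w p = 0 by linear_combination this)).resolve_left h2)
  have hjS : j ∈ subGroupF (Fin n) F₀ := by
    refine H.orth_mem hle hsu hns hjM hu hu0 huu hu' hu'0 hu'u' (hflip z hzM _ _ (by rw [hzu', one_smul]) ?_)
    rw [← happ, hkj, happ, hzu, Matrix.mulVec_smul]
  obtain ⟨u'', hu'', hu''0, hu''u'', hju''⟩ := H.fixed_iso h2 (H.rat_of_invol hjS hjj) hjj (one_mem F₀) (one_mul 1)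
    fun w => by
    obtain ⟨x, hx, hne⟩ := H.perp_not_line (show 2 ≤ 6 by norm_num) ![a, b] w
    have p4 := hx 0; have p5 := hx 1
    simp at p4 p5
    exact ⟨x, by rw [one_smul, hjv, p4, p5]; module, hne⟩
  refine H.orth_mem hle hsu hns hg he₁ he₁0 he₁e₁ hu'' hu''0 hu''u'' (hflip j hjM _ _ (by rw [hju'', one_smul]) ?_)
  rw [← hadef, hjv, hab, haa]
  module

omit hle hsu hns in
/-- The subfield subgroup is maximal. -/
theorem OddRat.maximal :
    Cfsg.Geo.IsMaximalIn (isoSL (pullForm n q P)) (subGroupF (Fin n) F₀ ⊓ isoSL (pullForm n q P)) := by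
  classical
  haveI : Nonempty (Fin n) := ⟨⟨0, by have := H.hn; omega⟩⟩
  refine isMaximalIn_of inf_le_right ?_ fun M h1 h2 g hgM hgH => ?_
  · obtain ⟨e, e', he, he', -, -, hee, -, hee', he'e⟩ := H.exists_pair (show 0 ≤ 5 by norm_num) Fin.elim0
      (fun i => Fin.elim0 i)
    obtain ⟨d, hd, hdn⟩ := H.exists_skew_new
    have he0 : e ≠ 0 := fun h => by rw [h, zero_left H.herm] at hee'; exact zero_ne_one hee'
    refine ⟨uT H.herm hee d, ⟨fun a b => uT_iso H.herm hee hd a b, transGL_mem_sl _ _ _⟩, fun hm => hdn ?_⟩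
    have hT := rational_of_fix hm.1 he he0 (by rw [uT_mulVec, hee, mul_zero, zero_smul, add_zero])
    have hr := isRat_sub (mulVec_rat hT he') he'
    rw [uT_mulVec, add_sub_cancel_left, he'e, mul_one] at hr
    obtain ⟨p, hp⟩ := Function.ne_iff.mp he0
    have := mul_mem (hr p) (inv_mem (he p))
    rwa [Pi.smul_apply, smul_eq_mul, mul_assoc, mul_inv_cancel₀ hp, mul_one] at this
  by_cases hsc : ∀ u, IsRatVec F₀ u → u ≠ 0 → ∀ h : pullForm n q P u u = 0, ∀ d, frobQ hF d = -d →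
      uT H.herm h d ∈ M → d ∈ F₀
  · exfalso
    refine hgH ⟨?_, h2 hgM⟩
    by_cases htwo : (2 : F) = 0
    · exact H.mem_of_even h1 h2 hsc htwo hgM
    · exact H.mem_of_odd h1 h2 hsc htwo hgM
  · push Not at hsc
    obtain ⟨u, hu, hu0, huu, d, hd, hmem, hdn⟩ := hsc
    exact H.top_of_scalar h1 h2 hu hu0 huu hd hdn hmem

end Cfsg.Agent.H98.Herm
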